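import Cfsg.Agent.Tens.C4
import Cfsg.Agent.H7.SubInst

/-!
Tensor structures attached to the data of the Prelude.
-/

set_option autoImplicit false
set_option linter.unusedSectionVars false

namespace Cfsg.Agent.Tens

open Module Cfsg.Agent.H7 Cfsg.Agent.H1
open scoped MatrixGroups Matrix Kronecker

variable {F : Type*} [Field F] {ι κ₁ κ₂ : Type} [Fintype ι] [DecidableEq ι] [Fintype κ₁]
  [DecidableEq κ₁] [Fintype κ₂] [DecidableEq κ₂]

/-- The tensor structure given by a bijection of index sets and a change of basis. -/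
noncomputable def stdTS (e : ι ≃ κ₁ × κ₂) (P : GL ι F) : TS F (κ₁ → F) (κ₂ → F) (ι → F) :=
  ⟨((Pi.basisFun F κ₁).tensorProduct (Pi.basisFun F κ₂)).equivFun.trans
    ((LinearEquiv.funCongrLeft F F e).trans (toLE P))⟩

theorem stdTS_tp (e : ι ≃ κ₁ × κ₂) (P : GL ι F) (u : κ₁ → F) (x : κ₂ → F) :
    (stdTS e P).tp u x = (P : Matrix ι ι F) *ᵥ ((fun a : κ₁ × κ₂ => u a.1 * x a.2) ∘ e) := by
  rw [TS.tp_def]
  change (P : Matrix ι ι F) *ᵥ _ = _
  congr 1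
  ext i
  exact (Basis.tensorProduct_repr_tmul_apply _ _ u x (e i).1 (e i).2).trans (by simp [mul_comm])

theorem kronecker_mulVec (a : Matrix κ₁ κ₁ F) (b : Matrix κ₂ κ₂ F) (u : κ₁ → F) (x : κ₂ → F) :
    (a ⊗ₖ b) *ᵥ (fun p : κ₁ × κ₂ => u p.1 * x p.2) = fun p => (a *ᵥ u) p.1 * (b *ᵥ x) p.2 := by
  ext ⟨i, j⟩
  simp only [Matrix.mulVec, dotProduct, Fintype.sum_prod_type, Matrix.kronecker_apply,
    Finset.sum_mul_sum]
  exact Finset.sum_congr rfl fun _ _ => Finset.sum_congr rfl fun _ _ => by ring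

theorem toLE_conj_reindex (e : ι ≃ κ₁ × κ₂) (P : GL ι F) (k : GL (κ₁ × κ₂) F) (a : GL κ₁ F)
    (b : GL κ₂ F) (hk : (k : Matrix (κ₁ × κ₂) (κ₁ × κ₂) F) =
      (a : Matrix κ₁ κ₁ F) ⊗ₖ (b : Matrix κ₂ κ₂ F)) :
    toLE (P * Geo.glReindex e.symm k * P⁻¹) = (stdTS e P).KE (toLE a) (toLE b) := by
  refine LinearEquiv.toLinearMap_injective ((stdTS e P).ext fun u x => ?_)
  rw [TS.coe_KE, TS.K_tp]
  simp only [LinearEquiv.coe_coe, stdTS_tp, toLE_apply,
    Matrix.mulVec_mulVec, Units.val_mul, mul_assoc, Units.inv_mul, mul_one]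
  rw [← Matrix.mulVec_mulVec, ← kronecker_mulVec, ← hk]
  congr 1
  exact Matrix.submatrix_mulVec_equiv _ _ e e |>.trans (by
    congr 2
    ext p
    simp)

theorem mem_tensorProductSubgroup_iff {n₁ n₂ : ℕ} (e : ι ≃ Fin n₁ × Fin n₂) (P g : GL ι F) :
    g ∈ Geo.tensorProductSubgroup n₁ n₂ e P ↔ toLE g ∈ (stdTS e P).NN := by
  constructor
  · rintro ⟨_, ⟨k, ⟨a, b, hk⟩, rfl⟩, rfl⟩
    exact ⟨_, _, toLE_conj_reindex e P k a b hk⟩
  · rintro ⟨a, b, h⟩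
    obtain ⟨a, rfl⟩ := toLE.surjective a
    obtain ⟨b, rfl⟩ := toLE.surjective b
    let k : GL (Fin n₁ × Fin n₂) F :=
      ⟨a.val ⊗ₖ b.val, (a⁻¹).val ⊗ₖ (b⁻¹).val, by
        rw [← Matrix.mul_kronecker_mul]; simp, by rw [← Matrix.mul_kronecker_mul]; simp⟩
    exact ⟨_, ⟨k, ⟨a, b, rfl⟩, rfl⟩,
      toLE.injective ((toLE_conj_reindex e P k a b rfl).trans h.symm)⟩

theorem formOfGram_gram (P : Polar F (κ₁ → F)) (x y : κ₁ → F) :
    Geo.formOfGram P.σ (Geo.gramMatrix fun x y => P.B x y) x y = P.B x y := by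
  conv_rhs => rw [← (Pi.basisFun F κ₁).sum_repr x, ← (Pi.basisFun F κ₁).sum_repr y]
  simp only [Geo.formOfGram, Geo.gramMatrix, map_sum, LinearMap.sum_apply, map_smul,
    LinearMap.smul_apply, Polar.B_smul_right, Pi.basisFun_repr, Pi.basisFun_apply, smul_eq_mul]
  rw [Finset.sum_comm]
  exact Finset.sum_congr rfl fun _ _ => Finset.sum_congr rfl fun _ _ => by ring

theorem formOfGram_kronecker (σ : F →+* F) (G₁ : Matrix κ₁ κ₁ F) (G₂ : Matrix κ₂ κ₂ F)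
    (u u' : κ₁ → F) (x x' : κ₂ → F) :
    Geo.formOfGram σ (G₁ ⊗ₖ G₂) (fun p => u p.1 * x p.2) (fun p => u' p.1 * x' p.2) =
      Geo.formOfGram σ G₁ u u' * Geo.formOfGram σ G₂ x x' := by
  simp only [Geo.formOfGram, Fintype.sum_prod_type, Matrix.kronecker_apply, Finset.sum_mul_sum,
    map_mul]
  exact Finset.sum_congr rfl fun _ _ => Finset.sum_congr rfl fun _ _ =>
    Finset.sum_congr rfl fun _ _ => Finset.sum_congr rfl fun _ _ => by ring

theorem B_tp_of {n₁ n₂ : ℕ} (PU : Polar F (Fin n₁ → F)) (PW : Polar F (Fin n₂ → F))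
    (PV : Polar F (ι → F)) (hσ : PW.σ = PU.σ) (e : ι ≃ Fin n₁ × Fin n₂) (P : GL ι F)
    (hT : Geo.IsTensorFormStructure PU.σ (fun x y => PV.B x y) (fun x y => PU.B x y)
      (fun x y => PW.B x y) e P) :
    ∃ c : F, c ≠ 0 ∧ ∀ u x u' x',
      PV.B ((stdTS e P).tp u x) ((stdTS e P).tp u' x') = c * (PU.B u u' * PW.B x x') := by
  obtain ⟨c, hc, h⟩ := hT
  refine ⟨c, hc, fun u x u' x' => ?_⟩
  rw [stdTS_tp, stdTS_tp]
  refine (h _ _).trans ?_
  rw [formOfGram_kronecker, formOfGram_gram, ← formOfGram_gram PW x x']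
  exact congrArg (fun s : F →+* F => c * (PU.B u u' * Geo.formOfGram s _ x x')) hσ.symm

section abstract

variable {U W V : Type*} [AddCommGroup U] [Module F U] [AddCommGroup W] [Module F W]
  [AddCommGroup V] [Module F V]

/-- The constant is absorbed in the first factor. -/
theorem exists_compat {τ : TS F U W V} {PU : Polar F U} {PW : Polar F W} {PV : Polar F V}
    [Nontrivial U] [Nontrivial W] (hσW : ∀ a, PW.σ a = PU.σ a) (hσV : ∀ a, PV.σ a = PU.σ a)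
    (hε : PV.ε = PU.ε * PW.ε) {c : F} (hc : c ≠ 0)
    (hB : ∀ u x u' x', PV.B (τ.tp u x) (τ.tp u' x') = c * (PU.B u u' * PW.B x x'))
    (hv : ∀ u x, PV.B (τ.tp u x) (τ.tp u x) = 0 → PV.Val (τ.tp u x) 0) :
    ∃ hσ : PU.σ c = 1 * c, Compat τ (PU.scale hc (Or.inl rfl) hσ) PW PV := by
  have hσ : PU.σ c = 1 * c := by
    obtain ⟨u, hu⟩ := exists_ne (0 : U)
    obtain ⟨u', hu'⟩ := PU.exists_B_ne hu
    obtain ⟨x, hx⟩ := exists_ne (0 : W)
    obtain ⟨x', hx'⟩ := PW.exists_B_ne hx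
    have := PV.herm (τ.tp u' x') (τ.tp u x)
    rw [hB, hB, hσV, map_mul, map_mul, ← hσW (PW.B _ _), PU.σ_herm, PW.σ_herm, hε] at this
    have h1 := PU.ε_mul_ε
    have h2 := PW.ε_mul_ε
    refine mul_right_cancel₀ (mul_ne_zero hu' hx') ?_
    linear_combination -this - (PU.σ c * PU.B u u' * PW.B x x' * PW.ε * PW.ε) * h1 -
      (PU.σ c * PU.B u u' * PW.B x x') * h2
  refine ⟨hσ, hσW, hσV, by rw [Polar.scale_ε, mul_one, hε], fun u x u' x' => ?_,
    fun u x hu => hv _ _ ?_, fun u x hx => hv _ _ ?_⟩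
  · rw [hB, Polar.scale_B, mul_assoc]
  · rw [Polar.scale_val, zero_div] at hu
    rw [hB, Polar.sing_B hu]; simp
  · rw [hB, Polar.sing_B hx]; simp

end abstract

end Cfsg.Agent.Tens
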