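import Cfsg.Agent.Tens.SlotB
import Cfsg.Agent.H1.OApi

/-!
The slot lemma for orthogonal spaces in odd characteristic.
-/

set_option autoImplicit false
set_option linter.unusedSectionVars false
set_option linter.unusedSimpArgs false

namespace Cfsg.Agent.Tens.Slot

open Module Cfsg.Agent.H7 Cfsg.Agent.H7.Polar Cfsg.Agent.H1

variable {F U W V : Type*} [Field F] [AddCommGroup U] [Module F U] [AddCommGroup W] [Module F W]
  [AddCommGroup V] [Module F V] {τ : TS F U W V} {P : Polar F U}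
  [Finite F] [FiniteDimensional F U] [FiniteDimensional F W]

theorem invL_iso_of_refl {M : Set (End F V)} (hL : ∀ g ∈ P.E, InvL τ M g)
    (hR : ∀ (d : U) (c : F) (hc : P.Val d c) (h0 : c ≠ 0), InvL τ M (reflE hc h0)) :
    ∀ g ∈ P.Iso, InvL τ M g := by
  let X : Subgroup (U ≃ₗ[F] U) :=
    { carrier := {g | InvL τ M g ∧ InvL τ M g⁻¹}
      mul_mem' := fun ha hb => ⟨ha.1.mul hb.1, by rw [mul_inv_rev]; exact hb.2.mul ha.2⟩
      one_mem' := ⟨hL 1 P.E.one_mem, by rw [inv_one]; exact hL 1 P.E.one_mem⟩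
      inv_mem' := fun ha => ⟨ha.2, by rw [inv_inv]; exact ha.1⟩ }
  refine fun g hg => (Iso_le_of (X := X) (fun e he => ⟨hL e he, hL _ (P.E.inv_mem he)⟩)
    (fun d c hc h0 => ⟨hR d c hc h0, ?_⟩) hg).1
  have h1 : P.ε * P.σ c ≠ 0 := by simpa using h0
  rw [show (reflE hc h0)⁻¹ = reflE (val_conj hc) h1 from
    inv_eq_of_mul_eq_one_right (LinearEquiv.ext fun x => refl_inv hc h0 x)]
  exact hR d _ _ h1

theorem exists_move_two' (hB : Both P) {G : Subgroup (U ≃ₗ[F] U)} (hG : P.E ≤ G) {x y : U}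
    (hx : P.Val x 0) (hy : P.Val y 0) (hx0 : x ≠ 0)
    (hxy : P.B x y = 0) (hyx : y ∉ F ∙ x)
    (key : ∀ z, P.Val z 0 → P.B z y = 0 → P.B z x = 0 → z ∉ F ∙ y →
      ∃ g ∈ G, g y = y ∧ P.B (g z) x ≠ 0) :
    ∃ g ∈ G, ∃ a : F, a ≠ 0 ∧ g x = a • y ∧ P.B (g y) x ≠ 0 := by
  have hy0 : y ≠ 0 := fun e => hyx (by simp [e])
  obtain ⟨g, hg, a, ha, hga⟩ := hB.exists_move hx hx0 hy hy0
  by_cases h : P.B (g y) x = 0
  · obtain ⟨g', h1, h2, h3⟩ := key (g y) (Iso.val (E_le_Iso hg) hy) (by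
      have := Iso.B (E_le_Iso hg) y x
      rw [hga, B_smul_right, P.B_symm hxy] at this
      simpa [ha] using this) h (fun e => hyx (by
        obtain ⟨b, hb⟩ := Submodule.mem_span_singleton.1 e
        refine Submodule.mem_span_singleton.2 ⟨b / a, g.injective ?_⟩
        rw [map_smul, hga, ← hb, smul_smul, div_mul_cancel₀ _ ha]))
    exact ⟨g' * g, G.mul_mem h1 (hG hg), a, ha, by simp [hga, h2], h3⟩
  · exact ⟨g, hG hg, a, ha, hga, h⟩

omit [FiniteDimensional F U] [FiniteDimensional F W] in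
theorem exists_sq_ne_one (h : 5 ≤ Nat.card F) : ∃ t : F, t ≠ 0 ∧ t * t ≠ 1 := by
  classical
  have := Fintype.ofFinite F
  obtain ⟨a, -, ha⟩ := Finset.exists_mem_notMem_of_card_lt_card (s := ({0, 1, -1} : Finset F))
    (t := Finset.univ) (by
      have := Finset.card_le_three (a := (0 : F)) (b := 1) (c := -1)
      rw [Finset.card_univ, ← Nat.card_eq_fintype_card]; omega)
  simp only [Finset.mem_insert, Finset.mem_singleton, not_or] at ha
  exact ⟨a, ha.1, fun e => by rcases mul_self_eq_one_iff.1 e with e | e <;> tauto⟩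

variable (h : IsO P) (h2 : (2 : F) ≠ 0)
include h h2

theorem both_o (hn : 3 ≤ finrank F U) : Both P := fun _ _ hu hv hu0 hv0 =>
  h.exists_sing_not_perp h2 hn hu hu0 hv hv0

theorem exists_aniso_top (hn : 3 ≤ finrank F U) {u v : U} (hu : P.Val u 0) (hv : P.Val v 0)
    (huv : P.B u v ≠ 0) : ∃ w, P.B w u = 0 ∧ P.B w v = 0 ∧ P.B w w ≠ 0 := by
  obtain ⟨z, -, h3, h4, h5⟩ := h.exists_aniso_perp_pair h2 (N := ⊤) (sing_B hu)
    (sing_B hv) huv trivial trivial (by rw [IsO.top_inf_perp, finrank_top]; omega)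
  exact ⟨z, h3, h4, h5⟩

theorem exists_aniso_pp {y u v : U} (hy0 : y ≠ 0)
    (hn : 5 ≤ finrank F U ∨ (4 ≤ finrank F U ∧ P.B y y ≠ 0)) (hu : P.Val u 0) (hv : P.Val v 0)
    (huv : P.B u v ≠ 0) (huy : P.B u y = 0) (hvy : P.B v y = 0) :
    ∃ w, P.B w y = 0 ∧ P.B w u = 0 ∧ P.B w v = 0 ∧ P.B w w ≠ 0 := by
  have h1 := P.finrank_perp (F ∙ y)
  rw [finrank_span_singleton hy0] at h1
  obtain ⟨z, h3, h4, h5, h6⟩ := h.exists_aniso_perp_pair h2 (N := P.perp (F ∙ y)) (sing_B hu)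
    (sing_B hv) huv (by rwa [perp_span_singleton]) (by rwa [perp_span_singleton]) (by
      rw [perp_perp]
      rcases hn with hn | ⟨hn, hy⟩
      · have := Submodule.finrank_mono (inf_le_right : P.perp (F ∙ y) ⊓ (F ∙ y) ≤ F ∙ y)
        rw [finrank_span_singleton hy0] at this
        omega
      · have : P.perp (F ∙ y) ⊓ (F ∙ y) = ⊥ := eq_bot_iff.2 fun x hx => by
          obtain ⟨a, rfl⟩ := Submodule.mem_span_singleton.1 hx.2
          have := hx.1 y (Submodule.mem_span_singleton_self y)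
          simp [hy] at this
          simp [this]
        rw [this, finrank_bot]; omega)
  rw [perp_span_singleton] at h3
  exact ⟨z, h3, h4, h5, h6⟩

theorem top_o {M : Submodule F (End F V)} (hL : ∀ g ∈ P.E, InvL τ (M : Set (End F V)) g)
    (hn : 4 ≤ finrank F U ∨ (3 ≤ finrank F U ∧ 5 ≤ Nat.card F)) {u : U} (hu : P.Val u 0)
    {z : End F V} (hz : z ∈ M) : τ.K (P.th u u) (S τ P z u u) ∈ M := by
  by_cases hu0 : u = 0
  · simp [hu0]
  obtain ⟨u', hu', huu⟩ := exists_partner hu hu0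
  have huu' : P.B u' u ≠ 0 := by simp [huu]
  obtain ⟨w, k1, k2, k3⟩ := exists_aniso_top h h2 (by omega) hu' hu huu'
  rcases hn with hn | ⟨hn, hF⟩
  · obtain ⟨w', k4, k5, k6, k7⟩ := exists_aniso_pp h h2 (y := w) (fun e => k3 (by simp [e]))
      (Or.inr ⟨hn, k3⟩) hu' hu huu' (P.B_symm k1) (P.B_symm k2)
    refine top_four hL hu k2 k2 k6 k6 ?_ hz
    rw [k4, P.B_symm k4]
    convert mul_ne_zero h2 (mul_ne_zero k3 k7) using 1
    ring
  · obtain ⟨Q, hQ⟩ := P.val_ex w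
    have hQ0 : Q ≠ 0 := fun e => k3 (by rw [h.self hQ, e, mul_zero])
    set n := τ.K (P.th w u - P.th u w) 1
    set θ := τ.K (P.th u u) 1
    have := mem_of_poly M hF (c₁ := n * z - z * n) (c₂ := -(Q • (θ * z)) - Q • (z * θ) - n * z * n)
      (c₃ := Q • (θ * z * n) - Q • (n * z * θ)) (c₄ := (Q * Q) • (θ * z * θ)) fun t => by
        convert dd_mem hL hu (w := t • w) (by simp [k2]) (h.val_smul t hQ) hz using 1
        have e1 : el τ P u (t • w) (t * t * Q) = t • n - (t * t * Q) • θ := by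
          simp [el, n, θ, th_smul_left, th_smul_right, h.σ, h.ε, smul_sub]
        have e2 : er τ P u (t • w) (t * t * Q) = -(t • n) - (t * t * Q) • θ := by
          simp [er, n, θ, th_smul_left, th_smul_right, h.σ, h.ε, smul_sub]
        rw [dd_eq, e1, e2]
        simp only [mul_sub, sub_mul, mul_neg, neg_mul, smul_mul_assoc, mul_smul_comm]
        module
    rw [θ_mul_mul] at this
    exact (M.smul_mem_iff (mul_ne_zero hQ0 hQ0)).1 this

theorem scal_of_sing_eigen_o (hn : 3 ≤ finrank F U) {z : End F U}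
    (hz : ∀ u, P.Val u 0 → z u ∈ F ∙ u) : Scal z := by
  obtain ⟨e, -, h0, he⟩ := wild_three_of_σ h.σ ⊤ (by rwa [finrank_top])
  have key : ∀ u v, P.Val u 0 → P.Val v 0 → P.B v u ≠ 0 → ∀ c : F, z u = c • u → z v = c • v := by
    intro u v hu hv huv c hc
    obtain ⟨d, hd⟩ := Submodule.mem_span_singleton.1 (hz v hv)
    obtain ⟨w, k1, k2, k3⟩ := exists_aniso_top h h2 hn hu hv (P.B_ne_symm huv)
    obtain ⟨Q, hQ⟩ := P.val_ex w
    have hQ0 : Q ≠ 0 := fun e => k3 (by rw [h.self hQ, e, mul_zero])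
    obtain ⟨a, ha⟩ := Submodule.mem_span_singleton.1 (hz _ (eich_val hu k1 hQ hv))
    obtain ⟨b, hb⟩ := Submodule.mem_span_singleton.1
      (hz _ (eich_val hu (w := -w) (by simp [k1]) (val_neg hQ) hv))
    have h3 := congrArg₂ (· + ·) ha hb
    simp only [h.eich_eq, map_add, map_sub, map_smul, map_neg, hc, ← hd, P.B_symm k2] at h3
    have h4 := congrArg (fun x => P.B x u) h3
    have h5 := congrArg (fun x => P.B x v) h3
    simp only [map_add, map_sub, map_smul, map_neg, LinearMap.add_apply, LinearMap.sub_apply,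
      LinearMap.smul_apply, LinearMap.neg_apply, smul_eq_mul, sing_B hu, sing_B hv, k1, k2,
      h.comm u v] at h4 h5
    have h6 : a + b = 2 * d := mul_right_cancel₀ huv (by linear_combination h4)
    have h7 : a + b = 2 * c := mul_right_cancel₀ (mul_ne_zero hQ0 (mul_ne_zero huv huv))
      (by linear_combination -h5)
    rw [← hd, mul_left_cancel₀ h2 (h6.symm.trans h7)]
  obtain ⟨c, hc⟩ := Submodule.mem_span_singleton.1 (hz e he)
  refine ⟨c, sing_induction_top he h0 (fun u hu => ?_) fun u v hu hv => by simp [hu, hv]⟩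
  by_cases hu0 : u = 0
  · simp [hu0]
  obtain ⟨y, hy, h3, h4⟩ := both_o h h2 hn e u he hu h0 hu0
  exact key y u hy hu h4 c (key e y he hy (P.B_ne_symm h3) c hc.symm)

/-- A quadratic form vanishing on the quadric is a multiple of the given one. -/
theorem skew_of_sing (hn : 4 ≤ finrank F U ∨ (3 ≤ finrank F U ∧ 5 ≤ Nat.card F)) {z : End F U}
    (hz : ∀ y, P.Val y 0 → P.B (z y) y = 0) {x w : U} (hx : P.Val x 0) (hw : P.B w x = 0) :
    P.B (z x) w + P.B (z w) x = 0 := by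
  by_cases hx0 : x = 0
  · simp [hx0]
  obtain ⟨e, he, hex⟩ := exists_partner hx hx0
  have hex' : P.B e x ≠ 0 := by simp [hex]
  have k1 : ∀ w, P.B w x = 0 → P.B w e = 0 → 2 * (P.B (z e) w + P.B (z w) e) =
      P.B w w * (P.B (z x) w + P.B (z w) x) := fun w h3 h4 => by
    obtain ⟨Q, hQ⟩ := P.val_ex w
    have h5 := hz _ (eich_val hx h3 hQ he)
    have h6 := hz _ (eich_val hx (w := -w) (by simp [h3]) (val_neg hQ) he)
    simp only [h.eich_eq, map_add, map_sub, map_smul, map_neg, LinearMap.add_apply,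
      LinearMap.sub_apply, LinearMap.smul_apply, LinearMap.neg_apply, smul_eq_mul, hex,
      P.B_symm h4, h.smul_right, hz x hx, hz e he] at h5 h6
    rw [h.self hQ]
    linear_combination h5 - h6
  have k2 : ∀ w, P.B w x = 0 → P.B w e = 0 → P.B w w ≠ 0 → P.B (z x) w + P.B (z w) x = 0 := by
    intro w h3 h4 h5
    rcases hn with hn | ⟨hn, hF⟩
    · obtain ⟨w', k4, k5, k6, k7⟩ := exists_aniso_pp h h2 (y := w) (fun e => h5 (by simp [e]))
        (Or.inr ⟨hn, h5⟩) he hx hex' (P.B_symm h4) (P.B_symm h3)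
      have e1 := k1 w h3 h4
      have e2 := k1 w' k6 k5
      have e3 := k1 (w + w') (by simp [h3, k6]) (by simp [h4, k5])
      have e4 := k1 (w - w') (by simp [h3, k6]) (by simp [h4, k5])
      simp only [map_add, map_sub, LinearMap.add_apply, LinearMap.sub_apply, k4,
        P.B_symm k4] at e3 e4
      exact mul_left_cancel₀ (mul_ne_zero h2 k7) (by linear_combination 2 * e1 - e3 - e4)
    · obtain ⟨t, ht0, ht⟩ := exists_sq_ne_one hF
      have e1 := k1 w h3 h4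
      have e2 := k1 (t • w) (by simp [h3]) (by simp [h4])
      simp only [map_smul, LinearMap.smul_apply, smul_eq_mul, h.smul_right] at e2
      exact mul_left_cancel₀ (mul_ne_zero (mul_ne_zero ht0 h5) (sub_ne_zero.2 ht))
        (by linear_combination t * e1 - e2)
  have k3 : ∀ w, P.B (z x + P.adj z x) w = P.B (z x) w + P.B (z w) x := fun w => by
    rw [map_add, LinearMap.add_apply, adj_B, h.comm x]
  obtain ⟨w₀, k4, k5, k6⟩ := exists_aniso_top h h2 (by omega) he hx hex'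
  by_contra hne
  obtain ⟨a, ha, k7, k8⟩ := h.exists_aniso_ne h2 (W := P.pp x ⊓ P.pp e) ⟨k5, k4⟩ ⟨k5, k4⟩ k6
    (z := z x + P.adj z x) (w := w - P.B w e • x)
    ⟨by simp [hw, sing_B hx], by simp [h.comm x e, hex]⟩ (by
      rw [k3]
      simpa [h.smul_right, hz x hx] using hne)
  exact k8 (by rw [k3, k2 a ha.1 ha.2 k7])

theorem S_skew (hn : 4 ≤ finrank F U ∨ (3 ≤ finrank F U ∧ 5 ≤ Nat.card F)) {c : End F V}
    (hz : ∀ y, P.Val y 0 → S τ P c y y = 0) {x w : U} (hx : P.Val x 0) (hw : P.B w x = 0) :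
    S τ P c w x = -S τ P c x w := by
  refine LinearMap.ext fun x₀ => eq_neg_of_add_eq_zero_right (eq_zero_of_forall_dual (F := F) fun ψ => ?_)
  rw [map_add, ← B_flip_sl, ← B_flip_sl]
  exact skew_of_sing h h2 hn (fun y hy => by rw [B_flip_sl, hz y hy]; simp) hx hw

theorem exists_S_ne_o (hn : 3 ≤ finrank F U) {c : End F V} (hc : ¬ τ.flip.InA c) :
    ∃ x w, (P.Val x 0 ∧ P.B w x = 0) ∧ S τ P c x w ≠ 0 :=
  exists_S_ne (P := P) hc fun z hz => scal_of_sing_eigen_o h h2 hn fun u hu =>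
    mem_span_of_B (P := P) fun w hw => hz u w ⟨hu, hw⟩

/-- An invariant subspace of self-adjoint maps. -/
theorem th_mem_of_selfAdj {D : Submodule F (End F U)}
    (hn : 4 ≤ finrank F U ∨ (3 ≤ finrank F U ∧ 5 ≤ Nat.card F))
    (hL : ∀ g ∈ P.E, ∀ c ∈ D, (g : End F U) * c * (g.symm : End F U) ∈ D)
    (hsa : ∀ c ∈ D, P.adj c = c) (hc : ∃ c ∈ D, ¬ Scal c) {x : U} (hx : P.Val x 0) :
    P.th x x ∈ D := by
  obtain ⟨c, hcD, hc⟩ := hc
  obtain ⟨y, hy, hy'⟩ : ∃ y, P.Val y 0 ∧ P.B (c y) y ≠ 0 := by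
    by_contra! hcon
    refine hc (scal_of_sing_eigen_o h h2 (by omega) fun u hu =>
      mem_span_of_B (P := P) fun w hw => mul_left_cancel₀ h2 ?_)
    have := skew_of_sing h h2 hn hcon hu hw
    rw [← B_adj P c w u, hsa c hcD, h.comm w] at this
    linear_combination this
  have hL' : ∀ g ∈ P.E, InvL (triv F U) (D : Set (End F U)) g := fun g hg => triv_invL (hL g hg)
  have := top_move hL' (both_o h h2 (by omega)) hy (fun e => hy' (by simp [e]))
    (top_o h h2 hL' hn hy hcD) hx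
  rw [triv_K, triv_S] at this
  exact (D.smul_mem_iff hy').1 this

section Main

variable {C : Subalgebra F (End F V)}
  (hL : ∀ g ∈ P.E, InvL τ (C : Set (End F V)) g) (hirr : Irr τ (C : Set (End F V)))
include hL hirr

theorem slot_o_of (hn : 4 ≤ finrank F U ∨ (3 ≤ finrank F U ∧ 5 ≤ Nat.card F)) {c : End F V}
    (hcC : c ∈ C) (key : (∀ y, P.Val y 0 → S τ P c y y = 0) →
      ∃ y γ, P.Val y 0 ∧ y ≠ 0 ∧ γ ≠ 0 ∧ τ.K (P.th y y) γ ∈ C) :
    ∃ d, d ≠ 0 ∧ ∀ a, τ.K a d ∈ C := by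
  have hB := both_o h h2 (show 3 ≤ finrank F U by omega)
  by_cases h1 : ∀ y, P.Val y 0 → S τ P c y y = 0
  · obtain ⟨y, γ, k1, k2, k3, k4⟩ := key h1
    exact fin hL hirr hB k1 k2 k3 k4
  · push Not at h1
    obtain ⟨u, hu, hS⟩ := h1
    exact slot_of_top hL hirr hB hu hS (top_o h h2 (M := Subalgebra.toSubmodule C) hL hn hu hcC)

theorem slot_o_two (hw : P.W2) (hc : ∃ c ∈ C, ¬ τ.flip.InA c) {G : Subgroup (U ≃ₗ[F] U)}
    (hG : P.E ≤ G) (hG' : G ≤ P.Iso) (hL' : ∀ g ∈ G, InvL τ (C : Set (End F V)) g)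
    (key : ∀ x y z s, P.Val z 0 → P.Val s 0 → y ≠ 0 → P.B z y = 0 → P.B z x = 0 → z ∉ F ∙ y →
      P.B s y = 0 → P.B s z ≠ 0 → P.B s x ≠ 0 → ∃ g ∈ G, g y = y ∧ P.B (g z) x ≠ 0) :
    ∃ d, d ≠ 0 ∧ ∀ a, τ.K a d ∈ C := by
  obtain ⟨c, hcC, hc⟩ := hc
  have hn := hw.four_le
  refine slot_o_of h h2 hL hirr (Or.inl hn) hcC fun h0 => ?_
  obtain ⟨x, y, hx, hy, hxy, hx0, hyx, hS⟩ := exists_S_ne_two hw hc
  have hy0 : y ≠ 0 := fun e => hyx (by simp [e])
  obtain ⟨g, hg, a, ha, k1, k2⟩ := exists_move_two' (both_o h h2 (by omega)) hG hy hx hy0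
    (P.B_symm hxy) (notMem_span_swap hx0 hyx) fun z hz h3 h4 h5 => by
      obtain ⟨s, k1, k2, k3, k4⟩ := exists_sing_perp_both hz h3 h4 h5 hyx
      exact key y x z s hz k1 hx0 h3 h4 h5 k2 k3 k4
  have hm := dd_mem (M := Subalgebra.toSubmodule C) hL hx (P.B_symm hxy) hy
    (dd_mem (M := Subalgebra.toSubmodule C) hL hx (P.B_symm hxy) hy hcC)
  rw [dd_dd, el_mul_el _ _ (sing_B hx) (P.B_symm hxy) (P.B_symm hxy),
    er_mul_er _ _ (sing_B hx) (P.B_symm hxy) (P.B_symm hxy)] at hm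
  simp only [el, er, sing_B hy, h.ε, h.σ, mul_zero, neg_zero, zero_smul, zero_mul, add_zero,
    sub_zero, one_smul, map_sub, LinearMap.sub_apply, mul_sub, sub_mul, mul_neg, neg_sub,
    K_th_mul_mul, one_mul, mul_one, h0 x hx, h0 y hy, map_zero] at hm
  obtain ⟨γ, k3, k4⟩ := core_two hirr hy hx (P.B_symm hxy) hS (β := S τ P c y x)
    (((Subalgebra.toSubmodule C).smul_mem_iff (neg_ne_zero.2 h2)).1 (by
      convert hm using 1; module)) (hG' hg) (hL' g hg) ha k1 k2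
  exact ⟨x, γ, hx, hx0, k3, k4⟩

/-- **Slot lemma**, orthogonal case of dimension at least five. -/
theorem slot_o_five (hn : 5 ≤ finrank F U) (hc : ∃ c ∈ C, ¬ τ.flip.InA c) :
    ∃ d, d ≠ 0 ∧ ∀ a, τ.K a d ∈ C := by
  refine slot_o_two h h2 hL hirr ((wild_three_of_σ h.σ).w2 hn) hc le_rfl E_le_Iso hL
    fun x y z s hz hs hy0 h1 h3 _ h5 h6 h7 => ?_
  obtain ⟨w, k1, k2, k3, k4⟩ := exists_aniso_pp h h2 hy0 (Or.inl hn) hs hz h6 h5 h1
  obtain ⟨Q, hQ⟩ := P.val_ex w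
  have hQ0 : Q ≠ 0 := fun e => k4 (by rw [h.self hQ, e, mul_zero])
  by_contra! hcon
  have e1 := hcon _ (eichE_mem_E hs k2 hQ) (eich_fix Q (P.B_symm h5) (P.B_symm k1))
  have e2 := hcon _ (eichE_mem_E hs (w := -w) (by simp [k2]) (val_neg hQ))
    (eich_fix Q (P.B_symm h5) (by simp [P.B_symm k1]))
  simp only [eichE_apply, h.eich_eq, map_add, map_sub, map_smul, map_neg, LinearMap.add_apply,
    LinearMap.sub_apply, LinearMap.smul_apply, LinearMap.neg_apply, smul_eq_mul, h3,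
    P.B_symm k3] at e1 e2
  exact mul_ne_zero (mul_ne_zero h2 hQ0) (mul_ne_zero (P.B_ne_symm h6) h7)
    (by linear_combination -e1 - e2)

/-- **Slot lemma**, orthogonal case of Witt index at least two, with the full isometry group. -/
theorem slot_o_iso (hw : P.W2) (hI : ∀ g ∈ P.Iso, InvL τ (C : Set (End F V)) g)
    (hc : ∃ c ∈ C, ¬ τ.flip.InA c) : ∃ d, d ≠ 0 ∧ ∀ a, τ.K a d ∈ C := by
  refine slot_o_two h h2 hL hirr hw hc E_le_Iso le_rfl hI
    fun x y z s hz hs hy0 h1 h3 h4 h5 h6 h7 => ?_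
  obtain ⟨g, hg, k1, k2⟩ := witt_vec (P := P) (U := F ∙ y) h4 (v' := s) (fun e => by
    obtain ⟨a, rfl⟩ := Submodule.mem_span_singleton.1 e
    exact h6 (by simp [P.B_symm h1])) (fun u hu => by
    obtain ⟨a, rfl⟩ := Submodule.mem_span_singleton.1 hu
    simp [P.B_symm h1, P.B_symm h5]) hz hs
  exact ⟨g, hg, k1 y (Submodule.mem_span_singleton_self y), by rwa [k2]⟩

/-- **Slot lemma**, orthogonal case of dimension three. -/
theorem slot_o_three (hn : finrank F U = 3) (hF : 5 ≤ Nat.card F)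
    (hc : ∃ c ∈ C, ¬ τ.flip.InA c) : ∃ d, d ≠ 0 ∧ ∀ a, τ.K a d ∈ C := by
  obtain ⟨c, hcC, hc⟩ := hc
  have hn' : 4 ≤ finrank F U ∨ (3 ≤ finrank F U ∧ 5 ≤ Nat.card F) := Or.inr ⟨hn.ge, hF⟩
  refine slot_o_of h h2 hL hirr hn' hcC fun h0 => ?_
  obtain ⟨x, w', ⟨hx, hw'⟩, hS⟩ := exists_S_ne_o h h2 hn.ge hc
  have hx0 : x ≠ 0 := fun e => hS (by ext v; simp [S_apply, e])
  obtain ⟨e, he, hex⟩ := exists_partner hx hx0
  have hxe : P.B x e = 1 := by rw [h.comm, hex]
  obtain ⟨w, k1, k2, k3⟩ := exists_aniso_top h h2 hn.ge he hx (by simp [hex])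
  have hone : ∀ v, v = P.B v e • x + P.B v x • e + ((P.B w w)⁻¹ * P.B v w) • w := fun v => by
    have hli : LinearIndependent F ![x, e, w] := by
      rw [Fintype.linearIndependent_iff]
      intro g hg
      rw [Fin.sum_univ_three] at hg
      have e1 := congrArg (fun y => P.B y e) hg
      have e2 := congrArg (fun y => P.B y x) hg
      have e3 := congrArg (fun y => P.B y w) hg
      simp [hxe, hex, sing_B hx, sing_B he, k1, k2, P.B_symm k1, P.B_symm k2, k3] at e1 e2 e3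
      intro i; fin_cases i <;> assumption
    have hv : v ∈ Submodule.span F (Set.range ![x, e, w]) := by
      rw [hli.span_eq_top_of_card_eq_finrank' (by simp [hn])]; trivial
    obtain ⟨g, rfl⟩ := (Submodule.mem_span_range_iff_exists_fun F).1 hv
    simp [Fin.sum_univ_three, hxe, hex, sing_B hx, sing_B he, k1, k2, P.B_symm k1, P.B_symm k2, k3,
      mul_comm (P.B w w)⁻¹]
  have hS' : S τ P c x w ≠ 0 := fun e' => hS (by
    rw [hone w', S_add_right, S_add_right, S_smul_right, S_smul_right, S_smul_right, e', h0 x hx,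
      hw']
    simp)
  have hK : (1 : End F V) = τ.K (P.th x e) 1 + τ.K (P.th e x) 1 + (P.B w w)⁻¹ • τ.K (P.th w w) 1 := by
    rw [← τ.K_one, show (1 : End F U) = P.th x e + P.th e x + (P.B w w)⁻¹ • P.th w w from
      LinearMap.ext fun v => by simpa [smul_smul] using hone v]
    simp
  have e1 : τ.K (P.th x x) 1 * c = τ.K (P.th x x) (S τ P c e x) -
      (P.B w w)⁻¹ • τ.K (P.th x w) (S τ P c x w) := by
    conv_lhs => rw [← mul_one (_ * c), hK]
    simp only [mul_add, mul_smul_comm, K_th_mul_mul, one_mul, mul_one, h0 x hx, map_zero,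
      S_skew h h2 hn' h0 hx k2, map_neg]
    module
  have e2 : c * τ.K (P.th x x) 1 = τ.K (P.th x x) (S τ P c x e) +
      (P.B w w)⁻¹ • τ.K (P.th w x) (S τ P c x w) := by
    conv_lhs => rw [← one_mul c, hK]
    simp only [add_mul, smul_mul_assoc, K_th_mul_mul, one_mul, mul_one, h0 x hx, map_zero]
    module
  obtain ⟨Q, hQ⟩ := P.val_ex w
  obtain ⟨γ, hγ⟩ : ∃ γ, τ.K (P.th w x) (S τ P c x w) - τ.K (P.th x w) (S τ P c x w) +
      τ.K (P.th x x) γ ∈ C := by
    have hm := dd_mem (M := Subalgebra.toSubmodule C) hL hx k2 hQ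
      (dd_mem (M := Subalgebra.toSubmodule C) hL hx k2 hQ hcC)
    rw [dd_dd, el_mul_el _ _ (sing_B hx) k2 k2, er_mul_er _ _ (sing_B hx) k2 k2] at hm
    simp only [mul_add, add_mul, smul_mul_assoc, mul_smul_comm, ← mul_assoc] at hm
    simp only [el, er, h.ε, h.σ, one_smul, map_sub, LinearMap.sub_apply, mul_sub, sub_mul,
      mul_neg, neg_sub, smul_mul_assoc, mul_smul_comm, K_th_mul_mul, one_mul, mul_one, h0 x hx,
      map_zero, S_skew h h2 hn' h0 hx k2, map_neg] at hm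
    rw [e1, e2] at hm
    refine ⟨(2 : F) • S τ P c w w - P.B w w • S τ P c e x - P.B w w • S τ P c x e, ?_⟩
    convert (show _ ∈ C from hm) using 1
    simp only [map_sub, map_smul]
    match_scalars <;> field_simp <;> ring
  obtain ⟨d, k4, k5⟩ := hirr.exists_conj hS' hS'
  refine ⟨x, _, hx, hx0, k5, ?_⟩
  have h3 := C.mul_mem hγ (k4 _ hγ)
  simp only [mul_add, add_mul, mul_sub, sub_mul, TS.K_mul, th_mul_th, one_mul, mul_one, k2,
    P.B_symm k2, sing_B hx, zero_smul, map_zero, LinearMap.zero_apply, map_smul,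
    LinearMap.smul_apply, add_zero, sub_zero, zero_sub] at h3
  exact ((Subalgebra.toSubmodule C).smul_mem_iff (neg_ne_zero.2 k3)).1 (by simpa using h3)

omit hirr in
/-- **Slot lemma**, orthogonal case of Witt index one. -/
theorem slot_o_minus (habs : AbsIrr τ (C : Set (End F V))) (hn : 4 ≤ finrank F U) (hw : ¬ P.W2)
    (hc : ∃ c ∈ C, ¬ τ.flip.InA c) : ∃ d, d ≠ 0 ∧ ∀ a, τ.K a d ∈ C := by
  obtain ⟨c, hcC, hc⟩ := hc
  have hn' : 4 ≤ finrank F U ∨ (3 ≤ finrank F U ∧ 5 ≤ Nat.card F) := Or.inl hn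
  refine slot_o_of h h2 hL habs.irr hn' hcC fun h0 => ?_
  obtain ⟨x, w', ⟨hx, hw'⟩, hS⟩ := exists_S_ne_o h h2 (by omega) hc
  have hx0 : x ≠ 0 := fun e => hS (by ext v; simp [S_apply, e])
  obtain ⟨e, he, hex⟩ := exists_partner hx hx0
  have hxe : P.B x e = 1 := by rw [h.comm, hex]
  have hani : ∀ w, P.B w x = 0 → P.B w e = 0 → P.B w w = 0 → w = 0 := fun w k1 k2 k3 => by
    by_contra k4
    refine hw ⟨x, w, hx, (h.sing_iff h2).2 k3, k1, hx0, fun k5 => ?_⟩
    obtain ⟨a, rfl⟩ := Submodule.mem_span_singleton.1 k5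
    exact k4 (by simp [show a = 0 by simpa [hxe] using k2])
  obtain ⟨w₁, k1, k2, hS1⟩ : ∃ w, P.B w x = 0 ∧ P.B w e = 0 ∧ S τ P c x w ≠ 0 :=
    ⟨w' + (-P.B w' e) • x, by simp [hw', sing_B hx], by simp [hxe], by
      rwa [S_add_right, S_smul_right, h0 x hx, smul_zero, add_zero]⟩
  have hw0 : w₁ ≠ 0 := fun e => hS1 (by ext v; simp [S_apply, e, TS.pB])
  have k3 : P.B w₁ w₁ ≠ 0 := fun e => hw0 (hani _ k1 k2 e)
  obtain ⟨w₂, k4, k5, k6, k7⟩ := exists_aniso_pp h h2 hw0 (Or.inr ⟨hn, k3⟩) he hx (by simp [hex])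
    (P.B_symm k2) (P.B_symm k1)
  obtain ⟨Q₁, hQ₁⟩ := P.val_ex w₁
  obtain ⟨Q₂, hQ₂⟩ := P.val_ex w₂
  obtain ⟨γ, hγ⟩ : ∃ γ, τ.K (P.th w₁ x) (S τ P c x w₂) + τ.K (P.th w₂ x) (S τ P c x w₁) -
      τ.K (P.th x w₂) (S τ P c x w₁) - τ.K (P.th x w₁) (S τ P c x w₂) +
      τ.K (P.th x x) γ ∈ C := by
    have hm := dd_mem (M := Subalgebra.toSubmodule C) hL hx k1 hQ₁
      (dd_mem (M := Subalgebra.toSubmodule C) hL hx k6 hQ₂ hcC)
    rw [dd_dd, el_mul_el _ _ (sing_B hx) k1 k6, er_mul_er _ _ (sing_B hx) k6 k1, k4,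
      P.B_symm k4] at hm
    simp only [el, er, h.ε, h.σ, one_smul, map_sub, LinearMap.sub_apply, mul_sub, sub_mul,
      mul_neg, neg_sub, smul_mul_assoc, mul_smul_comm, K_th_mul_mul, one_mul, mul_one, h0 x hx,
      map_zero, S_skew h h2 hn' h0 hx k1, S_skew h h2 hn' h0 hx k6, map_neg, mul_zero, neg_zero,
      zero_smul, zero_mul, add_zero] at hm
    refine ⟨S τ P c w₂ w₁ + S τ P c w₁ w₂, ?_⟩
    convert (show _ ∈ C from hm) using 1
    simp only [map_add, map_smul]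
    module
  by_contra! hcon
  have key : ∀ d : W ≃ₗ[F] W, InvR τ (C : Set (End F V)) d →
      P.B w₂ w₂ • (S τ P c x w₁ * (d : End F W) * S τ P c x w₁) +
        P.B w₁ w₁ • (S τ P c x w₂ * (d : End F W) * S τ P c x w₂) = 0 := fun d hd => by
    have h3 := C.mul_mem hγ (hd _ hγ)
    simp only [mul_add, add_mul, mul_sub, sub_mul, TS.K_mul, th_mul_th, one_mul, mul_one, k1, k6,
      k4, P.B_symm k4, P.B_symm k1, P.B_symm k6, sing_B hx, zero_smul, map_zero,
      LinearMap.zero_apply, map_smul, LinearMap.smul_apply, add_zero, sub_zero, zero_sub,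
      zero_add] at h3
    by_contra hne
    refine hcon x ((P.B w₂ w₂ • (S τ P c x w₁ * (d : End F W) * S τ P c x w₁) +
      P.B w₁ w₁ • (S τ P c x w₂ * (d : End F W) * S τ P c x w₂)) * (d.symm : End F W)) hx hx0
      (fun e => hne (LinearMap.ext fun v => by simpa using LinearMap.congr_fun e (d v))) ?_
    convert C.neg_mem h3 using 1
    simp only [add_mul, smul_mul_assoc, mul_assoc, map_add, map_smul]
    module
  obtain ⟨x₀, hx₀⟩ : ∃ v, S τ P c x w₁ v ≠ 0 := by by_contra! h; exact hS1 (LinearMap.ext h)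
  obtain ⟨ψ, hψ⟩ := exists_dual_one' (F := F) hx₀
  have := habs.induction (P.B w₂ w₂ • (LinearMap.mulRight F (S τ P c x w₁) ∘ₗ
    LinearMap.mulLeft F (S τ P c x w₁)) + P.B w₁ w₁ • (LinearMap.mulRight F (S τ P c x w₂) ∘ₗ
    LinearMap.mulLeft F (S τ P c x w₂))) key (ψ.smulRight x₀)
  have := congrArg (fun f : End F W => ψ (f x₀)) this
  simp [hψ] at this
  have h4 := hani (w₂ + ψ (S τ P c x w₂ x₀) • w₁) (by simp [k1, k6]) (by simp [k2, k5]) (by
    simp only [map_add, map_smul, LinearMap.add_apply, LinearMap.smul_apply, h.smul_right,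
      smul_eq_mul, k4, P.B_symm k4]
    linear_combination this)
  have h5 := congrArg (fun y => P.B y w₂) h4
  simp [P.B_symm k4, k7] at h5

omit hirr in
/-- **Slot lemma**, all orthogonal cases. -/
theorem slot_o (habs : AbsIrr τ (C : Set (End F V))) (hn : 3 ≤ finrank F U)
    (h3 : finrank F U = 3 → 5 ≤ Nat.card F)
    (h4 : finrank F U = 4 → P.W2 → ∀ g ∈ P.Iso, InvL τ (C : Set (End F V)) g)
    (hc : ∃ c ∈ C, ¬ τ.flip.InA c) : ∃ d, d ≠ 0 ∧ ∀ a, τ.K a d ∈ C := by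
  by_cases k3 : finrank F U = 3
  · exact slot_o_three h h2 hL habs.irr k3 (h3 k3) hc
  by_cases k4 : finrank F U = 4
  · by_cases hw : P.W2
    · exact slot_o_iso h h2 hL habs.irr hw (h4 k4 hw) hc
    · exact slot_o_minus h h2 hL habs k4.ge hw hc
  · exact slot_o_five h h2 hL habs.irr (by omega) hc

end Main

theorem eq_top_o {C : Subalgebra F (End F U)}
    (hL : ∀ g ∈ P.E, ∀ c ∈ C, (g : End F U) * c * (g.symm : End F U) ∈ C)
    (hc : ∃ c ∈ C, ¬ Scal c) (hn : 3 ≤ finrank F U) (h3 : finrank F U = 3 → 5 ≤ Nat.card F)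
    (h4 : finrank F U = 4 → P.W2 → ∀ (d : U) (k : F) (hk : P.Val d k) (h0 : k ≠ 0), ∀ c ∈ C,
      (reflE hk h0 : End F U) * c * ((reflE hk h0).symm : End F U) ∈ C) : C = ⊤ :=
  have hL' : ∀ g ∈ P.E, InvL (triv F U) (C : Set (End F U)) g := fun g hg => triv_invL (hL g hg)
  triv_eq_top (slot_o h h2 hL' (triv_absIrr _) hn h3
    (fun k4 hw => invL_iso_of_refl hL' fun d k hk h0 => triv_invL (h4 k4 hw d k hk h0))
    (hc.imp fun _ h => ⟨h.1, triv_not_inA h.2⟩))

theorem span_E_o (hn : 3 ≤ finrank F U) (h3 : finrank F U = 3 → 5 ≤ Nat.card F) :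
    Submodule.span F {a : End F U | ∃ g ∈ P.E, a = g} = ⊤ := by
  obtain ⟨e, -, h0, he⟩ := wild_three_of_σ h.σ ⊤ (by rwa [finrank_top])
  obtain ⟨e', he', hee⟩ := exists_partner he h0
  obtain ⟨w, -, k2, k3⟩ := exists_aniso_top h h2 hn he' he (by simp [hee])
  obtain ⟨Q, hQ⟩ := P.val_ex w
  exact span_eq_top_of (eq_top_o h h2 (fun g hg c hc => spanE_inv (E_le_Iso hg) hc)
    (spanE_not_scal he h0 k2 hQ (Or.inl fun e => by
      obtain ⟨a, rfl⟩ := Submodule.mem_span_singleton.1 e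
      exact k3 (by simp [sing_B he]))) hn h3
    fun _ _ d k hk h0 c hc => spanE_inv (reflE_mem_Iso hk h0) hc)

end Cfsg.Agent.Tens.Slot
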