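import Cfsg.Agent.Tens.C4Typ
import Cfsg.Agent.Tens.C4Mat
import Cfsg.Agent.Tens.SlotO

/-!
Maximality of the tensor product subgroups of the classical groups, matrix form.
-/

set_option autoImplicit false
set_option linter.unusedSectionVars false

namespace Cfsg.Agent.Tens

open Module Cfsg.Agent.H7 Cfsg.Agent.H1
open scoped MatrixGroups Matrix

variable {F : Type*} [Field F] {ι : Type} [Fintype ι] [DecidableEq ι]

/-- The polar space of a symmetric form in odd characteristic. -/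
def symP {f : (ι → F) → (ι → F) → F} (hf : Geo.IsSymmetricForm f) (h2 : (2 : F) ≠ 0) :
    Polar F (ι → F) where
  σ := RingHom.id F
  ε := 1
  B := bilinOf hf.bilinear
  Val x c := f x x = 2 * c
  σσ _ := rfl
  εε := Or.inl rfl
  herm x y := by simp [hf.symm y x]
  nondeg y h := by
    by_contra h0
    obtain ⟨x, hx⟩ := (hf.nondegenerate y h0).1
    exact hx (h x)
  val_ex x := ⟨f x x / 2, by field_simp⟩
  val_add {x y c d} hx hy := by
    simp only [hf.bilinear.add_left, hf.bilinear.add_right, hx, hy, hf.symm y x, bilinOf_apply]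
    ring
  val_smul {x c} a hx := by
    simp only [hf.bilinear.smul_left, hf.bilinear.smul_right, hx, RingHom.id_apply]; ring
  val_self hx := by simp [hx, two_mul]
  val_min a := by simpa using hf.bilinear.smul_left 0 0 0

theorem isO_symP {f : (ι → F) → (ι → F) → F} (hf : Geo.IsSymmetricForm f) (h2 : (2 : F) ≠ 0) :
    IsO (symP hf h2) :=
  ⟨fun _ => rfl, rfl, fun c (hc : f 0 0 = 2 * c) => by
    have : f 0 0 = 0 := by simpa using hf.bilinear.smul_left 0 0 0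
    simpa [h2, this] using hc⟩

theorem isO_oP {Q : (ι → F) → F} (hQ : Geo.IsNondegenerateQuadraticForm Q) : IsO (oPolar hQ) :=
  ⟨fun _ => rfl, rfl, oPolar_lam hQ⟩

theorem isSp_spPolar {f : (ι → F) → (ι → F) → F} (hf : Geo.IsSymplecticForm f) :
    IsSp (spPolar hf) := ⟨fun _ => rfl, rfl, fun _ _ => trivial⟩

theorem isUn_unitPowPolar [Fintype F] {q : ℕ} (hF : Fintype.card F = q ^ 2)
    {f : (ι → F) → (ι → F) → F} (hf : Geo.IsUnitaryFormPow q f) : IsUn (unitPowPolar hF hf) :=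
  ⟨unitPowPolar_ne hF hf, rfl⟩

section abstract

variable {V : Type*} [AddCommGroup V] [Module F V] [Finite F] [FiniteDimensional F V]
  {P : Polar F V}

theorem IsSp.ne_one (h : IsSp P) : finrank F V ≠ 1 := by
  intro h1
  obtain ⟨v, hv, h2⟩ := finrank_eq_one_iff'.1 h1
  obtain ⟨y, hy⟩ := P.exists_B_ne hv
  obtain ⟨c, rfl⟩ := h2 y
  simp [Polar.sing_B (h.val v 0)] at hy

theorem IsSp.even (h : IsSp P) : Even (finrank F V) := by
  have : ∀ n (U : Submodule F V), U ⊓ P.perp U = ⊥ → finrank F U = n → Even n := by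
    intro n
    induction n using Nat.strong_induction_on with
    | _ n ih =>
      intro U hU hn
      by_cases h0 : U = ⊥
      · subst h0; simp at hn; simp [← hn]
      obtain ⟨x, hx, hx0⟩ := (Submodule.ne_bot_iff U).1 h0
      obtain ⟨y, hy, hxy⟩ : ∃ y ∈ U, P.B x y ≠ 0 := by
        by_contra! hcon
        exact hx0 (by simpa [hU] using (show x ∈ U ⊓ P.perp U from ⟨hx, hcon⟩))
      have hyx := P.B_ne_symm hxy
      have hxx := Polar.sing_B (h.val x 0)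
      have hyy := Polar.sing_B (h.val y 0)
      have hdec : ∀ z ∈ U, z - (P.B z y / P.B x y) • x - (P.B z x / P.B y x) • y ∈
          U ⊓ P.pp x ⊓ P.pp y := fun z hz =>
        ⟨⟨U.sub_mem (U.sub_mem hz (U.smul_mem _ hx)) (U.smul_mem _ hy), by simp [hxx, hyx]⟩,
          by simp [hyy, hxy]⟩
      have h1 : finrank F ↥(U ⊓ P.pp x) + 1 = finrank F U := by
        have h2 := Polar.finrank_inf_pp_ge (P := P) U x
        have h3 := Submodule.finrank_lt_finrank_of_lt (show U ⊓ P.pp x < U from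
          lt_of_le_of_ne inf_le_left fun e => hyx (e.ge hy).2)
        omega
      have h2 : finrank F ↥(U ⊓ P.pp x ⊓ P.pp y) + 1 = finrank F ↥(U ⊓ P.pp x) := by
        have h2 := Polar.finrank_inf_pp_ge (P := P) (U ⊓ P.pp x) y
        have h3 := Submodule.finrank_lt_finrank_of_lt (show U ⊓ P.pp x ⊓ P.pp y < U ⊓ P.pp x from
          lt_of_le_of_ne inf_le_left fun e => hxy (e.ge ⟨hx, hxx⟩).2)
        omega
      have h3 := ih _ (by omega) (U ⊓ P.pp x ⊓ P.pp y) (by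
        rw [eq_bot_iff, ← hU]
        rintro w ⟨hw, hw'⟩
        refine ⟨hw.1.1, fun z hz => ?_⟩
        have h4 := hw' _ (hdec z hz)
        have h5 : P.B w x = 0 := hw.1.2
        have h6 : P.B w y = 0 := hw.2
        simpa [h5, h6] using h4) rfl
      obtain ⟨k, hk⟩ := h3
      exact ⟨k + 1, by omega⟩
  simpa using this _ ⊤ (by simp [Polar.perp_top]) rfl

theorem slot_o_E (h : IsO P) (h2 : (2 : F) ≠ 0) (hn : 3 ≤ finrank F V)
    (h3 : finrank F V = 3 → 5 ≤ Nat.card F) (h4 : finrank F V = 4 → ¬ P.W2) : Slot P P.E :=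
  fun _ _ h1 hc => Slot.eq_top_o h h2 h1 hc hn h3 fun k hw => absurd hw (h4 k)

theorem slot_o_Iso (h : IsO P) (h2 : (2 : F) ≠ 0) (hn : 3 ≤ finrank F V)
    (h3 : finrank F V = 3 → 5 ≤ Nat.card F) : Slot P P.Iso :=
  fun _ _ h1 hc => Slot.eq_top_o h h2 (fun g hg => h1 g (Polar.E_le_Iso hg)) hc hn h3
    fun _ _ _ _ hk h0 => h1 _ (Polar.reflE_mem_Iso hk h0)

end abstract

theorem card_facts [Fintype F] (hodd : Odd (Fintype.card F)) :
    2 < Nat.card F ∧ (Fintype.card F ≠ 3 → 5 ≤ Nat.card F) := by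
  have := Fintype.one_lt_card (α := F)
  rw [Nat.card_eq_fintype_card]
  obtain ⟨k, hk⟩ := hodd
  omega

theorem scale_W2 {V : Type*} [AddCommGroup V] [Module F V] {P : Polar F V} {c : F} (hc : c ≠ 0)
    (hσ : P.σ c = 1 * c) : (P.scale hc (Or.inl rfl) hσ).W2 ↔ P.W2 := by
  simp [Polar.W2, Polar.scale_val, Polar.scale_B, hc]

theorem plus_of_W2 {f : (ι → F) → (ι → F) → F} (hf : Geo.IsSymmetricForm f) (h2 : (2 : F) ≠ 0)
    (hn : Fintype.card ι = 4) (h : (symP hf h2).W2) : Geo.IsPlusTypeOn (fun v => f v v) ⊤ := by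
  obtain ⟨e, g, he, hg, hge, h0, h1⟩ := h
  refine ⟨(F ∙ e) ⊔ F ∙ g, le_top, fun w hw => ?_, ?_⟩
  · obtain ⟨_, h3, _, h4, rfl⟩ := Submodule.mem_sup.1 hw
    obtain ⟨a, rfl⟩ := Submodule.mem_span_singleton.1 h3
    obtain ⟨b, rfl⟩ := Submodule.mem_span_singleton.1 h4
    exact Polar.sing_B (Polar.sing_add (Polar.sing_smul he a) (Polar.sing_smul hg b)
      (by simp [(symP hf h2).B_symm hge]))
  · rw [Submodule.finrank_sup_span_singleton h1, finrank_span_singleton h0]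
    simp [hn]

variable {n₁ n₂ : ℕ}

theorem maximal_of_abs {G : Subgroup (GL ι F)} {PV : Polar F (ι → F)}
    (hG : ∀ g, g ∈ G ↔ toLE g ∈ PV.E) (e : ι ≃ Fin n₁ × Fin n₂) (P : GL ι F)
    (h : Geo.IsMaximalIn PV.E ((stdTS e P).NN ⊓ PV.E)) :
    Geo.IsMaximalIn G (Geo.tensorProductSubgroup n₁ n₂ e P ⊓ G) :=
  isMaximalIn_of_equiv toLE hG (fun g => by
    rw [Subgroup.mem_inf, Subgroup.mem_inf, hG, mem_tensorProductSubgroup_iff]) h

theorem card_eq (e : ι ≃ Fin n₁ × Fin n₂) : Fintype.card ι = n₁ * n₂ := by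
  simpa using Fintype.card_congr e

theorem nontrivial_fun {n : ℕ} (h : 0 < n) : Nontrivial (Fin n → F) :=
  Module.nontrivial_of_finrank_pos (R := F) (by simpa using h)

theorem exists_compat_std (PU : Polar F (Fin n₁ → F)) (PW : Polar F (Fin n₂ → F))
    (PV : Polar F (ι → F)) (h1 : 0 < n₁) (h2 : 0 < n₂) (hσ : PW.σ = PU.σ)
    (hσV : ∀ a, PV.σ a = PU.σ a) (hε : PV.ε = PU.ε * PW.ε) (e : ι ≃ Fin n₁ × Fin n₂) (P : GL ι F)
    (hT : Geo.IsTensorFormStructure PU.σ (fun x y => PV.B x y) (fun x y => PU.B x y)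
      (fun x y => PW.B x y) e P)
    (hv : ∀ u x, PV.B ((stdTS e P).tp u x) ((stdTS e P).tp u x) = 0 →
      PV.Val ((stdTS e P).tp u x) 0) :
    ∃ (c : F) (hc : c ≠ 0) (hσ : PU.σ c = 1 * c),
      Compat (stdTS e P) (PU.scale hc (Or.inl rfl) hσ) PW PV := by
  obtain ⟨c, hc, hB⟩ := B_tp_of PU PW PV hσ e P hT
  have := nontrivial_fun (F := F) h1
  have := nontrivial_fun (F := F) h2
  exact ⟨c, hc, exists_compat (fun a => by rw [hσ]) hσV hε hc hB hv⟩

variable [Fintype F]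

/-- `GU_{n₁} ⊗ GU_{n₂}` in `SU`. -/
theorem su_tensor_maximal {n q : ℕ} (hF : Fintype.card F = q ^ 2) (h1 : 2 ≤ n₁) (h12 : n₁ < n₂)
    (h4 : 4 ≤ n₂) (hex : ¬ (n₁ = 2 ∧ q = 2)) (e : Fin n ≃ Fin n₁ × Fin n₂) (P : GL (Fin n) F)
    {f₁ : (Fin n₁ → F) → (Fin n₁ → F) → F} {f₂ : (Fin n₂ → F) → (Fin n₂ → F) → F}
    (hf₁ : Geo.IsUnitaryFormPow q f₁) (hf₂ : Geo.IsUnitaryFormPow q f₂)
    (hT : Geo.IsTensorFormStructure (fun x : F => x ^ q) (hermForm n F q) f₁ f₂ e P) :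
    Geo.IsMaximalIn (GU n F q ⊓ Geo.specialLinear (Fin n) F)
      (Geo.tensorProductSubgroup n₁ n₂ e P ⊓ (GU n F q ⊓ Geo.specialLinear (Fin n) F)) := by
  have hn : n = n₁ * n₂ := by simpa using card_eq e
  have hV := isUn_unitPowPolar hF (isUnitaryFormPow_hermForm hF n)
  obtain ⟨c, hc, hσ, h⟩ := exists_compat_std (unitPowPolar hF hf₁) (unitPowPolar hF hf₂) (uStd hF n)
    (by omega) (by omega) rfl (fun _ => rfl) (mul_one _).symm e P hT
    fun _ _ => (Polar.sing_iff_of_unitary hV.σ hV.ε).2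
  refine maximal_of_abs (mem_SU_iff hF (by nlinarith)) e P ?_
  rw [← TS.flip_NN]
  refine h.flip.maximal_su (isUn_unitPowPolar hF hf₂) ((isUn_unitPowPolar hF hf₁).scale hc hσ)
    (by simpa using h4) (by simpa using h12) ?_
  have hq := one_lt_q hF
  rw [Nat.card_eq_fintype_card, hF]
  by_cases h : n₁ = 2
  · have : q ≠ 2 := fun h' => hex ⟨h, h'⟩
    exact Or.inr ⟨by simpa using h1, by nlinarith [show 3 ≤ q by omega]⟩
  · exact Or.inl (by simp; omega)

/-- `Sp_{n₁} ⊗ Sp_{n₂}` in `Ω`. -/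
theorem omega_sp_tensor_maximal {Q : (ι → F) → F} (hQ : Geo.IsNondegenerateQuadraticForm Q)
    (h0 : 0 < n₁) (h12 : n₁ < n₂) (h5 : 5 ≤ n₂) (hex : ¬ (Fintype.card F = 2 ∧ n₁ = 2))
    (e : ι ≃ Fin n₁ × Fin n₂) (P : GL ι F)
    {f₁ : (Fin n₁ → F) → (Fin n₁ → F) → F} {f₂ : (Fin n₂ → F) → (Fin n₂ → F) → F}
    (hf₁ : Geo.IsSymplecticForm f₁) (hf₂ : Geo.IsSymplecticForm f₂)
    (hT : Geo.IsTensorFormStructure id (QuadraticMap.polar Q) f₁ f₂ e P)
    (hpure : ∀ (x₁ : Fin n₁ → F) (x₂ : Fin n₂ → F),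
      Q ((P : Matrix ι ι F) *ᵥ ((fun a : Fin n₁ × Fin n₂ => x₁ a.1 * x₂ a.2) ∘ e)) = 0) :
    Geo.IsMaximalIn (Geo.omegaGL Q) (Geo.tensorProductSubgroup n₁ n₂ e P ⊓ Geo.omegaGL Q) := by
  have h1 : n₁ ≠ 1 := by simpa using (isSp_spPolar hf₁).ne_one
  obtain ⟨c, hc, hσ, h⟩ := exists_compat_std (spPolar hf₁) (spPolar hf₂) (oPolar hQ)
    h0 (by omega) rfl (fun _ => rfl) (by simp [spPolar_ε, oPolar_ε]) e P hT
    fun u x _ => (oPolar_sing hQ).2 (by rw [stdTS_tp]; exact hpure u x)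
  refine maximal_of_abs (mem_omegaGL_iff hQ (by
    rw [card_eq e]; nlinarith [show 2 ≤ n₁ by omega])) e P ?_
  rw [← TS.flip_NN]
  refine h.flip.maximal_sp_sp (isSp_spPolar hf₂) ((isSp_spPolar hf₁).scale hc hσ) (isO_oP hQ)
    (by simpa using h5) (by simpa using h12) (by simp; omega) ?_
  have hq := Fintype.one_lt_card (α := F)
  rw [Nat.card_eq_fintype_card]
  simp only [finrank_fintype_fun_eq_card, Fintype.card_fin]
  omega

/-- `O_{n₁} ⊗ O_{n₂}` in `Ω`, the smaller factor not of type `O_4^+`. -/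
theorem omega_o_tensor_maximal (hodd : Odd (Fintype.card F)) {Q : (ι → F) → F}
    (hQ : Geo.IsNondegenerateQuadraticForm Q) (h1 : 3 ≤ n₁) (h2 : 3 ≤ n₂) (hne : n₁ ≠ n₂)
    (h5 : 5 ≤ n₁ ∨ 5 ≤ n₂) (hex : ¬ (Fintype.card F = 3 ∧ (n₁ = 3 ∨ n₂ = 3)))
    (e : ι ≃ Fin n₁ × Fin n₂) (P : GL ι F)
    {f₁ : (Fin n₁ → F) → (Fin n₁ → F) → F} {f₂ : (Fin n₂ → F) → (Fin n₂ → F) → F}
    (hf₁ : Geo.IsSymmetricForm f₁) (hf₂ : Geo.IsSymmetricForm f₂)
    (hm₁ : n₁ = 4 → ¬ Geo.IsPlusTypeOn (fun v => f₁ v v) ⊤)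
    (hm₂ : n₂ = 4 → ¬ Geo.IsPlusTypeOn (fun v => f₂ v v) ⊤)
    (hT : Geo.IsTensorFormStructure id (QuadraticMap.polar Q) f₁ f₂ e P) :
    Geo.IsMaximalIn (Geo.omegaGL Q) (Geo.tensorProductSubgroup n₁ n₂ e P ⊓ Geo.omegaGL Q) := by
  have htwo := two_ne_zero_of_odd_card hodd
  obtain ⟨-, hq⟩ := card_facts hodd
  obtain ⟨c, hc, hσ, h⟩ := exists_compat_std (symP hf₁ htwo) (symP hf₂ htwo) (oPolar hQ)
    (by omega) (by omega) rfl (fun _ => rfl) (mul_one _).symm e P hT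
    fun u x => ((isO_oP hQ).sing_iff htwo).2
  refine maximal_of_abs (mem_omegaGL_iff hQ (by rw [card_eq e]; nlinarith)) e P ?_
  have hO₁ := isO_scale hc hσ (isO_symP hf₁ htwo)
  have hO₂ := isO_symP hf₂ htwo
  rcases lt_or_gt_of_ne hne with hlt | hlt
  · rw [← TS.flip_NN]
    exact h.flip.maximal_o_o hO₂ hO₁ (isO_oP hQ) htwo (by simp; omega) (by simpa using hlt)
      (by simpa using h1) (slot_o_E hO₁ htwo (by simpa using h1)
        (fun k => hq fun k' => hex ⟨k', Or.inl (by simpa using k)⟩)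
        fun k hw => hm₁ (by simpa using k)
          (plus_of_W2 hf₁ htwo (by simpa using k) ((scale_W2 hc hσ).1 hw)))
  · exact h.maximal_o_o hO₁ hO₂ (isO_oP hQ) htwo (by simp; omega) (by simpa using hlt)
      (by simpa using h2) (slot_o_E hO₂ htwo (by simpa using h2)
        (fun k => hq fun k' => hex ⟨k', Or.inr (by simpa using k)⟩)
        fun k hw => hm₂ (by simpa using k) (plus_of_W2 hf₂ htwo (by simpa using k) hw))

/-- `Sp_{n₁} ⊗ O_{n₂}` in `Sp`. -/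
theorem sp_tensor_maximal (hodd : Odd (Fintype.card F)) {m : ℕ} (hm : 5 ≤ m) (hn₂ : 3 ≤ n₂)
    (hex : ¬ (Fintype.card F = 3 ∧ n₂ = 3)) (e : (Fin m ⊕ Fin m) ≃ Fin n₁ × Fin n₂)
    (P : GL (Fin m ⊕ Fin m) F)
    {f₁ : (Fin n₁ → F) → (Fin n₁ → F) → F} {f₂ : (Fin n₂ → F) → (Fin n₂ → F) → F}
    (hf₁ : Geo.IsSymplecticForm f₁) (hf₂ : Geo.IsSymmetricForm f₂)
    (hT : Geo.IsTensorFormStructure id (sympForm m F) f₁ f₂ e P) :
    Geo.IsMaximalIn (spGL m F) (Geo.tensorProductSubgroup n₁ n₂ e P ⊓ spGL m F) := by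
  have htwo := two_ne_zero_of_odd_card hodd
  obtain ⟨hq2, hq⟩ := card_facts hodd
  have hn : m + m = n₁ * n₂ := by simpa using card_eq e
  have h0 : 0 < n₁ := Nat.pos_of_ne_zero fun h => by simp [h] at hn; omega
  obtain ⟨k, hk⟩ : Even n₁ := by simpa using (isSp_spPolar hf₁).even
  obtain ⟨c, hc, hσ, h⟩ := exists_compat_std (spPolar hf₁) (symP hf₂ htwo) (spStd m F)
    h0 (by omega) rfl (fun _ => rfl) (mul_one _).symm e P hT fun _ _ _ => trivial
  refine maximal_of_abs (mem_spGL_iff m) e P ?_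
  have hS := (isSp_spPolar hf₁).scale hc hσ
  have hO := isO_symP hf₂ htwo
  have hV := isSp_spPolar (isSymplecticForm_sympForm m F)
  by_cases hlt : n₁ < n₂ ∧ 5 ≤ n₂
  · rw [← TS.flip_NN]
    exact h.flip.maximal_o_sp hO hS hV htwo (by simpa using hlt.2) (by simpa using hlt.1)
      (by simp; omega) hq2
  · have h4 : 4 ≤ n₁ := by
      by_contra h4
      obtain rfl : n₁ = 2 := by omega
      omega
    exact h.maximal_sp_o hS hO hV htwo (by simpa using h4) (by simp; omega) (by simpa using hn₂)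
      (slot_o_Iso hO htwo (by simpa using hn₂) fun k => hq fun k' => hex ⟨k', by simpa using k⟩)

end Cfsg.Agent.Tens
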