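import Cfsg.Agent.Tens.Basic

/-!
Tensor structures compatible with forms.
-/

set_option autoImplicit false
set_option linter.unusedSectionVars false

namespace Cfsg.Agent.H7.Polar

open Module

variable {F V : Type*} [Field F] [AddCommGroup V] [Module F V] (P : Polar F V)

/-- The rank one map `x ↦ B x v • u`. -/
def th (u v : V) : End F V := (P.B.flip v).smulRight u

@[simp] theorem th_apply (u v x : V) : P.th u v x = P.B x v • u := rfl

theorem th_mul_th (u v u' v' : V) : P.th u v * P.th u' v' = P.B u' v • P.th u v' :=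
  LinearMap.ext fun x => by simp [smul_smul, mul_comm]

theorem th_add_left (u u' v : V) : P.th (u + u') v = P.th u v + P.th u' v :=
  LinearMap.ext fun x => by simp

theorem th_add_right (u v v' : V) : P.th u (v + v') = P.th u v + P.th u v' :=
  LinearMap.ext fun x => by simp [add_smul]

theorem th_sub_left (u u' v : V) : P.th (u - u') v = P.th u v - P.th u' v :=
  LinearMap.ext fun x => by simp [smul_sub]

theorem th_sub_right (u v v' : V) : P.th u (v - v') = P.th u v - P.th u v' :=
  LinearMap.ext fun x => by simp [sub_smul]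

theorem th_smul_left (c : F) (u v : V) : P.th (c • u) v = c • P.th u v :=
  LinearMap.ext fun x => by simp [smul_smul, mul_comm]

theorem th_smul_right (c : F) (u v : V) : P.th u (c • v) = P.σ c • P.th u v :=
  LinearMap.ext fun x => by simp [smul_smul]

@[simp] theorem th_zero_left (v : V) : P.th 0 v = 0 := LinearMap.ext fun x => by simp

@[simp] theorem th_zero_right (u : V) : P.th u 0 = 0 := LinearMap.ext fun x => by simp

theorem mul_th (a : End F V) (u v : V) : a * P.th u v = P.th (a u) v :=
  LinearMap.ext fun x => by simp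

theorem eichL_eq (u w : V) (c : F) :
    P.eichL u w c = 1 + P.th w u - P.ε • P.th u w - P.σ c • P.th u u :=
  LinearMap.ext fun x => by
    change P.eich u w c x = _
    simp only [eich, LinearMap.sub_apply, LinearMap.add_apply, End.one_apply, th_apply,
      LinearMap.smul_apply]
    module

theorem ext_B {v v' : V} (h : ∀ x, P.B v x = P.B v' x) : v = v' :=
  sub_eq_zero.1 (P.nondeg' fun y => by simp [h])

theorem ext_B' {v v' : V} (h : ∀ x, P.B x v = P.B x v') : v = v' :=
  sub_eq_zero.1 (P.nondeg _ fun y => by simp [h])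

variable [FiniteDimensional F V]

theorem trace_th (u v : V) : LinearMap.trace F V (P.th u v) = P.B u v :=
  LinearMap.trace_smulRight _ _

theorem trace_mul_th (a : End F V) (u v : V) :
    LinearMap.trace F V (a * P.th u v) = P.B (a u) v := by rw [mul_th, trace_th]

variable [Finite F]

theorem exists_adj (b : End F V) (z : V) : ∃ y, ∀ x, P.B y x = P.B z (b x) := by
  obtain ⟨y, hy⟩ := P.exists_B_eq (P.B.flip z ∘ₗ b)
  refine ⟨y, fun x => ?_⟩
  rw [P.herm x y, hy, P.herm (b x) z]
  rfl

/-- The adjoint endomorphism. -/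
noncomputable def adj (b : End F V) : End F V where
  toFun z := (P.exists_adj b z).choose
  map_add' z z' := P.ext_B fun x => by
    have h1 := (P.exists_adj b (z + z')).choose_spec x
    have h2 := (P.exists_adj b z).choose_spec x
    have h3 := (P.exists_adj b z').choose_spec x
    rw [h1, map_add P.B (P.exists_adj b z).choose, LinearMap.add_apply, h2, h3]
    simp
  map_smul' c z := P.ext_B fun x => by
    have h1 := (P.exists_adj b (c • z)).choose_spec x
    have h2 := (P.exists_adj b z).choose_spec x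
    rw [h1, map_smul P.B _ (P.exists_adj b z).choose, LinearMap.smul_apply, h2]
    simp

theorem adj_B (b : End F V) (z x : V) : P.B (P.adj b z) x = P.B z (b x) :=
  (P.exists_adj b z).choose_spec x

theorem B_adj (b : End F V) (z x : V) : P.B z (P.adj b x) = P.B (b z) x := by
  rw [P.herm (P.adj b x) z, adj_B, ← P.herm]

theorem adj_eq_of {b b' : End F V} (h : ∀ z x, P.B (b' z) x = P.B z (b x)) : P.adj b = b' :=
  LinearMap.ext fun z => P.ext_B fun x => by rw [adj_B, h]

@[simp] theorem adj_adj (b : End F V) : P.adj (P.adj b) = b :=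
  P.adj_eq_of fun z x => (P.B_adj b z x).symm

theorem adj_mul (a b : End F V) : P.adj (a * b) = P.adj b * P.adj a :=
  P.adj_eq_of fun z x => by simp [adj_B]

@[simp] theorem adj_add (a b : End F V) : P.adj (a + b) = P.adj a + P.adj b :=
  P.adj_eq_of fun z x => by simp [adj_B]

@[simp] theorem adj_sub (a b : End F V) : P.adj (a - b) = P.adj a - P.adj b :=
  P.adj_eq_of fun z x => by simp [adj_B]

@[simp] theorem adj_neg (a : End F V) : P.adj (-a) = -P.adj a :=
  P.adj_eq_of fun z x => by simp [adj_B]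

@[simp] theorem adj_smul (c : F) (a : End F V) : P.adj (c • a) = P.σ c • P.adj a :=
  P.adj_eq_of fun z x => by simp [adj_B]

@[simp] theorem adj_one : P.adj 1 = 1 := P.adj_eq_of fun z x => rfl

@[simp] theorem adj_zero : P.adj 0 = 0 := P.adj_eq_of fun z x => by simp

theorem adj_th (u v : V) : P.adj (P.th u v) = P.ε • P.th v u :=
  P.adj_eq_of fun z x => by simp [σ_herm]; ring

theorem th_mul (a : End F V) (u v : V) : P.th u v * a = P.th u (P.adj a v) :=
  LinearMap.ext fun x => by simp [B_adj]

variable {P}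

theorem adj_of_iso {g : V ≃ₗ[F] V} (hg : g ∈ P.Iso) : P.adj g = g.symm :=
  P.adj_eq_of fun z x => by
    rw [← Iso.B hg]; simp

end Cfsg.Agent.H7.Polar

namespace Cfsg.Agent.Tens

open Module Cfsg.Agent.H7

variable {F U W V : Type*} [Field F] [AddCommGroup U] [Module F U] [AddCommGroup W] [Module F W]
  [AddCommGroup V] [Module F V]

/-- The form on `V` is the tensor product of the forms on `U` and `W`. -/
structure Compat (τ : TS F U W V) (PU : Polar F U) (PW : Polar F W) (PV : Polar F V) : Prop where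
  σW : ∀ a, PW.σ a = PU.σ a
  σV : ∀ a, PV.σ a = PU.σ a
  εV : PV.ε = PU.ε * PW.ε
  B_tp : ∀ u x u' x', PV.B (τ.tp u x) (τ.tp u' x') = PU.B u u' * PW.B x x'
  val_left : ∀ u x, PU.Val u 0 → PV.Val (τ.tp u x) 0
  val_right : ∀ u x, PW.Val x 0 → PV.Val (τ.tp u x) 0

namespace TS

variable (τ : TS F U W V) (PU : Polar F U)

/-- Contraction with `B · u`. -/
def pB (u : U) : V →ₗ[F] W := τ.pr (PU.B.flip u)

@[simp] theorem pB_tp (u y : U) (x : W) : τ.pB PU u (τ.tp y x) = PU.B y u • x := by simp [pB]

theorem pB_add (u u' : U) (v : V) : τ.pB PU (u + u') v = τ.pB PU u v + τ.pB PU u' v := by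
  simp [pB]

theorem pB_smul (c : F) (u : U) (v : V) : τ.pB PU (c • u) v = PU.σ c • τ.pB PU u v := by
  simp [pB, LinearMap.map_smulₛₗ]

theorem K_th (u y : U) (d : End F W) (v : V) :
    τ.K (PU.th u y) d v = τ.tp u (d (τ.pB PU y v)) := τ.K_smulRight _ _ _ _

theorem map_pB (g : V ≃ₗ[F] V) (u : U) (v : V) : (τ.map g).pB PU u (g v) = τ.pB PU u v :=
  τ.map_pr_apply g _ v

/-- The automorphism lies in the unipotent radical of the stabiliser of `e ⊗ W`. -/
def InQ (e : U) (c : V ≃ₗ[F] V) : Prop :=
  (∀ x, c (τ.tp e x) = τ.tp e x) ∧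
    ∀ y, PU.B y e = 0 → ∀ x, ∃ x', c (τ.tp y x) = τ.tp y x + τ.tp e x'

/-- The elements of `X` in the unipotent radicals attached to the singular points of the first
factor act on the first factor only. -/
def Hpt (X : Subgroup (V ≃ₗ[F] V)) : Prop :=
  ∀ e, PU.Val e 0 → e ≠ 0 → ∀ c ∈ X, τ.InQ PU e c → τ.InA c

variable [Finite F] [FiniteDimensional F U]

theorem eq_zero_of_pB {v : V} (h : ∀ u, τ.pB PU u v = 0) : v = 0 :=
  τ.eq_zero_of_pr fun φ => by
    obtain ⟨y, hy⟩ := PU.exists_B_eq φ
    rw [show φ = PU.B.flip y from LinearMap.ext fun x => (hy x).symm]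
    exact h y

theorem ext_pB {v v' : V} (h : ∀ u, τ.pB PU u v = τ.pB PU u v') : v = v' :=
  sub_eq_zero.1 (τ.eq_zero_of_pB PU fun u => by rw [map_sub, h, sub_self])

theorem exists_eq_tp_of_pB {e : U} {v : V} (h : ∀ u, PU.B e u = 0 → τ.pB PU u v = 0) :
    ∃ x, v = τ.tp e x :=
  τ.exists_eq_tp fun φ hφ => by
    obtain ⟨y, hy⟩ := PU.exists_B_eq φ
    rw [show φ = PU.B.flip y from LinearMap.ext fun x => (hy x).symm]
    exact h y (by rw [hy, hφ])

theorem inA_of_pB {c : End F V} (h : ∀ y u, ∃ s : F, ∀ x, τ.pB PU y (c (τ.tp u x)) = s • x) :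
    τ.InA c :=
  τ.inA_of_sl fun φ u => by
    obtain ⟨y, hy⟩ := PU.exists_B_eq φ
    rw [show φ = PU.B.flip y from LinearMap.ext fun x => (hy x).symm]
    exact h y u

/-- Induction principle for the vectors of `e^⊥ ⊗ W`. -/
theorem perp_induction {e : U} {p : V → Prop} {v : V} (hv : τ.pB PU e v = 0) (h0 : p 0)
    (h : ∀ y x, PU.B y e = 0 → p (τ.tp y x)) (hadd : ∀ v v', p v → p v' → p (v + v')) : p v := by
  by_cases he : e = 0
  · exact τ.induction v h0 (fun y x => h y x (by simp [he])) hadd
  obtain ⟨f, hf⟩ := PU.exists_B_ne he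
  have hf' := PU.B_ne_symm hf
  have key : ∀ v, p (v - τ.tp ((PU.B f e)⁻¹ • f) (τ.pB PU e v)) := fun v => by
    induction v using τ.induction with
    | h0 => simpa using h0
    | h u x =>
      convert h (u - (PU.B u e * (PU.B f e)⁻¹) • f) x (by simp [hf']) using 1
      simp [smul_smul]
    | hadd a b ha hb =>
      convert hadd _ _ ha hb using 1
      simp only [map_add]; abel
  simpa [hv] using key v

end TS

namespace Compat

variable {τ : TS F U W V} {PU : Polar F U} {PW : Polar F W} {PV : Polar F V}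
  (h : Compat τ PU PW PV)
include h

theorem flip : Compat τ.flip PW PU PV where
  σW a := (h.σW a).symm
  σV a := (h.σV a).trans (h.σW a).symm
  εV := by rw [h.εV, mul_comm]
  B_tp u x u' x' := by simp [h.B_tp, mul_comm]
  val_left u x hu := h.val_right _ _ hu
  val_right u x hu := h.val_left _ _ hu

theorem map {g : V ≃ₗ[F] V} (hg : g ∈ PV.Iso) : Compat (τ.map g) PU PW PV where
  σW := h.σW
  σV := h.σV
  εV := h.εV
  B_tp u x u' x' := by simp [Polar.Iso.B hg, h.B_tp]
  val_left u x hu := Polar.Iso.val hg (h.val_left _ _ hu)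
  val_right u x hu := Polar.Iso.val hg (h.val_right _ _ hu)

theorem B_right (v : V) (u : U) (x : W) : PV.B v (τ.tp u x) = PW.B (τ.pB PU u v) x := by
  induction v using τ.induction with
  | h0 => simp
  | h y z => simp [h.B_tp]
  | hadd a b ha hb => simp [ha, hb]

theorem th_tp (u y : U) (x z : W) : PV.th (τ.tp u x) (τ.tp y z) = τ.K (PU.th u y) (PW.th x z) :=
  LinearMap.ext fun v => by simp [TS.K_th, h.B_right]

theorem pB_eq_zero {v : V} {u : U} (hv : ∀ x, PV.B v (τ.tp u x) = 0) : τ.pB PU u v = 0 :=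
  PW.nondeg' fun x => by rw [← h.B_right, hv]

theorem B_K {a a' : End F U} {d d' : End F W} (ha : ∀ y z, PU.B (a y) z = PU.B y (a' z))
    (hd : ∀ y z, PW.B (d y) z = PW.B y (d' z)) (v v' : V) :
    PV.B (τ.K a d v) v' = PV.B v (τ.K a' d' v') := by
  induction v using τ.induction with
  | h0 => simp
  | hadd a b ha hb => simp [ha, hb]
  | h y z =>
    induction v' using τ.induction with
    | h0 => simp
    | hadd a b ha hb => simp only [map_add, ha, hb]
    | h y' z' => simp [h.B_tp, ha, hd]

/-- An isometry fixing `e ⊗ W` pointwise acts trivially on the quotient by `e^⊥ ⊗ W`. -/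
theorem pB_apply {c : V ≃ₗ[F] V} (hc : c ∈ PV.Iso) {e e' : U}
    (he : ∀ x, c (τ.tp e x) = τ.tp e' x) (v : V) : τ.pB PU e' (c v) = τ.pB PU e v :=
  PW.ext_B fun x => by rw [← h.B_right, ← h.B_right, ← he, Polar.Iso.B hc]

variable [Finite F] [FiniteDimensional F U] [FiniteDimensional F W] [FiniteDimensional F V]

theorem adj_K (a : End F U) (d : End F W) : PV.adj (τ.K a d) = τ.K (PU.adj a) (PW.adj d) :=
  PV.adj_eq_of fun z x => h.B_K (PU.adj_B a) (PW.adj_B d) z x

end Compat

end Cfsg.Agent.Tens
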