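import Cfsg.Agent.Tens.Level2

/-!
The space `C` of coefficients: non-scalar unless `Hpt` holds, invariance, the algebra of
multipliers, and the final step (`C` is everything implies that `X` contains the elementary group).
-/

set_option autoImplicit false
set_option linter.unusedSectionVars false

namespace Cfsg.Agent.Tens

open Module Cfsg.Agent.H7

variable {F U W V : Type*} [Field F] [AddCommGroup U] [Module F U] [AddCommGroup W] [Module F W]
  [AddCommGroup V] [Module F V] [Finite F] [FiniteDimensional F U] [FiniteDimensional F W]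

namespace Compat

variable {τ : TS F U W V} {PU : Polar F U} {PW : Polar F W} {PV : Polar F V}
  (h : Compat τ PU PW PV)
include h

/-- The second factor of an isometry whose first factor is an isometry preserves the form. -/
theorem B_of_KE [Nontrivial U] {a : U ≃ₗ[F] U} (ha : a ∈ PU.Iso) {d : W ≃ₗ[F] W}
    (hd : τ.KE a d ∈ PV.Iso) (x y : W) : PW.B (d x) (d y) = PW.B x y := by
  obtain ⟨u, hu⟩ := exists_ne (0 : U)
  obtain ⟨u', hu'⟩ := PU.exists_B_ne hu
  have := Polar.Iso.B hd (τ.tp u x) (τ.tp u' y)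
  simp only [TS.KE_apply, TS.K_tp, h.B_tp, LinearEquiv.coe_coe, Polar.Iso.B ha] at this
  exact mul_left_cancel₀ hu' this

theorem KE_mem_Iso {e : U} (he : PU.Val e 0) (h0 : e ≠ 0) {a : U ≃ₗ[F] U} (ha : a ∈ PU.Iso)
    {d : W ≃ₗ[F] W} (hd : ∀ x y, PW.B (d x) (d y) = PW.B x y) : τ.KE a d ∈ PV.Iso := by
  have hB : ∀ v v', PV.B (τ.KE a d v) (τ.KE a d v') = PV.B v v' := fun v v' => by
    induction v using τ.induction with
    | h0 => simp
    | hadd a b ha hb => simp only [map_add, LinearMap.add_apply, ha, hb]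
    | h y z =>
      induction v' using τ.induction with
      | h0 => simp
      | hadd a b ha hb => simp only [map_add, ha, hb]
      | h y' z' => simp [h.B_tp, Polar.Iso.B ha, hd]
  have hadd : ∀ v v', (∃ c, PV.Val v c ∧ PV.Val (τ.KE a d v) c) →
      (∃ c, PV.Val v' c ∧ PV.Val (τ.KE a d v') c) →
      ∃ c, PV.Val (v + v') c ∧ PV.Val (τ.KE a d (v + v')) c := by
    rintro v v' ⟨c, h1, h2⟩ ⟨c', h1', h2'⟩
    exact ⟨_, PV.val_add h1 h1', by rw [map_add, ← hB]; exact PV.val_add h2 h2'⟩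
  refine Polar.mem_Iso_of hB fun v => ?_
  induction v using τ.induction with
  | h0 => exact ⟨0, Polar.val_zero, by simpa using Polar.val_zero⟩
  | hadd a b ha hb => exact hadd _ _ ha hb
  | h y z =>
    refine Polar.sing_induction_top he h0
      (p := fun y => ∃ c, PV.Val (τ.tp y z) c ∧ PV.Val (τ.KE a d (τ.tp y z)) c)
      (fun u hu => ⟨0, h.val_left _ _ hu, ?_⟩) (fun u v hu hv => ?_) y
    · simpa using h.val_left _ _ (Polar.Iso.val ha hu)
    · simpa only [map_add, LinearMap.add_apply] using hadd _ _ hu hv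

theorem eich_tp {e f : U} (x x' : W) (v : V) :
    PV.eich (τ.tp e x) (τ.tp f x') 0 v = τ.EE PU PW f e (PW.th x' x) v := by
  have : PV.eich (τ.tp e x) (τ.tp f x') 0 v = PV.eichL (τ.tp e x) (τ.tp f x') 0 v := rfl
  rw [this, Polar.eichL_eq, h.th_tp, h.th_tp, TS.EE, Polar.adj_th, h.εV]
  simp [smul_smul]

end Compat

namespace Setup

variable {τ : TS F U W V} {PU : Polar F U} {PW : Polar F W} {PV : Polar F V}
  {X : Subgroup (V ≃ₗ[F] V)} (S : Setup τ PU PW PV X)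

/-- The algebra of two-sided multipliers of `C`. -/
def MM : Subalgebra F (End F W) where
  carrier := {a | ∀ b ∈ S.CC, b * a ∈ S.CC ∧ a * b ∈ S.CC}
  mul_mem' {a a'} h h' b hb :=
    ⟨by rw [← mul_assoc]; exact (h' _ (h b hb).1).1, by rw [mul_assoc]; exact (h _ (h' b hb).2).2⟩
  add_mem' {a a'} h h' b hb :=
    ⟨by rw [mul_add]; exact S.CC.add_mem (h b hb).1 (h' b hb).1,
      by rw [add_mul]; exact S.CC.add_mem (h b hb).2 (h' b hb).2⟩
  algebraMap_mem' c b hb := by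
    simp only [Algebra.algebraMap_eq_smul_one, mul_smul_comm, smul_mul_assoc, mul_one, one_mul]
    exact ⟨S.CC.smul_mem c hb, S.CC.smul_mem c hb⟩

theorem mem_MM {a : End F W} : a ∈ S.MM ↔ ∀ b ∈ S.CC, b * a ∈ S.CC ∧ a * b ∈ S.CC := Iff.rfl

theorem mem_CC_of_MM {a : End F W} (h : a ∈ S.MM) : a ∈ S.CC := by
  simpa using (h 1 S.one_mem_CC).1

theorem adj_mem_MM {a : End F W} (h : a ∈ S.MM) : PW.adj a ∈ S.MM := fun b hb =>
  ⟨by simpa [Polar.adj_mul] using S.adj_mem_CC (h _ (S.adj_mem_CC hb)).2,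
    by simpa [Polar.adj_mul] using S.adj_mem_CC (h _ (S.adj_mem_CC hb)).1⟩

theorem mem_MM_of_CC (hr : PU.Rng) {a : End F W} (h : a ∈ S.CC) : a ∈ S.MM := fun _ hb =>
  ⟨S.mul_mem_CC hr hb h, S.mul_mem_CC hr h hb⟩

theorem mem_MM_of_DD (hr : PU.Reg) {a : End F W} (h : a ∈ τ.DD PU X) : a ∈ S.MM := fun b hb => by
  refine ⟨S.mul_mem_CC_of_DD hr hb h, ?_⟩
  have := S.CC.smul_mem (-PU.ε) (S.adj_mem_CC (S.mul_mem_CC_of_DD hr (S.adj_mem_CC hb) h))
  simpa [Polar.adj_mul, S.adj_of_DD h, smul_smul] using this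

include S in
theorem nontrivial_U : Nontrivial U := by
  obtain ⟨e, -, h0⟩ := S.w2.exists_sing
  exact nontrivial_of_ne e 0 h0

theorem conj_mem_CC {a : U ≃ₗ[F] U} (ha : a ∈ PU.Iso) {d : W ≃ₗ[F] W} (hd : τ.KE a d ∈ X)
    {b : End F W} (hb : b ∈ S.CC) : (d : End F W) * b * (d.symm : End F W) ∈ S.CC := by
  have := S.nontrivial_U
  have hB := S.cp.B_of_KE ha (S.iso hd)
  have hadj : PW.adj ((d : End F W) * b * (d.symm : End F W)) =
      (d : End F W) * PW.adj b * (d.symm : End F W) := PW.adj_eq_of fun z x => by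
    obtain ⟨x, rfl⟩ := d.surjective x
    obtain ⟨z, rfl⟩ := d.surjective z
    simp [hB, PW.adj_B]
  intro e f he hf hfe
  obtain ⟨e, rfl⟩ := a.surjective e
  obtain ⟨f, rfl⟩ := a.surjective f
  rw [Polar.Iso.val_iff ha] at he hf
  rw [Polar.Iso.B ha] at hfe
  refine (hb e f he hf hfe).conj hd fun v => ?_
  simp [TS.EE_apply, TS.QE, hadj, τ.pB_K_iso ha]

theorem conj_mem_MM {a : U ≃ₗ[F] U} (ha : a ∈ PU.Iso) {d : W ≃ₗ[F] W} (hd : τ.KE a d ∈ X)
    {b : End F W} (hb : b ∈ S.MM) : (d : End F W) * b * (d.symm : End F W) ∈ S.MM := by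
  intro c hc
  have hd' : τ.KE a⁻¹ d⁻¹ ∈ X := by
    convert X.inv_mem hd using 1
    rw [eq_inv_iff_mul_eq_one, τ.KE_mul]; simp
  have h1 := hb _ (S.conj_mem_CC (PU.Iso.inv_mem ha) hd' hc)
  have e2 : ∀ x, (d⁻¹).symm x = d x := fun _ => rfl
  constructor
  · convert S.conj_mem_CC ha hd h1.1 using 1
    exact LinearMap.ext fun x => by simp [e2]
  · convert S.conj_mem_CC ha hd h1.2 using 1
    exact LinearMap.ext fun x => by simp [e2]

include S in
theorem conj_mem_DD {a : U ≃ₗ[F] U} (ha : a ∈ PU.Iso) {d : W ≃ₗ[F] W} (hd : τ.KE a d ∈ X)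
    {b : End F W} (hb : b ∈ τ.DD PU X) :
    (d : End F W) * b * (d.symm : End F W) ∈ τ.DD PU X := by
  intro e he
  obtain ⟨e, rfl⟩ := a.surjective e
  rw [Polar.Iso.val_iff ha] at he
  refine (hb e he).conj hd fun v => ?_
  simp [TS.ZZ, τ.pB_K_iso ha]

/-- A central element at one point has its coefficient in `C`. -/
theorem mem_CC_of_ZZ (hr : PU.Reg) {e : U} (he : PU.Val e 0) (h0 : e ≠ 0) {ζ : End F W}
    (h : Has X (τ.ZZ PU e ζ)) : ζ ∈ S.CC := by
  obtain ⟨f, hf, hfe, h1⟩ := S.w2.exists_sing_perp he h0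
  have hef := PU.B_symm hfe
  obtain ⟨e', -, h2, h3⟩ := Polar.exists_partner_perp he hef (Polar.notMem_span_symm h0 h1)
  have h4 : PU.B e e' = PU.ε := by rw [PU.herm e' e, h3]; simp
  have h5 := S.lev_mul_ZZ hf h2 hef (S.lev_one hf h2) h
  have h6 := S.CC.smul_mem PU.ε
    (S.slice_mem_CC hr hf (fun h => h1 (by simp [h])) ((TS.lev_iff hef).1 h5) h2)
  convert h6 using 1
  exact LinearMap.ext fun x => by simp [h3, h4, smul_smul]

/-- If `C` consists of scalars then `Hpt` holds. -/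
theorem hpt_of_scal (hr : PU.Reg) (h : ∀ b ∈ S.CC, Scal b) : τ.Hpt PU X := by
  intro e he h0 c hc hQ
  rcases subsingleton_or_nontrivial W with hW | hW
  · exact τ.inA_of_sl fun φ u => ⟨0, fun _ => Subsingleton.elim _ _⟩
  obtain ⟨x₀, hx₀⟩ := exists_ne (0 : W)
  obtain ⟨ψ, hψ⟩ := exists_dual_one' (F := F) hx₀
  obtain ⟨e', -, he'⟩ := Polar.exists_partner he h0
  have h5 : PU.B e (PU.ε • e') = 1 := by
    rw [Polar.B_smul_right, PU.herm e' e, he']; simp
  let L : V →ₗ[F] W := τ.pB PU (PU.ε • e') ∘ₗ (c.toLinearMap - 1)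
  have hL : ∀ v, L v = τ.pB PU (PU.ε • e') (c v - v) := fun _ => rfl
  have h1 : ∀ v, τ.pB PU e v = 0 → c v = v + τ.tp e (L v) := fun v hv =>
    τ.perp_induction PU hv (p := fun v => c v = v + τ.tp e (L v)) (by simp)
      (fun y x hy => by
        obtain ⟨x', hx'⟩ := hQ.2 y hy x
        rw [hL, hx', add_sub_cancel_left, TS.pB_tp, h5, one_smul])
      fun a b ha hb => by
        simp only [map_add]
        rw [ha, hb]; abel
  have h2 : τ.Lv PU X e L := ⟨fun x => by simp [hL, hQ.1], c, hc, h1⟩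
  obtain ⟨u, hu⟩ := PU.exists_B_eq (ψ ∘ₗ L ∘ₗ τ.tp.flip x₀)
  have h3 : ∀ y, PU.B y e = 0 → ∀ x, L (τ.tp y x) = PU.B y u • x := fun y hy x => by
    obtain ⟨s, hs⟩ := h _ (S.slice_mem_CC hr he h0 h2 hy)
    have h4 : ∀ x, L (τ.tp y x) = s • x := hs
    simp [hu, h4, hψ]
  have hue : PU.B u e = 0 := PU.B_symm (by simp [hu, h2.1])
  obtain ⟨ζ, hζ⟩ := S.exists_QE' he h0 hue (b := 1) (S.iso hc) fun v hv => by
    rw [h1 v hv]
    congr 2
    exact τ.perp_induction PU hv (p := fun v => L v = τ.pB PU u v) (by simp)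
      (fun y x hy => by simp [h3 y hy]) fun a b ha hb => by simp [ha, hb]
  obtain ⟨s, hs⟩ := S.has_QE_one he hue
  obtain ⟨t, ht⟩ := (h _ (S.mem_CC_of_ZZ hr he h0 (ζ := ζ - s • 1)
    (has_of_comp_right ⟨c, hc, hζ⟩ hs fun v => by
      rw [← τ.QE_zero PU PW e 1, τ.QE_comp PW (Polar.sing_B he) (by simp) hue]
      simp))).eq
  refine ⟨1 + PU.th e u - PU.ε • PU.th u e + (t + s) • PU.th e e, LinearMap.ext fun v => ?_⟩
  rw [sub_eq_iff_eq_add.1 ht] at hζ
  simp [hζ, TS.QE, TS.K_th, add_smul]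

theorem exists_not_scal (hr : PU.Reg) (h : ¬ τ.Hpt PU X) : ∃ b ∈ S.CC, ¬ Scal b := by
  by_contra! h1
  exact h (S.hpt_of_scal hr h1)

theorem exists_not_scal_MM (hr : PU.Rng) (h : ¬ τ.Hpt PU X) : ∃ b ∈ S.MM, ¬ Scal b := by
  obtain ⟨b, hb, hb'⟩ := S.exists_not_scal hr.reg h
  exact ⟨b, S.mem_MM_of_CC hr hb, hb'⟩

variable [FiniteDimensional F V]

theorem fullA_of_CC (hC : ∀ x x', PW.th x x' ∈ S.CC)
    (hΛ : ∀ c, PV.Val 0 c → ∃ a, c = a - PV.ε * PV.σ a) {e : U} (he : PU.Val e 0) (h0 : e ≠ 0)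
    {x₀ : W} (hx₀ : x₀ ≠ 0) : PV.FullA X (τ.tp e x₀) := by
  have hp := S.cp.val_left e x₀ he
  have h1 : ∀ f x, PU.Val f 0 → PU.B f e = 0 → PV.EI X (τ.tp e x₀) (τ.tp f x) 0 :=
    fun f x hf hfe => (hC x x₀ f e hf he (PU.B_symm hfe)).congr fun v =>
      (S.cp.eich_tp x₀ x v).symm
  have h2 : ∀ v, τ.pB PU e v = 0 → v ∈ PV.eSub X hp := fun v hv =>
    τ.perp_induction PU hv (p := fun v => v ∈ PV.eSub X hp) (Submodule.zero_mem _)
      (fun y x hy => S.w2.perp_induction he h0 (p := fun y => τ.tp y x ∈ PV.eSub X hp)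
        (fun f hfe hf => ⟨by simp [S.cp.B_tp, hfe], fun a => ⟨0, by
          rw [← map_smul]; exact S.cp.val_left _ _ hf, by
          rw [← map_smul]; exact h1 f _ hf hfe⟩⟩)
        (fun a b ha hb => by simpa using Submodule.add_mem _ ha hb) hy)
      fun a b => Submodule.add_mem _
  obtain ⟨e', he', h3⟩ := Polar.exists_partner he h0
  have h4 : ∀ x, PW.B x x₀ = 0 → τ.tp e' x ∈ PV.eSub X hp := fun x hx => by
    obtain ⟨v, hv, h5, h6, hv0⟩ := S.w2.exists_sing_perp₂ he' (v := e) (by simp [h3])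
    obtain ⟨v', -, h7, h8⟩ := Polar.exists_partner_perp hv h6 (by
      intro h
      obtain ⟨a, rfl⟩ := Submodule.mem_span_singleton.1 h
      have : PU.B e e' ≠ 0 := PU.B_ne_symm (by simp [h3])
      simp [this] at h5
      simp [h5] at hv0)
    obtain ⟨y, hy⟩ := PW.exists_B_ne hx₀
    obtain ⟨g, hg, hg'⟩ := hC x y e' v he' hv h5
    have h9 : τ.tp v' x₀ ∈ PV.eSub X hp := h2 _ (by simp [h7])
    have h10 := Submodule.sub_mem _ (Polar.apply_mem_eSub hp hg (S.iso hg) (by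
      simp [hg', TS.EE_apply, TS.QE, PU.B_symm h6, Polar.adj_th, PW.B_symm hx]) h9) h9
    have h11 := Submodule.add_mem _ h10
      (h2 (PU.ε • τ.tp v (PW.adj (PW.th x y) (PU.B v' e' • x₀))) (by simp [h6]))
    rw [← Submodule.smul_mem_iff _ hy]
    convert h11 using 1
    simp [hg', TS.EE_apply, TS.QE, h8]
    abel
  refine Polar.fullA_of_eSub hp (fun c hc => ?_) fun v hv => ?_
  · obtain ⟨a, rfl⟩ := hΛ c hc
    have h5 := h1 e ((PV.ε * a) • x₀) he (Polar.sing_B he)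
    rw [map_smul, ← zero_add ((PV.ε * a) • τ.tp e x₀), Polar.EI.add_smul_iff] at h5
    exact h5.congr rfl (by simp [← mul_assoc])
  · have hv' : PW.B (τ.pB PU e v) x₀ = 0 := by rw [← S.cp.B_right]; exact hv
    simpa using Submodule.add_mem _ (h2 (v - τ.tp e' (τ.pB PU e v)) (by simp [h3])) (h4 _ hv')

/-- The final step. -/
theorem E_le_of_CC [Nontrivial W] (hC : ∀ x x', PW.th x x' ∈ S.CC)
    (hΛ : ∀ c, PV.Val 0 c → ∃ a, c = a - PV.ε * PV.σ a) : PV.E ≤ X := by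
  obtain ⟨e, he, h0⟩ := S.w2.exists_sing
  obtain ⟨e', he', h3⟩ := Polar.exists_partner he h0
  obtain ⟨x, hx⟩ := exists_ne (0 : W)
  obtain ⟨y, hy⟩ := PW.exists_B_ne hx
  exact Polar.E_le_of_fullA (S.cp.val_left e y he) (S.cp.val_left e' x he')
    (S.fullA_of_CC hC hΛ he h0 fun h => hy (by simp [h]))
    (S.fullA_of_CC hC hΛ he' (fun h => by simp [h] at h3) hx) (by simp [S.cp.B_tp, h3, hy])

theorem E_le_of_MM [Nontrivial W] (hC : S.MM = ⊤)
    (hΛ : ∀ c, PV.Val 0 c → ∃ a, c = a - PV.ε * PV.σ a) : PV.E ≤ X :=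
  S.E_le_of_CC (fun _ _ => S.mem_CC_of_MM (hC ▸ trivial)) hΛ

end Setup

end Cfsg.Agent.Tens
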