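import Cfsg.Agent.Tens.One1

/-!
Groups containing many transvections: the symplectic closure lemma and the unitary final step.
-/

set_option autoImplicit false
set_option linter.unusedSectionVars false

namespace Cfsg.Agent.Tens.One

open Module Cfsg.Agent.H7 Cfsg.Agent.H7.Polar

variable {F U W V : Type*} [Field F] [AddCommGroup U] [Module F U] [AddCommGroup W] [Module F W]
  [AddCommGroup V] [Module F V]

section Closure

variable {P : Polar F V} {X : Subgroup (V ≃ₗ[F] V)}

variable (P X) in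
/-- All transvections with centre `v` lie in `X`. -/
def TV (v : V) : Prop := ∀ t : F, Has X (1 + t • P.th v v : End F V)

theorem TV.smul {v : V} (h : TV P X v) (a : F) : TV P X (a • v) := fun t =>
  (h (t * a * P.σ a)).congr fun x => by simp [smul_smul]; ring_nf

theorem TV.neg {v : V} (h : TV P X v) : TV P X (-v) := by simpa using h.smul (-1)

theorem TV.zero : TV P X 0 := fun _ => Has.id.congr fun x => by simp

variable (iso : X ≤ P.Iso)
include iso

theorem TV.add {u v : V} (hu : TV P X u) (hv : TV P X v) (h : P.B u v ≠ 0) : TV P X (u + v) := by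
  obtain ⟨g, hg, h1⟩ := hv (P.B u v)⁻¹
  have h2 : g u = u + v := by simp [h1, smul_smul, h]
  exact fun t => (hu t).conj hg fun x => by simp [← h2, Iso.B (iso hg)]

variable (hP : IsSp P)
include hP

theorem B_anti (x y : V) : P.B y x = -P.B x y := by rw [P.herm x y, hP.σ, hP.ε, neg_one_mul]

theorem TV.add3 {u v z : V} (hu : TV P X u) (hv : TV P X v) (hz : TV P X z) (h1 : P.B u z ≠ 0)
    (h2 : P.B v z ≠ 0) (h3 : P.B (u + v) z ≠ 0) : TV P X (u + v) := by
  by_cases h : P.B u v = 0
  · have := (hu.add iso hz.neg (by simpa using h1)).add iso (hz.add iso hv (P.B_ne_symm h2))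
      (by simpa [h, sing_B (hP.val z 0), B_anti iso hP v z] using h3)
    simpa using this
  · exact hu.add iso hv h

variable [Finite F] [FiniteDimensional F V]

/-- **Closure lemma.** -/
theorem E_le_of_TV (h2 : (2 : F) ≠ 0) {z : V} (hz : TV P X z) (hz0 : z ≠ 0) {Q : Set V}
    (hQ : Submodule.span F Q = ⊤)
    (hnb : ∀ y ∈ Q, TV P X y ∧ (y ≠ 0 → ∃ v, TV P X v ∧ P.B v z ≠ 0 ∧ P.B y v ≠ 0)) : P.E ≤ X := by
  let M : Submodule F V :=
    { carrier := {s | ∀ v, TV P X v → P.B v z ≠ 0 → P.B (s + v) z ≠ 0 → TV P X (s + v)}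
      zero_mem' := fun v hv _ _ => by simpa using hv
      add_mem' := fun {s s'} hs hs' v hv h1 h3 => by
        by_cases h4 : P.B (s' + v) z = 0
        swap
        · rw [add_assoc] at h3 ⊢
          exact hs _ (hs' v hv h1 h4) h4 h3
        by_cases h5 : P.B (s + v) z = 0
        swap
        · rw [add_comm s s', add_assoc] at h3 ⊢
          exact hs' _ (hs v hv h1 h5) h5 h3
        simp only [map_add, LinearMap.add_apply] at h4 h5
        have h6 : P.B (s + -v) z ≠ 0 := fun e => by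
          simp only [map_add, map_neg, LinearMap.add_apply, LinearMap.neg_apply] at e
          exact mul_ne_zero h2 h1 (by linear_combination h5 - e)
        have h7 : P.B (s' + (2 : F) • v) z ≠ 0 := fun e => by
          simp only [map_add, map_smul, LinearMap.add_apply, LinearMap.smul_apply,
            smul_eq_mul] at e
          exact h1 (by linear_combination e - h4)
        have h8 : s + -v + (s' + (2 : F) • v) = s + s' + v := by module
        rw [← h8] at h3 ⊢
        exact (hs _ hv.neg (by simpa using h1) h6).add3 iso hP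
          (hs' _ (hv.smul 2) (by simpa [h2] using h1) h7) hz h6 h7 h3
      smul_mem' := fun c s hs v hv h1 h3 => by
        by_cases hc : c = 0
        · simpa [hc] using hv
        have h4 : c • s + v = c • (s + c⁻¹ • v) := by simp [smul_smul, hc]
        rw [h4] at h3 ⊢
        refine (hs _ (hv.smul _) (by simpa [hc] using h1) fun e => h3 ?_).smul c
        rw [map_smul, LinearMap.smul_apply, e, smul_zero] }
  have h1 : ∀ v, TV P X v → P.B v z ≠ 0 → v ∈ M := fun v hv h1 v' hv' h3 h4 =>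
    hv.add3 iso hP hv' hz h1 h3 h4
  have h3 : M = ⊤ := by
    rw [eq_top_iff, ← hQ, Submodule.span_le]
    intro y hy
    by_cases h0 : y = 0
    · simp [h0]
    by_cases h4 : P.B y z = 0
    · obtain ⟨v, a1, a2, a3⟩ := (hnb y hy).2 h0
      simpa using M.sub_mem (h1 _ ((hnb y hy).1.add iso a1 a3) (by simpa [h4] using a2))
        (h1 v a1 a2)
    · exact h1 y (hnb y hy).1 h4
  obtain ⟨v₀, a1, a2⟩ : ∃ v, TV P X v ∧ P.B v z ≠ 0 := by
    by_contra! hcon
    obtain ⟨y, hy⟩ := P.exists_B_ne hz0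
    have : Submodule.span F Q ≤ P.pp z := Submodule.span_le.2 fun y hy => hcon y (hnb y hy).1
    exact P.B_ne_symm hy (this (hQ ▸ trivial : y ∈ Submodule.span F Q))
  have h4 : ∀ s, P.B s z ≠ 0 → TV P X s := fun s hs => by
    simpa using (h3 ▸ trivial : s - v₀ ∈ M) v₀ a1 a2 (by simpa using hs)
  have h5 : ∀ w, TV P X w := fun w => by
    by_cases h0 : w = 0
    · exact h0 ▸ TV.zero
    by_cases h6 : P.B w z = 0
    swap
    · exact h4 w h6
    obtain ⟨y, hy⟩ := P.exists_B_ne h0
    obtain ⟨v, -, b1, b2⟩ := exists_both_ne (⊤ : Submodule F V) (P.B.flip z).toAddMonoidHom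
      (P.B.flip w).toAddMonoidHom (x := v₀) (y := y) trivial trivial a2 (P.B_ne_symm hy)
    replace b1 : P.B v z ≠ 0 := b1
    replace b2 : P.B v w ≠ 0 := b2
    simpa using (h4 (w + v) (by simpa [h6] using b1)).add iso (h4 v b1).neg
      (by simpa [sing_B (hP.val v 0)] using P.B_ne_symm b2)
  refine E_le_of_EI fun u w c _ hw _ =>
    (((h5 (u + w) 1).comp (h5 w (-1))).comp (h5 u (-1 - c))).congr fun x => ?_
  simp only [eich, LinearMap.add_apply, LinearMap.smul_apply, End.one_apply, th_apply, map_add,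
    map_smul, hw, P.B_symm hw, sing_B (hP.val u 0), sing_B (hP.val w 0), hP.σ, hP.ε, smul_eq_mul]
  module

end Closure

variable [Finite F] [FiniteDimensional F U] [FiniteDimensional F W] [FiniteDimensional F V]
  {τ : TS F U W V} {PU : Polar F U} {PW : Polar F W} {PV : Polar F V}
  {X : Subgroup (V ≃ₗ[F] V)}

section FinT

variable (cp : Compat τ PU PW PV) (iso : X ≤ PV.Iso) (hU : IsUn PU) (hV : IsUn PV)
  (hk : 3 ≤ finrank F U)
include cp hU hV hk

theorem has_of_perp {x : W} (hx : PW.B x x = 0)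
    (h : ∀ u c, PU.Val u 0 → PU.Val 0 c → Has X (1 + c • τ.K (PU.th u u) (PW.th x x) : End F V))
    {u w : U} (huw : PU.B u w = 0) :
    Has X (1 + τ.K (PU.th u w - PU.th w u) (PW.th x x) : End F V) := by
  let N : Submodule F (End F U) :=
    { carrier := {s | ∀ μ : F,
        Has X (1 + τ.K (μ • s - PU.σ μ • PU.adj s) (PW.th x x) : End F V)}
      zero_mem' := fun μ => Has.id.congr fun v => by simp
      add_mem' := fun {s s'} hs hs' μ => ((hs μ).comp (hs' μ)).congr fun v => by
        simp only [LinearMap.add_apply, End.one_apply, map_add, TS.K_K, th_mul_th, hx, zero_smul,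
          map_zero, LinearMap.zero_apply, adj_add, smul_add, map_sub, LinearMap.sub_apply]
        abel
      smul_mem' := fun c s hs μ => by simpa [smul_smul] using hs (μ * c) }
  have := th_mem_of_diag (fun z => Slot.scal_of_unitary hU.σ hU.ε (by omega)) (N := N)
    (fun u hu μ => by
      have := h u _ hu (PU.val_min μ)
      simpa [adj_th, hU.ε, sub_smul] using this) huw 1
  simpa [adj_th, hU.ε] using this

theorem εW : PW.ε = 1 := by simpa [hU.ε, hV.ε] using cp.εV.symm

include iso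

/-- **The final step** for a unitary first factor. -/
theorem finT {XX : Set W} (hXX : ∀ x ∈ XX, PW.B x x = 0 ∧
      ∀ u c, PU.Val u 0 → PU.Val 0 c → Has X (1 + c • τ.K (PU.th u u) (PW.th x x) : End F V))
    {x₀ : W} (hx₀ : x₀ ∈ XX) (h0 : x₀ ≠ 0)
    (hsp : ∀ M : Submodule F W, (∀ x ∈ XX, PW.B x x₀ ≠ 0 → x ∈ M) → M = ⊤)
    {e : U} (he : PU.Val e 0) (he0 : e ≠ 0) (hp : PV.Val (τ.tp e x₀) 0) :
    (∀ w x, PU.B w e = 0 → τ.tp w x ∈ PV.eSub X hp) ∧ (∀ u, τ.tp u x₀ ∈ PV.eSub X hp) ∧
      ∀ c, PV.Val 0 c → PV.EI X (τ.tp e x₀) 0 c := by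
  have hε := εW cp hU hV hk
  have hxx := (hXX x₀ hx₀).1
  have hee := sing_B he
  have key : ∀ T : End F V, Has X (1 + T : End F V) → T (τ.tp e x₀) = 0 →
      ∀ v ∈ PV.eSub X hp, T v ∈ PV.eSub X hp := by
    rintro T ⟨g, hg, h1⟩ h2 v hv
    simpa [h1] using Submodule.sub_mem _ (apply_mem_eSub hp hg (iso hg) (by simp [h1, h2]) hv) hv
  have h1 : ∀ w, PU.B w e = 0 → τ.tp w x₀ ∈ PV.eSub X hp := fun w hw =>
    ⟨by simp [cp.B_tp, hw], fun a => ⟨0, (sing_iff_of_unitary hV.σ hV.ε).2 (by simp [cp.B_tp, hxx]),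
      (has_of_perp cp hU hV hk hxx (hXX x₀ hx₀).2 (u := a • w) (w := e) (by simp [hw])).congr
        fun v => by
          rw [← LinearMap.smul_apply, ← map_smul, cp.eich_tp]
          simp [TS.EE, adj_th, hε, hU.ε, sub_eq_add_neg, add_assoc]⟩⟩
  obtain ⟨f, hf, hfe⟩ := exists_partner he he0
  have hsp' : ∀ w : U, (∀ x ∈ XX, PW.B x₀ x ≠ 0 → τ.tp w x ∈ PV.eSub X hp) →
      ∀ x, τ.tp w x ∈ PV.eSub X hp := fun w hw x =>
    (hsp ((PV.eSub X hp).comap (τ.tp w)) (fun x hx h => hw x hx (PW.B_ne_symm h)) ▸ trivial :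
      x ∈ (PV.eSub X hp).comap (τ.tp w))
  have h2 : ∀ x, τ.tp e x ∈ PV.eSub X hp := hsp' e fun x hx h => by
    obtain ⟨w, a1, -, a2⟩ := IsUn.exists_aniso hU hk he hf hfe
    have := key _ (has_of_perp cp hU hV hk (hXX x hx).1 (hXX x hx).2 (PU.B_symm a1))
      (by simp [hee, PU.B_symm a1]) _ (h1 w a1)
    simpa [a1, Submodule.smul_mem_iff, a2, h] using this
  have h3 : τ.tp f x₀ ∈ PV.eSub X hp := by
    obtain ⟨x, hx, h⟩ : ∃ x ∈ XX, PW.B x x₀ ≠ 0 := by
      by_contra! hcon
      obtain ⟨y, hy⟩ := PW.exists_B_ne h0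
      exact PW.B_ne_symm hy
        (hsp (PW.pp x₀) (fun x hx h => absurd (hcon x hx) h) ▸ trivial : y ∈ PW.pp x₀)
    obtain ⟨c, hc0, hc⟩ := exists_lam_ne_of_unitary hU.σ hU.ε
    have := key _ ((hXX x₀ hx₀).2 f c hf hc) (by simp [hxx]) _ (h2 x)
    have h4 : PU.B e f ≠ 0 := PU.B_ne_symm (by simp [hfe])
    simpa [Submodule.smul_mem_iff, hc0, h, h4] using this
  refine ⟨fun w x hw => hsp' w (fun x hx h => ?_) x, fun u => ?_, fun c hc => ?_⟩
  · have := Submodule.sub_mem _ (Submodule.smul_mem _ (PW.B x₀ x * PU.B f w) (h2 x))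
      (key _ (has_of_perp cp hU hV hk (hXX x hx).1 (hXX x hx).2 (PU.B_symm hw))
        (by simp [hee, PU.B_symm hw]) _ h3)
    rw [← Submodule.smul_mem_iff _ h]
    convert this using 1
    simp only [TS.K_tp, LinearMap.sub_apply, th_apply, hfe, map_sub, map_smul, LinearMap.smul_apply]
    module
  · simpa using Submodule.add_mem _ (h1 (u - PU.B u e • f) (by simp [hfe]))
      (Submodule.smul_mem _ (PU.B u e) h3)
  · have h4 := lam_σ hc
    rw [hV.ε, one_mul] at h4
    refine ((hXX x₀ hx₀).2 e c he ((val_iff_of_unitary hU.σ hU.ε).2 (by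
      simp [← cp.σV, h4]))).congr fun v => ?_
    simp [← cp.th_tp, eich, h4, smul_smul]

end FinT

end Cfsg.Agent.Tens.One
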