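import Cfsg.Agent.Tens.One2
import Cfsg.Agent.Tens.C4Fin

/-!
The tensor product subgroups `Sp_2 ⊗ O_3` of `Sp_6` and `GU_2 ⊗ GU_3` of `SU_6`.
-/

set_option autoImplicit false
set_option linter.unusedSectionVars false

namespace Cfsg.Agent.Tens.One

open Module Cfsg.Agent.H7 Cfsg.Agent.H7.Polar Cfsg.Agent.H1
open scoped MatrixGroups Matrix

section abstract

variable {F U W V : Type*} [Field F] [AddCommGroup U] [Module F U] [AddCommGroup W] [Module F W]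
  [AddCommGroup V] [Module F V]
  [Finite F] [FiniteDimensional F U] [FiniteDimensional F W] [FiniteDimensional F V]
  {τ : TS F U W V} {PU : Polar F U} {PW : Polar F W} {PV : Polar F V}
  {X : Subgroup (V ≃ₗ[F] V)}

theorem mem_span_of_two (hk : finrank F U = 2) {e y : U} (he : PU.Val e 0) (h0 : e ≠ 0)
    (hy : PU.B y e = 0) : y ∈ F ∙ e := by
  have h1 := PU.finrank_perp (F ∙ e)
  rw [finrank_span_singleton h0, hk, perp_span_singleton] at h1
  exact (Submodule.eq_of_le_of_finrank_eq (S₁ := F ∙ e) (S₂ := PU.pp e) (by simpa using sing_B he)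
    (by rw [finrank_span_singleton h0]; omega)).ge hy

/-- Step C for `Sp_2 ⊗ O_3`. -/
theorem stepC_sp_o (S : Set0 τ PU PW PV X) (hU : IsSp PU) (hW : IsO PW) (hV : IsSp PV)
    (h2 : (2 : F) ≠ 0) (hk : finrank F U = 2) (hj : 3 ≤ finrank F W) (hF : 5 ≤ Nat.card F)
    (hR : ∀ d ∈ PW.E, τ.KE 1 d ∈ X) (h : ¬ τ.Hpt PU X) : PV.E ≤ X := by
  obtain ⟨e₀, he₀, h0⟩ := exists_sing_of_wild (wild_one_of_sp fun x => hU.val x 0) (by omega)
  obtain ⟨x₀, hx₀, h0'⟩ := exists_sing_of_wild (wild_three_of_σ hW.σ) hj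
  let D : Submodule F (End F W) :=
    { τ.DD PU X with smul_mem' := fun c _ h => smul_mem_DD (nrm_of_two hU.σ h2) (hU.σ c) h }
  have h1 : ∀ e x, PW.Val x 0 → TV PV X (τ.tp e x) := fun e x hx t => by
    have h3 : PW.th x x ∈ D := Slot.th_mem_of_selfAdj hW h2 (Or.inr ⟨hj, hF⟩)
      (fun g hg c hc => conj_mem_DD (hR g hg) hc)
      (fun c hc => by simpa [hU.ε] using S.adj_of_DD he₀ h0 hc)
      (S.exists_DD (IsSp.trans hU) (IsSp.rk hk) h) hx
    simpa [S.cp.th_tp] using (τ.mem_DD' PU X).1 (D.smul_mem t h3) e (hU.val _ _)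
  refine E_le_of_TV S.iso hV h2 (h1 e₀ x₀ hx₀) (τ.tp_ne_zero h0 h0')
    (Q := {v | ∃ e x, PW.Val x 0 ∧ v = τ.tp e x}) (eq_top_iff.2 fun v _ => ?_) ?_
  · exact τ.induction v (Submodule.zero_mem _) (fun u x => sing_induction_top hx₀ h0'
      (p := fun x => τ.tp u x ∈ Submodule.span F {v | ∃ e x, PW.Val x 0 ∧ v = τ.tp e x})
      (fun y hy => Submodule.subset_span ⟨u, y, hy, rfl⟩)
      (fun a b ha hb => by simpa using Submodule.add_mem _ ha hb) x) fun _ _ => Submodule.add_mem _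
  · rintro _ ⟨e, x, hx, rfl⟩
    refine ⟨h1 e x hx, fun hne => ?_⟩
    obtain ⟨s, -, a1, a2⟩ := Slot.both_of_lam ⟨1, one_ne_zero, hU.val _ _⟩ e e₀ (hU.val _ _) he₀
      (fun e => hne (by simp [e])) h0
    obtain ⟨s', b0, b1, b2⟩ := Slot.both_o hW h2 hj x x₀ hx hx₀ (fun e => hne (by simp [e])) h0'
    exact ⟨_, h1 s s' b0, by simp [S.cp.B_tp, PU.B_ne_symm a2, PW.B_ne_symm b2],
      by simp [S.cp.B_tp, a1, b1]⟩

/-- Step C for `GU_3 ⊗ GU_2`. -/
theorem stepC_su (S : Set0 τ PU PW PV X) (hU : IsUn PU) (hW : IsUn PW) (hV : IsUn PV)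
    (hk : finrank F U = 3) (hj : finrank F W = 2) (hF : 4 < Nat.card F)
    (hR : ∀ d ∈ PW.E, τ.KE 1 d ∈ X) (h : ¬ τ.Hpt PU X) : PV.E ≤ X := by
  obtain ⟨e₀, he₀, h0⟩ := exists_sing_of_wild (wild_two_of_unitary hU.σ hU.ε) (by omega)
  have hD : ∀ t, PW.σ t = t → ∀ c ∈ τ.DD PU X, t • c ∈ τ.DD PU X := fun t ht c hc =>
    smul_mem_DD (IsUn.nrm hU) (by rwa [← S.cp.σW]) hc
  have hΛ := exists_lam_ne_of_unitary hW.σ hW.ε
  obtain ⟨ζ, hζ, hζ'⟩ := S.exists_DD (IsUn.trans hU hk.ge) (IsUn.rk hU hk) h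
  obtain ⟨x, hx, hβ⟩ : ∃ x, PW.Val x 0 ∧ PW.B (ζ x) x ≠ 0 := by
    by_contra! hcon
    exact hζ' (Slot.scal_of_unitary hW.σ hW.ε hj.ge hcon)
  have hx0 : x ≠ 0 := fun e => hβ (by simp [e])
  have h1 : PW.B (ζ x) x • PW.th x x ∈ τ.DD PU X := by
    obtain ⟨κ, t, a1, a2, a3, a4, a5, a6⟩ := IsUn.two hW hF
    have := extract (τ.DD PU X) PW.σ hD a2 (lam_sq a1) a3 a4 a5 hζ
      (conj_mem_DD (hR _ (unip_th_mem hx a1)) hζ) (conj_mem_DD (hR _ (unip_th_mem hx a6)) hζ)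
    rwa [mul_assoc, mul_th, th_mul_th] at this
  have h2 : PW.σ (PW.B (ζ x) x) = -PW.B (ζ x) x := by
    rw [σ_herm, hW.ε, one_mul, ← adj_B, S.adj_of_DD he₀ h0 hζ, hU.ε]; simp
  have h3 : ∀ y, PW.Val y 0 → ∀ c, PU.Val 0 c → c • PW.th y y ∈ τ.DD PU X := by
    intro y hy c hc
    by_cases hy0 : y = 0
    · simp [hy0]
    obtain ⟨g, hg, a, ha, hga⟩ := (Slot.both_of_lam hΛ).exists_move hx hx0 hy hy0
    have h4 := lam_σ hc
    rw [hU.ε, one_mul, ← S.cp.σW] at h4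
    have h5 : PW.σ a ≠ 0 := by simpa using ha
    have := hD (c / (PW.B (ζ x) x * (a * PW.σ a))) (by
      simp only [map_div₀, map_mul, h2, h4, σσ]; field_simp) _ (conj_mem_DD (hR g hg) h1)
    rw [mul_smul_comm, smul_mul_assoc, Slot.conj_th (E_le_Iso hg), hga, th_smul_left,
      th_smul_right, smul_smul, smul_smul, smul_smul] at this
    convert this using 2
    field_simp
  have key : ∀ e y, PU.Val e 0 → e ≠ 0 → PW.Val y 0 → y ≠ 0 → PV.FullA X (τ.tp e y) := by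
    intro e y he he0 hy hy0
    have hp := S.cp.val_left e y he
    obtain ⟨a1, a2, a3⟩ := finT S.cp S.iso hU hV hk.ge (XX := {y | PW.Val y 0})
      (fun y hy => ⟨sing_B hy, fun u c hu hc => by
        simpa using (τ.mem_DD' PU X).1 (h3 y hy c hc) u hu⟩) hy hy0
      (fun M hM => eq_top_of_opp hΛ hy hy0 hM) he he0 hp
    refine fullA_of_eSub hp a3 fun v hv => ?_
    obtain ⟨f, -, hf⟩ := exists_partner he he0
    obtain ⟨a, ha⟩ := Submodule.mem_span_singleton.1 (mem_span_of_two hj hy hy0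
      (y := τ.pB PU e v) (by rw [← S.cp.B_right]; exact hv))
    have := τ.perp_induction PU (e := e) (v := v - τ.tp f (τ.pB PU e v)) (by simp [hf])
      (p := fun v => v ∈ PV.eSub X hp) (Submodule.zero_mem _) a1 fun _ _ => Submodule.add_mem _
    rw [← ha, map_smul] at this
    simpa using Submodule.add_mem _ this (Submodule.smul_mem _ a (a2 f))
  obtain ⟨f, hf, hfe⟩ := exists_partner he₀ h0
  obtain ⟨y, hy, hyx⟩ := exists_partner hx hx0
  exact E_le_of_fullA (S.cp.val_left e₀ x he₀) (S.cp.val_left f y hf) (key _ _ he₀ h0 hx hx0)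
    (key _ _ hf (fun e => by simp [e] at hfe) hy fun e => by simp [e] at hyx)
    (by simp [S.cp.B_tp, hfe, hyx])

theorem exists_E_notMem (h : Compat τ PU PW PV) (hU : ∃ e, PU.Val e 0 ∧ e ≠ 0)
    (hW : ∃ e, PW.Val e 0 ∧ e ≠ 0) (hΛ : ∃ c, c ≠ 0 ∧ PV.Val 0 c) : ∃ g ∈ PV.E, g ∉ τ.NN := by
  obtain ⟨e, he, he0⟩ := hU
  obtain ⟨x, hx, hx0⟩ := hW
  obtain ⟨c, hc0, hc⟩ := hΛ
  obtain ⟨f, hf, hfe⟩ := exists_partner he he0
  obtain ⟨y, hy, hyx⟩ := exists_partner hx hx0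
  refine ⟨_, unip_th_mem (h.val_left e x he) hc, ?_⟩
  rintro ⟨a, d, had⟩
  have h5 := LinearEquiv.congr_fun had (τ.tp f y)
  simp only [unip_apply, th_apply, h.B_tp, hfe, hyx, TS.KE_apply, TS.K_tp, LinearEquiv.coe_coe,
    mul_one, one_smul] at h5
  have h6 := congrArg (fun v => PW.B (τ.pB PU e v) x) h5
  have h7 := congrArg (τ.pB PU f) h5
  have h8 : PU.B e f ≠ 0 := PU.B_ne_symm (by simp [hfe])
  simp only [map_add, map_smul, TS.pB_tp, hfe, sing_B he, sing_B hf, one_smul, zero_smul,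
    smul_zero, add_zero, zero_add, hyx, LinearMap.smul_apply, smul_eq_mul] at h6 h7
  have h9 := congrArg (fun w => PW.B w x) h7
  simp only [map_smul, LinearMap.smul_apply, sing_B hx, mul_zero, smul_eq_mul] at h9
  have h10 : PU.B (a f) f = 0 :=
    (mul_eq_zero.1 h9.symm).resolve_right fun e => by simp [e] at h6
  simp [h10, hc0, h8, hx0] at h7

theorem not_swap_two_three (τ : TS F U W V) (h2 : (2 : F) ≠ 0) (hk : finrank F U = 2)
    (hj : finrank F W = 3) (g : V ≃ₗ[F] V) : ¬ ∀ a, τ.flip.InA ((τ.map g).K a 1) := by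
  intro h
  have : Nontrivial U := Module.nontrivial_of_finrank_pos (R := F) (by omega)
  obtain ⟨u, hu⟩ := exists_ne (0 : U)
  obtain ⟨φ, hφ⟩ := exists_dual_one' (F := F) hu
  obtain ⟨s, hs⟩ := FiniteField.exists_nonsquare (F := F) (fun e => h2 (by
    exact_mod_cast (ringChar.spec F 2).2 (by rw [e])))
  obtain ⟨d, hd⟩ := τ.flip_inA.1 (h (LinearMap.transvection φ ((s - 1) • u)))
  have := congrArg LinearMap.det hd
  rw [TS.det_K, TS.det_K, LinearMap.transvection.det, hk, hj] at this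
  have hs0 : s ≠ 0 := fun e => hs (by simp [e])
  refine hs ⟨LinearMap.det d / s, ?_⟩
  simp [hφ] at this
  field_simp
  linear_combination this

theorem maximal0 (h : Compat τ PU PW PV) [Nontrivial W] (hne : ∃ g ∈ PV.E, g ∉ τ.NN)
    (hL : ∀ g ∈ PU.E, τ.KL g ∈ PV.E) (hR : ∀ d ∈ PW.E, τ.KE 1 d ∈ PV.E)
    (hrig : Rigid τ PU PV) (hswap : ∀ g ∈ PV.Iso, ¬ ∀ a, τ.flip.InA ((τ.map g).K a 1))
    (hC : ∀ X, Set0 τ PU PW PV X → (∀ d ∈ PW.E, τ.KE 1 d ∈ X) → ¬ τ.Hpt PU X → PV.E ≤ X) :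
    Geo.IsMaximalIn PV.E (τ.NN ⊓ PV.E) := by
  obtain ⟨g₀, h1, h2⟩ := hne
  refine isMaximalIn_of inf_le_right ⟨g₀, h1, fun h => h2 h.1⟩ fun X hHX hXE g hg hgH => ?_
  have S : Set0 τ PU PW PV X := ⟨h, hXE.trans E_le_Iso, fun a ha => hHX ⟨⟨a, 1, rfl⟩, hL a ha⟩⟩
  by_cases H : τ.Hpt PU X
  · exact absurd ⟨τ.exists_eq_KE ((hrig X S.iso S.hL H g hg).resolve_right (hswap g (S.iso hg))),
      hXE hg⟩ hgH
  · exact hC X S (fun d hd => hHX ⟨⟨1, d, rfl⟩, hR d hd⟩) H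

theorem maximal_sp_two_three (h : Compat τ PU PW PV) (hU : IsSp PU) (hW : IsO PW) (hV : IsSp PV)
    (h2 : (2 : F) ≠ 0) (hk : finrank F U = 2) (hj : finrank F W = 3) (hF : 5 ≤ Nat.card F) :
    Geo.IsMaximalIn PV.E (τ.NN ⊓ PV.E) := by
  have : Nontrivial W := Module.nontrivial_of_finrank_pos (R := F) (by omega)
  have a1 := exists_sing_of_wild (wild_one_of_sp fun x => hU.val x 0) (by omega)
  have a2 := exists_sing_of_wild (wild_three_of_σ hW.σ) hj.ge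
  exact maximal0 h (exists_E_notMem h a1 a2 ⟨1, one_ne_zero, hV.val _ _⟩)
    (fun g hg => h.KL_mem_E_sp (fun _ => hV.val _ _) a1 (E_le_Iso hg))
    (fun d hd => τ.flip_KL d ▸ h.flip.KL_mem_E_sp (fun _ => hV.val _ _) a2 (E_le_Iso hd))
    (fun _ h1 h3 h4 _ hg => Good.same_or_comm_sp_two ⟨h, h1, h3, h4, fun _ _ => hU.val _ _⟩
      (fun _ => hU.val _ _) hk h2 hF hg)
    (fun g _ => not_swap_two_three τ h2 hk hj g) fun X S => stepC_sp_o S hU hW hV h2 hk hj.ge hF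

theorem maximal_su_three_two (h : Compat τ PU PW PV) (hU : IsUn PU) (hW : IsUn PW)
    (hk : finrank F U = 3) (hj : finrank F W = 2) (hF : 4 < Nat.card F) :
    Geo.IsMaximalIn PV.E (τ.NN ⊓ PV.E) := by
  have : Nontrivial W := Module.nontrivial_of_finrank_pos (R := F) (by omega)
  have hV : IsUn PV := ⟨by simpa only [h.σV] using hU.σ, by rw [h.εV, hU.ε, hW.ε, mul_one]⟩
  have hE := E_eq_SU hV.σ hV.ε (by rw [τ.finrank_eq, hk, hj])
  have a1 := exists_sing_of_wild (wild_two_of_unitary hU.σ hU.ε) (by omega)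
  have a2 := exists_sing_of_wild (wild_two_of_unitary hW.σ hW.ε) hj.ge
  exact maximal0 h (exists_E_notMem h a1 a2 (exists_lam_ne_of_unitary hV.σ hV.ε))
    (fun g => h.KL_mem_E_su hE a1) (fun d hd => τ.flip_KL d ▸ h.flip.KL_mem_E_su hE a2 hd)
    (fun _ h1 h3 h4 _ hg => Good.same_or_comm_su_three
      ⟨h, h1, h3, h4, fun _ => (sing_iff_of_unitary hU.σ hU.ε).2⟩ hU.σ hU.ε hk hF hg)
    (fun g _ => τ.not_swap_of_lt (by omega) g) fun X S => stepC_su S hU hW hV hk hj hF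

end abstract

variable {F : Type*} [Field F] [Fintype F]

/-- `GU_2 ⊗ GU_3` in `SU_6`. -/
theorem su_tensor_two_three {n q : ℕ} (hF : Fintype.card F = q ^ 2) (hq : 3 ≤ q)
    (e : Fin n ≃ Fin 2 × Fin 3) (P : GL (Fin n) F)
    {f₁ : (Fin 2 → F) → (Fin 2 → F) → F} {f₂ : (Fin 3 → F) → (Fin 3 → F) → F}
    (hf₁ : Geo.IsUnitaryFormPow q f₁) (hf₂ : Geo.IsUnitaryFormPow q f₂)
    (hT : Geo.IsTensorFormStructure (fun x : F => x ^ q) (hermForm n F q) f₁ f₂ e P) :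
    Geo.IsMaximalIn (GU n F q ⊓ Geo.specialLinear (Fin n) F)
      (Geo.tensorProductSubgroup 2 3 e P ⊓ (GU n F q ⊓ Geo.specialLinear (Fin n) F)) := by
  have hn : n = 2 * 3 := by simpa using card_eq e
  have hV := isUn_unitPowPolar hF (isUnitaryFormPow_hermForm hF n)
  obtain ⟨c, hc, hσ, h⟩ := exists_compat_std (unitPowPolar hF hf₁) (unitPowPolar hF hf₂) (uStd hF n)
    (by omega) (by omega) rfl (fun _ => rfl) (mul_one _).symm e P hT
    fun _ _ => (Polar.sing_iff_of_unitary hV.σ hV.ε).2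
  refine maximal_of_abs (mem_SU_iff hF (by omega)) e P ?_
  rw [← TS.flip_NN]
  exact maximal_su_three_two h.flip (isUn_unitPowPolar hF hf₂)
    ((isUn_unitPowPolar hF hf₁).scale hc hσ) (by simp) (by simp)
    (by rw [Nat.card_eq_fintype_card, hF]; nlinarith)

/-- `Sp_2 ⊗ O_3` in `Sp_6`. -/
theorem sp_tensor_two_three (hodd : Odd (Fintype.card F)) (h5 : 5 ≤ Fintype.card F) {m : ℕ}
    (e : (Fin m ⊕ Fin m) ≃ Fin 2 × Fin 3) (P : GL (Fin m ⊕ Fin m) F)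
    {f₁ : (Fin 2 → F) → (Fin 2 → F) → F} {f₂ : (Fin 3 → F) → (Fin 3 → F) → F}
    (hf₁ : Geo.IsSymplecticForm f₁) (hf₂ : Geo.IsSymmetricForm f₂)
    (hT : Geo.IsTensorFormStructure id (sympForm m F) f₁ f₂ e P) :
    Geo.IsMaximalIn (spGL m F) (Geo.tensorProductSubgroup 2 3 e P ⊓ spGL m F) := by
  have htwo := two_ne_zero_of_odd_card hodd
  obtain ⟨c, hc, hσ, h⟩ := exists_compat_std (spPolar hf₁) (symP hf₂ htwo) (spStd m F)
    (by omega) (by omega) rfl (fun _ => rfl) (mul_one _).symm e P hT fun _ _ _ => trivial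
  exact maximal_of_abs (mem_spGL_iff m) e P (maximal_sp_two_three h
    ((isSp_spPolar hf₁).scale hc hσ) (isO_symP hf₂ htwo)
    (isSp_spPolar (isSymplecticForm_sympForm m F)) htwo (by simp) (by simp)
    (by rwa [Nat.card_eq_fintype_card]))

end Cfsg.Agent.Tens.One
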