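import Cfsg.Agent.Tens.OneC
import Cfsg.Agent.Tens.One3

/-!
Step C for tensor powers of `Sp_2` and `GU_3`: the final steps.
-/

set_option autoImplicit false
set_option linter.unusedSectionVars false

namespace Cfsg.Agent.Tens.One

open Module Cfsg.Agent.H7 Cfsg.Agent.H7.Polar Cfsg.Agent.H1

variable {F : Type*} [Field F] {ι κ : Type} [Fintype ι] [DecidableEq ι] [Fintype κ]
  [DecidableEq κ] {V : Type*} [AddCommGroup V] [Module F V] [Finite F]
  {Φ : Pw F ι κ ≃ₗ[F] V} {PU : Polar F (κ → F)} {PV : Polar F V} {X : Subgroup (V ≃ₗ[F] V)}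

theorem finrank_V (Φ : Pw F ι κ ≃ₗ[F] V) : finrank F V = Fintype.card κ ^ Fintype.card ι := by
  rw [← Φ.finrank_eq, finrank_Pw]

theorem E_le_of_fullA_pv [FiniteDimensional F V] (hc : PCompat Φ PU PV) [Nonempty ι]
    (hs : ∃ e, PU.Val e 0 ∧ e ≠ 0)
    (h : ∀ e : ι → κ → F, (∀ m, PU.Val (e m) 0 ∧ e m ≠ 0) → PV.FullA X (pv Φ e)) : PV.E ≤ X := by
  obtain ⟨e, he, he0⟩ := hs
  obtain ⟨f, hf, hfe⟩ := exists_partner he he0
  obtain ⟨i⟩ := ‹Nonempty ι›
  exact E_le_of_fullA (hc.val (fun _ => e) i he) (hc.val (fun _ => f) i hf)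
    (h _ fun _ => ⟨he, he0⟩) (h _ fun _ => ⟨hf, fun e => by simp [e] at hfe⟩) (by simp [hc.B, hfe])

section Unitary

theorem fac_su (hU : IsUn PU) (hk : Fintype.card κ = 3) (hF : 4 < Nat.card F) : Fac PU where
  trans := IsUn.trans hU (by simp [hk])
  nrm := IsUn.nrm hU
  two := IsUn.two hU hF
  rk := IsUn.rk hU (by simp [hk])
  scal _ := Slot.scal_of_unitary hU.σ hU.ε (by simp [hk])
  trv := Or.inr hU.σ
  sing := exists_sing_of_wild (wild_two_of_unitary hU.σ hU.ε) (by simp [hk])

theorem full_univ_su (h : PX Φ PU PV X) (hU : IsUn PU) (hk : Fintype.card κ = 3)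
    (hF : 4 < Nat.card F) (hE : ∀ g ∈ PV.Iso, ∀ k ∈ PV.Iso, g * k * g⁻¹ * k⁻¹ ∈ PV.E) (n : ℕ) :
    ∀ J : Finset ι, Jᶜ.card = n → 2 ≤ J.card → Full Φ PU X J → Full Φ PU X Finset.univ := by
  have hf := fac_su hU hk hF
  induction n with
  | zero => exact fun J h1 _ h2 => by rwa [← Finset.compl_eq_empty_iff J |>.1 (Finset.card_eq_zero.1 h1)]
  | succ n ih =>
    intro J h1 h2 h3
    obtain ⟨j, hj⟩ := Finset.card_pos.1 (show 0 < Jᶜ.card by omega)
    rw [Finset.mem_compl] at hj
    obtain ⟨i, hi, l, hl, hil⟩ := Finset.one_lt_card.1 h2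
    obtain ⟨e, he, he0⟩ := hf.sing
    obtain ⟨f, hf', hfe⟩ := exists_partner he he0
    have hef : PU.B e f = 1 := by rw [PU.herm f e, hfe, hU.ε]; simp
    obtain ⟨w, a1, a2, a3⟩ := IsUn.exists_aniso hU (by simp [hk]) he hf' hfe
    have key : ∀ a : F, ∃ z, (PU.Val z 0 ∧ z ≠ 0) ∧ PU.B z f = a ∧ PU.B z e = 1 := fun a => by
      obtain ⟨b, hb⟩ := IsUn.exists_val hU a3 (-a)
      have h4 : PU.B (a • e + f + b • w) e = 1 := by simp [sing_B he, hfe, a1]
      refine ⟨a • e + f + b • w, ⟨(sing_iff_of_unitary hU.σ hU.ε).2 ?_, fun e => by simp [e] at h4⟩,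
        by simp [sing_B hf', hef, a2], h4⟩
      have h5 := (val_iff_of_unitary hU.σ hU.ε).1 hb
      simp only [map_add, LinearMap.add_apply, h5]
      simp [sing_B he, sing_B hf', hfe, hef, a1, a2, PU.B_symm a1, PU.B_symm a2]
    obtain ⟨μ, hμ⟩ := hU.σ
    choose z hz hzf hze using fun m : ι => key (if m = l then μ else 1)
    have hji : j ≠ i := fun e => hj (e ▸ hi)
    have h4 := full_union h hf h3 (full_move h hE hf.sing h3 hi hl hil.symm hj) (i := i) (j := j) hi
      (by simp [hji.symm]) (by simp) hj (x := fun _ => e) (y := fun _ => f)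
      (fun _ => ⟨he, he0⟩) (fun _ => ⟨hf', fun e => by simp [e] at hfe⟩) hz (by
        have b1 : l ∈ J ∩ insert j (J.erase i) := by simp [hl, hil.symm]
        simp only [hzf, hze, hfe, hef, PU.herm (z _) e, PU.herm (z _) f, hU.ε, map_one, mul_one,
          one_mul, ← map_prod, Finset.prod_ite_eq', b1, if_true]
        exact hμ.symm)
    refine ih _ ?_ (h2.trans (Finset.card_le_card Finset.subset_union_left)) h4
    have : (J ∪ insert j (J.erase i))ᶜ = Jᶜ.erase j := by
      ext m; simp only [Finset.mem_compl, Finset.mem_union, Finset.mem_insert, Finset.mem_erase]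
      tauto
    rw [this, Finset.card_erase_of_mem (Finset.mem_compl.2 hj), h1]; rfl

/-- **Step C** for tensor powers of `GU_3`. -/
theorem stepC_su_three (hU : IsUn PU) (hk : Fintype.card κ = 3) (hF : 4 < Nat.card F) :
    StepC Φ PU PV := fun X h i hi => by
  have : FiniteDimensional F V := Module.Finite.equiv Φ
  have : Nonempty ι := ⟨i⟩
  have hf := fac_su hU hk hF
  have hV : IsUn PV := ⟨by simpa only [h.pc.σ] using hU.σ, by rw [h.pc.ε, hU.ε, one_pow]⟩
  obtain ⟨J, h1, h2⟩ := exists_full h hf hi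
  obtain ⟨s, hs, h3⟩ := full_univ_su h hU hk hF (fun g hg k hk' =>
    comm_mem_E (wild_two_of_unitary hV.σ hV.ε) (by
      rw [finrank_V Φ, hk]
      exact le_trans (by norm_num) (Nat.pow_le_pow_right (by norm_num) h.two)) hg hk') _ J rfl h1 h2
  have h4 : PU.σ s = -s := by
    obtain ⟨e, he, he0⟩ := hf.sing
    simpa [hU.ε] using full_parity h Finset.univ_nonempty (x := fun _ => e) (fun _ => ⟨he, he0⟩)
      (h3 1 (map_one _) _ fun _ => he)
  have h5 : ∀ x : ι → κ → F, (∀ m, PU.Val (x m) 0) → ∀ c, PU.Val 0 c →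
      Has X (1 + c • PV.th (pv Φ x) (pv Φ x) : End F V) := fun x hx c hc => by
    have := h3 (c / s) (by rw [map_div₀, h4, lam_σ hc, hU.ε]; field_simp) x hx
    rwa [div_mul_cancel₀ _ hs, NJ_univ h.pc] at this
  refine E_le_of_fullA_pv h.pc hf.sing fun e he => ?_
  have hp := h.pc.val e i (he i).1
  have key : ∀ l, (∀ w x, PU.B w (e l) = 0 → (τ1 Φ l).tp w x ∈ PV.eSub X hp) ∧
      ∀ c, PV.Val 0 c → PV.EI X (pv Φ e) 0 c := fun l => by
    have cp := (set0 h hf l).cp
    obtain ⟨j⟩ := nonempty_ne h.two l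
    revert hp
    rw [pv_eq_tp Φ l e]
    intro hp
    have := finT cp h.iso hU hV (by simp [hk])
      (XX := {x | ∃ y : {j // j ≠ l} → κ → F, (∀ m, PU.Val (y m) 0) ∧ x = pv0 y}) (by
        rintro _ ⟨y, hy, rfl⟩
        refine ⟨by
          rw [powPolar_B]; exact Finset.prod_eq_zero (Finset.mem_univ j) (sing_B (hy j)),
          fun u c hu hc => ?_⟩
        rw [← cp.th_tp, tp_pv0]
        exact h5 _ (fun m => by split_ifs; exacts [hu, hy _]) c hc)
      (x₀ := pv0 fun j => e j.1) ⟨_, fun m => (he m).1, rfl⟩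
      (pv_ne_zero (LinearEquiv.refl F _) fun m => (he m.1).2) (fun M hM =>
        eq_top_of_pv (LinearEquiv.refl F _) fun y => pv_mem_of_span _
          (A := fun m => {u | PU.Val u 0 ∧ PU.B u (e m.1) ≠ 0}) (fun y hy =>
            hM _ ⟨y, fun m => (hy m).1, rfl⟩ (by
              rw [pv_refl, powPolar_B]; exact Finset.prod_ne_zero_iff.2 fun m _ => (hy m).2)) y
          fun m => by
            rw [eq_top_of_opp hf.two.lam (he m).1 (he m).2
              (M := Submodule.span F {u | PU.Val u 0 ∧ PU.B u (e m.1) ≠ 0})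
              fun y h1 h2 => Submodule.subset_span ⟨h1, h2⟩]
            trivial) (he l).1 (he l).2 hp
    exact ⟨this.1, this.2.2⟩
  exact fullA_of_eSub hp (key i).2 (perp_le h.pc he (fun _ hw => hw.1) fun l y hy => by
    rw [pv_eq_tp Φ l y]; exact (key l).1 _ _ hy)

end Unitary

section Symplectic

theorem fac_sp (hU : IsSp PU) (hk : Fintype.card κ = 2) (h2 : (2 : F) ≠ 0) : Fac PU where
  trans := IsSp.trans hU
  nrm := nrm_of_two hU.σ h2
  two := IsSp.two hU h2
  rk := IsSp.rk (by simp [hk])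
  scal _ := IsSp.scal hU (by simp [hk])
  trv := Or.inl h2
  sing := exists_sing_of_wild (wild_one_of_sp fun _ => hU.val _ _) (by simp [hk])

variable (h : PX Φ PU PV X) (hU : IsSp PU) (hk : Fintype.card κ = 2) (h2 : (2 : F) ≠ 0)
include h hU hk h2

theorem odd_of_full {J : Finset ι} (h1 : 2 ≤ J.card) (h3 : Full Φ PU X J) : Odd J.card := by
  obtain ⟨s, hs, h3⟩ := h3
  obtain ⟨e, he, he0⟩ := (fac_sp hU hk h2).sing
  have := full_parity h (Finset.card_pos.1 (by omega)) (x := fun _ => e) (fun _ => ⟨he, he0⟩)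
    (h3 1 (map_one _) _ fun _ => he)
  by_contra h4
  rw [hU.σ, hU.ε, (Nat.not_odd_iff_even.1 h4).neg_one_pow] at this
  exact mul_ne_zero h2 hs (by linear_combination this)

theorem full_large_sp (hE : ∀ g ∈ PV.Iso, ∀ k ∈ PV.Iso, g * k * g⁻¹ * k⁻¹ ∈ PV.E) (n : ℕ) :
    ∀ J : Finset ι, Jᶜ.card = n → 2 ≤ J.card → Full Φ PU X J →
      ∃ J : Finset ι, Jᶜ.card ≤ 1 ∧ 2 ≤ J.card ∧ Full Φ PU X J := by
  have hf := fac_sp hU hk h2
  induction n using Nat.strong_induction_on with
  | _ n ih =>
    intro J h1 h3 h4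
    by_cases hn : n ≤ 1
    · exact ⟨J, by omega, h3, h4⟩
    have hodd := odd_of_full h hU hk h2 h3 h4
    obtain ⟨j, hj, j', hj', hjj⟩ := Finset.one_lt_card.1 (show 1 < Jᶜ.card by omega)
    rw [Finset.mem_compl] at hj hj'
    obtain ⟨i, hi, i', hi', hii⟩ := Finset.one_lt_card.1 h3
    have hji : j ≠ i := fun e => hj (e ▸ hi)
    have hji' : j ≠ i' := fun e => hj (e ▸ hi')
    have hj'i : j' ≠ i := fun e => hj' (e ▸ hi)
    obtain ⟨e, he, he0⟩ := hf.sing
    obtain ⟨f, hf', hfe⟩ := exists_partner he he0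
    have hef : PU.B e f = -1 := by rw [PU.herm f e, hfe, hU.ε]; simp
    have h5 := full_move h hE hf.sing (full_move h hE hf.sing h4 hi hi' hii.symm hj) (i := i')
      (l := j) (j := j') (by simp [hi', hii.symm]) (by simp) hji' (by simp [hj', hjj.symm])
    have h6 : J ∩ insert j' ((insert j (J.erase i)).erase i') = (J.erase i).erase i' := by
      ext m
      simp only [Finset.mem_inter, Finset.mem_insert, Finset.mem_erase]
      constructor
      · rintro ⟨a, rfl | ⟨b, rfl | c⟩⟩
        exacts [absurd a hj', absurd a hj, ⟨b, c⟩]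
      · tauto
    have h7 : Odd ((J.erase i).erase i').card := by
      rw [Finset.card_erase_of_mem (by simp [hi', hii.symm]), Finset.card_erase_of_mem hi]
      obtain ⟨k, hk⟩ := hodd
      exact ⟨k - 1, by omega⟩
    have h8 := full_union h hf h4 h5 (i := i) (j := j') hi (by simp [hji.symm, hj'i.symm]) (by simp)
      hj' (x := fun _ => e) (y := fun _ => f) (z := fun _ => e + f) (fun _ => ⟨he, he0⟩)
      (fun _ => ⟨hf', fun e => by simp [e] at hfe⟩)
      (fun _ => ⟨hU.val _ _, fun e' => by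
        simpa [hfe, sing_B he] using congrArg (fun y => PU.B y e) e'⟩) (by
        simp only [h6, map_add, LinearMap.add_apply, hfe, hef, sing_B he, sing_B hf', add_zero,
          zero_add, Finset.prod_const]
        simp only [mul_one, mul_neg, neg_neg, one_pow, h7.neg_one_pow]
        exact fun e => h2 (by linear_combination e))
    refine ih _ ?_ _ rfl (h3.trans (Finset.card_le_card Finset.subset_union_left)) h8
    rw [← h1]
    exact Finset.card_lt_card ⟨Finset.compl_subset_compl.2 Finset.subset_union_left,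
      fun e => by simpa using e (Finset.mem_compl.2 hj')⟩

theorem fullA_even [FiniteDimensional F V] (hV : IsO PV) (hev : Even (Fintype.card ι))
    (h4 : 4 ≤ Fintype.card ι) (hJ : ∀ j, Full Φ PU X (Finset.univ.erase j)) {e : ι → κ → F}
    (he : ∀ m, PU.Val (e m) 0 ∧ e m ≠ 0) : PV.FullA X (pv Φ e) := by
  have hf := fac_sp hU hk h2
  obtain ⟨i₀⟩ : Nonempty ι := Fintype.card_pos_iff.1 (by omega)
  have hp := h.pc.val e i₀ (he i₀).1
  have hJ' : ∀ j c x, Has X (1 + c • NJ Φ PU (Finset.univ.erase j) x x : End F V) := fun j c x => by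
    obtain ⟨s, hs, h1⟩ := hJ j
    simpa [hs] using h1 (c / s) (hU.σ _) x fun _ => hU.val _ _
  have hsp : ∀ (u : κ → F), u ≠ 0 → ∀ y, y ∈ Submodule.span F {y | PU.B y u ≠ 0} := fun u hu y => by
    rw [eq_top_of_opp hf.two.lam (hU.val u 0) hu (M := Submodule.span F {y | PU.B y u ≠ 0})
      fun y _ h2 => Submodule.subset_span h2]
    trivial
  have h1 : ∀ i j, i ≠ j → ∀ y, y i = e i → y j = e j → pv Φ y ∈ PV.eSub X hp := by
    intro i j hij y hi hj
    refine pv_mem_of_span Φ (A := fun m => {u | if m = i ∨ m = j then u = e m else PU.B u (e m) ≠ 0})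
      (fun y hy => ?_) y fun m => ?_
    swap
    · by_cases hm : m = i ∨ m = j
      · exact Submodule.subset_span (by rcases hm with rfl | rfl <;> simp [hi, hj])
      · simpa [hm] using hsp _ (he m).2 (y m)
    have hi : y i = e i := by simpa using hy i
    have hj : y j = e j := by simpa using hy j
    refine ⟨by
      rw [h.pc.B]; exact Finset.prod_eq_zero (Finset.mem_univ i) (by simp [hi, sing_B (he i).1]),
      fun a => ⟨0, sing_smul (h.pc.val y i (hU.val _ _)) a, ?_⟩⟩
    obtain ⟨c, hc⟩ : ∃ c, c = ∏ m, if m = i ∨ m = j then 1 else PU.B (y m) (e m) := ⟨_, rfl⟩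
    have hc0 : c ≠ 0 := hc ▸ Finset.prod_ne_zero_iff.2 fun m _ => by
      have := hy m
      split_ifs with hm
      · exact one_ne_zero
      · simpa [hm] using this
    have a1 : NJ Φ PU (Finset.univ.erase j) e e * NJ Φ PU (Finset.univ.erase i) y y =
        c • PV.th (pv Φ e) (pv Φ y) := by
      rw [← NJ_univ h.pc, hc, NJ, NJ, NJ, ← mo_smul, ← map_mul]
      congr 1
      ext1 m
      by_cases b1 : m = i
      · subst b1; simp [hij, hi]
      by_cases b2 : m = j
      · subst b2; simp [b1, hj]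
      · simp [b1, b2, th_mul_th]
    have a2 : NJ Φ PU (Finset.univ.erase i) y y * NJ Φ PU (Finset.univ.erase j) e e =
        c • PV.th (pv Φ y) (pv Φ e) := by
      have : c = ∏ m, if m = i ∨ m = j then 1 else PU.B (e m) (y m) := by
        have key : ∀ g : ι → F, (∏ m, if m = i ∨ m = j then 1 else g m) =
            ∏ m ∈ (Finset.univ.erase i).erase j, g m := fun g => by
          rw [← Finset.prod_ite_mem_eq ((Finset.univ.erase i).erase j)]
          exact Finset.prod_congr rfl fun m _ => by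
            by_cases b1 : m = i <;> by_cases b2 : m = j <;> simp [b1, b2]
        have b3 : Even ((Finset.univ.erase i).erase j).card := by
          rw [Finset.card_erase_of_mem (by simp [hij.symm]), Finset.card_erase_of_mem (by simp),
            Finset.card_univ]
          obtain ⟨k, hk⟩ := hev
          exact ⟨k - 1, by omega⟩
        rw [hc, key, key, ← one_mul (∏ m ∈ _, PU.B (e m) (y m)), ← b3.neg_one_pow (α := F),
          ← Finset.prod_neg]
        exact Finset.prod_congr rfl fun m _ => by simp [PU.herm (e m) (y m), hU.σ, hU.ε]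
      rw [← NJ_univ h.pc, this, NJ, NJ, NJ, ← mo_smul, ← map_mul]
      congr 1
      ext1 m
      by_cases b1 : m = i
      · subst b1; simp [hij, hi]
      by_cases b2 : m = j
      · subst b2; simp [b1, hj]
      · simp [b1, b2, th_mul_th]
    refine (has_comm_NJ (i := i) (j := j) (by simp [hij]) (by simp) (by simp [hij.symm]) (by simp)
      (he i).1 (hU.val _ _) (hJ' j (-(a / c)) e) (hJ' i 1 y)).congr fun v => ?_
    simp only [a1, a2, eich, LinearMap.add_apply, End.one_apply, LinearMap.smul_apply,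
      LinearMap.sub_apply, th_apply, B_smul_right, hV.σ, hV.ε]
    match_scalars <;> field_simp <;> ring
  refine fullA_of_eSub hp (fun c hc => by rw [hV.lam c hc]; exact EI.zero _)
    (perp_le h.pc he (fun _ hw => hw.1) fun i y hy => ?_)
  obtain ⟨j, k, k', a1, a2, a3, a4, a5, a6⟩ : ∃ j k k' : ι, j ≠ i ∧ k ≠ i ∧ k' ≠ i ∧ j ≠ k ∧
      j ≠ k' ∧ k ≠ k' := by
    obtain ⟨j, k, k', b1, b2, b3, b4⟩ := Finset.two_lt_card_iff.1
      (show 2 < (Finset.univ.erase i).card by simp; omega)
    exact ⟨j, k, k', by simpa using b1, by simpa using b2, by simpa using b3, b4⟩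
  refine pv_mem_of_span Φ (A := fun m => {u | if m = i then u = e m else PU.B u (e m) ≠ 0})
    (fun x hx => ?_) y fun m => ?_
  swap
  · by_cases hm : m = i
    · subst hm
      simpa using mem_span_of_two (by simp [hk]) (he m).1 (he m).2 hy
    · simpa [hm] using hsp _ (he m).2 (y m)
  have hi : x i = e i := by simpa using hx i
  have hx' : ∀ m, m ≠ i → PU.B (x m) (e m) ≠ 0 := fun m hm => by simpa [hm] using hx m
  obtain ⟨f, -, hf'⟩ := exists_partner (he i).1 (he i).2
  obtain ⟨g, hg, hg'⟩ := hJ' j 1 x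
  have b1 := h1 k k' a6 (fun m => if m = i then f else if m = j then x j else e m)
    (by simp [a2, a4.symm]) (by simp [a3, a5.symm])
  have b2 := Submodule.sub_mem _ (apply_mem_eSub hp hg (h.iso hg) (by
    simp only [hg', LinearMap.add_apply, End.one_apply, LinearMap.smul_apply, NJ_pv, add_eq_left]
    rw [Finset.prod_eq_zero (i := i) (by simp [a1.symm]) (by simp [hi, sing_B (he i).1])]
    simp) b1) b1
  simp only [hg', LinearMap.add_apply, End.one_apply, LinearMap.smul_apply, NJ_pv, one_smul,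
    add_sub_cancel_left] at b2
  rw [Submodule.smul_mem_iff _ (Finset.prod_ne_zero_iff.2 fun m hm => by
    by_cases c1 : m = i
    · subst c1; simp [hi, hf']
    · simpa [c1, (Finset.mem_erase.1 hm).1] using PU.B_ne_symm (hx' m c1))] at b2
  convert b2 using 3 with m
  by_cases c1 : m = j
  · subst c1; simp [a1]
  · simp [c1]

omit h in
/-- **Step C** for tensor powers of `Sp_2`. -/
theorem stepC_sp_two (hV : IsSp PV ∨ IsO PV) : StepC Φ PU PV := fun X h i hi => by
  have : FiniteDimensional F V := Module.Finite.equiv Φ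
  have : Nonempty ι := ⟨i⟩
  have hf := fac_sp hU hk h2
  obtain ⟨J, h1, h3⟩ := exists_full h hf hi
  have h4 : 3 ≤ Fintype.card ι := by
    obtain ⟨k, hk⟩ := odd_of_full h hU hk h2 h1 h3
    have := J.card_le_univ
    omega
  have hE : ∀ g ∈ PV.Iso, ∀ k ∈ PV.Iso, g * k * g⁻¹ * k⁻¹ ∈ PV.E := fun g hg k hk' =>
    comm_mem_E (wild_three_of_σ fun a => by rw [h.pc.σ, hU.σ]) (by
      rw [finrank_V Φ, hk]
      exact le_trans (by norm_num) (Nat.pow_le_pow_right (by norm_num) h4)) hg hk'
  obtain ⟨J, h5, h6, h7⟩ := full_large_sp h hU hk h2 hE _ J rfl h1 h3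
  have h8 := odd_of_full h hU hk h2 h6 h7
  have h9 := J.card_add_card_compl
  have hε := h.pc.ε
  rw [hU.ε] at hε
  rcases Nat.le_one_iff_eq_zero_or_eq_one.1 h5 with h5 | h5
  · obtain rfl := (Finset.compl_eq_empty_iff J).1 (Finset.card_eq_zero.1 h5)
    rw [Finset.card_univ] at h8
    have hV : IsSp PV := hV.resolve_right fun hV => h2 (by
      rw [hV.ε, h8.neg_one_pow] at hε; linear_combination hε)
    obtain ⟨s, hs, h7⟩ := h7
    have h10 : ∀ x, TV PV X (pv Φ x) := fun x c => by
      simpa [hs, NJ_univ h.pc] using h7 (c / s) (hU.σ _) x fun _ => hU.val _ _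
    obtain ⟨e, he, he0⟩ := hf.sing
    refine E_le_of_TV h.iso hV h2 (h10 fun _ => e) (pv_ne_zero Φ fun _ => he0)
      (Q := Set.range (pv Φ)) (eq_top_of_pv Φ fun y => Submodule.subset_span ⟨y, rfl⟩) ?_
    rintro _ ⟨y, rfl⟩
    refine ⟨h10 y, fun hy => ?_⟩
    choose s _ a1 a2 using fun m => Slot.both_of_lam hf.two.lam (y m) e (hU.val _ _) he
      (fun e => hy ((pv Φ).map_coord_zero m e)) he0
    exact ⟨_, h10 s, by rw [h.pc.B]; exact Finset.prod_ne_zero_iff.2 fun m _ => PU.B_ne_symm (a2 m),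
      by rw [h.pc.B]; exact Finset.prod_ne_zero_iff.2 fun m _ => a1 m⟩
  · have hev : Even (Fintype.card ι) := by rw [← h9, h5]; exact h8.add_one
    have hV : IsO PV := hV.resolve_left fun hV => h2 (by
      rw [hV.ε, hev.neg_one_pow] at hε; linear_combination -hε)
    obtain ⟨j₀, hj₀⟩ := Finset.card_eq_one.1 h5
    obtain rfl : J = Finset.univ.erase j₀ := by
      rw [← compl_compl J, hj₀, Finset.compl_singleton]
    refine E_le_of_fullA_pv h.pc hf.sing fun e => fullA_even h hU hk h2 hV hev (by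
      obtain ⟨k, hk⟩ := hev; omega) fun j => ?_
    by_cases hj : j = j₀
    · rwa [hj]
    obtain ⟨l, hl⟩ := Finset.card_pos.1 (show 0 < ((Finset.univ.erase j₀).erase j).card by
      rw [Finset.card_erase_of_mem (by simp [hj])]; omega)
    simp only [Finset.mem_erase, Finset.mem_univ, and_true] at hl
    convert full_move h hE hf.sing h7 (i := j) (l := l) (j := j₀) (by simp [hj]) (by simp [hl.2])
      hl.1 (by simp) using 1
    ext m
    by_cases hm : m = j₀
    · simp [hm, Ne.symm hj]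
    · simp [hm]

end Symplectic

end Cfsg.Agent.Tens.One
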