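import Cfsg.Agent.Tens.Rigid2
import Cfsg.Agent.Tens.SlotO

/-!
Rigidity of tensor structures whose first factor has Witt index one: the torus argument.
-/

set_option autoImplicit false
set_option linter.unusedSectionVars false

namespace Cfsg.Agent.H7.Polar

open Module Cfsg.Agent.Tens

variable {F V : Type*} [Field F] [AddCommGroup V] [Module F V] {P : Polar F V}

/-- A Weyl element attached to a hyperbolic pair. -/
theorem exists_weyl {e e' w : V} {c : F} (he : P.Val e 0) (he' : P.Val e' 0) (h1 : P.B e' e = 1)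
    (hw : P.B w e = 0) (hw' : P.B w e' = 0) (hc : P.Val w c) (h0 : c ≠ 0) :
    ∃ n ∈ P.E, n e = -(P.ε / c) • e' ∧ n e' = -P.σ c • e ∧
      ∀ z, P.B z e = 0 → P.B z e' = 0 → n z = z - (P.ε / P.σ c * P.B z w) • w := by
  have h2 : P.B e e' = P.ε := by rw [P.herm e' e, h1]; simp
  have h3 : P.σ c ≠ 0 := by simpa using h0
  have h4 := P.val_self hc
  have h5 := P.ε_mul_ε
  refine ⟨eichE he (w := (P.ε * c / P.σ c) • w) (by simp [hw]) (P.val_smul _ hc) *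
    eichE he' (w := (P.ε / P.σ c) • w) (by simp [hw']) (P.val_smul _ hc) * eichE he hw hc,
    P.E.mul_mem (P.E.mul_mem (eichE_mem_E _ _ _) (eichE_mem_E _ _ _)) (eichE_mem_E _ _ _),
    ?_, ?_, fun z hz hz' => ?_⟩
  all_goals
    simp only [LinearEquiv.mul_apply, eichE_apply, eich, map_add, map_sub, map_smul,
      LinearMap.add_apply, LinearMap.sub_apply, LinearMap.smul_apply, B_smul_right, h1, h2, hw, hw',
      P.B_symm hw, P.B_symm hw', sing_B he, sing_B he', smul_eq_mul, h4, map_mul, map_div₀, σσ, σ_ε]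
  · rcases P.εε with h | h <;> simp only [h] <;> match_scalars <;> field_simp <;> ring
  · rcases P.εε with h | h <;> simp only [h] <;> match_scalars <;> field_simp <;> ring
  · rcases P.εε with h | h <;> simp only [h, hz, hz'] <;> match_scalars <;> field_simp <;> ring

/-- A product of two Weyl elements. -/
theorem exists_tor {e e' w₁ w₂ : V} {c₁ c₂ : F} (he : P.Val e 0) (he' : P.Val e' 0)
    (h1 : P.B e' e = 1) (hw₁ : P.B w₁ e = 0) (hw₁' : P.B w₁ e' = 0) (hc₁ : P.Val w₁ c₁)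
    (h₁ : c₁ ≠ 0) (hw₂ : P.B w₂ e = 0) (hw₂' : P.B w₂ e' = 0) (hc₂ : P.Val w₂ c₂) (h₂ : c₂ ≠ 0) :
    ∃ k ∈ P.E, k e = (P.ε * P.σ c₁ / c₂) • e ∧ k e' = (P.ε * P.σ c₂ / c₁) • e' ∧
      ∀ z, P.B z e = 0 → P.B z e' = 0 → k z = z - (P.ε / P.σ c₂ * P.B z w₂) • w₂ -
        (P.ε / P.σ c₁ * (P.B z w₁ - P.ε / P.σ c₂ * P.B z w₂ * P.B w₂ w₁)) • w₁ := by
  obtain ⟨n₁, a1, a2, a3, a4⟩ := exists_weyl he he' h1 hw₁ hw₁' hc₁ h₁
  obtain ⟨n₂, b1, b2, b3, b4⟩ := exists_weyl he he' h1 hw₂ hw₂' hc₂ h₂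
  refine ⟨n₁ * n₂, P.E.mul_mem a1 b1, ?_, ?_, fun z hz hz' => ?_⟩
  · rw [LinearEquiv.mul_apply, b2, map_smul, a3]; module
  · rw [LinearEquiv.mul_apply, b3, map_smul, a2]; module
  · rw [LinearEquiv.mul_apply, b4 z hz hz', a4 _ (by simp [hz, hw₂]) (by simp [hz', hw₂'])]
    simp

theorem eq_add_of_pair {e e' : V} (he : P.Val e 0) (he' : P.Val e' 0) (h1 : P.B e' e = 1) (y : V) :
    ∃ z, P.B z e = 0 ∧ P.B z e' = 0 ∧ y = z + P.B y e • e' + (P.ε * P.B y e') • e := by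
  have h2 : P.B e e' = P.ε := by rw [P.herm e' e, h1]; simp
  refine ⟨y - P.B y e • e' - (P.ε * P.B y e') • e, by simp [h1, sing_B he], ?_, by abel⟩
  simp [h2, sing_B he', mul_right_comm]

end Cfsg.Agent.H7.Polar

namespace Cfsg.Agent.Tens

open Module Cfsg.Agent.H7

variable {F U W V : Type*} [Field F] [AddCommGroup U] [Module F U] [AddCommGroup W] [Module F W]
  [AddCommGroup V] [Module F V] [Finite F] [FiniteDimensional F U] [FiniteDimensional F W]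

/-- Every hyperbolic pair has a torus element with the prescribed eigenvalues. -/
def TS.Tor (τ : TS F U W V) (PU : Polar F U) (X : Subgroup (V ≃ₗ[F] V)) (l m n : F) : Prop :=
  ∀ e e', PU.Val e 0 → PU.Val e' 0 → PU.B e' e = 1 → ∃ k : U ≃ₗ[F] U, τ.KL k ∈ X ∧
    k e = l • e ∧ k e' = n • e' ∧ ∀ z, PU.B z e = 0 → PU.B z e' = 0 → k z = m • z

theorem TS.map_KL_mem {τ : TS F U W V} {X : Subgroup (V ≃ₗ[F] V)} {g : V ≃ₗ[F] V} (hg : g ∈ X)
    {k : U ≃ₗ[F] U} (hk : τ.KL k ∈ X) : (τ.map g).KL k ∈ X := by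
  convert X.mul_mem (X.mul_mem hg hk) (X.inv_mem hg) using 1
  exact LinearEquiv.ext fun v => τ.map_K_apply' g _ _ v

theorem TS.Tor.map {τ : TS F U W V} {PU : Polar F U} {X : Subgroup (V ≃ₗ[F] V)} {l m n : F}
    (h : τ.Tor PU X l m n) {g : V ≃ₗ[F] V} (hg : g ∈ X) : (τ.map g).Tor PU X l m n :=
  fun e e' he he' h1 => by
    obtain ⟨k, a1, a2⟩ := h e e' he he' h1
    exact ⟨k, TS.map_KL_mem hg a1, a2⟩

theorem TS.KL_apply_of_perp (τ : TS F U W V) {PU : Polar F U} {e e' : U} (he : PU.Val e 0)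
    (he' : PU.Val e' 0) (h1 : PU.B e' e = 1) {k : U ≃ₗ[F] U} {l m : F} (a2 : k e = l • e)
    (a4 : ∀ z, PU.B z e = 0 → PU.B z e' = 0 → k z = m • z) {v : V} (hv : τ.pB PU e v = 0) :
    ∃ x, τ.KL k v = m • v + τ.tp e x :=
  τ.perp_induction PU hv (p := fun v => ∃ x, τ.KL k v = m • v + τ.tp e x) ⟨0, by simp⟩
    (fun y x hy => by
      obtain ⟨z, b1, b2, b3⟩ := Polar.eq_add_of_pair he he' h1 y
      generalize PU.ε * PU.B y e' = a at b3
      refine ⟨((l - m) * a) • x, ?_⟩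
      rw [TS.KL_tp, b3, hy]
      simp only [zero_smul, add_zero, map_add, map_smul, a2, a4 z b1 b2, LinearMap.add_apply,
        LinearMap.smul_apply]
      module)
    fun v v' ⟨a, ha⟩ ⟨b, hb⟩ => ⟨a + b, by simp only [map_add, ha, hb, smul_add]; abel⟩

namespace Good

variable {τ : TS F U W V} {PU : Polar F U} {PW : Polar F W} {PV : Polar F V}
  {X : Subgroup (V ≃ₗ[F] V)} (h : Good τ PU PW PV X) [Nontrivial W]
  {τ' : TS F U W V} (h' : Good τ' PU PW PV X)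
include h h'

theorem val_of_range_eq {e f : U} (he : PU.Val e 0)
    (hf : LinearMap.range (τ.tp e) = LinearMap.range (τ'.tp f)) : PU.Val f 0 :=
  h'.val f (h'.compat.B_eq_zero fun x y => by
    obtain ⟨a, ha⟩ : τ'.tp f x ∈ LinearMap.range (τ.tp e) := hf ▸ ⟨x, rfl⟩
    obtain ⟨b, hb⟩ : τ'.tp f y ∈ LinearMap.range (τ.tp e) := hf ▸ ⟨y, rfl⟩
    simp [← ha, ← hb, h.compat.B_tp, Polar.sing_B he])

theorem inA_of_range_eq {e f : U} (he : PU.Val e 0) (hf0 : f ≠ 0)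
    (hf : LinearMap.range (τ.tp e) = LinearMap.range (τ'.tp f)) {c : V ≃ₗ[F] V} (hc : c ∈ X)
    (hQ : τ.InQ PU e c) : τ'.InA c :=
  h'.hpt f (h.val_of_range_eq h' he hf) hf0 c hc (h.compat.inQ_of_range_eq h'.compat hf hQ)

theorem inA_th_of_range_eq {e f : U} (he : PU.Val e 0) (hf0 : f ≠ 0)
    (hf : LinearMap.range (τ.tp e) = LinearMap.range (τ'.tp f))
    (hty : (∃ c, c ≠ 0 ∧ PU.Val 0 c) ∨ ∃ w, PU.B w e = 0 ∧ PU.B w w ≠ 0) :
    τ'.InA (τ.K (PU.th e e) 1) := by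
  have key : ∀ w κ, PU.B w e = 0 → PU.Val w κ →
      τ'.InA (τ.K (PU.th w e - PU.ε • PU.th e w - PU.σ κ • PU.th e e) 1) := fun w κ hw hκ => by
    have := h.inA_of_range_eq h' he hf0 hf (h.left _ (Polar.eichE_mem_E he hw hκ))
      (TS.inQ_eich he hw hκ)
    rw [TS.coe_KL_eich] at this
    simpa using this.sub TS.inA_one
  rcases hty with ⟨c, hc0, hc⟩ | ⟨w, hw, hw3⟩
  · refine TS.InA.of_smul (s := -PU.σ c) (by simpa using hc0) ?_
    simpa using key 0 c (by simp) hc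
  · obtain ⟨κ, hκ⟩ := PU.val_ex w
    have := (key w κ hw hκ).mul (key w κ hw hκ)
    refine TS.InA.of_smul (s := -(PU.ε * PU.B w w)) (by simpa using hw3) ?_
    convert this using 1
    simp [TS.K_mul, mul_sub, sub_mul, Polar.th_mul_th, hw, PU.B_symm hw, Polar.sing_B he,
      smul_smul]

variable {l m n : F} (hT : τ.Tor PU X l m n) (hT' : τ'.Tor PU X l m n)
include hT hT'

theorem inA_tor {e e' f : U} (he : PU.Val e 0) (he' : PU.Val e' 0) (h1 : PU.B e' e = 1)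
    (hf0 : f ≠ 0) (hf : LinearMap.range (τ.tp e) = LinearMap.range (τ'.tp f)) (hl : n ≠ l)
    (hm : n ≠ m) : τ'.InA (τ.K (PU.th e' e) 1) := by
  have hf1 := h.val_of_range_eq h' he hf
  obtain ⟨f', b1, b2⟩ := Polar.exists_partner hf1 hf0
  obtain ⟨k, a1, a2, a3, a4⟩ := hT e e' he he' h1
  obtain ⟨k', c1, c2, -, c4⟩ := hT' f f' hf1 b1 b2
  have hl0 : l ≠ 0 := by
    rintro rfl
    exact hf0 (k'.injective (by simp [c2]))
  have h2 := h'.hpt f hf1 hf0 _ (X.mul_mem (X.inv_mem c1) a1)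
    ⟨fun x => inv_mul_apply_eq.2 (by
      obtain ⟨z, hz⟩ : τ'.tp f x ∈ LinearMap.range (τ.tp e) := hf ▸ ⟨x, rfl⟩
      rw [TS.KL_tp, c2, map_smul, LinearMap.smul_apply, ← hz, TS.KL_tp, a2]; simp), fun y hy x => by
      obtain ⟨x₁, h3⟩ := τ.KL_apply_of_perp he he' h1 a2 a4
        (h.compat.pB_eq_zero_of_le h'.compat (hf.le.trans le_sup_left) hy hy x)
      obtain ⟨x₂, h4⟩ := τ'.KL_apply_of_perp hf1 b1 b2 c2 c4 (v := τ'.tp y x) (by simp [hy])
      obtain ⟨x₃, h5⟩ : τ.tp e x₁ ∈ LinearMap.range (τ'.tp f) := hf ▸ ⟨x₁, rfl⟩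
      refine ⟨l⁻¹ • (x₃ - x₂), inv_mul_apply_eq.2 ?_⟩
      rw [h3, map_add, h4, TS.KL_tp, c2, ← h5]
      simp [smul_smul, hl0]⟩
  have h3 := (τ'.inA_K k').mul h2
  rw [← TS.coe_KL, ← LinearEquiv.coe_toLinearMap_mul, mul_inv_cancel_left] at h3
  have h4 := (h3.sub (TS.inA_one.smul l)).mul (h3.sub (TS.inA_one.smul m))
  refine TS.InA.of_smul (s := (n - l) * (n - m)) (mul_ne_zero (sub_ne_zero.2 hl) (sub_ne_zero.2 hm)) ?_
  convert h4 using 1
  refine τ.ext fun y x => ?_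
  obtain ⟨z, d1, d2, d3⟩ := Polar.eq_add_of_pair he he' h1 y
  have d4 : k y = m • z + (n * PU.B y e) • e' + (l * (PU.ε * PU.B y e')) • e := by
    conv_lhs => rw [d3]
    simp only [map_add, map_smul, a2, a3, a4 z d1 d2]
    module
  have d5 : k (k y) = (m * m) • z + (n * n * PU.B y e) • e' + (l * l * (PU.ε * PU.B y e')) • e := by
    simp only [d4, map_add, map_smul, a2, a3, a4 z d1 d2]
    module
  simp only [LinearMap.smul_apply, TS.K_tp, Polar.th_apply, End.one_apply, map_smul, TS.coe_KL,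
    End.mul_apply, LinearMap.sub_apply, map_sub, LinearEquiv.coe_coe]
  rw [d5, d4]
  conv_rhs => rw [d3]
  simp only [map_add, map_smul, LinearMap.add_apply, LinearMap.smul_apply, smul_eq_mul, d1, d2, h1,
    PU.herm e' e, Polar.sing_B he, Polar.sing_B he', map_one]
  rcases PU.εε with h | h <;> simp only [h] <;> module

theorem same_of_tor (hl : n ≠ l) (hm : n ≠ m) (hB : Slot.Both PU)
    (hty : ∀ e, PU.Val e 0 → e ≠ 0 → (∃ c, c ≠ 0 ∧ PU.Val 0 c) ∨ ∃ w, PU.B w e = 0 ∧ PU.B w w ≠ 0)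
    (hs : ∀ z : End F U, (∀ u, PU.Val u 0 → z u ∈ F ∙ u) → Scal z) {e f : U} (he : PU.Val e 0)
    (he0 : e ≠ 0) (hf0 : f ≠ 0) (hf : LinearMap.range (τ.tp e) = LinearMap.range (τ'.tp f)) :
    τ'.Same τ := by
  have key : ∀ e e', PU.Val e 0 → PU.Val e' 0 → PU.B e' e ≠ 0 →
      (∃ f, f ≠ 0 ∧ LinearMap.range (τ.tp e) = LinearMap.range (τ'.tp f)) →
      ∃ f, f ≠ 0 ∧ LinearMap.range (τ.tp e') = LinearMap.range (τ'.tp f) := by
    intro e e' he he' h1 ⟨f, hf0, hf⟩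
    have := (h.inA_tor h' hT hT' he (Polar.sing_smul he' (PU.B e' e)⁻¹) (by simp [h1]) hf0 hf hl
      hm).smul (PU.B e' e)
    refine TS.exists_range_eq (PU := PU) (e' := e) (fun e => h1 (by simp [e])) (fun e => h1 (by simp [e])) ?_
    simpa [Polar.th_smul_left, smul_smul, h1] using this
  refine TS.same_of_cent (R := {n | ∃ f, PU.Val f 0 ∧ f ≠ 0 ∧ n = PU.th f f})
    (fun z hz => hs z fun u hu => Polar.eigen_of_comm_th hu fun h0 => hz _ ⟨u, hu, h0, rfl⟩) ?_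
  rintro _ ⟨u, hu, hu0, rfl⟩
  obtain ⟨s, a1, a2, a3⟩ := hB e u he hu he0 hu0
  obtain ⟨f', b1, b2⟩ := key s u a1 hu a3 (key e s he a1 (PU.B_ne_symm a2) ⟨f, hf0, hf⟩)
  exact h.inA_th_of_range_eq h' hu b1 b2 (hty u hu hu0)

omit hT hT' h' in
theorem tor_lam {c : F} (hc : PU.Val 0 c) (hc0 : c ≠ 0) (hl : PU.Val 0 (l * c)) (hl0 : l ≠ 0) :
    τ.Tor PU X (-l) 1 (-l⁻¹) := fun e e' he he' h1 => by
  obtain ⟨k, a1, a2, a3, a4⟩ := Polar.exists_tor he he' h1 (by simp) (by simp) hl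
    (mul_ne_zero hl0 hc0) (by simp) (by simp) hc hc0
  refine ⟨k, h.left k a1, ?_, ?_, fun z hz hz' => by simp [a4 z hz hz']⟩
  · rw [a2, Polar.lam_σ hl]
    congr 1
    rcases PU.εε with h | h <;> simp only [h] <;> field_simp
  · rw [a3, Polar.lam_σ hc]
    congr 1
    rcases PU.εε with h | h <;> simp only [h] <;> field_simp

omit hT' h' in
theorem root_th_tor (hl : n ≠ l) (hm : n ≠ m) (hΛ : ∃ c, c ≠ 0 ∧ PU.Val 0 c)
    (hr : (2 : F) ≠ 0 ∨ 3 ≤ finrank F U) {e : U} (he : PU.Val e 0) (he0 : e ≠ 0) :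
    τ.Root X (Polar.th_sq he) PU.lamA :=
  h.root_th_of hΛ hr (fun f hf hf0 g hg h1 => by
    obtain ⟨f', a1, a2⟩ := TS.exists_range_eq hf0 hf0 h1
    exact h.same_of_tor (h.map hg) hT (hT.map hg) hl hm (Slot.both_of_lam hΛ)
      (fun _ _ _ => Or.inl hΛ) (fun z => Polar.scal_of_sing_eigen_lam hΛ he he0) hf hf0 a1 a2) he he0

omit hT hT' h' in
theorem same_or_comm_lam (hΛ : ∃ c, c ≠ 0 ∧ PU.Val 0 c) (hr : (2 : F) ≠ 0 ∨ 3 ≤ finrank F U)
    (hl0 : l ≠ 0) (hl : l ^ 2 ≠ 1) (hlΛ : ∀ t, PU.Val 0 t → PU.Val 0 (l * t)) {e : U}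
    (he : PU.Val e 0) (he0 : e ≠ 0)
    (hs : ∀ z : End F U, (∀ u, PU.Val u 0 → PU.B (z u) u = 0) → Scal z)
    {g : V ≃ₗ[F] V} (hg : g ∈ X) : τ.Same (τ.map g) ∨ τ.flip.Same (τ.map g) := by
  obtain ⟨c, hc0, hc⟩ := id hΛ
  have hA := Polar.lamA_ne_bot hΛ
  have key : ∀ {e}, ∀ he : PU.Val e 0, e ≠ 0 → τ.Root X (Polar.th_sq he) PU.lamA := fun he he0 =>
    h.root_th_tor (h.tor_lam hc hc0 (hlΛ c hc) hl0)
      (fun e => hl (by rw [neg_inj] at e; rw [sq]; nth_rewrite 1 [← e]; exact inv_mul_cancel₀ hl0))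
      (fun e => hl (by rw [neg_eq_iff_eq_neg, inv_eq_iff_eq_inv] at e; rw [e]; simp)) hΛ hr he he0
  refine (key he he0).same_or_comm' hA (hr.imp_right fun h =>
    ⟨h, e, fun x => Submodule.smul_mem _ _ (Submodule.mem_span_singleton_self e)⟩)
    (fun z hz => hs z fun f hf => ?_) hg
  by_cases hf0 : f = 0
  · simp [hf0]
  rw [← PU.trace_mul_th]
  exact hz _ fun d => (key hf hf0).δ_eq_zero hA hl0 hl hlΛ rfl d

omit hT hT' h' in
/-- Rigidity for a symplectic plane. -/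
theorem same_or_comm_sp_two (hsp : ∀ u, PU.Val u 0) (hk : finrank F U = 2) (h2 : (2 : F) ≠ 0)
    (hF : 5 ≤ Nat.card F) {g : V ≃ₗ[F] V} (hg : g ∈ X) :
    τ.Same (τ.map g) ∨ τ.flip.Same (τ.map g) := by
  obtain ⟨e, -, he0, he⟩ := Polar.wild_one_of_sp hsp ⊤ (by rw [finrank_top]; omega)
  obtain ⟨t, ht0, ht⟩ := Slot.exists_sq_ne_one hF
  have hΛ : ∃ c, c ≠ 0 ∧ PU.Val 0 c := ⟨1, one_ne_zero, Slot.lam_of_sp hsp he0 1⟩
  refine h.same_or_comm_lam hΛ (Or.inl h2) ht0 (by rwa [sq]) (fun _ _ => Slot.lam_of_sp hsp he0 _)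
    he he0 (fun z hz => scal_of_eigen fun u => ?_) hg
  by_cases hu0 : u = 0
  · simp [hu0]
  have h1 := PU.finrank_perp (F ∙ u)
  rw [finrank_span_singleton hu0, Polar.perp_span_singleton] at h1
  rw [Submodule.eq_of_le_of_finrank_eq (S₁ := F ∙ u) (S₂ := PU.pp u)
    (by simpa using Polar.sing_B (hsp u)) (by rw [finrank_span_singleton hu0]; omega)]
  exact hz u (hsp u)

omit hT hT' h' in
/-- Rigidity for unitary spaces over large fields. -/
theorem same_or_comm_su_of_lt (hσ : ∃ a, PU.σ a ≠ a) (hε : PU.ε = 1) (hk : 2 ≤ finrank F U)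
    (hr : (2 : F) ≠ 0 ∨ 3 ≤ finrank F U) (hl0 : l ≠ 0) (hl : l ^ 2 ≠ 1) (hlσ : PU.σ l = l)
    {g : V ≃ₗ[F] V} (hg : g ∈ X) : τ.Same (τ.map g) ∨ τ.flip.Same (τ.map g) := by
  obtain ⟨e, -, he0, he⟩ := Polar.wild_two_of_unitary hσ hε ⊤ (by rwa [finrank_top])
  refine h.same_or_comm_lam (Polar.exists_lam_ne_of_unitary hσ hε) hr hl0 hl (fun t ht => ?_) he he0
    (fun z => Slot.scal_of_unitary hσ hε hk) hg
  rw [Polar.val_iff_of_unitary hσ hε] at ht ⊢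
  rw [map_mul, hlσ, ← mul_add, ← ht]
  simp

omit hT hT' h' in
theorem tor_su (hσ : ∃ a, PU.σ a ≠ a) (hε : PU.ε = 1) (hk : finrank F U = 3) {c₁ c₂ : F}
    (h₁ : c₁ + PU.σ c₁ = 1) (h₂ : PU.Val 0 c₂) (h0 : c₂ ≠ 0) :
    τ.Tor PU X (PU.σ c₁ / c₂) (1 - (PU.σ c₁)⁻¹) (PU.σ c₂ / c₁) := fun e e' he he' h1 => by
  have he0 : e ≠ 0 := fun e => by simp [e] at h1
  have h3 := PU.finrank_perp ((F ∙ e) ⊔ F ∙ e')
  rw [Submodule.finrank_sup_span_singleton (Polar.notMem_span_of_B_ne (Polar.sing_B he)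
    (by simp [h1])), finrank_span_singleton he0, Polar.perp_sup, Polar.perp_span_singleton,
    Polar.perp_span_singleton] at h3
  obtain ⟨x, hx, hx0⟩ := exists_notMem_of_finrank_lt (U := ⊥) (W := PU.pp e ⊓ PU.pp e')
    (by rw [finrank_bot]; omega)
  have h4 : ∀ x ∈ PU.pp e ⊓ PU.pp e', x ≠ 0 → ∀ z, PU.B z e = 0 → PU.B z e' = 0 → z ∈ F ∙ x :=
    fun x hx hx0 z hz hz' => by
      rw [Submodule.eq_of_le_of_finrank_eq (S₁ := F ∙ x) (S₂ := PU.pp e ⊓ PU.pp e')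
        (by simpa using hx) (by rw [finrank_span_singleton hx0]; omega)]
      exact ⟨hz, hz'⟩
  obtain ⟨w, hw, hw1⟩ := Polar.exists_unit_vector hσ hε hx (fun h5 => hx0 (PU.nondeg x fun y => by
    obtain ⟨z, b1, b2, b3⟩ := Polar.eq_add_of_pair he he' h1 y
    obtain ⟨a, rfl⟩ := Submodule.mem_span_singleton.1 (h4 x hx hx0 z b1 b2)
    rw [b3]
    simp [h5, PU.B_symm hx.1, PU.B_symm hx.2]))
  have hc : c₁ ≠ 0 := by rintro rfl; simp at h₁
  obtain ⟨k, a1, a2, a3, a4⟩ := Polar.exists_tor he he' h1 hw.1 hw.2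
    ((Polar.val_iff_of_unitary hσ hε).2 (hw1.trans h₁.symm)) hc (by simp) (by simp) h₂ h0
  refine ⟨k, h.left k a1, by simp [a2, hε], by simp [a3, hε], fun z hz hz' => ?_⟩
  rw [a4 z hz hz']
  obtain ⟨a, rfl⟩ := Submodule.mem_span_singleton.1 (h4 w hw (fun e => by simp [e] at hw1) z hz hz')
  simp only [hε, map_smul, LinearMap.smul_apply, hw1, map_zero, LinearMap.zero_apply, smul_eq_mul]
  module

omit hT hT' h' in
/-- Rigidity for unitary spaces of dimension three. -/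
theorem same_or_comm_su_three (hσ : ∃ a, PU.σ a ≠ a) (hε : PU.ε = 1) (hk : finrank F U = 3)
    (hF : 4 < Nat.card F) {g : V ≃ₗ[F] V} (hg : g ∈ X) :
    τ.Same (τ.map g) ∨ τ.flip.Same (τ.map g) := by
  by_cases h2 : (2 : F) = 0
  · obtain ⟨κ, κ', a1, a2, a3, a4, a5⟩ := Slot.exists_two_lam_of_unitary hσ hε hF
    refine h.same_or_comm_su_of_lt hσ hε (by omega) (Or.inr (by omega)) (div_ne_zero a3 a4)
      (fun e => a5 ?_) (by rw [map_div₀, Polar.lam_σ a1, Polar.lam_σ a2, hε]; simp) hg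
    have : (κ / κ' - 1) ^ 2 = 0 := by linear_combination e + (1 - κ / κ') * h2
    exact (div_eq_one_iff_eq a4).1 (sub_eq_zero.1 (pow_eq_zero_iff two_ne_zero |>.1 this))
  have hΛ := Polar.exists_lam_ne_of_unitary hσ hε
  have hA := Polar.lamA_ne_bot hΛ
  obtain ⟨c, hc0, hc⟩ := id hΛ
  have h3 : PU.σ c = -c := by rw [Polar.lam_σ hc, hε, one_mul]
  have h4 : PU.σ (2⁻¹ + c) = 2⁻¹ - c := by rw [map_add, h3, map_inv₀, map_ofNat]; ring
  have h5 : 2⁻¹ + c + PU.σ (2⁻¹ + c) = 1 := by rw [h4]; field_simp; ring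
  have h6 : 2⁻¹ + c ≠ 0 := fun e => by simp [e] at h5
  have h7 : 2⁻¹ - c ≠ 0 := by rw [← h4]; exact (map_ne_zero _).2 h6
  have h8 : (2⁻¹ : F) * 2 = 1 := inv_mul_cancel₀ h2
  have h9 : (2⁻¹ : F) ≠ 0 := inv_ne_zero h2
  have key : ∀ {e}, ∀ he : PU.Val e 0, e ≠ 0 → τ.Root X (Polar.th_sq he) PU.lamA := fun he he0 =>
    h.root_th_tor (h.tor_su hσ hε hk h5 hc hc0) (fun e => by
      rw [h3, h4, div_eq_div_iff h6 hc0] at e
      exact mul_ne_zero h9 h9 (by linear_combination -e)) (fun e => by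
      have e' := congrArg PU.σ e
      rw [map_div₀, map_sub, map_one, map_inv₀, PU.σσ, PU.σσ, h4] at e'
      rw [h3, h4] at e
      generalize (2⁻¹ : F) = a at *
      field_simp at e e'
      exact hc0 (by linear_combination e - e' + c * h8)) hΛ (Or.inl h2) he he0
  obtain ⟨e, -, he0, he⟩ := Polar.wild_two_of_unitary hσ hε ⊤ (by rw [finrank_top]; omega)
  refine (key he he0).same_or_comm' hA (Or.inl h2)
    (fun z hz => Slot.scal_of_unitary hσ hε (by omega) fun f hf => ?_) hg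
  have k1 : ∀ w, PU.B w w ≠ 0 → PU.B (z w) w = 0 := fun w hw => by
    have hw0 : w ≠ 0 := fun e => hw (by simp [e])
    have b1 := PU.finrank_perp (F ∙ w)
    rw [finrank_span_singleton hw0] at b1
    obtain ⟨e₁, b2, b3, b4⟩ := Polar.wild_two_of_unitary hσ hε (PU.perp (F ∙ w)) (by omega)
    obtain ⟨e₂, b5, b6, b7⟩ := Polar.exists_hyperbolic (U := F ∙ w) b4 (fun h => by
      obtain ⟨a, rfl⟩ := Submodule.mem_span_singleton.1 h
      have := b2 w (Submodule.mem_span_singleton_self w)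
      simp [hw] at this
      simp [this] at b3) b2 1 one_ne_zero
    rw [Polar.perp_span_singleton] at b2 b5
    rw [← PU.trace_mul_th]
    refine hz _ fun d => LinearMap.ext fun v => TS.eq_zero_of_mem_range_th
      ((key b4 b3).δ_apply_mem' hA h2 (Polar.th_comm (PU.B_symm b2) b2) d v)
      ((key b6 (fun e => by simp [e] at b7)).δ_apply_mem' hA h2 (Polar.th_comm (PU.B_symm b5) b5) d v)
      (y := e₂) (PU.B_ne_symm (by simp [b7])) (Polar.sing_B b6)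
  by_cases hf0 : f = 0
  · simp [hf0]
  obtain ⟨f', b1, b2⟩ := Polar.exists_partner hf hf0
  obtain ⟨x, hx, hx0⟩ := exists_notMem_of_finrank_lt (U := F ∙ f) (W := ⊤ ⊓ PU.pp f) (by
    have := Polar.finrank_inf_pp_ge (P := PU) ⊤ f
    rw [finrank_top] at this
    rw [finrank_span_singleton hf0]; omega)
  obtain ⟨w, b3, b4⟩ : ∃ w, PU.B w f = 0 ∧ PU.B w w ≠ 0 := by
    by_contra! hcon
    exact hx0 (Slot.mem_span_of_B fun w hw => Polar.B_eq_zero_of_forall_isotropic hσ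
      (U := PU.pp f) hcon hx.2 hw)
  have b5 := k1 (w + f) (by simpa [b3, PU.B_symm b3, Polar.sing_B hf] using b4)
  have b6 := k1 (w - f) (by simpa [b3, PU.B_symm b3, Polar.sing_B hf] using b4)
  simp only [map_add, map_sub, LinearMap.add_apply, LinearMap.sub_apply, k1 w b4] at b5 b6
  exact mul_left_cancel₀ h2 (by linear_combination b5 + b6)

end Good

end Cfsg.Agent.Tens
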