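import Cfsg.Agent.Tens.Pow
import Cfsg.Agent.Tens.Rigid3
import Cfsg.Agent.H8.Proper

/-!
Tensor wreath subgroups: reduction of maximality to step C and rigidity.
-/

set_option autoImplicit false
set_option linter.unusedSectionVars false
set_option linter.unusedSimpArgs false

namespace Cfsg.Agent.Tens

open Module Cfsg.Agent.H7 Cfsg.Agent.H7.Polar Cfsg.Agent.H1
open scoped Matrix MatrixGroups

section Abstract

variable {F U V : Type*} [Field F] [AddCommGroup U] [Module F U] [AddCommGroup V] [Module F V]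
  {ι : Type*} {W : ι → Type*} [∀ i, AddCommGroup (W i)] [∀ i, Module F (W i)]

/-- `X` contains the elements of `E` permuting the slots. -/
def Wr (τ : ∀ i, TS F U (W i) V) (E X : Subgroup (V ≃ₗ[F] V)) : Prop :=
  ∀ g ∈ E, ∀ σ : Equiv.Perm ι, (∀ i, (τ (σ i)).Same ((τ i).map g)) → g ∈ X

theorem exists_not_comm [FiniteDimensional F U] (h : 2 ≤ finrank F U) :
    ∃ a b : End F U, a * b ≠ b * a := by
  by_contra! hc
  have : Nontrivial U := Module.nontrivial_of_finrank_pos (R := F) (by omega)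
  obtain ⟨u, hu⟩ := exists_ne (0 : U)
  obtain ⟨v, -, hv⟩ := exists_notMem_of_finrank_lt (U := F ∙ u) (W := ⊤) (by
    rw [finrank_top, finrank_span_singleton hu]; omega)
  obtain ⟨φ, h1, h2⟩ := exists_dual_one₂ hv
  obtain ⟨s, hs⟩ := scal_of_comm (z := φ.smulRight u) fun d => hc _ _
  have h3 := hs u
  have h4 := hs v
  simp only [LinearMap.smulRight_apply, h1, h2, zero_smul, one_smul] at h3 h4
  have h5 : s = 0 := (smul_eq_zero.1 h3.symm).resolve_right hu
  exact hu (by simpa [h5] using h4)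

theorem TS.Same.exists_eq [FiniteDimensional F U] {W₁ W₂ : Type*} [AddCommGroup W₁] [Module F W₁]
    [AddCommGroup W₂] [Module F W₂] [Nontrivial W₁] [Nontrivial W₂] {τ : TS F U W₁ V}
    {τ' : TS F U W₂ V} (h : τ.Same τ') (b : End F U) : ∃ a, τ'.K a 1 = τ.K b 1 := by
  choose f hf using h
  let φ : End F U →ₗ[F] End F U :=
    { toFun := f
      map_add' := fun a b => τ.K_one_inj (by simp [← hf])
      map_smul' := fun c a => τ.K_one_inj (by simp [← hf]) }
  have hinj : Function.Injective φ := fun a b e => τ'.K_one_inj (by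
    rw [hf, hf]; exact congrArg (fun z => τ.K z 1) e)
  obtain ⟨a, ha⟩ := LinearMap.injective_iff_surjective.1 hinj b
  exact ⟨a, by rw [hf]; exact congrArg (fun z => τ.K z 1) ha⟩

variable [FiniteDimensional F U] [∀ i, FiniteDimensional F (W i)] [∀ i, Nontrivial (W i)]
  [Fintype ι] {τ : ∀ i, TS F U (W i) V} (h : Multi τ)
include h

theorem Multi.same_KL (i j : ι) (g : U ≃ₗ[F] U) [Nontrivial U] :
    (τ j).Same ((τ j).map ((τ i).KL g)) := by
  by_cases hij : j = i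
  · subst hij; exact (τ j).same_map_KE g 1
  · obtain ⟨d, hd, -⟩ := h.exists_KE hij g
    rw [hd]; exact (τ j).same_map_KE 1 d

/-- If all conjugates of a slot are equal to it or commute with it, then the slots are permuted. -/
theorem Multi.exists_perm (hU : 2 ≤ finrank F U) {X : Subgroup (V ≃ₗ[F] V)} (hc : Cyc τ X)
    (hX : ∀ i, ∀ g ∈ X, (τ i).Same ((τ i).map g) ∨ (τ i).flip.Same ((τ i).map g))
    {g : V ≃ₗ[F] V} (hg : g ∈ X) : ∃ σ : Equiv.Perm ι, ∀ i, (τ (σ i)).Same ((τ i).map g) := by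
  classical
  obtain ⟨a₀, b₀, hab⟩ := exists_not_comm hU
  have hfl : ∀ i j, (τ i).flip.Same ((τ j).map g) → ∀ a b,
      (τ i).K a 1 * ((τ j).map g).K b 1 = ((τ j).map g).K b 1 * (τ i).K a 1 := fun i j h1 a b => by
    simpa using (h1 b).comm a
  have key : ∀ j, ∃ i, (τ i).Same ((τ j).map g) := fun j => by
    by_contra! hcon
    have h1 := hfl j j ((hX j g hg).resolve_left (hcon j))
    have h2 : ∀ i a b, (τ i).K a 1 * ((τ j).map g).K b 1 = ((τ j).map g).K b 1 * (τ i).K a 1 := by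
      intro i
      by_cases hij : i = j
      · exact hij ▸ h1
      by_cases h3 : ∃ l, l ≠ i ∧ l ≠ j
      · obtain ⟨l, hli, hlj⟩ := h3
        obtain ⟨k, hk, h3, -⟩ := hc i l j hli.symm hij hlj
        have h4 : ∀ a, ((τ i).map (g * k)).K a 1 = ((τ j).map g).K a 1 := fun a => by
          rw [TS.map_mul, TS.map_K, h3, TS.map_K]
        rcases hX i _ (X.mul_mem hg hk) with h5 | h5
        · exact (hcon i fun a => h4 a ▸ h5 a).elim
        · exact hfl i j fun a => h4 a ▸ h5 a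
      · push Not at h3
        exact (hcon i fun b => h.inA_of_comm fun l hl a => h3 l hl ▸ h1 a b).elim
    obtain ⟨s, hs⟩ := (h.scal _ fun i a => h2 i a a₀).eq
    refine hab (((τ j).map g).K_one_inj ?_)
    rw [← mul_one (1 : End F (W j)), ← TS.K_mul, ← TS.K_mul, hs]
    simp
  choose σ hσ using key
  have hinj : Function.Injective σ := fun j j' e => by
    by_contra hne
    obtain ⟨a, ha⟩ := (hσ j).exists_eq a₀
    obtain ⟨b, hb⟩ := (e ▸ hσ j' : (τ (σ j)).Same ((τ j').map g)).exists_eq b₀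
    refine hab ((τ (σ j)).K_one_inj ?_)
    rw [← mul_one (1 : End F (W (σ j))), ← TS.K_mul, ← TS.K_mul, ← ha, ← hb]
    refine LinearMap.ext fun v => ?_
    simpa [TS.map_K_apply'] using LinearMap.congr_fun (h.comm j j' hne a b) (g.symm v)
  exact ⟨Equiv.ofBijective σ hinj.bijective_of_finite, hσ⟩

end Abstract

variable {F : Type*} [Field F]

section Model

variable {ι κ : Type} [Fintype ι] [DecidableEq ι] [Fintype κ] [DecidableEq κ] {V : Type*}
  [AddCommGroup V] [Module F V] [Finite F] (Φ : Pw F ι κ ≃ₗ[F] V) (PU : Polar F (κ → F))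
  (PV : Polar F V)

/-- The standing situation: an overgroup of the tensor wreath subgroup. -/
structure PX (X : Subgroup (V ≃ₗ[F] V)) : Prop where
  pc : PCompat Φ PU PV
  two : 2 ≤ Fintype.card ι
  le : X ≤ PV.E
  wr : Wr (τ1 Φ) PV.E X
  hL : ∀ i, ∀ g ∈ PU.E, (τ1 Φ i).KL g ∈ X
  cyc : Cyc (τ1 Φ) X

/-- Step C. -/
def StepC : Prop := ∀ X, PX Φ PU PV X → ∀ i, ¬ (τ1 Φ i).Hpt PU X → PV.E ≤ X

/-- Rigidity. -/
def RigP : Prop := ∀ X, PX Φ PU PV X → (∀ i, (τ1 Φ i).Hpt PU X) → ∀ i, ∀ g ∈ X,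
  (τ1 Φ i).Same ((τ1 Φ i).map g) ∨ (τ1 Φ i).flip.Same ((τ1 Φ i).map g)

variable {Φ PU PV}

theorem nonempty_ne (h : 2 ≤ Fintype.card ι) (i : ι) : Nonempty {j // j ≠ i} := by
  obtain ⟨j, hj⟩ := Fintype.exists_ne_of_one_lt_card h i
  exact ⟨⟨j, hj⟩⟩

theorem PX.iso {X : Subgroup (V ≃ₗ[F] V)} (h : PX Φ PU PV X) : X ≤ PV.Iso := h.le.trans E_le_Iso

theorem PX.setup {X : Subgroup (V ≃ₗ[F] V)} (h : PX Φ PU PV X) (hw : PU.W2)
    (hT : ∀ i : ι, TrV PU {j // j ≠ i}) (i : ι) : Setup (τ1 Φ i) PU (powPolar PU (hT i)) PV X :=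
  ⟨h.pc.compat _, h.iso, h.hL i, hw⟩

theorem PX.good {X : Subgroup (V ≃ₗ[F] V)} (h : PX Φ PU PV X) {i : ι} (hT : TrV PU {j // j ≠ i})
    (hH : (τ1 Φ i).Hpt PU X) (hv : ∀ u, PU.B u u = 0 → PU.Val u 0) :
    Good (τ1 Φ i) PU (powPolar PU hT) PV X := ⟨h.pc.compat _, h.iso, h.hL i, hH, hv⟩

theorem stepC_sp (hU : IsSp PU) (hk : 5 ≤ Fintype.card κ ∨ ((2 : F) ≠ 0 ∧ 4 ≤ Fintype.card κ))
    (hΛ : ∀ c, PV.Val 0 c → ∃ a, c = a - PV.ε * PV.σ a) : StepC Φ PU PV := fun _ h _ hi =>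
  E_le_of_not_hpt_sp (h.setup ((wild_one_of_sp fun _ => hU.val _ _).w2 (by simp; omega))
    fun i => Or.inr (Or.inr ⟨fun _ => hU.val _ _, nonempty_ne h.two i⟩)) (multi Φ)
    (fun _ => hU.val _ _) (by simpa using hk.symm.imp_left And.left) h.cyc hΛ hi

theorem stepC_su (hU : IsUn PU) (hk : 4 ≤ Fintype.card κ) : StepC Φ PU PV := fun _ h _ hi =>
  E_le_of_not_hpt_su (h.setup ((wild_two_of_unitary hU.σ hU.ε).w2 (by simpa using hk))
    fun _ => Or.inr (Or.inl hU.σ)) (multi Φ) hU.σ hU.ε h.cyc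
    (fun _ => lam_of_unitary (by simpa only [h.pc.σ] using hU.σ) (by rw [h.pc.ε, hU.ε, one_pow])) hi

theorem stepC_o (hU : IsO PU) (h2 : (2 : F) ≠ 0) (hk : 5 ≤ Fintype.card κ) (hV : IsO PV) :
    StepC Φ PU PV := fun _ h _ hi =>
  E_le_of_not_hpt_o (h.setup ((wild_three_of_σ hU.σ).w2 (by simpa using hk))
    fun _ => Or.inl h2) (multi Φ) hU h2 (by simpa using hk) h.cyc (isO_lam hV) hi

theorem rigP_sp (hU : IsSp PU) (hk : 5 ≤ Fintype.card κ ∨ ((2 : F) ≠ 0 ∧ 4 ≤ Fintype.card κ) ∨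
    ((2 : F) ≠ 0 ∧ Fintype.card κ = 2 ∧ 5 ≤ Nat.card F)) : RigP Φ PU PV := fun _ h hH i g hg => by
  have : Nonempty κ := Fintype.card_pos_iff.1 (by omega)
  have hG := h.good (Or.inr (Or.inr ⟨fun _ => hU.val _ _, nonempty_ne h.two i⟩)) (hH i)
    fun _ _ => hU.val _ _
  rw [← or_assoc] at hk
  rcases hk with hk | ⟨h2, hk, hq⟩
  · exact hG.same_or_comm_sp (fun _ => hU.val _ _) (by simpa using hk)
      ⟨1, one_ne_zero, hU.val _ _⟩ hg
  · exact hG.same_or_comm_sp_two (fun _ => hU.val _ _) (by simpa using hk) h2 hq hg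

theorem rigP_su (hU : IsUn PU) (hk : 4 ≤ Fintype.card κ ∨ (Fintype.card κ = 3 ∧ 4 < Nat.card F)) :
    RigP Φ PU PV := fun _ h hH i g hg => by
  have : Nonempty κ := Fintype.card_pos_iff.1 (by omega)
  have hG := h.good (Or.inr (Or.inl hU.σ)) (hH i) fun _ => (sing_iff_of_unitary hU.σ hU.ε).2
  rcases hk with hk | ⟨hk, hq⟩
  · exact hG.same_or_comm_unitary ((wild_two_of_unitary hU.σ hU.ε).w2 (by simpa using hk))
      hU.σ hU.ε hg
  · exact hG.same_or_comm_su_three hU.σ hU.ε (by simpa using hk) hq hg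

theorem rigP_o (hU : IsO PU) (h2 : (2 : F) ≠ 0) (hk : 5 ≤ Fintype.card κ) :
    RigP Φ PU PV := fun _ h hH i g hg => by
  have : Nonempty κ := Fintype.card_pos_iff.1 (by omega)
  exact (h.good (Or.inl h2) (hH i) fun _ => (hU.sing_iff h2).2).same_or_comm_orth hU h2
    (by simpa using hk) hg

end Model

section Glue

variable {ι : Type} [Fintype ι] [DecidableEq ι] {k t : ℕ} (e : ι ≃ (Fin t → Fin k)) (P : GL ι F)

/-- The frame attached to the data of the Prelude. -/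
noncomputable abbrev frame : Pw F (Fin t) (Fin k) ≃ₗ[F] (ι → F) := H8.trvE e P

theorem frame_pv (xs : Fin t → Fin k → F) :
    pv (frame e P) xs = (P : Matrix ι ι F) *ᵥ ((fun a => ∏ i, xs i (a i)) ∘ e) := rfl

theorem toLin_ins (i : Fin t) (x : Matrix (Fin k) (Fin k) F) :
    Matrix.toLin' (Asch.tr e P (Asch.ins i x)) = (τ1 (frame e P) i).K (Matrix.toLin' x) 1 := by
  rw [← mo_mulSingle]
  refine pv_ext (frame e P) fun xs => ?_
  rw [mo_pv]
  change Asch.tr e P _ *ᵥ Asch.trv e P (H8.ptv xs) = Asch.trv e P (H8.ptv _)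
  rw [Asch.tr_mulVec, Asch.ins_apply, H8.pt_mulVec_ptv]
  congr 2
  ext1 j
  by_cases h : j = i
  · subst h; simp
  · simp [h]

theorem mem_wreath_of (ht : 0 < t) (hk : 0 < k) {g : GL ι F} {σ : Equiv.Perm (Fin t)}
    (h : ∀ i, (τ1 (frame e P) (σ i)).Same ((τ1 (frame e P) i).map (toLE g))) :
    g ∈ Geo.tensorWreathSubgroup k t e P := by
  refine Asch.mem_tensorWreathSubgroup_of_perm ht hk e P g σ fun i x => ?_
  obtain ⟨a, ha⟩ := h i (Matrix.toLin' x)
  refine ⟨LinearMap.toMatrix' a, Matrix.toLin'.injective ?_⟩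
  rw [toLin_ins, Matrix.toLin'_toMatrix', ← ha, TS.map_K, ← toLin_ins, Asch.cj_apply,
    Matrix.toLin'_mul, Matrix.toLin'_mul, ← toLE_coe, ← toLE_coe, map_inv]
  rfl

/-- The form-free reduction. -/
theorem wreath_maximal_of {G : Subgroup (GL ι F)} {E : Subgroup ((ι → F) ≃ₗ[F] (ι → F))}
    (hG : ∀ g, g ∈ G ↔ toLE g ∈ E) (hk : 2 ≤ k) (ht : 2 ≤ t)
    (hne : ¬ G ≤ Geo.tensorWreathSubgroup k t e P)
    (hp : ∀ σ σ' : Equiv.Perm (Fin t), perm (frame e P) (σ * σ' * σ⁻¹ * σ'⁻¹) ∈ E)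
    (key : ∀ X ≤ E, Wr (τ1 (frame e P)) E X → Cyc (τ1 (frame e P)) X → E ≤ X ∨ ∀ i, ∀ g ∈ X,
      (τ1 (frame e P) i).Same ((τ1 (frame e P) i).map g) ∨
        (τ1 (frame e P) i).flip.Same ((τ1 (frame e P) i).map g)) :
    Geo.IsMaximalIn G (Geo.tensorWreathSubgroup k t e P ⊓ G) := by
  obtain ⟨g₀, h1, h2⟩ := SetLike.not_le_iff_exists.1 hne
  refine isMaximalIn_of inf_le_right ⟨g₀, h1, fun h => h2 h.1⟩ fun X hHX hXG g hg hgH => ?_
  have : Nonempty (Fin k) := ⟨⟨0, by omega⟩⟩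
  have hW : Wr (τ1 (frame e P)) E (X.map toLE.toMonoidHom) := fun x hx σ hσ => by
    obtain ⟨x, rfl⟩ := toLE.surjective x
    exact ⟨x, hHX ⟨mem_wreath_of e P (by omega) (by omega) hσ, (hG x).2 hx⟩, rfl⟩
  have hC : Cyc (τ1 (frame e P)) (X.map toLE.toMonoidHom) :=
    cyc_of _ fun σ σ' => hW _ (hp σ σ') _ (same_perm _ _)
  rcases key (X.map toLE.toMonoidHom) (by rintro _ ⟨x, hx, rfl⟩; exact (hG x).1 (hXG hx)) hW hC
    with h | h
  · intro x hx
    obtain ⟨y, hy, hxy⟩ := h ((hG x).1 hx)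
    rwa [← toLE.injective hxy]
  · obtain ⟨σ, hσ⟩ := (multi (frame e P)).exists_perm (by simpa using hk) hC h ⟨g, hg, rfl⟩
    exact absurd ⟨mem_wreath_of e P (by omega) (by omega) hσ, hXG hg⟩ hgH

variable [Finite F]

theorem exists_pcompat (PU : Polar F (Fin k → F)) (PV : Polar F (ι → F)) (hk : 0 < k)
    (hσ : ∀ a, PV.σ a = PU.σ a) (hε : PV.ε = PU.ε ^ t)
    (hT : Geo.IsTensorPowerFormStructure PU.σ (fun x y => PV.B x y) (fun x y => PU.B x y) e P)
    (hv : ((∀ u, PU.Val u 0) ∧ ∀ xs, PV.Val (pv (frame e P) xs) 0) ∨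
      ∀ v, PV.B v v = 0 → PV.Val v 0) :
    ∃ (c : F) (hc : c ≠ 0) (hσ : PV.σ c = 1 * c),
      PCompat (frame e P) PU (PV.scale hc (Or.inl rfl) hσ) := by
  obtain ⟨c, hc, h⟩ := hT
  have hB : ∀ xs ys, PV.B (pv (frame e P) xs) (pv (frame e P) ys) = c * ∏ i, PU.B (xs i) (ys i) :=
    fun xs ys => by rw [← powB_pv0]; exact h _ _
  have hσc : PV.σ c = c := by
    have := nontrivial_fun (F := F) hk
    obtain ⟨u, hu⟩ := exists_ne (0 : Fin k → F)
    obtain ⟨u', hu'⟩ := PU.exists_B_ne hu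
    have h1 := PV.herm (pv (frame e P) fun _ => u') (pv (frame e P) fun _ => u)
    simp only [hB, Finset.prod_const, Finset.card_univ, Fintype.card_fin, map_mul, map_pow, hε,
      hσ (PU.B _ _), PU.σ_herm, mul_pow] at h1
    have h2 : PU.ε ^ t * PU.ε ^ t = 1 := by rw [← mul_pow]; simp
    refine mul_right_cancel₀ (pow_ne_zero t hu') ?_
    linear_combination -h1 - PV.σ c * PU.B u u' ^ t * h2
  refine ⟨c⁻¹, inv_ne_zero hc, by rw [map_inv₀, hσc, one_mul], hσ,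
    by rw [scale_ε, mul_one, hε, Fintype.card_fin], fun xs ys => ?_, fun xs i hi => ?_, ?_⟩
  · rw [scale_B, hB, inv_mul_cancel_left₀ hc]
  · rw [scale_val, zero_div]
    rcases hv with hv | hv
    · exact hv.2 xs
    · exact hv _ (by rw [hB, Finset.prod_eq_zero (Finset.mem_univ i) (sing_B hi), mul_zero])
  · refine hv.imp And.left fun hv v h0 => ?_
    rw [scale_val, zero_div]
    exact hv v (by simpa [scale_B, hc] using h0)

variable {e P}

/-- The reduction of maximality to step C and rigidity. -/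
theorem PCompat.wreath_maximal {PU : Polar F (Fin k → F)} {PV : Polar F (ι → F)}
    (hc : PCompat (frame e P) PU PV) {G : Subgroup (GL ι F)} (hG : ∀ g, g ∈ G ↔ toLE g ∈ PV.E)
    (hk : 2 ≤ k) (ht : 2 ≤ t) {d : ℕ} (hw : PV.Wild d) (hd : d ≤ 3) (hn : d + 4 ≤ Fintype.card ι)
    (hs : ∃ u, PU.Val u 0 ∧ u ≠ 0) (hL : ∀ i, ∀ g ∈ PU.E, (τ1 (frame e P) i).KL g ∈ PV.E)
    (hC : StepC (frame e P) PU PV) (hR : RigP (frame e P) PU PV) :
    Geo.IsMaximalIn G (Geo.tensorWreathSubgroup k t e P ⊓ G) := by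
  have : Nonempty (Fin t) := ⟨⟨0, by omega⟩⟩
  have : Nonempty (Fin k) := ⟨⟨0, by omega⟩⟩
  refine wreath_maximal_of e P hG hk ht
    (H8.HasE.not_le_tensorWreathSubgroup ⟨PV, d, hw, hd, hn, fun g => (hG g).2⟩ hk ht e P)
    (fun σ σ' => by
      simpa only [map_mul, map_inv] using comm_mem_E hw (by simpa using hn) (hc.perm_mem_Iso hs σ)
        (hc.perm_mem_Iso hs σ')) fun X hX hW hCy => ?_
  have h : PX (frame e P) PU PV X := ⟨hc, by simpa using ht, hX, hW,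
    fun i g hg => hW _ (hL i g hg) 1 fun j => (multi _).same_KL i j g, hCy⟩
  by_cases H : ∀ i, (τ1 (frame e P) i).Hpt PU X
  · exact Or.inr (hR X h H)
  · obtain ⟨i, hi⟩ := not_forall.1 H
    exact Or.inl (hC X h i hi)

end Glue

section Types

variable [Fintype F] {k t : ℕ}

theorem card_pow {ι : Type} [Fintype ι] (e : ι ≃ (Fin t → Fin k)) : Fintype.card ι = k ^ t := by
  simpa using Fintype.card_congr e

/-- `Sp_k ≀ S_t` in `Sp`, given step C in the case `k = 2`. -/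
theorem sp_wreath_maximal_of (hodd : Odd (Fintype.card F)) {m : ℕ} (hm : 3 ≤ m) (ht : Odd t)
    (ht2 : 2 ≤ t) (hex : ¬ (Fintype.card F = 3 ∧ k = 2)) (e : (Fin m ⊕ Fin m) ≃ (Fin t → Fin k))
    (P : GL (Fin m ⊕ Fin m) F) {f₁ : (Fin k → F) → (Fin k → F) → F} (hf₁ : Geo.IsSymplecticForm f₁)
    (hT : Geo.IsTensorPowerFormStructure id (sympForm m F) f₁ e P)
    (hC : k = 2 → 5 ≤ Nat.card F → ∀ PV, IsSp PV → StepC (frame e P) (spPolar hf₁) PV) :
    Geo.IsMaximalIn (spGL m F) (Geo.tensorWreathSubgroup k t e P ⊓ spGL m F) := by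
  have h2 := two_ne_zero_of_odd_card hodd
  obtain ⟨-, hq⟩ := card_facts hodd
  have hn : m + m = k ^ t := by simpa using card_pow e
  have hk : 2 ≤ k := by
    by_contra h
    have : k ^ t ≤ 1 := pow_le_one₀ (by omega) (by omega)
    omega
  have hU := isSp_spPolar hf₁
  obtain ⟨j, hj⟩ : Even k := by simpa using hU.even
  obtain ⟨c, hc, hσ, h⟩ := exists_pcompat e P (spPolar hf₁) (spStd m F) (by omega) (fun _ => rfl)
    (by rw [spPolar_ε, spPolar_ε, ht.neg_one_pow]) hT (Or.inr fun _ _ => trivial)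
  have hV := (isSp_spPolar (isSymplecticForm_sympForm m F)).scale hc hσ
  have hs := exists_sing_of_wild (spPolar_wild hf₁) (by simp; omega)
  refine h.wreath_maximal (fun g => by rw [scale_E, mem_spGL_iff]) hk ht2
    (wild_one_of_sp fun _ => hV.val _ _) (by omega) (by simp; omega) hs
    (fun i g hg => (h.compat (Or.inl h2)).KL_mem_E_sp (fun _ => hV.val _ _) hs (E_le_Iso hg)) ?_ ?_
  · by_cases hk2 : k = 2
    · exact hC hk2 (hq fun h => hex ⟨h, hk2⟩) _ hV
    · exact stepC_sp hU (Or.inr ⟨h2, by simp; omega⟩) (hV.lam h2)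
  · refine rigP_sp hU (Or.inr ?_)
    by_cases hk2 : k = 2
    · exact Or.inr ⟨h2, by simpa using hk2, hq fun h => hex ⟨h, hk2⟩⟩
    · exact Or.inl ⟨h2, by simp; omega⟩

/-- `GU_k ≀ S_t` in `SU`, given step C in the case `k = 3`. -/
theorem su_wreath_maximal_of {n q : ℕ} (hF : Fintype.card F = q ^ 2) (hk : 3 ≤ k) (ht : 2 ≤ t)
    (hex : ¬ (q = 2 ∧ k = 3)) (e : Fin n ≃ (Fin t → Fin k)) (P : GL (Fin n) F)
    {f₁ : (Fin k → F) → (Fin k → F) → F} (hf₁ : Geo.IsUnitaryFormPow q f₁)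
    (hT : Geo.IsTensorPowerFormStructure (fun x : F => x ^ q) (hermForm n F q) f₁ e P)
    (hC : k = 3 → 4 < Nat.card F → ∀ PV, StepC (frame e P) (unitPowPolar hF hf₁) PV) :
    Geo.IsMaximalIn (GU n F q ⊓ Geo.specialLinear (Fin n) F)
      (Geo.tensorWreathSubgroup k t e P ⊓ (GU n F q ⊓ Geo.specialLinear (Fin n) F)) := by
  have hn : n = k ^ t := by simpa using card_pow e
  have hn9 : 9 ≤ n := hn ▸ (Nat.pow_le_pow_left hk 2).trans (Nat.pow_le_pow_right (by omega) ht)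
  have hU := isUn_unitPowPolar hF hf₁
  have hV₀ := isUn_unitPowPolar hF (isUnitaryFormPow_hermForm hF n)
  obtain ⟨c, hc, hσ, h⟩ := exists_pcompat e P (unitPowPolar hF hf₁) (uStd hF n) (by omega)
    (fun _ => rfl) (by rw [hU.ε, hV₀.ε, one_pow]) hT
    (Or.inr fun _ => (sing_iff_of_unitary hV₀.σ hV₀.ε).2)
  have hV := hV₀.scale hc hσ
  have hs := exists_sing_of_wild (wild_two_of_unitary hU.σ hU.ε) (by simp; omega)
  have hq : k = 3 → 4 < Nat.card F := fun hk3 => by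
    have h1 := one_lt_q hF
    have h2 : q ≠ 2 := fun h => hex ⟨h, hk3⟩
    rw [Nat.card_eq_fintype_card, hF]
    nlinarith [show 3 ≤ q by omega]
  refine h.wreath_maximal (fun g => by rw [scale_E, mem_SU_iff hF (by omega)]) (by omega) ht
    (wild_two_of_unitary hV.σ hV.ε) (by omega) (by simp; omega) hs
    (fun i g hg => (h.compat (Or.inr (Or.inl hU.σ))).KL_mem_E_su
      (E_eq_SU hV.σ hV.ε (by simp; omega)) hs hg) ?_ ?_
  · by_cases hk3 : k = 3
    · exact hC hk3 (hq hk3) _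
    · exact stepC_su hU (by simp; omega)
  · refine rigP_su hU ?_
    by_cases hk3 : k = 3
    · exact Or.inr ⟨by simpa using hk3, hq hk3⟩
    · exact Or.inl (by simp; omega)

variable {ι : Type} [Fintype ι] [DecidableEq ι] {Q : (ι → F) → F}
  (hQ : Geo.IsNondegenerateQuadraticForm Q)
include hQ

/-- `Sp_k ≀ S_t` in `Ω`, given step C in the case `k = 2`. -/
theorem omega_sp_wreath_maximal_of (hn : 7 ≤ Fintype.card ι) (ht : 2 ≤ t)
    (hqt : Odd (Fintype.card F) → Even t) (hex : ¬ (Fintype.card F = 3 ∧ k = 2))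
    (hex3 : ¬ Odd (Fintype.card F) → 6 ≤ k) (e : ι ≃ (Fin t → Fin k)) (P : GL ι F)
    {f₁ : (Fin k → F) → (Fin k → F) → F} (hf₁ : Geo.IsSymplecticForm f₁)
    (hT : Geo.IsTensorPowerFormStructure id (QuadraticMap.polar Q) f₁ e P)
    (hpure : ∀ xs : Fin t → Fin k → F,
      Q ((P : Matrix ι ι F) *ᵥ ((fun a : Fin t → Fin k => ∏ i, xs i (a i)) ∘ e)) = 0)
    (hC : k = 2 → (2 : F) ≠ 0 → 5 ≤ Nat.card F → ∀ PV, IsO PV →
      StepC (frame e P) (spPolar hf₁) PV) :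
    Geo.IsMaximalIn (Geo.omegaGL Q) (Geo.tensorWreathSubgroup k t e P ⊓ Geo.omegaGL Q) := by
  have hk : 2 ≤ k := by
    by_contra h
    have : k ^ t ≤ 1 := pow_le_one₀ (by omega) (by omega)
    rw [← card_pow e] at this
    omega
  have hU := isSp_spPolar hf₁
  obtain ⟨j, hj⟩ : Even k := by simpa using hU.even
  have hε : (1 : F) = (-1) ^ t := by
    by_cases hodd : Odd (Fintype.card F)
    · rw [(hqt hodd).neg_one_pow]
    · have h2 : (2 : F) = 0 := by
        by_contra h2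
        exact hodd (Nat.odd_iff.2 (FiniteField.odd_card_of_char_ne_two fun h => h2 (by
          have := (ringChar.spec F 2).2 (h ▸ dvd_refl _)
          exact_mod_cast this)))
      rw [show (-1 : F) = 1 by linear_combination -h2, one_pow]
  obtain ⟨c, hc, hσ, h⟩ := exists_pcompat e P (spPolar hf₁) (oPolar hQ) (by omega) (fun _ => rfl)
    hε hT (Or.inl ⟨fun _ => trivial, fun xs => (oPolar_sing hQ).2 (hpure xs)⟩)
  have hV := isO_scale hc hσ (isO_oP hQ)
  have hs := exists_sing_of_wild (spPolar_wild hf₁) (by simp; omega)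
  have := nontrivial_fun (F := F) (show 0 < k by omega)
  have hcase : 5 ≤ k ∨ ((2 : F) ≠ 0 ∧ 4 ≤ k) ∨ ((2 : F) ≠ 0 ∧ k = 2 ∧ 5 ≤ Nat.card F) := by
    by_cases hodd : Odd (Fintype.card F)
    · have h2 := two_ne_zero_of_odd_card hodd
      by_cases hk2 : k = 2
      · exact Or.inr (Or.inr ⟨h2, hk2, (card_facts hodd).2 fun h => hex ⟨h, hk2⟩⟩)
      · exact Or.inr (Or.inl ⟨h2, by omega⟩)
    · exact Or.inl (by have := hex3 hodd; omega)
  refine h.wreath_maximal (fun g => by rw [scale_E, mem_omegaGL_iff hQ hn]) hk ht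
    (wild_three_of_σ hV.σ) le_rfl hn hs
    (fun i g hg => (h.compat (Or.inr (Or.inr ⟨fun _ => trivial, nonempty_ne (by simpa using ht) i⟩))
      ).KL_mem_E_of_sp hV (fun _ => trivial) hg) ?_ (rigP_sp hU (by simpa using hcase))
  rw [← or_assoc] at hcase
  rcases hcase with h1 | ⟨h2, hk2, hq⟩
  · exact stepC_sp hU (by simpa using h1) (isO_lam hV)
  · exact hC hk2 h2 hq _ hV

/-- `O_k ≀ S_t` in `Ω`, given step C and rigidity in the cases `k ≤ 4`. -/
theorem omega_o_wreath_maximal_of (hodd : Odd (Fintype.card F)) (hk : 3 ≤ k) (ht : 2 ≤ t)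
    (e : ι ≃ (Fin t → Fin k)) (P : GL ι F)
    {f₁ : (Fin k → F) → (Fin k → F) → F} (hf₁ : Geo.IsSymmetricForm f₁)
    (hT : Geo.IsTensorPowerFormStructure id (QuadraticMap.polar Q) f₁ e P)
    (hC : k ≤ 4 → ∀ PV, IsO PV →
      StepC (frame e P) (symP hf₁ (two_ne_zero_of_odd_card hodd)) PV ∧
      RigP (frame e P) (symP hf₁ (two_ne_zero_of_odd_card hodd)) PV) :
    Geo.IsMaximalIn (Geo.omegaGL Q) (Geo.tensorWreathSubgroup k t e P ⊓ Geo.omegaGL Q) := by
  have h2 := two_ne_zero_of_odd_card hodd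
  have hn : 9 ≤ Fintype.card ι :=
    card_pow e ▸ (Nat.pow_le_pow_left hk 2).trans (Nat.pow_le_pow_right (by omega) ht)
  have hU := isO_symP hf₁ h2
  obtain ⟨c, hc, hσ, h⟩ := exists_pcompat e P (symP hf₁ h2) (oPolar hQ) (by omega) (fun _ => rfl)
    (by rw [hU.ε, one_pow]; rfl) hT (Or.inr fun _ => ((isO_oP hQ).sing_iff h2).2)
  have hV := isO_scale hc hσ (isO_oP hQ)
  have hs := exists_sing_of_wild (wild_three_of_σ hU.σ) (by simpa using hk)
  refine h.wreath_maximal (fun g => by rw [scale_E, mem_omegaGL_iff hQ (by omega)]) (by omega) ht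
    (wild_three_of_σ hV.σ) le_rfl (by omega) hs
    (fun i g hg => (h.compat (Or.inl h2)).KL_mem_E_of_o hV (by simp; omega) hU h2 hs hg) ?_ ?_
  · by_cases hk4 : k ≤ 4
    · exact (hC hk4 _ hV).1
    · exact stepC_o hU h2 (by simp; omega) hV
  · by_cases hk4 : k ≤ 4
    · exact (hC hk4 _ hV).2
    · exact rigP_o hU h2 (by simp; omega)

end Types

end Cfsg.Agent.Tens
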