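import Cfsg.Agent.Tens.Rigid7
import Cfsg.Agent.Tens.PowMat

/-!
Rigidity for tensor powers of orthogonal spaces of Witt index one over small fields.
-/

set_option autoImplicit false
set_option linter.unusedSectionVars false

namespace Cfsg.Agent.Tens

open Module Cfsg.Agent.H7 Slot

variable {F U W V : Type*} [Field F] [AddCommGroup U] [Module F U] [AddCommGroup W] [Module F W]
  [AddCommGroup V] [Module F V] [Finite F] [FiniteDimensional F U] [FiniteDimensional F W]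
  {τ : TS F U W V} {PU : Polar F U} {PW : Polar F W} {PV : Polar F V} {X : Subgroup (V ≃ₗ[F] V)}

theorem TS.range_tp_smul {a : F} (ha : a ≠ 0) (e : U) :
    LinearMap.range (τ.tp (a • e)) = LinearMap.range (τ.tp e) := by
  rw [map_smul, LinearMap.range_smul _ _ ha]

theorem TS.mp_range (g : V ≃ₗ[F] V) (e : U) :
    mp g (LinearMap.range (τ.tp e)) = LinearMap.range ((τ.map g).tp e) := (TS.range_map g e).symm

theorem TS.mp_KL (a : U ≃ₗ[F] U) (e : U) :
    mp (τ.KL a) (LinearMap.range (τ.tp e)) = LinearMap.range (τ.tp (a e)) :=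
  (TS.mp_range _ e).trans (congrArg _ (LinearMap.ext fun x => τ.KL_tp a e x))

theorem coe_comm {a b : V ≃ₗ[F] V} (h : a * b = b * a) : (a : End F V) * b = b * a :=
  congrArg LinearEquiv.toLinearMap h

theorem adj_conj [FiniteDimensional F V] {g : V ≃ₗ[F] V} (hg : g ∈ PV.Iso) (c : End F V) :
    PV.adj (g.conj c) = g.conj (PV.adj c) :=
  PV.adj_eq_of fun z x => by
    obtain ⟨z, rfl⟩ := g.surjective z
    obtain ⟨x, rfl⟩ := g.surjective x
    simp only [LinearEquiv.conj_apply_apply, LinearEquiv.symm_apply_apply, Polar.Iso.B hg, PV.adj_B]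

theorem R1.trace_adj (r : R1 PU) (a : End F U) :
    LinearMap.trace F U (PU.adj a) = LinearMap.trace F U a := by
  have : a = ∑ i, ((finBasis F U).coord i).smulRight (a (finBasis F U i)) := by
    ext x
    conv_lhs => rw [← (finBasis F U).sum_repr x, map_sum]
    simp
  rw [this]
  refine Finset.sum_induction _ (fun a => LinearMap.trace F U (PU.adj a) = LinearMap.trace F U a)
    (fun a b h1 h2 => by simp [h1, h2]) (by simp) fun i _ => ?_
  obtain ⟨y, hy⟩ := PU.exists_B_eq ((finBasis F U).coord i)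
  rw [show (finBasis F U).coord i = PU.B.flip y from LinearMap.ext fun x => (hy x).symm]
  change LinearMap.trace F U (PU.adj (PU.th _ _)) = LinearMap.trace F U (PU.th _ _)
  rw [Polar.adj_th, r.o.ε, one_smul, Polar.trace_th, Polar.trace_th, r.o.comm]

theorem R1.mem_Rt_map (r : R1 PU) {e : U} (he : PU.Val e 0) {g c : V ≃ₗ[F] V} :
    c ∈ r.Rt he (τ.map g) ↔ g⁻¹ * c * g ∈ r.Rt he τ :=
  exists₂_congr fun w hw => by
    rw [TS.map_KL, mul_assoc g⁻¹, inv_mul_eq_iff_eq_mul, eq_mul_inv_iff_mul_eq]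

theorem R1.mp_Rt (r : R1 PU) {e : U} (he : PU.Val e 0) {c : V ≃ₗ[F] V} (hc : c ∈ r.Rt he τ) :
    mp c (LinearMap.range (τ.tp e)) = LinearMap.range (τ.tp e) := by
  obtain ⟨w, hw, rfl⟩ := hc
  rw [TS.mp_KL, r.eta_apply]
  simp [Polar.sing_B he, PU.B_symm hw]

theorem Good.mem_normalizer (h : Good τ PU PW PV X) [Nontrivial W] (r : R1 PU) {e : U}
    (he : PU.Val e 0) (he0 : e ≠ 0) {x : V ≃ₗ[F] V} (hx : x ∈ X)
    (hM : mp x (LinearMap.range (τ.tp e)) = LinearMap.range (τ.tp e)) :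
    x ∈ Subgroup.normalizer (r.Rt he τ : Set (V ≃ₗ[F] V)) := fun c =>
  ⟨fun hc => h.Rt_le_of_range_eq r he he0 (h.map hx) ((TS.mp_range x e).symm.trans hM)
    ((r.mem_Rt_map he).2 (by simpa [mul_assoc] using hc)), fun hc =>
    h.Rt_le_of_range_eq r he he0 (h.map (X.inv_mem hx)) ((TS.mp_range _ e).symm.trans (mp_inv_eq hM))
      ((r.mem_Rt_map he).2 (by rwa [inv_inv]))⟩

theorem Good.rp_of_step (h : Good τ PU PW PV X) [Nontrivial W] (r : R1 PU)
    (key : ∀ g ∈ X, ∀ e e', PU.Val e 0 → PU.Val e' 0 → PU.B e' e = 1 →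
      mp g (LinearMap.range (τ.tp e)) = LinearMap.range (τ.tp e) →
      ∃ f, f ≠ 0 ∧ LinearMap.range (τ.tp e') = LinearMap.range ((τ.map g).tp f)) : τ.RP X PU := by
  intro g hg e f he he0 hf0 hf
  have k2 : ∀ e e', PU.Val e 0 → PU.Val e' 0 → PU.B e' e ≠ 0 →
      (∃ f, f ≠ 0 ∧ LinearMap.range (τ.tp e) = LinearMap.range ((τ.map g).tp f)) →
      ∃ f, f ≠ 0 ∧ LinearMap.range (τ.tp e') = LinearMap.range ((τ.map g).tp f) := by
    intro e e' he he' h1 ⟨f, hf0, hf⟩
    obtain ⟨a, ha, c, hc, h2⟩ := r.o.exists_move r.two r.dim he (fun e => h1 (by simp [e]))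
      (h.val_of_range_eq (h.map hg) he hf) hf0
    obtain ⟨f', b1, b2⟩ := key _ (X.mul_mem hg (h.left a ha)) e _ he
      (Polar.sing_smul he' (PU.B e' e)⁻¹) (by simp [h1]) (by
        rw [mp_mul, TS.mp_KL, h2, TS.range_tp_smul hc, TS.mp_range, ← hf])
    refine ⟨a f', by simpa using b1, ?_⟩
    rw [← TS.range_tp_smul (inv_ne_zero h1), b2, ← TS.mp_range, mp_mul, TS.mp_KL, TS.mp_range]
  refine TS.same_of_cent (R := {n | ∃ f, PU.Val f 0 ∧ f ≠ 0 ∧ n = PU.th f f})
    (fun z hz => Slot.scal_of_sing_eigen_o r.o r.two r.dim fun u hu =>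
      Polar.eigen_of_comm_th hu fun h0 => hz _ ⟨u, hu, h0, rfl⟩) ?_
  rintro _ ⟨u, hu, hu0, rfl⟩
  obtain ⟨s, a1, a2, a3⟩ := Slot.both_o r.o r.two r.dim e u he hu he0 hu0
  obtain ⟨f', b1, b2⟩ := k2 s u a1 hu a3 (k2 e s he a1 (PU.B_ne_symm a2) ⟨f, hf0, hf⟩)
  obtain ⟨u', a1, a2⟩ := Polar.exists_partner hu hu0
  obtain ⟨w, a3, -, a4⟩ := r.exists_aniso hu a1 a2
  exact h.inA_th_of_range_eq (h.map hg) hu b1 b2 (Or.inr ⟨w, a3, a4⟩)

theorem R1.mem_symS_of_skew (r : R1 PU) [FiniteDimensional F V] (cp : Compat τ PU PW PV) {e e' : U}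
    (he : PU.Val e 0) (h1 : PU.B e' e = 1) {c : End F V} (hc : PV.adj c = -c)
    (hM : ∀ v, c v ∈ LinearMap.range (τ.tp e)) : c ∈ symS τ PU := fun u v => by
  have key : ∀ u x, c (τ.tp u x) = PU.B u e • c (τ.tp e' x) := fun u x => by
    rw [← map_smul, ← sub_eq_zero, ← map_sub, ← LinearMap.smul_apply, ← map_smul,
      ← LinearMap.sub_apply, ← map_sub]
    refine PV.nondeg _ fun y => ?_
    obtain ⟨z, hz⟩ := hM y
    rw [← PV.adj_B, hc, LinearMap.neg_apply, ← hz, ← map_neg, cp.B_tp,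
      PU.B_symm (show PU.B (u - PU.B u e • e') e = 0 by simp [h1]), zero_mul]
  refine LinearMap.ext fun x => ?_
  obtain ⟨z, hz⟩ := hM (τ.tp e' x)
  rw [S_apply, S_apply, key u, key v, ← hz]
  simp [smul_smul, r.o.comm e, mul_comm]

variable {ι : Type*} [Fintype ι] {Z : ι → Type*} [∀ i, AddCommGroup (Z i)] [∀ i, Module F (Z i)]
  [∀ i, FiniteDimensional F (Z i)] [∀ i, Nontrivial (Z i)] {σ : ∀ i, TS F U (Z i) V}
  {PZ : ∀ i, Polar F (Z i)}

namespace Multi

variable (h : Multi σ)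
include h

theorem KL_comm {i j : ι} (hij : i ≠ j) (a b : U ≃ₗ[F] U) :
    (σ i).KL a * (σ j).KL b = (σ j).KL b * (σ i).KL a :=
  LinearEquiv.toLinearMap_injective (h.comm i j hij a b)

variable (r : R1 PU) {e e' : U} (he : PU.Val e 0)

theorem Rt_comm {i j : ι} {a b : V ≃ₗ[F] V} (ha : a ∈ r.Rt he (σ i)) (hb : b ∈ r.Rt he (σ j)) :
    a * b = b * a := by
  by_cases hij : i = j
  · subst hij; exact r.Rt_comm he ha hb
  obtain ⟨w, hw, rfl⟩ := ha
  obtain ⟨w', hw', rfl⟩ := hb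
  exact h.KL_comm hij _ _

theorem mp_Rt {i : ι} {a : V ≃ₗ[F] V} (ha : a ∈ r.Rt he (σ i)) (he0 : e ≠ 0) (j : ι) :
    mp a (LinearMap.range ((σ j).tp e)) = LinearMap.range ((σ j).tp e) :=
  TS.map_range_of_comm he0 (r.comm_th_of_comm' he he0 fun _ hc => coe_comm (h.Rt_comm r he hc ha)).symm

variable (G : ∀ i, Good (σ i) PU (PZ i) PV X) [FiniteDimensional F V] (he' : PU.Val e' 0)
  (h1 : PU.B e' e = 1) {k : U ≃ₗ[F] U} (hk : k ∈ PU.E) {s : F} (k1 : k e = s • e)
  (k2 : k e' = s • e') (k3 : ∀ z, PU.B z e = 0 → PU.B z e' = 0 → k z = -s • z)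
include G he' h1 hk k1 k2 k3

theorem same_of_comm {p : ℕ} [Fact p.Prime] [CharP F p] {x : V ≃ₗ[F] V} (hx : x ∈ X)
    (hp : x ^ p = 1) (hc : ∀ l, ∀ c ∈ r.Rt he (σ l), c * x = x * c) (i : ι) :
    (σ i).Same ((σ i).map x) := by
  classical
  have he0 : e ≠ 0 := fun e => by simp [e] at h1
  have := r.nontrivial
  suffices ∀ J : Finset ι, ∀ x ∈ X, x ^ p = 1 → (∀ l, ∀ c ∈ r.Rt he (σ l), c * x = x * c) →
      (∀ l, l ∉ J → (σ l).KL k * x = x * (σ l).KL k) → (σ i).Same ((σ i).map x) from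
    this Finset.univ x hx hp hc (by simp)
  intro J
  induction J using Finset.induction_on with
  | empty =>
    intro x hx hp hc hH
    have h2 := h.adj_eq_of_symS r (fun l => (G l).compat) (fun a => by rw [(G i).compat.σV, r.o.σ])
      fun l => r.mem_symS_of_comm he he' h1 (Polar.E_le_Iso hk) k1 k2 k3
        (coe_comm (hH l (by simp))) fun y hy => coe_comm (hc l y hy)
    have h3 : x ^ 2 = 1 := LinearEquiv.ext fun u => PV.ext_B fun v => by
      have := PV.adj_B x (x u) v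
      rw [h2] at this
      exact this.trans (Polar.Iso.B ((G i).iso hx) u v)
    have h4 : Nat.Coprime p 2 := (Nat.coprime_primes Fact.out Nat.prime_two).2 fun e =>
      r.two (by subst e; exact CharP.cast_eq_zero F 2)
    rw [orderOf_eq_one_iff.1 (Nat.eq_one_of_dvd_coprimes h4 (orderOf_dvd_of_pow_eq_one hp)
      (orderOf_dvd_of_pow_eq_one h3))]
    exact (σ i).same_refl
  | insert j J hj ih =>
    intro x hx hp hc hH
    obtain ⟨ρ, a1, a2⟩ := (G j).exists_conj_tor r he ((G j).map hx) ((TS.range_map x e).trans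
      (TS.map_range_of_comm he0 (r.comm_th_of_comm' he he0 fun c a => coe_comm (hc j c a)).symm))
      he' h1 hk k1 k2 k3
    have a3 := (r.Rt he _).inv_mem a1
    have h2 := ih _ (X.mul_mem ((G j).Rt_le r he a3) hx)
      (by rw [Commute.mul_pow (hc j _ a3), hp, r.Rt_pow he a3, one_mul])
      (fun l c a => by rw [← mul_assoc, h.Rt_comm r he a a3, mul_assoc, hc l c a, mul_assoc])
      fun l hl => by
        by_cases hlj : l = j
        · subst hlj
          rw [TS.map_KL] at a2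
          rw [mul_assoc, eq_inv_mul_iff_mul_eq, ← mul_assoc, ← a2]
          simp [mul_assoc]
        · obtain ⟨w, hw, b⟩ := a3
          rw [b, ← mul_assoc, h.KL_comm hlj, mul_assoc, hH l (by simp [hl, hlj]), mul_assoc]
    obtain ⟨w, hw, rfl⟩ := a1
    have h3 := h2.map ((σ j).KL (r.eta he hw))
    rw [← TS.map_mul, mul_inv_cancel_left] at h3
    exact fun a => (h.same_KL j i _).inA (h3 a)

variable (hs : Nat.card F = 5 ∨ (Nat.card F = 3 ∧ finrank F U = 4))
include hs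

theorem range_eq_of_comm [Nontrivial W] (G' : Good τ PU PW PV X)
    (hc : ∀ c ∈ r.Rt he τ, ∀ l, ∀ c' ∈ r.Rt he (σ l), c' * c = c * c') :
    ∃ l, LinearMap.range (τ.tp e) = LinearMap.range ((σ l).tp e) := by
  have he0 : e ≠ 0 := fun e => by simp [e] at h1
  have hp : (Nat.card F).Prime := by
    rcases hs with hs | hs <;> simp [hs, Nat.prime_five, Nat.prime_three]
  have := charP_card hp
  have : Fact (Nat.card F).Prime := ⟨hp⟩
  obtain ⟨w, hw, -, hww⟩ := r.exists_aniso he he' h1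
  obtain ⟨x, hx⟩ := exists_ne (0 : W)
  obtain ⟨l, hl⟩ : ∃ l, (σ l).InA (τ.K (nn PU e w) 1) := by
    by_contra! hcon
    obtain ⟨c, h2⟩ := h.scal (τ.K (nn PU e w) 1) fun l a => by
      have := ((r.inA_or_flip (G l).compat G'.compat (hs.imp_left Eq.ge) he hw fun t =>
        h.same_of_comm r he G he' h1 hk k1 k2 k3 (G'.left _ (r.eta_mem _ _))
          (r.Rt_pow he (r.mem_Rt he _)) (hc _ (r.mem_Rt he _)) l).resolve_left (hcon l)).comm a
      rwa [TS.flip_K] at this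
    have h3 := h2 (τ.tp e x)
    have h4 := h2 (τ.tp w x)
    rw [eq_comm] at h3
    simp [nn, Polar.sing_B he, PU.B_symm hw, τ.tp_ne_zero he0 hx] at h3
    simp [nn, h3, hw, hww, τ.tp_ne_zero he0 hx] at h4
  obtain ⟨f, a1, a2⟩ := TS.exists_range_eq' (PU := PU) (τ := τ) (τ' := σ l) he0 he0 (by
    simpa [TS.K_mul, r.nn_mul he hw hw, smul_smul, hww] using (hl.mul hl).smul (-(PU.B w w)⁻¹))
  have a3 : PU.B f f = 0 := (G l).compat.B_eq_zero fun x y => by
    obtain ⟨a, ha⟩ : (σ l).tp f x ∈ LinearMap.range (τ.tp e) := a2 ▸ ⟨x, rfl⟩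
    obtain ⟨b, hb⟩ : (σ l).tp f y ∈ LinearMap.range (τ.tp e) := a2 ▸ ⟨y, rfl⟩
    simp [← ha, ← hb, G'.compat.B_tp, Polar.sing_B he]
  have a4 : PU.B f e = 0 := by
    have b1 := r.comm_th_of_comm' (τ := τ) he he0 fun c b =>
      (r.comm_th_of_comm' (τ := σ l) he he0 fun c' b' => coe_comm (hc c b l c' b')).symm
    obtain ⟨y, hy⟩ := exists_ne (0 : Z l)
    obtain ⟨z, hz⟩ : (σ l).tp f y ∈ LinearMap.range (τ.K (PU.th e e) 1) := by
      rw [TS.range_K_th he0, a2]; exact ⟨y, rfl⟩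
    obtain ⟨y', hy'⟩ : τ.K (PU.th e e) 1 ((σ l).K (PU.th e e) 1 z) ∈
        LinearMap.range ((σ l).tp f) := by
      rw [← a2, ← TS.range_K_th (PU := PU) he0]; exact ⟨_, rfl⟩
    have b2 := congrArg ((σ l).pB PU f) (hy'.trans (LinearMap.congr_fun b1 z))
    rw [End.mul_apply, hz] at b2
    simpa [a3, hy, r.o.comm e f] using b2.symm
  obtain ⟨a, rfl⟩ := Submodule.mem_span_singleton.1 (r.mem_span he he0 a4 a3)
  exact ⟨l, a2.trans (TS.range_tp_smul (fun e => a1 (by simp [e])) _)⟩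

theorem perm_of_pgroup {P : Subgroup (V ≃ₗ[F] V)} (hP : IsPGroup (Nat.card F) P) (hPX : P ≤ X)
    (hR : ∀ l, r.Rt he (σ l) ≤ P) {x : V ≃ₗ[F] V} (hx : x ∈ P) (i : ι) :
    ∃ l, mp x (LinearMap.range ((σ i).tp e)) = LinearMap.range ((σ l).tp e) := by
  have he0 : e ≠ 0 := fun e => by simp [e] at h1
  have hp : (Nat.card F).Prime := by
    rcases hs with hs | hs <;> simp [hs, Nat.prime_five, Nat.prime_three]
  have := charP_card hp
  have : Fact (Nat.card F).Prime := ⟨hp⟩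
  have : Finite V := Module.finite_of_finite F
  have : Finite (V ≃ₗ[F] V) := Finite.of_injective _ DFunLike.coe_injective
  set M := fun k => LinearMap.range ((σ k).tp e) with hM
  let N : Subgroup P :=
    { carrier := {x | (∀ i, ∃ l, mp x.1 (M i) = M l) ∧ ∀ i, ∃ l, mp x.1⁻¹ (M i) = M l}
      mul_mem' := fun {a b} ⟨a1, a2⟩ ⟨b1, b2⟩ => ⟨fun i => by
        obtain ⟨l, hl⟩ := b1 i
        rw [Subgroup.coe_mul, mp_mul, hl]
        exact a1 l, fun i => by
        obtain ⟨l, hl⟩ := a2 i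
        rw [Subgroup.coe_mul, mul_inv_rev, mp_mul, hl]
        exact b2 l⟩
      one_mem' := ⟨fun i => ⟨i, mp_one _⟩, fun i => ⟨i, mp_one _⟩⟩
      inv_mem' := fun ⟨a1, a2⟩ => ⟨a2, a1⟩ }
  have key : ∀ y ∈ Subgroup.normalizer (N : Set P), ∀ i, ∃ l, mp y.1 (M i) = M l := fun y hy i => by
    have hG := (G i).map (hPX y.2)
    rw [hM, TS.mp_range]
    refine h.range_eq_of_comm r he G he' h1 hk k1 k2 k3 hs hG
      fun c hc l c' hc' => ((G l).comm_Rt_of_fix r he he0 (hG.Rt_le r he hc) (r.Rt_pow he hc)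
        (h.fix_of_perm (τ := (σ i).map y.1) r hs he he0 (fun d hd => ?_) hc l) hc').symm
    have h2 := (r.mem_Rt_map he).1 hd
    have h3 := ((hy ⟨_, hR i h2⟩).1 ⟨fun j => ⟨j, h.mp_Rt r he h2 he0 j⟩, fun j =>
      ⟨j, h.mp_Rt r he ((r.Rt he _).inv_mem h2) he0 j⟩⟩).1
    simpa [mul_assoc] using h3
  have := hP.isNilpotent
  have h2 := normalizerCondition_iff_only_full_group_self_normalizing.1
    normalizerCondition_of_isNilpotent N (le_antisymm
      (fun y hy => ⟨key y hy, key _ (inv_mem hy)⟩) Subgroup.le_normalizer)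
  exact (h2.ge (Subgroup.mem_top ⟨x, hx⟩)).1 i

include r he

omit hs in
theorem eq_zero_of_comm (i : ι) {c : End F V} (hc : PV.adj c = -c)
    (hM : ∀ v, c v ∈ LinearMap.range ((σ i).tp e))
    (hH : ∀ l, l ≠ i → ((σ l).KL k : End F V) * c = c * (σ l).KL k)
    (hR : ∀ l, l ≠ i → ∀ y ∈ r.Rt he (σ l), (y : End F V) * c = c * y) : c = 0 := by
  have h2 := h.adj_eq_of_symS r (fun l => (G l).compat) (fun a => by rw [(G i).compat.σV, r.o.σ])
    (c := c) fun l => by
      by_cases hl : l = i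
      · subst hl
        exact r.mem_symS_of_skew (G l).compat he h1 hc hM
      · exact r.mem_symS_of_comm he he' h1 (Polar.E_le_Iso hk) k1 k2 k3 (hH l hl) (hR l hl)
  rw [h2, eq_neg_iff_add_eq_zero, ← two_smul F] at hc
  exact (smul_eq_zero.1 hc).resolve_left r.two

theorem mp_eq_of_comm (i : ι) {g : V ≃ₗ[F] V} (hg : g ∈ X)
    (hM : mp g (LinearMap.range ((σ i).tp e)) = LinearMap.range ((σ i).tp e))
    (hH : g * (σ i).KL k = (σ i).KL k * g) :
    mp g (LinearMap.range ((σ i).tp e')) = LinearMap.range ((σ i).tp e') := by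
  classical
  have he0 : e ≠ 0 := fun e => by simp [e] at h1
  have he0' : e' ≠ 0 := fun e => by simp [e] at h1
  have hp : (Nat.card F).Prime := by
    rcases hs with hs | hs <;> simp [hs, Nat.prime_five, Nat.prime_three]
  have := charP_card hp
  have : Fact (Nat.card F).Prime := ⟨hp⟩
  have : Finite V := Module.finite_of_finite F
  have : Finite (V ≃ₗ[F] V) := Finite.of_injective _ DFunLike.coe_injective
  let Y : Subgroup (V ≃ₗ[F] V) :=
    { carrier := {g | g ∈ X ∧ mp g (LinearMap.range ((σ i).tp e)) = LinearMap.range ((σ i).tp e) ∧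
        Commute g ((σ i).KL k)}
      mul_mem' := fun ⟨a1, a2, a3⟩ ⟨b1, b2, b3⟩ =>
        ⟨X.mul_mem a1 b1, by rw [mp_mul, b2, a2], a3.mul_left b3⟩
      one_mem' := ⟨X.one_mem, mp_one _, Commute.one_left _⟩
      inv_mem' := fun ⟨a1, a2, a3⟩ => ⟨X.inv_mem a1, mp_inv_eq a2, a3.inv_left⟩ }
  have hRY : ∀ l, l ≠ i → r.Rt he (σ l) ≤ Y := fun l hl c hc =>
    ⟨(G l).Rt_le r he hc, h.mp_Rt r he hc he0 i, by
      obtain ⟨w, hw, rfl⟩ := hc
      exact h.KL_comm hl _ _⟩
  have hHY : ∀ l, l ≠ i → (σ l).KL k ∈ Y := fun l hl =>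
    ⟨(G l).left k hk, TS.map_range_of_comm (PU := PU) he0 (h.comm l i hl _ _), h.KL_comm hl _ _⟩
  have hR : ∀ l, IsPGroup (Nat.card F) (r.Rt he (σ l)) := fun l x =>
    ⟨1, Subtype.ext (by rw [pow_one]; exact r.Rt_pow he x.2)⟩
  have hS : ∀ J : Finset ι, IsPGroup (Nat.card F) (J.sup fun l => r.Rt he (σ l) :) := fun J => by
    induction J using Finset.induction_on with
    | empty => exact IsPGroup.of_bot
    | insert j J hj ih =>
      rw [Finset.sup_insert]
      exact (hR j).to_sup_of_normal_left' ih (Finset.sup_le fun l _ c hc =>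
        (G j).mem_normalizer r he he0 ((G l).Rt_le r he hc) (h.mp_Rt r he hc he0 j))
  obtain ⟨Q, hQ⟩ := ((hS (Finset.univ.erase i)).comap_subtype (K := Y)).exists_le_sylow
  have hperm := fun x (hx : x ∈ (Q : Subgroup Y)) => h.perm_of_pgroup r he G he' h1 hk k1 k2 k3 hs
    ((Q.isPGroup'.map Y.subtype).to_sup_of_normal_right' (hR i) (by
      rintro _ ⟨x, -, rfl⟩
      exact (G i).mem_normalizer r he he0 x.2.1 x.2.2.1))
    (sup_le (by rintro _ ⟨x, -, rfl⟩; exact x.2.1) ((G i).Rt_le r he)) (fun l => by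
      by_cases hl : l = i
      · subst hl; exact le_sup_right
      · exact fun c hc => Subgroup.mem_sup_left ⟨⟨c, hRY l hl hc⟩, hQ (Finset.le_sup
          (f := fun l => r.Rt he (σ l)) (by simpa using hl) hc), rfl⟩)
    (Subgroup.mem_sup_left ⟨x, hx, rfl⟩)
  set π := (σ i).K (PU.th e e') 1 with hπ
  have hs2 := r.sq_eq_one he he' h1 (Polar.E_le_Iso hk) k1 k2
  have c1 : (2 : F) • PV.adj π = 1 + s • ((σ i).KL k : End F V) - (2 : F) • π := by
    rw [hπ, (G i).compat.adj_K, Polar.adj_one, Polar.adj_th, r.o.ε, one_smul, TS.coe_KL]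
    refine (σ i).ext fun y x => ?_
    obtain ⟨z, b1, b2, b3⟩ := Polar.eq_add_of_pair he he' h1 y
    generalize PU.ε * PU.B y e' = a at b3
    generalize PU.B y e = b at b3
    subst b3
    simp only [LinearMap.smul_apply, LinearMap.add_apply, LinearMap.sub_apply, TS.K_tp,
      Polar.th_apply, End.one_apply, map_add, map_smul, LinearEquiv.coe_coe, k1, k2, k3 z b1 b2, b1,
      b2, h1, r.o.comm e e', Polar.sing_B he, Polar.sing_B he', smul_eq_mul]
    match_scalars <;> first | ring1 | linear_combination hs2 | linear_combination -a * hs2 |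
      linear_combination -b * hs2
  have c2 : ∀ g ∈ Y, g.conj (PV.adj π) - PV.adj π = -(g.conj π - π) := fun g hg =>
    smul_right_injective _ r.two (by
      have : g.conj ((σ i).KL k : End F V) = (σ i).KL k :=
        congrArg LinearEquiv.toLinearMap (mul_inv_eq_iff_eq_mul.2 hg.2.2)
      simp only [smul_sub, smul_neg]
      rw [← map_smul, c1]
      simp only [map_sub, map_add, map_smul, this, End.one_eq_id, LinearEquiv.conj_id]
      abel)
  let C : Submodule F (End F V) :=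
    { carrier := {c | PV.adj c = -c ∧ ∀ v, c v ∈ LinearMap.range ((σ i).tp e)}
      add_mem' := fun ⟨a1, a2⟩ ⟨b1, b2⟩ =>
        ⟨by rw [Polar.adj_add, a1, b1, neg_add], fun v => Submodule.add_mem _ (a2 v) (b2 v)⟩
      zero_mem' := ⟨by simp, fun v => Submodule.zero_mem _⟩
      smul_mem' := fun a _ ⟨a1, a2⟩ => ⟨by rw [Polar.adj_smul, a1, (G i).compat.σV, r.o.σ, smul_neg],
        fun v => Submodule.smul_mem _ _ (a2 v)⟩ }
  have c3 : ∀ v, π v ∈ LinearMap.range ((σ i).tp e) := fun v =>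
    (TS.range_K_th (PU := PU) he0').le ⟨v, rfl⟩
  have hC : ∀ g : Y, g.1.conj π - π ∈ C := fun g =>
    ⟨by rw [Polar.adj_sub, adj_conj ((G i).iso g.2.1), c2 _ g.2], fun v =>
      Submodule.sub_mem _ (g.2.2.1 ▸ ⟨_, c3 _, rfl⟩) (c3 v)⟩
  have c4 : ∀ l, l ≠ i → ∀ a : U ≃ₗ[F] U, ((σ l).KL a : End F V) * π = π * (σ l).KL a :=
    fun l hl a => h.comm l i hl _ _
  have c5 : ∀ l, l ≠ i → ∀ y ∈ r.Rt he (σ l), (y : End F V) * π = π * y := by
    rintro l hl _ ⟨w, hw, rfl⟩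
    exact c4 l hl _
  have c6 : ∀ x y : V ≃ₗ[F] V, ((x⁻¹ * y * x : V ≃ₗ[F] V) : End F V) * π =
      π * (x⁻¹ * y * x : V ≃ₗ[F] V) → (y : End F V) * x.conj π = x.conj π * y := fun x y hy =>
    LinearMap.ext fun v => by simpa using congrArg x (LinearMap.congr_fun hy (x.symm v))
  obtain ⟨π', d1, d2⟩ := exists_avg Q ⟨⟨fun g : Y => g.1.conj.toLinearMap, rfl⟩,
    fun _ _ => rfl⟩ (v := π) (fun x hx => by
      have key : ∀ l, l ≠ i → ∃ l', l' ≠ i ∧ LinearMap.range (((σ l).map x.1⁻¹).tp e) =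
          LinearMap.range ((σ l').tp e) := fun l hl => by
        obtain ⟨l', hl'⟩ := hperm _ (inv_mem hx) l
        refine ⟨l', fun e => hl ?_, (TS.mp_range _ _).symm.trans hl'⟩
        subst e
        exact h.eq_of_range_eq (by have := r.dim; omega) he0 ((mp_inv_eq hl').symm.trans x.2.2.1)
      change x.1.conj π = π
      refine sub_eq_zero.1 (h.eq_zero_of_comm r he G he' h1 hk k1 k2 k3 i (hC x).1 (hC x).2
        (fun l hl => ?_) fun l hl y hy => ?_)
      all_goals obtain ⟨l', a1, a2⟩ := key l hl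
      · obtain ⟨ρ, a3, a4⟩ := (G l').exists_conj_tor r he ((G l).map (X.inv_mem x.2.1)) a2 he' h1 hk
          k1 k2 k3
        rw [TS.map_KL, inv_inv, ← eq_mul_inv_iff_mul_eq] at a4
        rw [mul_sub, sub_mul, c4 l hl, c6 _ _ (by
          rw [a4]
          exact ((Commute.mul_left (c5 l' a1 _ a3) (c4 l' a1 k)).mul_left
            (c5 l' a1 _ (inv_mem a3))).eq)]
      · rw [mul_sub, sub_mul, c5 l hl y hy, c6 x.1 y (c5 l' a1 _ ((G l').Rt_le_of_range_eq r he he0
          ((G l).map (X.inv_mem x.2.1)) a2 ((r.mem_Rt_map he).2 (by simpa [mul_assoc] using hy))))])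
    C hC
  have d3 : ∀ y ∈ Y, (y : End F V) * π' = π' * y := fun y hy =>
    LinearMap.ext fun v => by 
      simpa using LinearMap.congr_fun (show y.conj π' = π' from d1 ⟨y, hy⟩) (y v)
  obtain rfl := sub_eq_zero.1 (h.eq_zero_of_comm r he G he' h1 hk k1 k2 k3 i d2.1 d2.2
    (fun l hl => by rw [mul_sub, sub_mul, c4 l hl, d3 _ (hHY l hl)])
    fun l hl y hy => by rw [mul_sub, sub_mul, c5 l hl y hy, d3 _ (hRY l hl hy)])
  have d4 := c2 g ⟨hg, hM, hH⟩
  rw [show g.conj π = π from d1 ⟨g, hg, hM, hH⟩, sub_self, neg_zero, sub_eq_zero, hπ,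
    (G i).compat.adj_K, Polar.adj_one, Polar.adj_th, r.o.ε, one_smul] at d4
  rw [← TS.range_K_th (PU := PU) he0, mp, ← LinearMap.range_comp]
  conv_rhs => rw [← d4]
  exact (LinearMap.range_comp_of_range_eq_top _ g.symm.range).symm

omit he he' h1 hk k1 k2 k3 hs in
theorem rp (hs : (finrank F U = 3 ∧ Nat.card F = 5) ∨ (finrank F U = 4 ∧ Nat.card F = 3)) (i : ι) :
    (σ i).RP X PU := (G i).rp_of_step r fun g hg e e' he he' h1 hM => by
  obtain ⟨s, hT⟩ : ∃ s, TorE PU s (-s) s := by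
    rcases hs with ⟨-, hF⟩ | ⟨hk, hF⟩
    · have h5 : (2 : F) * 2 = -1 := by
        have := charP_card (F := F) (hF ▸ Nat.prime_five)
        have : ((5 : ℕ) : F) = 0 := hF ▸ CharP.cast_eq_zero F (Nat.card F)
        push_cast at this
        linear_combination this
      exact ⟨-1, by simpa [h5] using r.torE_sq r.two⟩
    · exact ⟨1, r.torE_three hk hF⟩
  obtain ⟨k, hk, k1, k2, k3⟩ := hT e e' he he' h1
  obtain ⟨ρ, a1, a2⟩ := (G i).exists_conj_tor r he ((G i).map (X.inv_mem hg))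
    ((TS.mp_range _ _).symm.trans (mp_inv_eq hM)) he' h1 hk k1 k2 k3
  have h2 := h.mp_eq_of_comm r he G he' h1 hk k1 k2 k3 (hs.imp And.right And.symm) i
    (X.mul_mem hg ((G i).Rt_le r he a1)) (by rw [mp_mul, r.mp_Rt he a1, hM])
    (by rw [mul_assoc, ← a2, TS.map_KL]; simp [mul_assoc])
  obtain ⟨w, hw, rfl⟩ := a1
  exact ⟨r.eta he hw e', fun e => by simp [(r.eta he hw).map_eq_zero_iff.1 e] at h1, by
    rw [← h2, mp_mul, TS.mp_KL, TS.mp_range]⟩

omit he he' h1 hk k1 k2 k3 hs in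
/-- Rigidity for tensor powers of small orthogonal spaces of Witt index one. -/
theorem same_or_comm_o
    (hs : (finrank F U = 3 ∧ Nat.card F = 5) ∨ (finrank F U = 4 ∧ Nat.card F = 3))
    (htr : ∀ i j, ∃ k ∈ X, (σ j).Same ((σ i).map k)) (i : ι) {g : V ≃ₗ[F] V} (hg : g ∈ X) :
    (σ i).Same ((σ i).map g) ∨ (σ i).flip.Same ((σ i).map g) := by
  classical
  have hF : 5 ≤ Nat.card F ∨ (Nat.card F = 3 ∧ finrank F U = 4) := hs.imp (fun h => h.2.ge) And.symm
  have hδ : ∀ j a, PU.adj a = -a → LinearMap.trace F U a = 0 ∧ ∀ d, (σ j).δ X ((σ j).K a d) = 0 := by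
    intro j a ha
    have h1 : ∀ z, PU.adj z = z → LinearMap.trace F U (z * a) = 0 := fun z hz => by
      have := r.trace_adj (z * a)
      rw [Polar.adj_mul, ha, hz, neg_mul, map_neg, LinearMap.trace_mul_comm,
        neg_eq_iff_add_eq_zero, ← two_mul] at this
      exact (mul_eq_zero.1 this).resolve_left r.two
    refine ⟨by simpa using h1 1 PU.adj_one, fun d => eq_zero_of_forall_dual (F := F) fun φ => ?_⟩
    obtain ⟨z, hz⟩ := exists_trace_mul (φ ∘ₗ (σ j).δ X ∘ₗ (σ j).K.flip d)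
    exact (hz a).trans (h1 z (r.adj_eq_of_nn fun e w a1 a2 a3 a4 => by
      rw [← hz]
      exact (congrArg φ ((G j).δ_nn r (h.rp r G hs j) hF a1 a2 a3 a4 d)).trans φ.map_zero))
  obtain ⟨e, he, he0⟩ := r.exists_sing
  obtain ⟨e', b1, b2⟩ := Polar.exists_partner he he0
  obtain ⟨w, hw, -, hww⟩ := r.exists_aniso he b1 b2
  have hz := r.adj_K_nn ((G i).map (X.inv_mem hg)).compat e w
  set z := ((σ i).map g⁻¹).K (nn PU e w) 1 with hzd
  have key : ∀ j, ∃ a, PU.adj a = -a ∧ z - (σ j).K a 1 ∈ symS (σ j) PU := fun j => by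
    obtain ⟨k, hk, h1⟩ := htr i j
    obtain ⟨x, hx⟩ := h1.map (g⁻¹ * k⁻¹) (nn PU e w)
    rw [← TS.map_mul, inv_mul_cancel_right, ← hzd] at hx
    have h2 := X.mul_mem (X.inv_mem hg) (X.inv_mem hk)
    have h3 : PU.adj x = -x := ((σ j).map (g⁻¹ * k⁻¹)).K_one_inj (by
      rw [hx, ((G j).map h2).compat.adj_K, Polar.adj_one] at hz
      simpa using hz)
    exact r.exists_skew_symS fun a d ha hd => hx ▸
      TS.trace_conj_mul (hδ j x h3).1 (hδ j x h3).2 (hδ j a ha).1 hd ((hδ j a ha).2 d) h2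
  choose a ha1 ha2 using key
  have h1 := h.adj_eq_of_symS r (fun l => (G l).compat) (fun a => by rw [(G i).compat.σV, r.o.σ])
    (c := z - ∑ j, (σ j).K (a j) 1) fun l => by
      rw [← Finset.add_sum_erase _ _ (Finset.mem_univ l), ← sub_sub]
      refine Submodule.sub_mem _ (ha2 l) (Submodule.sum_mem _ fun j hj => ?_)
      obtain ⟨d, hd⟩ := h.exists_K (Finset.ne_of_mem_erase hj).symm (a j)
      exact hd ▸ K_mem_symS r PU.adj_one d
  have h2 : PV.adj (∑ j, (σ j).K (a j) 1) = -∑ j, (σ j).K (a j) 1 :=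
    Finset.sum_induction _ (fun c => PV.adj c = -c) (fun a b h1 h2 => by
      rw [Polar.adj_add, h1, h2, neg_add]) (by simp) fun j _ => by simp [(G j).compat.adj_K, ha1]
  rw [Polar.adj_sub, hz, h2, ← neg_sub', neg_eq_iff_add_eq_zero, ← two_smul F] at h1
  have h3 := sub_eq_zero.1 ((smul_eq_zero.1 h1).resolve_left r.two)
  rw [← Finset.add_sum_erase _ _ (Finset.mem_univ i)] at h3
  obtain ⟨d, hd⟩ := (σ i).flip_inA.1 (Finset.sum_induction (fun j => (σ j).K (a j) 1) _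
    (fun _ _ => TS.InA.add) ⟨0, by simp⟩ fun j (hj : j ∈ Finset.univ.erase i) =>
      (σ i).flip_inA.2 (h.exists_K (Finset.ne_of_mem_erase hj).symm (a j)))
  refine (G i).rigO r (h.rp r G hs i) hF he he0 hw hww hg ((r.inA_or_flip_of_add (ha1 i) (hd ▸ h3)
    (by simp [hzd, TS.K_mul, r.nn_mul he hw hw, R1.th_mul_nn he hw]) (hs.imp (fun h5 h3 => r.two ?_)
      fun h4 => ⟨h4.1, TS.rank_K_le_two _ (e := e) (v := w) fun y => mem_sup_span_singleton.2
        ⟨_, Submodule.mem_span_singleton.2 ⟨-PU.B y w, rfl⟩, PU.B y e, by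
          simp only [nn, LinearMap.sub_apply, Polar.th_apply]; module⟩⟩)).imp
    (fun h4 => TS.InA.map_inv (g := g⁻¹) (τ'' := σ i) h4)
    fun h4 => TS.InA.map_inv (g := g⁻¹) (τ'' := (σ i).flip) h4)
  have := charP_card (F := F) (h5.2 ▸ Nat.prime_five)
  have : ((5 : ℕ) : F) = 0 := h5.2 ▸ CharP.cast_eq_zero F (Nat.card F)
  push_cast at this
  linear_combination this - h3

end Multi

end Cfsg.Agent.Tens
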