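import Cfsg.Agent.Tens.OneO8
import Cfsg.Agent.Tens.Rigid8

/-!
Maximality of the tensor wreath subgroups `O_k ≀ S_t` of the orthogonal groups.
-/

set_option autoImplicit false
set_option linter.unusedSectionVars false

namespace Cfsg.Agent.Tens.OneO

open Module Cfsg.Agent.H7 Cfsg.Agent.H1
open scoped MatrixGroups

variable {F : Type*} [Field F]

theorem rigP_o_all {ι κ : Type} [Fintype ι] [DecidableEq ι] [Fintype κ] [DecidableEq κ] {V : Type*}
    [AddCommGroup V] [Module F V] [Finite F] [FiniteDimensional F V] {Φ : Pw F ι κ ≃ₗ[F] V}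
    {PU : Polar F (κ → F)} {PV : Polar F V} (hU : R1 PU) (hV : IsO PV) (hodd : Odd (Nat.card F)) :
    RigP Φ PU PV := by
  by_cases hF : 7 ≤ Nat.card F ∨ (Fintype.card κ = 4 ∧ 5 ≤ Nat.card F)
  · exact rigP_o_one hU hF
  intro X h hH i g hg
  have := nonempty h hU
  refine (multi Φ).same_or_comm_o hU.toR1
    (fun i => h.good (Or.inl hU.two) (hH i) fun _ => (hU.o.sing_iff hU.two).2) ?_
    (PX.trans h hU hV) i hg
  have h1 := Finite.one_lt_card (α := F)
  have h2 := hU.dim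
  rw [finrank_fintype_fun_eq_card] at h2 ⊢
  obtain ⟨m, hm⟩ := hodd
  omega

/-- `O_k ≀ S_t` in `Ω`, the factor not of type `O_3(3)` or `O_4^+`. -/
theorem omega_o_wreath_maximal [Fintype F] {k t : ℕ} {ι : Type} [Fintype ι] [DecidableEq ι]
    {Q : (ι → F) → F} (hQ : Geo.IsNondegenerateQuadraticForm Q) (hodd : Odd (Fintype.card F))
    (hk : 3 ≤ k) (ht : 2 ≤ t) (hex : ¬ (Fintype.card F = 3 ∧ k = 3)) (e : ι ≃ (Fin t → Fin k))
    (P : GL ι F) {f₁ : (Fin k → F) → (Fin k → F) → F} (hf₁ : Geo.IsSymmetricForm f₁)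
    (hm : k = 4 → ¬ Geo.IsPlusTypeOn (fun v => f₁ v v) ⊤)
    (hT : Geo.IsTensorPowerFormStructure id (QuadraticMap.polar Q) f₁ e P) :
    Geo.IsMaximalIn (Geo.omegaGL Q) (Geo.tensorWreathSubgroup k t e P ⊓ Geo.omegaGL Q) := by
  have h2 := two_ne_zero_of_odd_card hodd
  refine omega_o_wreath_maximal_of hQ hodd hk ht e P hf₁ hT fun hk4 PV hV => ?_
  have hU : R1 (symP hf₁ h2) := ⟨isO_symP hf₁ h2, h2, by
    by_cases h4 : k = 4
    · exact Or.inl ⟨by simpa using h4, fun hw => hm h4 (plus_of_W2 hf₁ h2 (by simpa using h4) hw)⟩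
    · exact Or.inr ⟨by simp; omega, (card_facts hodd).2 fun h => hex ⟨h, by omega⟩⟩⟩
  exact ⟨stepC_o_one hU hV, rigP_o_all hU hV (by rwa [Nat.card_eq_fintype_card])⟩

end Cfsg.Agent.Tens.OneO
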