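import Cfsg.Agent.Tens.Basic

/-!
The averaging argument: the sum of the partial traces over the conjugates of a tensor structure.
-/

set_option autoImplicit false
set_option linter.unusedSectionVars false

namespace Cfsg.Agent.Tens

open Module Cfsg.Agent.H7

theorem sum_mem_of_free {A S M : Type*} [AddCommGroup A] [Fintype A] [AddCommGroup M]
    (act : A → S → S) (h0 : ∀ s, act 0 s = s) (hadd : ∀ a b s, act (a + b) s = act a (act b s))
    (f : S → M) (N : AddSubgroup M) (T : Finset S) (hT : ∀ a, ∀ s ∈ T, act a s ∈ T)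
    (hfree : ∀ a, ∀ s ∈ T, act a s = s → a = 0) (hN : ∀ s ∈ T, ∑ a, f (act a s) ∈ N) :
    ∑ s ∈ T, f s ∈ N := by
  classical
  induction T using Finset.strongInduction with
  | H T ih =>
    rcases T.eq_empty_or_nonempty with rfl | ⟨s, hs⟩
    · simp
    have hinj : Function.Injective fun a => act a s := fun a b e => by
      have : act (-b + a) s = s := by
        rw [hadd]; simp only at e; rw [e, ← hadd, neg_add_cancel, h0]
      exact (neg_add_eq_zero.1 (hfree _ s hs this)).symm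
    have hsub : Finset.univ.image (fun a => act a s) ⊆ T := by
      intro x hx
      obtain ⟨a, -, rfl⟩ := Finset.mem_image.1 hx
      exact hT a s hs
    rw [← Finset.sum_sdiff hsub, Finset.sum_image fun a _ b _ e => hinj e]
    refine N.add_mem (ih _ (Finset.sdiff_ssubset hsub ⟨s, Finset.mem_image.2 ⟨0, by simp [h0]⟩⟩)
      (fun a x hx => ?_) (fun a x hx => hfree a x (Finset.mem_sdiff.1 hx).1)
      fun x hx => hN x (Finset.mem_sdiff.1 hx).1) (hN s hs)
    rw [Finset.mem_sdiff] at hx ⊢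
    refine ⟨hT a x hx.1, fun h => hx.2 ?_⟩
    obtain ⟨b, -, hb⟩ := Finset.mem_image.1 h
    exact Finset.mem_image.2 ⟨-a + b, by simp, by rw [hadd, hb, ← hadd, neg_add_cancel, h0]⟩

section Unip

variable {F M : Type*} [Field F] [AddCommGroup M] [Module F M]

/-- The automorphism `1 + t n` for a map `n` of square zero. -/
def unip {n : End F M} (hn : n * n = 0) (t : F) : M ≃ₗ[F] M :=
  LinearEquiv.ofLinear (1 + t • n) (1 - t • n)
    (by
      change (1 + t • n) * (1 - t • n) = 1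
      simp [mul_sub, add_mul, hn])
    (by
      change (1 - t • n) * (1 + t • n) = 1
      simp [mul_add, sub_mul, hn])

@[simp] theorem coe_unip {n : End F M} (hn : n * n = 0) (t : F) :
    (unip hn t : M →ₗ[F] M) = 1 + t • n := rfl

@[simp] theorem coe_unip_symm {n : End F M} (hn : n * n = 0) (t : F) :
    ((unip hn t).symm : M →ₗ[F] M) = 1 - t • n := rfl

theorem unip_apply {n : End F M} (hn : n * n = 0) (t : F) (x : M) :
    unip hn t x = x + t • n x := rfl

theorem unip_zero {n : End F M} (hn : n * n = 0) : unip hn 0 = 1 :=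
  LinearEquiv.ext fun x => by simp [unip_apply]

theorem unip_add {n : End F M} (hn : n * n = 0) (s t : F) :
    unip hn (s + t) = unip hn s * unip hn t :=
  LinearEquiv.ext fun x => by
    have : n (n x) = 0 := LinearMap.congr_fun hn x
    simp [unip_apply, this, add_smul]; abel

theorem sum_conj_unip {R : Type*} [Ring R] [Algebra F R] (A : AddSubgroup F) [Fintype A]
    (hA : A ≠ ⊥) (a z : R) : ∑ t : A, (1 + (t : F) • a) * z * (1 - (t : F) • a) =
      (∑ t : A, (t : F)) • (a * z - z * a) - (∑ t : A, (t : F) * t) • (a * z * a) := by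
  have h1 : (Fintype.card A : F) = 0 := by
    obtain ⟨x, hx⟩ := AddSubgroup.ne_bot_iff_exists_ne_zero.1 hA
    have h2 : Fintype.card A • x = 0 := card_nsmul_eq_zero
    have h3 : (Fintype.card A : F) * (x : F) = 0 := by
      rw [← nsmul_eq_mul]; exact congrArg Subtype.val h2
    exact (mul_eq_zero.1 h3).resolve_right fun e => hx (Subtype.ext e)
  have h2 : ∀ t : F, (1 + t • a) * z * (1 - t • a) = z + t • (a * z - z * a) - (t * t) • (a * z * a) :=
    fun t => by
      simp only [add_mul, mul_sub, one_mul, mul_one, smul_mul_assoc, mul_smul_comm, smul_sub,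
        smul_add, smul_smul]
      abel
  simp only [h2, Finset.sum_sub_distrib, Finset.sum_add_distrib, Finset.sum_smul,
    Finset.sum_const, Finset.card_univ]
  rw [← Nat.cast_smul_eq_nsmul F, h1, zero_smul, zero_add]

theorem sum_eq_zero_of_smul (A : AddSubgroup F) [Fintype A] {l : F} (hl : l ≠ 0)
    (h : ∀ t ∈ A, l * t ∈ A) (k : ℕ) (hk : l ^ k ≠ 1) : ∑ t : A, (t : F) ^ k = 0 := by
  have hinj : Function.Injective fun t : A => (⟨l * t, h t t.2⟩ : A) := fun a b e =>
    Subtype.ext (mul_left_cancel₀ hl (congrArg Subtype.val e))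
  have := Function.Bijective.sum_comp (Finite.injective_iff_bijective.1 hinj)
    fun t : A => (t : F) ^ k
  simp only [mul_pow, ← Finset.mul_sum] at this
  have h2 : (l ^ k - 1) * ∑ t : A, (t : F) ^ k = 0 := by linear_combination this
  exact (mul_eq_zero.1 h2).resolve_left (sub_ne_zero.2 hk)

theorem sum_eq_zero_of_two_ne (A : AddSubgroup F) [Fintype A] (h2 : (2 : F) ≠ 0) :
    ∑ t : A, (t : F) = 0 := by
  simpa using sum_eq_zero_of_smul A (l := -1) (by simp) (fun t ht => by simpa using ht) 1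
    fun e => h2 (by linear_combination -e)

end Unip

namespace TS

variable {F U W V : Type*} [Field F] [AddCommGroup U] [Module F U] [AddCommGroup W] [Module F W]
  [AddCommGroup V] [Module F V] (τ : TS F U W V)

/-- The first factor of `τ'` is contained in the first factor of `τ`. -/
def Same {U' W' : Type*} [AddCommGroup U'] [Module F U'] [AddCommGroup W'] [Module F W']
    (τ' : TS F U' W' V) : Prop := ∀ a, τ.InA (τ'.K a 1)

theorem same_refl : τ.Same τ := τ.inA_K

variable {τ}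

theorem Same.inA {U' W' : Type*} [AddCommGroup U'] [Module F U'] [AddCommGroup W'] [Module F W']
    {τ' : TS F U' W' V} (h : τ.Same τ') {c : End F V} (hc : τ'.InA c) : τ.InA c := by
  obtain ⟨a, rfl⟩ := hc
  exact h a

theorem InA.map {c : End F V} (h : τ.InA c) (g : V ≃ₗ[F] V) :
    (τ.map g).InA ((g : End F V) * c * (g.symm : End F V)) := by
  obtain ⟨a, rfl⟩ := h
  exact ⟨a, (τ.map_K g a 1).symm⟩

theorem Same.map {U' W' : Type*} [AddCommGroup U'] [Module F U'] [AddCommGroup W'] [Module F W']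
    {τ' : TS F U' W' V} (h : τ.Same τ') (g : V ≃ₗ[F] V) : (τ.map g).Same (τ'.map g) := fun a => by
  rw [map_K]; exact (h a).map g

variable (τ) in
theorem map_KE_K (a : U ≃ₗ[F] U) (d : W ≃ₗ[F] W) (x : End F U) (y : End F W) :
    (τ.map (τ.KE a d)).K x y = τ.K (a * x * a.symm) (d * y * d.symm) := by
  rw [map_K, ← K_mul, ← K_mul]; rfl

variable (τ) in
theorem same_map_KE (a : U ≃ₗ[F] U) (d : W ≃ₗ[F] W) : τ.Same (τ.map (τ.KE a d)) := fun x => by
  rw [map_KE_K, show (d : End F W) * 1 * d.symm = 1 from LinearMap.ext fun x => by simp]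
  exact τ.inA_K _

variable (τ) in
theorem KE_inv (a : U ≃ₗ[F] U) (d : W ≃ₗ[F] W) : (τ.KE a d)⁻¹ = τ.KE a⁻¹ d⁻¹ :=
  inv_eq_of_mul_eq_one_right (by simp [KE_mul])

variable (τ) in
theorem flip_KE (a : U ≃ₗ[F] U) (d : W ≃ₗ[F] W) : τ.flip.KE d a = τ.KE a d :=
  LinearEquiv.ext fun v => by simp

theorem Same.of_KE_mul {U' W' : Type*} [AddCommGroup U'] [Module F U'] [AddCommGroup W']
    [Module F W'] {τ' : TS F U' W' V} {a : U ≃ₗ[F] U} {d : W ≃ₗ[F] W}
    (h : τ.Same (τ'.map (τ.KE a d))) : τ.Same τ' := fun x =>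
  (τ.same_map_KE a⁻¹ d⁻¹).inA (by
    have := h.map (τ.KE a⁻¹ d⁻¹) x
    rwa [← map_mul, ← KE_inv, inv_mul_cancel, map_one, KE_inv] at this)

theorem same_map_of_inA {g : V ≃ₗ[F] V} (h : τ.InA g) (h' : τ.InA g.symm) : τ.Same (τ.map g) :=
  fun a => by rw [map_K]; exact (h.mul (τ.inA_K a)).mul h'

theorem same_map_of_flip_inA {g : V ≃ₗ[F] V} (h : τ.flip.InA g) : τ.Same (τ.map g) := fun a => by
  have := h.comm a
  rw [flip_K] at this
  rw [map_K, ← this, mul_assoc, show (g : End F V) * g.symm = 1 from LinearMap.ext fun x => by simp,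
    mul_one]
  exact τ.inA_K a

variable (τ)
variable [FiniteDimensional F U] [FiniteDimensional F W]

/-- The partial trace. -/
noncomputable def ptr : End F V →ₗ[F] End F U :=
  ∑ j, τ.flip.sl ((finBasis F W).coord j) (finBasis F W j)

theorem ptr_K (a : End F U) (d : End F W) : τ.ptr (τ.K a d) = LinearMap.trace F W d • a := by
  rw [LinearMap.trace_eq_matrix_trace F (finBasis F W), ptr, LinearMap.sum_apply, Matrix.trace,
    Finset.sum_smul]
  refine Finset.sum_congr rfl fun j _ => ?_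
  rw [← flip_K, sl_K]
  simp [LinearMap.toMatrix_apply]

/-- The partial trace as an endomorphism of the endomorphism algebra. -/
noncomputable def Θ : End F (End F V) := τ.K.flip 1 ∘ₗ τ.ptr

theorem Θ_K (a : End F U) (d : End F W) : τ.Θ (τ.K a d) = LinearMap.trace F W d • τ.K a 1 := by
  simp [Θ, ptr_K]

theorem inA_Θ (y : End F V) : τ.InA (τ.Θ y) := ⟨_, rfl⟩

theorem ext_K {M : Type*} [AddCommGroup M] [Module F M] {f g : End F V →ₗ[F] M}
    (h : ∀ a d, f (τ.K a d) = g (τ.K a d)) : f = g :=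
  LinearMap.ext fun v => τ.K_induction v (by simp) h fun a b ha hb => by simp [ha, hb]

theorem trace_Θ_mul (y z : End F V) :
    LinearMap.trace F V (τ.Θ y * z) = LinearMap.trace F V (y * τ.Θ z) := by
  induction y using τ.K_induction with
  | h0 => simp
  | hadd a b ha hb => simp [add_mul, ha, hb]
  | h a d =>
    induction z using τ.K_induction with
    | h0 => simp
    | hadd a b ha hb => simp only [mul_add, map_add, ha, hb]
    | h a' d' => simp [Θ_K, K_mul, trace_K]; ring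

theorem map_K_conj (g : V ≃ₗ[F] V) (a : End F U) (d : End F W) :
    (τ.map g).K a d = g.conj (τ.K a d) := τ.map_K g a d

theorem Θ_map (g : V ≃ₗ[F] V) (y : End F V) : (τ.map g).Θ (g.conj y) = g.conj (τ.Θ y) := by
  induction y using τ.K_induction with
  | h0 => simp
  | hadd a b ha hb => simp [ha, hb]
  | h a d => rw [← map_K_conj, Θ_K, Θ_K, map_smul, map_K_conj]

theorem Θ_map_KE (a : U ≃ₗ[F] U) (d : W ≃ₗ[F] W) : (τ.map (τ.KE a d)).Θ = τ.Θ :=
  (τ.map (τ.KE a d)).ext_K fun x y => by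
    rw [Θ_K, map_KE_K, map_KE_K, Θ_K,
      show (d : End F W) * 1 * d.symm = 1 from LinearMap.ext fun x => by simp]
    congr 1
    exact (LinearMap.trace_conj' y d).symm

theorem exists_trace_one [Nontrivial W] : ∃ d : End F W, LinearMap.trace F W d = 1 := by
  obtain ⟨x, hx⟩ := exists_ne (0 : W)
  obtain ⟨ψ, hψ⟩ := exists_dual_one' (F := F) hx
  exact ⟨ψ.smulRight x, by rw [LinearMap.trace_smulRight, hψ]⟩

variable {τ}

theorem Same.Θ_eq [Nontrivial W] {g : V ≃ₗ[F] V} (h : τ.Same (τ.map g)) : (τ.map g).Θ = τ.Θ := by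
  obtain ⟨a, d, rfl⟩ := τ.exists_eq_KE h
  exact τ.Θ_map_KE a d

theorem same_of_Θ_eq [Nontrivial W] {τ' : TS F U W V} (h : τ'.Θ = τ.Θ) : τ.Same τ' := fun a => by
  obtain ⟨d, hd⟩ := exists_trace_one (F := F) (W := W)
  have := τ.inA_Θ (τ'.K a d)
  rwa [← h, Θ_K, hd, one_smul] at this

theorem Same.symm_map [Nontrivial W] {g : V ≃ₗ[F] V} (h : τ.Same (τ.map g)) :
    (τ.map g).Same τ := same_of_Θ_eq h.Θ_eq.symm

theorem Θ_eq_zero_of_comm {τ' : TS F U W V} (h : τ.flip.Same τ') {x : End F U}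
    (hx : LinearMap.trace F U x = 0) (d : End F W) : τ'.Θ (τ.K x d) = 0 := by
  have := τ.finiteDimensional
  have h1 : ∀ z, LinearMap.trace F V (τ'.Θ (τ.K x d) * z) = 0 := fun z => by
    obtain ⟨d', hd'⟩ := τ.flip_inA.1 (h.inA (τ'.inA_Θ z))
    rw [trace_Θ_mul, hd', K_mul, trace_K, mul_one, hx, zero_mul]
  refine LinearMap.ext fun v => eq_zero_of_forall_dual (F := F) fun φ => ?_
  have := h1 (φ.smulRight v)
  rwa [show τ'.Θ (τ.K x d) * φ.smulRight v = φ.smulRight (τ'.Θ (τ.K x d) v) from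
    LinearMap.ext fun _ => by simp, LinearMap.trace_smulRight] at this

variable (τ) in
theorem trace_mul_K (z : End F V) (φ : Dual F U) (u : U) (ψ : Dual F W) (w : W) :
    LinearMap.trace F V (z * τ.K (φ.smulRight u) (ψ.smulRight w)) = ψ (τ.sl φ u z w) := by
  have := τ.finiteDimensional
  rw [show z * τ.K (φ.smulRight u) (ψ.smulRight w) = (ψ ∘ₗ τ.pr φ).smulRight (z (τ.tp u w)) from
    LinearMap.ext fun v => by simp [K_smulRight], LinearMap.trace_smulRight]
  rfl

variable (τ) in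
theorem exists_eq_add_of_trace {z : End F V} (h : ∀ x d, LinearMap.trace F U x = 0 →
    LinearMap.trace F W d = 0 → LinearMap.trace F V (z * τ.K x d) = 0) :
    ∃ x d, z = τ.K x 1 + τ.K 1 d := by
  rcases subsingleton_or_nontrivial U with hU | hU
  · exact ⟨0, 0, τ.ext fun u x => by simp [Subsingleton.elim u 0]⟩
  obtain ⟨u₀, hu₀⟩ := exists_ne (0 : U)
  obtain ⟨φ₀, hφ₀⟩ := exists_dual_one' (F := F) hu₀
  obtain ⟨x, hx⟩ := τ.inA_of_sl (c := z - τ.K 1 (τ.sl φ₀ u₀ z)) fun φ u =>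
    scal_of_dual fun ψ w hw => by
      have := h (φ.smulRight u - φ u • φ₀.smulRight u₀) (ψ.smulRight w)
        (by simp [LinearMap.trace_smulRight, hφ₀]) (by simp [LinearMap.trace_smulRight, hw])
      rw [map_sub, map_smul, LinearMap.sub_apply, LinearMap.smul_apply, mul_sub, mul_smul_comm,
        map_sub, map_smul, trace_mul_K, trace_mul_K] at this
      rw [map_sub, sl_K]
      simpa using this
  exact ⟨x, _, by rw [← hx, sub_add_cancel]⟩

variable [Finite F] (τ) (X : Subgroup (V ≃ₗ[F] V))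

include τ in
theorem finite_End_End : Finite (End F (End F V)) := by
  have := τ.finiteDimensional
  exact Module.finite_of_finite F

/-- The partial traces of the conjugates of the structure. -/
noncomputable def Om : Finset (End F (End F V)) :=
  have := τ.finite_End_End
  (Set.toFinite {θ | ∃ g ∈ X, θ = (τ.map g).Θ}).toFinset

/-- The partial traces of those conjugates which are neither equal nor commute. -/
noncomputable def Bad : Finset (End F (End F V)) :=
  have := τ.finite_End_End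
  (Set.toFinite {θ | ∃ g ∈ X, θ = (τ.map g).Θ ∧ ¬ τ.Same (τ.map g) ∧
    ¬ τ.flip.Same (τ.map g)}).toFinset

/-- The sum of the partial traces of the bad conjugates. -/
noncomputable def δ : End F (End F V) := ∑ θ ∈ τ.Bad X, θ

variable {τ X}

theorem mem_Om {θ : End F (End F V)} : θ ∈ τ.Om X ↔ ∃ g ∈ X, θ = (τ.map g).Θ := by simp [Om]

theorem mem_Bad {θ : End F (End F V)} : θ ∈ τ.Bad X ↔ ∃ g ∈ X, θ = (τ.map g).Θ ∧
    ¬ τ.Same (τ.map g) ∧ ¬ τ.flip.Same (τ.map g) := by simp [Bad]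

omit [FiniteDimensional F U] [FiniteDimensional F W] [Finite F] in
/-- Conjugation of an operator on the endomorphism algebra. -/
def cj (g : V ≃ₗ[F] V) (θ : End F (End F V)) : End F (End F V) := g.conj.conj θ

omit [FiniteDimensional F U] [FiniteDimensional F W] [Finite F] in
theorem cj_apply (g : V ≃ₗ[F] V) (θ : End F (End F V)) (y : End F V) :
    cj g θ (g.conj y) = g.conj (θ y) := by
  rw [cj, LinearEquiv.conj_apply_apply, LinearEquiv.symm_apply_apply]

omit [FiniteDimensional F U] [FiniteDimensional F W] [Finite F] in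
theorem cj_mul (g g' : V ≃ₗ[F] V) (θ : End F (End F V)) : cj (g * g') θ = cj g (cj g' θ) := rfl

omit [FiniteDimensional F U] [FiniteDimensional F W] [Finite F] in
theorem cj_one (θ : End F (End F V)) : cj (1 : V ≃ₗ[F] V) θ = θ := rfl

omit [Finite F] in
theorem cj_Θ (g : V ≃ₗ[F] V) : cj g τ.Θ = (τ.map g).Θ :=
  LinearMap.ext fun y => by
    obtain ⟨y, rfl⟩ := g.conj.surjective y
    rw [cj_apply, Θ_map]

theorem sum_Om_conj {g : V ≃ₗ[F] V} (hg : g ∈ X) (y : End F V) :
    ∑ θ ∈ τ.Om X, θ (g.conj y) = g.conj (∑ θ ∈ τ.Om X, θ y) := by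
  have h : ∀ g ∈ X, ∀ θ ∈ τ.Om X, cj g θ ∈ τ.Om X := fun g hg θ hθ => by
    obtain ⟨k, hk, rfl⟩ := mem_Om.1 hθ
    exact mem_Om.2 ⟨g * k, X.mul_mem hg hk, by rw [cj_Θ, map_mul]⟩
  rw [map_sum]
  refine (Finset.sum_nbij' (cj g) (cj g⁻¹) (h g hg) (h _ (X.inv_mem hg))
    (fun θ _ => by rw [← cj_mul, inv_mul_cancel, cj_one])
    (fun θ _ => by rw [← cj_mul, mul_inv_cancel, cj_one]) fun θ _ => (cj_apply g θ y).symm).symm

theorem sum_Om_K [Nontrivial W] {x : End F U} (hx : LinearMap.trace F U x = 0) (d : End F W) :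
    ∑ θ ∈ τ.Om X, θ (τ.K x d) = LinearMap.trace F W d • τ.K x 1 + τ.δ X (τ.K x d) := by
  classical
  have hsub : τ.Bad X ⊆ τ.Om X := fun θ hθ => by
    obtain ⟨g, hg, h, -⟩ := mem_Bad.1 hθ
    exact mem_Om.2 ⟨g, hg, h⟩
  rw [← Finset.sum_sdiff hsub, δ, LinearMap.sum_apply, Finset.sum_eq_single τ.Θ, Θ_K]
  · intro θ hθ hne
    rw [Finset.mem_sdiff] at hθ
    obtain ⟨g, hg, rfl⟩ := mem_Om.1 hθ.1
    by_cases h1 : τ.Same (τ.map g)
    · exact absurd h1.Θ_eq hne
    by_cases h2 : τ.flip.Same (τ.map g)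
    · exact Θ_eq_zero_of_comm h2 hx d
    · exact absurd (mem_Bad.2 ⟨g, hg, rfl, h1, h2⟩) hθ.2
  · intro h
    refine absurd (Finset.mem_sdiff.2 ⟨mem_Om.2 ⟨1, X.one_mem, rfl⟩, fun h1 => ?_⟩) h
    obtain ⟨g, -, h2, h3, -⟩ := mem_Bad.1 h1
    exact h3 (same_of_Θ_eq h2.symm)

variable (τ X) in
/-- A root subgroup of the first factor whose elements normalise only conjugate structures which
are equal to the given one or commute with it. -/
structure Root {n : End F U} (hn : n * n = 0) (A : AddSubgroup F) : Prop where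
  mem : ∀ t ∈ A, τ.KL (unip hn t) ∈ X
  rig : ∀ t ∈ A, t ≠ 0 → ∀ g ∈ X, (τ.map g).Same (τ.map (τ.KL (unip hn t) * g)) →
    τ.Same (τ.map g) ∨ τ.flip.Same (τ.map g)

theorem Root.δ_mem [Nontrivial W] {n : End F U} {hn : n * n = 0} {A : AddSubgroup F} [Fintype A]
    (h : τ.Root X hn A) {y : End F V} (hy : τ.K n 1 * y = y * τ.K n 1)
    (N : AddSubgroup (End F V))
    (hN : ∀ z, ∑ t : A, (1 + (t : F) • τ.K n 1) * z * (1 - (t : F) • τ.K n 1) ∈ N) :
    τ.δ X y ∈ N := by
  have h1 : ∀ (t : F) z, (τ.KL (unip hn t)).conj z = (1 + t • τ.K n 1) * z * (1 - t • τ.K n 1) :=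
    fun t z => by
      change τ.K (1 + t • n) 1 * z * τ.K (1 - t • n) 1 = _
      simp
  have h2 : τ.K n 1 * τ.K n 1 = 0 := by simp [K_mul, hn]
  have h3 : ∀ t : F, (τ.KL (unip hn t)).conj y = y := fun t => by
    rw [h1, add_mul, one_mul, smul_mul_assoc, hy, ← mul_smul_comm, ← mul_one_add, mul_assoc]
    simp [mul_sub, add_mul, h2]
  rw [δ, LinearMap.sum_apply]
  refine sum_mem_of_free (A := A) (fun t θ => cj (τ.KL (unip hn t)) θ)
    (fun θ => by simp [unip_zero, cj_one]) (fun a b θ => by simp [unip_add, cj_mul])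
    (fun θ => θ y) N _ (fun t θ hθ => ?_) (fun t θ hθ e => ?_) fun θ _ => ?_
  · obtain ⟨g, hg, rfl, h4, h5⟩ := mem_Bad.1 hθ
    refine mem_Bad.2 ⟨_, X.mul_mem (h.mem t t.2) hg, by rw [cj_Θ, map_mul], fun h6 => h4 ?_,
      fun h6 => h5 ?_⟩
    · exact Same.of_KE_mul (a := unip hn t) (d := 1) h6
    · exact Same.of_KE_mul (τ := τ.flip) (a := 1) (d := unip hn t) (by rwa [flip_KE])
  · obtain ⟨g, hg, rfl, h4, h5⟩ := mem_Bad.1 hθ
    by_contra h0
    rw [cj_Θ] at e
    exact (h.rig t t.2 (fun e => h0 (Subtype.ext e)) g hg (same_of_Θ_eq e)).elim h4 h5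
  · convert hN (θ y) using 2 with t
    rw [← h1, ← cj_apply, h3]

theorem Root.same_or_comm [Nontrivial W] {n : End F U} {hn : n * n = 0} {A : AddSubgroup F}
    (h : τ.Root X hn A) (hA : A ≠ ⊥) (htr : LinearMap.trace F U n = 0)
    (hK : ∀ x d, LinearMap.trace F U x = 0 → τ.δ X (τ.K x d) = 0)
    (hRK : ∀ g ∈ X, ∀ x d, (τ.map g).K n 1 = τ.K x 1 + τ.K 1 d → Scal x ∨ Scal d)
    {g : V ≃ₗ[F] V} (hg : g ∈ X) : τ.Same (τ.map g) ∨ τ.flip.Same (τ.map g) := by
  obtain ⟨⟨t, ht⟩, ht0⟩ := AddSubgroup.ne_bot_iff_exists_ne_zero.1 hA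
  obtain ⟨d₁, hd₁⟩ := exists_trace_one (F := F) (W := W)
  have h1 : ∑ θ ∈ τ.Om X, θ ((τ.map g⁻¹).K n d₁) = (τ.map g⁻¹).K n 1 := by
    rw [map_K_conj, sum_Om_conj (X.inv_mem hg), sum_Om_K htr, hK _ _ htr, hd₁, one_smul, add_zero,
      map_K_conj]
  obtain ⟨x, d, h2⟩ := τ.exists_eq_add_of_trace (z := (τ.map g⁻¹).K n 1) fun x d hx hd => by
    have h3 := sum_Om_K (τ := τ) (X := X) hx d
    rw [hK _ _ hx, hd, zero_smul, add_zero] at h3
    rw [← h1, Finset.sum_mul, map_sum, Finset.sum_congr rfl (g := fun θ =>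
      LinearMap.trace F V ((τ.map g⁻¹).K n d₁ * θ (τ.K x d))), ← map_sum, ← Finset.mul_sum, h3]
    · simp
    · intro θ hθ
      obtain ⟨k, -, rfl⟩ := mem_Om.1 hθ
      exact (τ.map k).trace_Θ_mul _ _
  refine h.rig t ht (fun e => ht0 (Subtype.ext e)) g hg ?_
  have h3 : τ.Same (τ.map ((τ.map g⁻¹).KL (unip hn t))) := by
    have e1 : ((τ.map g⁻¹).KL (unip hn t) : End F V) = 1 + t • (τ.map g⁻¹).K n 1 := by simp
    have e2 : (((τ.map g⁻¹).KL (unip hn t)).symm : End F V) = 1 - t • (τ.map g⁻¹).K n 1 := by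
      change (τ.map g⁻¹).K (1 - t • n) 1 = _
      simp
    rcases hRK _ (X.inv_mem hg) x d h2 with h4 | h4
    · obtain ⟨c, rfl⟩ := h4.eq
      refine same_map_of_flip_inA ?_
      rw [e1, h2]
      exact τ.flip_inA.2 ⟨1 + t • (c • 1 + d), by simp⟩
    · obtain ⟨c, rfl⟩ := h4.eq
      have h5 : τ.InA ((τ.map g⁻¹).K n 1) := ⟨x + c • 1, by simp [h2]⟩
      exact same_map_of_inA (e1 ▸ inA_one.add (h5.smul t)) (e2 ▸ inA_one.sub (h5.smul t))
  have h4 := h3.map g
  rwa [← map_mul, show g * (τ.map g⁻¹).KL (unip hn t) = τ.KL (unip hn t) * g from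
    LinearEquiv.ext fun v => by simp [map_K_apply', show g⁻¹.symm = g from rfl]] at h4

end TS

end Cfsg.Agent.Tens
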