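import Mathlib
import Cfsg.Agent.H7.Irr

/-!
Tensor structures on a vector space: an identification of `V` with `U ⊗ W`.
-/

set_option autoImplicit false
set_option linter.unusedSectionVars false

namespace Cfsg.Agent.Tens

open Module TensorProduct Cfsg.Agent.H7

/-- A tensor structure on `V`. -/
structure TS (F U W V : Type*) [Field F] [AddCommGroup U] [Module F U] [AddCommGroup W]
    [Module F W] [AddCommGroup V] [Module F V] where
  /-- The identification. -/
  e : (U ⊗[F] W) ≃ₗ[F] V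

section General

variable {F M : Type*} [Field F] [AddCommGroup M] [Module F M]

theorem eq_zero_of_forall_dual {v : M} (h : ∀ φ : Dual F M, φ v = 0) : v = 0 := by
  by_contra h0
  obtain ⟨φ, hφ⟩ := exists_dual_one' (F := F) h0
  exact one_ne_zero (hφ.symm.trans (h φ))

theorem exists_dual_one₂ {u u' : M} (hw : u' ∉ F ∙ u) : ∃ φ : Dual F M, φ u' = 1 ∧ φ u = 0 := by
  obtain ⟨φ, h1, h2⟩ := exists_dual_one hw
  exact ⟨φ, h1, h2 u (Submodule.mem_span_singleton_self u)⟩

/-- The endomorphism is a scalar. -/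
def Scal (z : End F M) : Prop := ∃ c : F, ∀ x, z x = c • x

theorem Scal.eq {z : End F M} (h : Scal z) : ∃ c : F, z = c • (1 : End F M) := by
  obtain ⟨c, hc⟩ := h
  exact ⟨c, LinearMap.ext hc⟩

theorem scal_smul_one (c : F) : Scal (c • (1 : End F M)) := ⟨c, fun _ => rfl⟩

theorem scal_one : Scal (1 : End F M) := ⟨1, fun _ => by simp⟩

theorem scal_zero : Scal (0 : End F M) := ⟨0, fun _ => by simp⟩

theorem Scal.add {z z' : End F M} (h : Scal z) (h' : Scal z') : Scal (z + z') := by
  obtain ⟨c, hc⟩ := h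
  obtain ⟨c', hc'⟩ := h'
  exact ⟨c + c', fun x => by simp [hc, hc', add_smul]⟩

theorem Scal.smul {z : End F M} (h : Scal z) (a : F) : Scal (a • z) := by
  obtain ⟨c, hc⟩ := h
  exact ⟨a * c, fun x => by simp [hc, mul_smul]⟩

theorem Scal.neg {z : End F M} (h : Scal z) : Scal (-z) := by simpa using h.smul (-1)

theorem Scal.sub {z z' : End F M} (h : Scal z) (h' : Scal z') : Scal (z - z') := by
  simpa [sub_eq_add_neg] using h.add h'.neg

theorem Scal.of_smul {z : End F M} {a : F} (ha : a ≠ 0) (h : Scal (a • z)) : Scal z := by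
  simpa [smul_smul, ha] using h.smul a⁻¹

theorem scal_of_eigen {z : End F M} (h : ∀ u, z u ∈ F ∙ u) : Scal z := by
  rcases subsingleton_or_nontrivial M with hV | hV
  · exact ⟨0, fun _ => Subsingleton.elim _ _⟩
  obtain ⟨v, hv⟩ := exists_ne (0 : M)
  obtain ⟨c, hc⟩ := Submodule.mem_span_singleton.mp (h v)
  refine ⟨c, fun x => ?_⟩
  by_cases hx : x ∈ F ∙ v
  · obtain ⟨d, rfl⟩ := Submodule.mem_span_singleton.mp hx
    rw [map_smul, ← hc, smul_comm]
  · obtain ⟨c1, h1⟩ := Submodule.mem_span_singleton.mp (h x)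
    obtain ⟨c2, h2⟩ := Submodule.mem_span_singleton.mp (h (x + v))
    rw [map_add, ← h1, ← hc] at h2
    obtain ⟨φ, h3, h4⟩ := exists_dual_one₂ hx
    have h5 := congrArg φ h2
    simp [h3, h4] at h5
    subst h5
    rw [smul_add, add_right_inj] at h2
    rw [← h1, smul_left_injective F hv h2]

theorem exists_dual_of_not_scal {z : End F M} (hz : ¬ Scal z) :
    ∃ (φ : Dual F M) (u : M), φ u = 0 ∧ φ (z u) = 1 := by
  obtain ⟨u, hu⟩ : ∃ u, z u ∉ F ∙ u := by
    by_contra! h
    exact hz (scal_of_eigen h)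
  obtain ⟨φ, h1, h2⟩ := exists_dual_one₂ hu
  exact ⟨φ, u, h2, h1⟩

theorem scal_of_dual {z : End F M} (h : ∀ (φ : Dual F M) (u : M), φ u = 0 → φ (z u) = 0) :
    Scal z := by
  by_contra hz
  obtain ⟨φ, u, h1, h2⟩ := exists_dual_of_not_scal hz
  exact one_ne_zero (h2.symm.trans (h φ u h1))

theorem scal_of_comm {z : End F M} (h : ∀ d : End F M, d * z = z * d) : Scal z := by
  refine scal_of_dual fun φ u hu => ?_
  by_cases h0 : u = 0
  · simp [h0]
  have := congrArg (fun f : End F M => f u) (h (φ.smulRight u))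
  simp only [End.mul_apply, LinearMap.smulRight_apply, hu, zero_smul, map_zero] at this
  exact (smul_eq_zero.1 this).resolve_right h0

end General

namespace TS

variable {F U W V : Type*} [Field F] [AddCommGroup U] [Module F U] [AddCommGroup W] [Module F W]
  [AddCommGroup V] [Module F V] (τ : TS F U W V)

/-- Pure tensors. -/
def tp : U →ₗ[F] W →ₗ[F] V := (TensorProduct.mk F U W).compr₂ τ.e.toLinearMap

theorem tp_def (u : U) (x : W) : τ.tp u x = τ.e (u ⊗ₜ x) := rfl

/-- Tensor products of endomorphisms. -/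
def K : End F U →ₗ[F] End F W →ₗ[F] End F V :=
  (TensorProduct.mapBilinear (RingHom.id F) U W U W).compr₂ τ.e.conj.toLinearMap

/-- Contraction with a functional on the first factor. -/
def pr : Dual F U →ₗ[F] V →ₗ[F] W where
  toFun φ := (TensorProduct.lid F W).toLinearMap ∘ₗ φ.rTensor W ∘ₗ τ.e.symm.toLinearMap
  map_add' φ ψ := by ext; simp [LinearMap.rTensor_add]
  map_smul' c φ := by ext; simp [LinearMap.rTensor_smul]

@[simp] theorem K_tp (a : End F U) (d : End F W) (u : U) (x : W) :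
    τ.K a d (τ.tp u x) = τ.tp (a u) (d x) := by
  simp [K, tp_def, LinearEquiv.conj_apply]

@[simp] theorem pr_tp (φ : Dual F U) (u : U) (x : W) : τ.pr φ (τ.tp u x) = φ u • x := by
  simp [pr, tp_def]

@[elab_as_elim]
theorem induction {p : V → Prop} (v : V) (h0 : p 0) (h : ∀ u x, p (τ.tp u x))
    (hadd : ∀ v v', p v → p v' → p (v + v')) : p v := by
  obtain ⟨y, rfl⟩ := τ.e.surjective v
  induction y using TensorProduct.induction_on with
  | zero => simpa using h0
  | tmul u x => exact h u x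
  | add a b ha hb => rw [map_add]; exact hadd _ _ ha hb

theorem ext {M : Type*} [AddCommGroup M] [Module F M] {f g : V →ₗ[F] M}
    (h : ∀ u x, f (τ.tp u x) = g (τ.tp u x)) : f = g :=
  LinearMap.ext fun v => τ.induction v (by simp) h fun a b ha hb => by simp [ha, hb]

theorem K_mul (a a' : End F U) (d d' : End F W) : τ.K a d * τ.K a' d' = τ.K (a * a') (d * d') :=
  τ.ext fun u x => by simp

@[simp] theorem K_one : τ.K 1 1 = 1 := τ.ext fun u x => by simp

theorem K_K (a a' : End F U) (d d' : End F W) (v : V) :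
    τ.K a d (τ.K a' d' v) = τ.K (a * a') (d * d') v := by
  rw [← K_mul]; rfl

theorem K_smulRight (φ : Dual F U) (u : U) (d : End F W) (v : V) :
    τ.K (φ.smulRight u) d v = τ.tp u (d (τ.pr φ v)) := by
  induction v using τ.induction with
  | h0 => simp
  | h u' x => simp
  | hadd a b ha hb => simp [ha, hb]

theorem pr_K (φ : Dual F U) (a : End F U) (d : End F W) (v : V) :
    τ.pr φ (τ.K a d v) = d (τ.pr (φ ∘ₗ a) v) := by
  induction v using τ.induction with
  | h0 => simp
  | h u' x => simp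
  | hadd a b ha hb => simp [ha, hb]

/-- Tensor products of automorphisms. -/
def KE (a : U ≃ₗ[F] U) (d : W ≃ₗ[F] W) : V ≃ₗ[F] V :=
  LinearEquiv.ofLinear (τ.K a d) (τ.K a.symm d.symm) (τ.ext fun u x => by simp)
    (τ.ext fun u x => by simp)

@[simp] theorem KE_apply (a : U ≃ₗ[F] U) (d : W ≃ₗ[F] W) (v : V) : τ.KE a d v = τ.K a d v := rfl

@[simp] theorem coe_KE (a : U ≃ₗ[F] U) (d : W ≃ₗ[F] W) : (τ.KE a d : V →ₗ[F] V) = τ.K a d := rfl

@[simp] theorem KE_symm_apply (a : U ≃ₗ[F] U) (d : W ≃ₗ[F] W) (v : V) :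
    (τ.KE a d).symm v = τ.K a.symm d.symm v := rfl

theorem KE_mul (a a' : U ≃ₗ[F] U) (d d' : W ≃ₗ[F] W) :
    τ.KE a d * τ.KE a' d' = τ.KE (a * a') (d * d') :=
  LinearEquiv.toLinearMap_injective (τ.ext fun u x => by simp)

@[simp] theorem KE_one : τ.KE 1 1 = 1 :=
  LinearEquiv.toLinearMap_injective (τ.ext fun u x => by simp)

/-- The first factor as a homomorphism of groups. -/
def KL : (U ≃ₗ[F] U) →* (V ≃ₗ[F] V) where
  toFun a := τ.KE a 1
  map_one' := τ.KE_one
  map_mul' a b := by rw [KE_mul, mul_one]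

@[simp] theorem KL_apply (a : U ≃ₗ[F] U) (v : V) : τ.KL a v = τ.K a 1 v := rfl

@[simp] theorem coe_KL (a : U ≃ₗ[F] U) : (τ.KL a : V →ₗ[F] V) = τ.K a 1 := rfl

theorem KL_tp (a : U ≃ₗ[F] U) (u : U) (x : W) : τ.KL a (τ.tp u x) = τ.tp (a u) x := by simp

/-- The structure with the factors exchanged. -/
def flip : TS F W U V := ⟨(TensorProduct.comm F W U).trans τ.e⟩

@[simp] theorem flip_tp (x : W) (u : U) : τ.flip.tp x u = τ.tp u x := rfl

@[simp] theorem flip_K (d : End F W) (a : End F U) : τ.flip.K d a = τ.K a d :=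
  τ.ext fun u x => by rw [← flip_tp, K_tp, flip_tp, flip_tp, K_tp]

theorem flip_pr_tp (ψ : Dual F W) (u : U) (x : W) : τ.flip.pr ψ (τ.tp u x) = ψ x • u := by
  rw [← flip_tp, pr_tp]

theorem pr_flip_pr (φ : Dual F U) (ψ : Dual F W) (v : V) : φ (τ.flip.pr ψ v) = ψ (τ.pr φ v) := by
  induction v using τ.induction with
  | h0 => simp
  | h u x => simp [flip_pr_tp, mul_comm]
  | hadd a b ha hb => simp [ha, hb]

/-- The structure transported by a linear equivalence. -/
def map {V' : Type*} [AddCommGroup V'] [Module F V'] (g : V ≃ₗ[F] V') : TS F U W V' :=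
  ⟨τ.e.trans g⟩

section
variable {V' : Type*} [AddCommGroup V'] [Module F V'] (g : V ≃ₗ[F] V')

@[simp] theorem map_tp (u : U) (x : W) : (τ.map g).tp u x = g (τ.tp u x) := rfl

theorem map_K_apply (a : End F U) (d : End F W) (v : V) :
    (τ.map g).K a d (g v) = g (τ.K a d v) := by
  induction v using τ.induction with
  | h0 => simp
  | h u x => rw [← map_tp, K_tp, K_tp, map_tp]
  | hadd a b ha hb => simp [ha, hb]

theorem map_K_apply' (a : End F U) (d : End F W) (v : V') :
    (τ.map g).K a d v = g (τ.K a d (g.symm v)) := by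
  rw [← map_K_apply, g.apply_symm_apply]

theorem map_pr_apply (φ : Dual F U) (v : V) : (τ.map g).pr φ (g v) = τ.pr φ v := by
  induction v using τ.induction with
  | h0 => simp
  | h u x => rw [← map_tp, pr_tp, pr_tp]
  | hadd a b ha hb => simp [ha, hb]

theorem map_map {V'' : Type*} [AddCommGroup V''] [Module F V''] (g' : V' ≃ₗ[F] V'') :
    (τ.map g).map g' = τ.map (g.trans g') := rfl

theorem map_flip : (τ.map g).flip = τ.flip.map g := rfl

end

theorem map_mul (g g' : V ≃ₗ[F] V) : τ.map (g * g') = (τ.map g').map g := rfl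

@[simp] theorem map_one : τ.map (1 : V ≃ₗ[F] V) = τ := rfl

theorem map_K (g : V ≃ₗ[F] V) (a : End F U) (d : End F W) :
    (τ.map g).K a d = (g : End F V) * τ.K a d * (g.symm : End F V) :=
  LinearMap.ext fun v => τ.map_K_apply' g a d v

/-- The slices of an endomorphism of `V`. -/
def sl (φ : Dual F U) (u : U) : End F V →ₗ[F] End F W where
  toFun c := τ.pr φ ∘ₗ c ∘ₗ τ.tp u
  map_add' a b := by ext; simp
  map_smul' c a := by ext; simp

@[simp] theorem sl_apply (φ : Dual F U) (u : U) (c : End F V) (x : W) :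
    τ.sl φ u c x = τ.pr φ (c (τ.tp u x)) := rfl

theorem sl_K (φ : Dual F U) (u : U) (a : End F U) (d : End F W) :
    τ.sl φ u (τ.K a d) = φ (a u) • d := by ext; simp

theorem tp_eq_zero {u : U} {x : W} (hu : u ≠ 0) (h : τ.tp u x = 0) : x = 0 := by
  obtain ⟨φ, hφ⟩ := exists_dual_one' (F := F) hu
  simpa [hφ] using congrArg (τ.pr φ) h

theorem tp_inj {u : U} (hu : u ≠ 0) : Function.Injective (τ.tp u) :=
  (injective_iff_map_eq_zero _).2 fun _ => τ.tp_eq_zero hu

theorem tp_ne_zero {u : U} {x : W} (hu : u ≠ 0) (hx : x ≠ 0) : τ.tp u x ≠ 0 :=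
  fun h => hx (τ.tp_eq_zero hu h)

variable [FiniteDimensional F U]

theorem sum_tp_pr {ι : Type*} [Fintype ι] (b : Basis ι F U) (v : V) :
    ∑ i, τ.tp (b i) (τ.pr (b.coord i) v) = v := by
  induction v using τ.induction with
  | h0 => simp
  | h u x =>
    conv_rhs => rw [← b.sum_repr u, map_sum, LinearMap.sum_apply]
    simp
  | hadd a b ha hb => simp [Finset.sum_add_distrib, ha, hb]

theorem eq_zero_of_pr {v : V} (h : ∀ φ, τ.pr φ v = 0) : v = 0 := by
  rw [← τ.sum_tp_pr (finBasis F U) v]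
  simp [h]

theorem ext_pr {v v' : V} (h : ∀ φ, τ.pr φ v = τ.pr φ v') : v = v' :=
  sub_eq_zero.1 (τ.eq_zero_of_pr fun φ => by rw [map_sub, h, sub_self])

theorem ext_sl {c c' : End F V} (h : ∀ φ u, τ.sl φ u c = τ.sl φ u c') : c = c' :=
  τ.ext fun u x => τ.ext_pr fun φ => LinearMap.congr_fun (h φ u) x

theorem sum_K_sl {ι : Type*} [Fintype ι] (b : Basis ι F U) (c : End F V) :
    ∑ i, ∑ j, τ.K ((b.coord j).smulRight (b i)) (τ.sl (b.coord i) (b j) c) = c := by
  refine LinearMap.ext fun v => ?_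
  conv_rhs => rw [← τ.sum_tp_pr b (c v), ← τ.sum_tp_pr b v]
  simp [K_smulRight]

@[elab_as_elim]
theorem K_induction {p : End F V → Prop} (c : End F V) (h0 : p 0) (h : ∀ a d, p (τ.K a d))
    (hadd : ∀ c c', p c → p c' → p (c + c')) : p c := by
  rw [← τ.sum_K_sl (finBasis F U) c]
  exact Finset.sum_induction _ p hadd h0 fun i _ =>
    Finset.sum_induction _ p hadd h0 fun j _ => h _ _

/-- A vector killed by all contractions with functionals vanishing on `u` lies in `u ⊗ W`. -/
theorem exists_eq_tp {u : U} {v : V} (h : ∀ φ : Dual F U, φ u = 0 → τ.pr φ v = 0) :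
    ∃ x, v = τ.tp u x := by
  by_cases hu : u = 0
  · exact ⟨0, by simpa using τ.eq_zero_of_pr fun φ => h φ (by simp [hu])⟩
  obtain ⟨ψ, hψ⟩ := exists_dual_one' (F := F) hu
  refine ⟨τ.pr ψ v, τ.ext_pr fun φ => ?_⟩
  have := h (φ - φ u • ψ) (by simp [hψ])
  simpa [sub_eq_zero] using this

omit [FiniteDimensional F U] in
/-- The endomorphism acts on the first factor only. -/
def InA (c : End F V) : Prop := ∃ a, c = τ.K a 1

omit [FiniteDimensional F U] in
theorem inA_K (a : End F U) : τ.InA (τ.K a 1) := ⟨a, rfl⟩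

omit [FiniteDimensional F U] in
theorem flip_inA {c : End F V} : τ.flip.InA c ↔ ∃ d, c = τ.K 1 d := by simp [InA]

theorem inA_of_sl {c : End F V} (h : ∀ φ u, Scal (τ.sl φ u c)) : τ.InA c := by
  rcases subsingleton_or_nontrivial W with hW | hW
  · exact ⟨0, τ.ext fun u x => by simp [Subsingleton.elim x 0]⟩
  obtain ⟨x₀, hx₀⟩ := exists_ne (0 : W)
  obtain ⟨ψ, hψ⟩ := exists_dual_one' (F := F) hx₀
  refine ⟨τ.flip.sl ψ x₀ c, τ.ext fun u x => τ.ext_pr fun φ => ?_⟩
  obtain ⟨s, hs⟩ := h φ u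
  simp only [sl_apply] at hs
  simp [pr_flip_pr, hs, hψ]

theorem inA_of_comm {c : End F V} (h : ∀ d, τ.K 1 d * c = c * τ.K 1 d) : τ.InA c := by
  refine τ.inA_of_sl fun φ u => scal_of_comm fun d => LinearMap.ext fun x => ?_
  have := congrArg (τ.pr φ) (LinearMap.congr_fun (h d) (τ.tp u x))
  simp only [End.mul_apply, pr_K, K_tp, End.one_apply] at this
  exact this

section
omit [FiniteDimensional F U]
variable {τ}

theorem InA.add {c c' : End F V} (h : τ.InA c) (h' : τ.InA c') : τ.InA (c + c') := by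
  obtain ⟨a, rfl⟩ := h
  obtain ⟨a', rfl⟩ := h'
  exact ⟨a + a', by simp⟩

theorem InA.smul {c : End F V} (h : τ.InA c) (s : F) : τ.InA (s • c) := by
  obtain ⟨a, rfl⟩ := h
  exact ⟨s • a, by simp⟩

theorem InA.sub {c c' : End F V} (h : τ.InA c) (h' : τ.InA c') : τ.InA (c - c') := by
  obtain ⟨a, rfl⟩ := h
  obtain ⟨a', rfl⟩ := h'
  exact ⟨a - a', by simp⟩

theorem InA.mul {c c' : End F V} (h : τ.InA c) (h' : τ.InA c') : τ.InA (c * c') := by
  obtain ⟨a, rfl⟩ := h
  obtain ⟨a', rfl⟩ := h'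
  exact ⟨a * a', by simp [K_mul]⟩

theorem InA.of_smul {c : End F V} {s : F} (hs : s ≠ 0) (h : τ.InA (s • c)) : τ.InA c := by
  simpa [smul_smul, hs] using h.smul s⁻¹

theorem inA_one : τ.InA 1 := ⟨1, by simp⟩

theorem InA.comm {c : End F V} (h : τ.InA c) (d : End F W) : τ.K 1 d * c = c * τ.K 1 d := by
  obtain ⟨a, rfl⟩ := h
  simp [K_mul]

theorem InA.scal_sl {c : End F V} (h : τ.InA c) (φ : Dual F U) (u : U) : Scal (τ.sl φ u c) := by
  obtain ⟨a, rfl⟩ := h
  rw [sl_K]; exact scal_smul_one _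

theorem map_inA {g : V ≃ₗ[F] V} {c : End F V} :
    (τ.map g).InA c ↔ τ.InA ((g.symm : End F V) * c * (g : End F V)) := by
  refine exists_congr fun a => ⟨fun h => LinearMap.ext fun v => ?_, fun h => LinearMap.ext fun v => ?_⟩
  · simp [h, map_K_apply]
  · simp [map_K_apply', ← h]

end

omit [FiniteDimensional F U] in
theorem K_one_inj [Nontrivial W] {a a' : End F U} (h : τ.K a 1 = τ.K a' 1) : a = a' := by
  obtain ⟨x, hx⟩ := exists_ne (0 : W)
  refine LinearMap.ext fun u => τ.flip.tp_inj hx ?_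
  simpa using LinearMap.congr_fun h (τ.tp u x)

variable [FiniteDimensional F W]

include τ in
theorem finiteDimensional : FiniteDimensional F V := Module.Finite.equiv τ.e

include τ in
theorem finrank_eq : finrank F V = finrank F U * finrank F W := by
  rw [← τ.e.finrank_eq, finrank_tensorProduct]

theorem trace_K (a : End F U) (d : End F W) :
    LinearMap.trace F V (τ.K a d) = LinearMap.trace F U a * LinearMap.trace F W d := by
  rw [← LinearMap.trace_tensorProduct']
  exact LinearMap.trace_conj' _ τ.e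

/-- An automorphism normalising the first factor is a tensor product. -/
theorem exists_eq_KE [Nontrivial W] {g : V ≃ₗ[F] V} (h : ∀ a, τ.InA ((τ.map g).K a 1)) :
    ∃ a d, g = τ.KE a d := by
  choose f hf using h
  let φ : End F U →ₐ[F] End F U :=
    { toFun := f
      map_one' := τ.K_one_inj (by rw [← hf]; simp)
      map_mul' := fun a b => τ.K_one_inj (by
        rw [← hf, ← mul_one (1 : End F W), ← K_mul, ← K_mul, ← hf, ← hf])
      map_zero' := τ.K_one_inj (by rw [← hf]; simp)
      map_add' := fun a b => τ.K_one_inj (by simp [← hf])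
      commutes' := fun c => τ.K_one_inj (by simp [← hf, Algebra.algebraMap_eq_smul_one]) }
  have hinj : Function.Injective φ := fun a b e => (τ.map g).K_one_inj (by
    rw [hf, hf]; exact congrArg (fun z => τ.K z 1) e)
  have hbij : Function.Bijective φ :=
    ⟨hinj, LinearMap.injective_iff_surjective.1 (show Function.Injective φ.toLinearMap from hinj)⟩
  obtain ⟨T, hT⟩ := AlgEquiv.eq_linearEquivConjAlgEquiv (AlgEquiv.ofBijective φ hbij)
  have hT' : ∀ a u, f a u = T (a (T.symm u)) := fun a u => by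
    have := congrArg (fun z : End F U ≃ₐ[F] End F U => z a u) hT
    exact this
  have key : ∀ (a : End F U) v, g (τ.K a 1 v) = τ.K (f a) 1 (g v) := fun a v => by
    rw [← hf, map_K_apply]
  have h1 : ∀ a : End F U, (T.symm : End F U) * f a = a * T.symm := fun a =>
    LinearMap.ext fun u => by simp [hT']
  obtain ⟨d, hd⟩ := τ.flip_inA.1 (τ.flip.inA_of_comm (c := τ.K T.symm 1 * (g : End F V))
    fun a => LinearMap.ext fun v => by simp [key, K_K, h1])
  have hd' : ∀ v, g v = τ.K T d v := fun v => by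
    have := congrArg (τ.K T 1) (LinearMap.congr_fun hd v)
    rw [End.mul_apply, K_K, K_K] at this
    rw [show (T : End F U) * (T.symm : End F U) = 1 from LinearMap.ext fun u => by simp] at this
    simpa using this
  rcases subsingleton_or_nontrivial U with hU | hU
  · exact ⟨1, 1, LinearEquiv.toLinearMap_injective (τ.ext fun u x => by
      simp [Subsingleton.elim u 0])⟩
  obtain ⟨u, hu⟩ := exists_ne (0 : U)
  have hdi : Function.Injective d := (injective_iff_map_eq_zero _).2 fun x hx => by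
    have := hd' (τ.tp u x)
    rw [K_tp, hx, map_zero, LinearEquiv.map_eq_zero_iff] at this
    exact τ.tp_eq_zero hu this
  exact ⟨T, LinearEquiv.ofInjectiveEndo d hdi, LinearEquiv.ext hd'⟩

end TS

end Cfsg.Agent.Tens
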