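import Cfsg.Agent.Tens.Level3
import Cfsg.Agent.H1.OApi

/-!
Tensor product subgroups of the classical groups: the abstract part.
-/

set_option autoImplicit false
set_option linter.unusedSectionVars false

namespace Cfsg.Agent.Tens

open Module Cfsg.Agent.H7 Cfsg.Agent.H1

variable {F U W V : Type*} [Field F] [AddCommGroup U] [Module F U] [AddCommGroup W] [Module F W]
  [AddCommGroup V] [Module F V] [Finite F] [FiniteDimensional F U] [FiniteDimensional F W]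

namespace TS

variable (τ : TS F U W V)

theorem det_K (a : End F U) (d : End F W) :
    LinearMap.det (τ.K a d) = LinearMap.det a ^ finrank F W * LinearMap.det d ^ finrank F U := by
  have h1 : τ.K a d = τ.e.conj (TensorProduct.map a d) := rfl
  have h2 : τ.e.conj (TensorProduct.map a d) =
      (τ.e : _ →ₗ[F] V) ∘ₗ TensorProduct.map a d ∘ₗ (τ.e.symm : V →ₗ[F] _) := rfl
  rw [h1, h2, LinearMap.det_conj,
    ← LinearMap.det_toMatrix ((finBasis F U).tensorProduct (finBasis F W)),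
    TensorProduct.toMatrix_map, Matrix.det_kronecker]
  simp

theorem flip_KL (d : W ≃ₗ[F] W) : τ.flip.KL d = τ.KE 1 d :=
  LinearEquiv.toLinearMap_injective (τ.flip_K _ _)

theorem flip_KE' (d : W ≃ₗ[F] W) (a : U ≃ₗ[F] U) : τ.flip.KE d a = τ.KE a d :=
  LinearEquiv.toLinearMap_injective (τ.flip_K _ _)

/-- The stabiliser of the tensor structure. -/
def NN : Subgroup (V ≃ₗ[F] V) where
  carrier := {g | ∃ a d, g = τ.KE a d}
  one_mem' := ⟨1, 1, τ.KE_one.symm⟩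
  mul_mem' := by
    rintro _ _ ⟨a, d, rfl⟩ ⟨a', d', rfl⟩
    exact ⟨_, _, τ.KE_mul _ _ _ _⟩
  inv_mem' := by
    rintro _ ⟨a, d, rfl⟩
    exact ⟨a⁻¹, d⁻¹, by rw [inv_eq_iff_mul_eq_one, τ.KE_mul]; simp⟩

theorem mem_NN {g : V ≃ₗ[F] V} : g ∈ τ.NN ↔ ∃ a d, g = τ.KE a d := Iff.rfl

theorem flip_NN : τ.flip.NN = τ.NN :=
  Subgroup.ext fun _ => ⟨fun ⟨d, a, h⟩ => ⟨a, d, h.trans (τ.flip_KE' d a)⟩,
    fun ⟨a, d, h⟩ => ⟨d, a, h.trans (τ.flip_KE' d a).symm⟩⟩

theorem exists_swap_map [Nontrivial U] [Nontrivial W] {g : V ≃ₗ[F] V}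
    (h : ∀ a, τ.flip.InA ((τ.map g).K a 1)) : ∃ ψ : End F U →ₗ[F] End F W,
      Function.Injective ψ ∧ ∀ a, (τ.map g).K a 1 = τ.K 1 (ψ a) := by
  choose f hf using fun a => τ.flip_inA.1 (h a)
  have hinj : ∀ d d' : End F W, τ.K 1 d = τ.K 1 d' → d = d' := fun d d' e =>
    τ.flip.K_one_inj (by simpa using e)
  exact ⟨{ toFun := f
           map_add' := fun a b => hinj _ _ (by simp [← hf])
           map_smul' := fun c a => hinj _ _ (by simp [← hf]) },
    fun a b e => (τ.map g).K_one_inj (by rw [hf, hf]; exact congrArg (τ.K 1) e), hf⟩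

theorem not_swap_of_lt [Nontrivial W] (hlt : finrank F W < finrank F U) (g : V ≃ₗ[F] V) :
    ¬ ∀ a, τ.flip.InA ((τ.map g).K a 1) := by
  intro h
  have : Nontrivial U := Module.nontrivial_of_finrank_pos (R := F) (by omega)
  obtain ⟨ψ, h1, -⟩ := τ.exists_swap_map h
  have := LinearMap.finrank_le_finrank_of_injective h1
  rw [Module.finrank_linearMap, Module.finrank_linearMap] at this
  exact absurd (Nat.mul_self_le_mul_self_iff.1 this) (by omega)

end TS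

namespace Compat

variable {τ : TS F U W V} {PU : Polar F U} {PW : Polar F W} {PV : Polar F V}
  (h : Compat τ PU PW PV) [FiniteDimensional F V]
include h

theorem not_swap_of_type [Nontrivial U] [Nontrivial W] (hle : finrank F W ≤ finrank F U)
    (hU : PU.ε = -1) (hW : IsO PW) (h2 : (2 : F) ≠ 0) {g : V ≃ₗ[F] V} (hg : g ∈ PV.Iso) :
    ¬ ∀ a, τ.flip.InA ((τ.map g).K a 1) := by
  intro H
  obtain ⟨ψ, h1, h3⟩ := τ.exists_swap_map H
  have hinj : ∀ d d' : End F W, τ.K 1 d = τ.K 1 d' → d = d' := fun d d' e =>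
    τ.flip.K_one_inj (by simpa using e)
  have hsurj : Function.Surjective ψ := by
    have h4 := LinearMap.finrank_le_finrank_of_injective h1
    refine (LinearMap.injective_iff_surjective_of_finrank_eq_finrank (le_antisymm h4 ?_)).1 h1
    rw [Module.finrank_linearMap, Module.finrank_linearMap]
    exact Nat.mul_self_le_mul_self hle
  have hmul : ∀ a b, ψ (a * b) = ψ a * ψ b := fun a b => hinj _ _ (by
    rw [← h3, ← mul_one (1 : End F W), ← TS.K_mul, h3, h3, TS.K_mul, mul_one])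
  have hadj : ∀ a, ψ (PU.adj a) = PW.adj (ψ a) := fun a => hinj _ _ (by
    have := (h.map hg).adj_K a 1
    rw [h3, h.adj_K, Polar.adj_one, Polar.adj_one] at this
    rw [← h3, ← this])
  obtain ⟨u, hu⟩ := exists_ne (0 : U)
  obtain ⟨n, hn⟩ : ∃ n, n = ψ (PU.th u u) := ⟨_, rfl⟩
  have hn0 : n ≠ 0 := fun e => by
    obtain ⟨y, hy⟩ := PU.exists_B_ne hu
    have := LinearMap.congr_fun (h1 (hn ▸ e.trans ψ.map_zero.symm : ψ (PU.th u u) = ψ 0)) y
    simp [hu, PU.B_ne_symm hy] at this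
  have hn1 : PW.adj n = -n := by rw [hn, ← hadj, Polar.adj_th, hU]; simp
  have hn2 : ∀ d, ∃ c : F, n * d * n = c • n := fun d => by
    obtain ⟨a, rfl⟩ := hsurj d
    refine ⟨PU.B (a u) u, ?_⟩
    rw [hn, ← hmul, ← hmul, ← map_smul, mul_assoc, Polar.mul_th, Polar.th_mul_th]
  obtain ⟨x, hx⟩ : ∃ x, n x ≠ 0 := by
    by_contra! hcon
    exact hn0 (LinearMap.ext hcon)
  obtain ⟨c, hc⟩ := hn2 (PW.th x x)
  rw [Polar.mul_th, Polar.th_mul, hn1] at hc
  obtain ⟨y, hy⟩ := PW.exists_B_ne hx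
  have h5 := congrArg PW.adj hc
  rw [Polar.adj_th, Polar.adj_smul, hn1, hW.σ, hW.ε, smul_neg, ← hc] at h5
  have h6 := LinearMap.congr_fun h5 y
  simp only [one_smul, Polar.th_apply, LinearMap.neg_apply, map_neg, smul_neg, neg_smul,
    neg_neg] at h6
  rw [neg_eq_iff_add_eq_zero, ← two_smul F, smul_smul] at h6
  exact smul_ne_zero (mul_ne_zero h2 (PW.B_ne_symm hy)) hx h6

/-- The elementary group does not stabilise the tensor structure. -/
theorem exists_E_notMem (hw : PU.W2) (hW : 2 ≤ finrank F W) : ∃ g ∈ PV.E, g ∉ τ.NN := by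
  obtain ⟨e, f, he, hf, hfe, h0, h1⟩ := hw
  obtain ⟨e', -, h2, h3⟩ := Polar.exists_partner_perp he (PU.B_symm hfe)
    (Polar.notMem_span_symm h0 h1)
  obtain ⟨f', -, -, h4⟩ := Polar.exists_partner_perp hf hfe h1
  have : Nontrivial W := Module.nontrivial_of_finrank_pos (R := F) (by omega)
  obtain ⟨x, hx⟩ := exists_ne (0 : W)
  obtain ⟨x₀, hx₀⟩ := PW.exists_B_ne hx
  obtain ⟨x', -, hx'⟩ := exists_notMem_of_finrank_lt (U := F ∙ x) (W := ⊤) (by
    have := finrank_span_singleton_le (F := F) x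
    rw [finrank_top]; omega)
  refine ⟨_, Polar.eichE_mem_E (h.val_left e x₀ he) (w := τ.tp f x') (by simp [h.B_tp, hfe])
    (h.val_left f x' hf), ?_⟩
  rintro ⟨a, d, had⟩
  have h5 := LinearEquiv.congr_fun had (τ.tp e' x)
  simp only [Polar.eichE_apply, Polar.eich, h.B_tp, h2, h3, TS.KE_apply, TS.K_tp, map_zero,
    LinearEquiv.coe_coe, zero_mul, mul_zero, add_zero, zero_smul, sub_zero, one_mul] at h5
  have h6 := congrArg (τ.pB PU e) h5
  have h7 := congrArg (τ.pB PU f') h5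
  have h8 : PU.B f f' ≠ 0 := PU.B_ne_symm (by simp [h4])
  simp only [map_add, map_smul, TS.pB_tp, h3, hfe, one_smul, zero_smul, smul_zero,
    add_zero] at h6 h7
  have h9 : PU.B (a e') e ≠ 0 := fun e => hx (by rw [h6, e, zero_smul])
  apply hx'
  rw [← Submodule.smul_mem_iff _ (mul_ne_zero hx₀ h8), mul_smul, eq_sub_of_add_eq' h7]
  refine Submodule.sub_mem _ (Submodule.smul_mem _ _ ?_) (Submodule.smul_mem _ _
    (Submodule.mem_span_singleton_self x))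
  rw [← Submodule.smul_mem_iff _ h9, ← h6]
  exact Submodule.mem_span_singleton_self x

omit [FiniteDimensional F V] in
theorem KL_mem_Iso (hs : ∃ e, PU.Val e 0 ∧ e ≠ 0) {a : U ≃ₗ[F] U} (ha : a ∈ PU.Iso) :
    τ.KL a ∈ PV.Iso := by
  obtain ⟨e, he, h0⟩ := hs
  exact h.KE_mem_Iso he h0 ha fun _ _ => rfl

/-- Symplectic `V`. -/
theorem KL_mem_E_sp (hV : ∀ v, PV.Val v 0) (hs : ∃ e, PU.Val e 0 ∧ e ≠ 0) {a : U ≃ₗ[F] U}
    (ha : a ∈ PU.Iso) : τ.KL a ∈ PV.E := Polar.E_eq_Iso hV ▸ h.KL_mem_Iso hs ha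

/-- Unitary `V`. -/
theorem KL_mem_E_su (hV : PV.E = PV.Iso ⊓ SLV F V) (hs : ∃ e, PU.Val e 0 ∧ e ≠ 0) {a : U ≃ₗ[F] U}
    (ha : a ∈ PU.E) : τ.KL a ∈ PV.E := by
  refine hV ▸ ⟨h.KL_mem_Iso hs (Polar.E_le_Iso ha), mem_SLV.2 ?_⟩
  rw [TS.coe_KL, TS.det_K, mem_SLV.1 (Polar.E_le_SLV ha)]
  simp

/-- Orthogonal `V`, symplectic `U`. -/
theorem KL_mem_E_of_sp (hV : IsO PV) (hU : ∀ u, PU.Val u 0) [Nontrivial U] {a : U ≃ₗ[F] U}
    (ha : a ∈ PU.E) : τ.KL a ∈ PV.E := by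
  obtain ⟨e, he⟩ := exists_ne (0 : U)
  refine Polar.E_le_of_EI (X := PV.E.comap τ.KL) (fun u w c hu hw hc => ?_) ha
  refine Polar.EI_of_mem hu hw hc ?_
  have hL : ∀ a ∈ LinearMap.range (τ.tp u) ⊔ LinearMap.range (τ.tp w), PV.Val a 0 := by
    intro a ha
    obtain ⟨_, ⟨x, rfl⟩, _, ⟨y, rfl⟩, rfl⟩ := Submodule.mem_sup.1 ha
    exact Polar.sing_add (h.val_left _ _ hu) (h.val_left _ _ (hU w))
      (by simp [h.B_tp, PU.B_symm hw])
  refine hV.mem_of_fix_perp hL (fun a ha b hb => Polar.EI_E (hL a ha) ?_ (hL b hb))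
    (h.KL_mem_Iso ⟨e, hU e, he⟩ (Polar.eichE_mem_Iso hu hw hc)) fun z hz => ?_
  · simpa using hV.uniq (PV.val_add (hL b hb) (hL a ha)) (hL _ (Submodule.add_mem _ hb ha))
  · have h1 : τ.pB PU u z = 0 := h.pB_eq_zero fun x => hz _ (Submodule.mem_sup_left ⟨x, rfl⟩)
    have h2 : τ.pB PU w z = 0 := h.pB_eq_zero fun x => hz _ (Submodule.mem_sup_right ⟨x, rfl⟩)
    have h3 : (Polar.eichE hu hw hc).toLinearMap = PU.eichL u w c := rfl
    rw [TS.KL_apply, h3, Polar.eichL_eq]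
    simp [TS.K_th, h1, h2]

/-- Orthogonal `V` and `U`. -/
theorem KL_mem_E_of_o (hV : IsO PV) (hn : 7 ≤ finrank F V) (hU : IsO PU) (h2 : (2 : F) ≠ 0)
    (hs : ∃ e, PU.Val e 0 ∧ e ≠ 0) {a : U ≃ₗ[F] U} (ha : a ∈ PU.E) : τ.KL a ∈ PV.E := by
  refine hU.E_le_of_comm (a := -1) (by simp) (fun e => h2 (by linear_combination -e))
    (X := PV.E.comap τ.KL) (fun g hg k hk => ?_) ha
  simpa using Polar.comm_mem_E (Polar.wild_three_of_σ hV.σ) hn (h.KL_mem_Iso hs hg)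
    (h.KL_mem_Iso hs hk)

end Compat

namespace Setup

variable {τ : TS F U W V} {PU : Polar F U} {PW : Polar F W} {PV : Polar F V}
  {X : Subgroup (V ≃ₗ[F] V)} (S : Setup τ PU PW PV X)

/-- Symplectic first factor, orthogonal second factor with all reflections available. -/
theorem exists_not_scal_MM_sp (hU : PU.ε = -1) (hW : IsO PW) (h2 : (2 : F) ≠ 0)
    (h3 : 3 ≤ finrank F W)
    (hR : ∀ (w : W) (c : F) (hc : PW.Val w c) (h0 : c ≠ 0), τ.KE 1 (Polar.reflE hc h0) ∈ X)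
    (h : ¬ τ.Hpt PU X) : ∃ b ∈ S.MM, ¬ Scal b := by
  have hσ : ∀ a, PU.σ a = a := fun a => (S.cp.σW a).symm.trans (hW.σ a)
  have hr : PU.Reg := Or.inr ⟨1, by rw [hU, hσ]; simpa [one_add_one_eq_two] using h2⟩
  obtain ⟨b, hb, hb'⟩ := S.exists_not_scal hr h
  by_contra! hcon
  have hD : ∀ b ∈ S.CC, ∀ b' ∈ S.CC, Scal (b' * PW.adj b + b * PW.adj b') := fun b hb b' hb' => by
    simpa [hU, hσ] using hcon _ (S.mem_MM_of_DD hr (S.mem_DD_of_CC hb hb' 1))
  obtain ⟨k, hk⟩ : ∃ k, k = b - PW.adj b := ⟨_, rfl⟩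
  have hkC : k ∈ S.CC := hk ▸ S.CC.sub_mem hb (S.adj_mem_CC hb)
  have hka : PW.adj k = -k := by simp [hk]
  have hk0 : k ≠ 0 := fun e => hb' (Scal.of_smul h2 (by
    have := hD b hb 1 S.one_mem_CC
    rw [e, eq_comm, sub_eq_zero] at hk
    simpa [← hk, two_smul] using this))
  have hB : ∀ x y, PW.B (k x) y = -PW.B x (k y) := fun x y => by
    rw [← PW.B_adj, hka]; simp
  have hB0 : ∀ x, PW.B (k x) x = 0 := fun x => by
    have := hB x x
    rw [hW.comm x] at this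
    exact mul_left_cancel₀ h2 (by linear_combination this)
  obtain ⟨w, hw, hw'⟩ : ∃ w, PW.B w w ≠ 0 ∧ k w ≠ 0 := by
    obtain ⟨x, hx⟩ : ∃ x, k x ≠ 0 := by
      by_contra! hcon
      exact hk0 (LinearMap.ext hcon)
    obtain ⟨y, hy⟩ := PW.exists_B_ne hx
    obtain ⟨a, -, h4, h5⟩ := hW.exists_aniso_ne h2 (W := ⊤) trivial trivial hy trivial hy
    exact ⟨a, h4, fun e => h5 (by simp [hB, e])⟩
  obtain ⟨c, hc⟩ := PW.val_ex w
  have hc2 := hW.self hc
  have hc0 : c ≠ 0 := fun e => hw (by simp [hc2, e])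
  have hm : PW.th (k w) w - PW.th w (k w) ∈ S.CC := by
    convert S.CC.smul_mem c (S.CC.sub_mem hkC (S.conj_mem_CC PU.Iso.one_mem (hR w c hc hc0) hkC))
      using 1
    refine LinearMap.ext fun x => ?_
    have h4 : (Polar.reflE hc hc0).symm x = PW.refl w c x := by
      change PW.refl w (PW.ε * PW.σ c) x = _
      rw [hW.σ, hW.ε, one_mul]
    simp only [LinearMap.sub_apply, Polar.th_apply, LinearMap.smul_apply, End.mul_apply,
      LinearEquiv.coe_coe, h4, Polar.reflE_apply, Polar.refl, map_sub, map_smul, hB0,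
      hB x, smul_eq_mul]
    match_scalars <;> field_simp <;> ring
  obtain ⟨t, ht⟩ := hD _ hm _ hm
  have h5 : PW.B w (k w) = 0 := by rw [hW.comm, hB0]
  have ht' : ∀ x, (2 * PW.B x (k w) * PW.B w w) • k w + (2 * PW.B x w * PW.B (k w) (k w)) • w =
      t • x := fun x => by
    rw [← ht x]
    simp only [LinearMap.add_apply, End.mul_apply, Polar.adj_sub, Polar.adj_th, hW.ε, one_smul,
      LinearMap.sub_apply, Polar.th_apply, map_sub, map_smul, LinearMap.smul_apply, hB0, h5,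
      smul_eq_mul]
    module
  obtain ⟨x, hx, hx0⟩ := exists_notMem_of_finrank_lt (U := ⊥)
    (W := PW.perp ((F ∙ w) ⊔ F ∙ k w)) (by
      have := PW.finrank_perp ((F ∙ w) ⊔ F ∙ k w)
      have := finrank_span_pair_le (F := F) w (k w)
      rw [finrank_bot]; omega)
  rw [Polar.perp_sup, Polar.perp_span_singleton, Polar.perp_span_singleton] at hx
  have hx1 : PW.B x w = 0 := hx.1
  have hx2 : PW.B x (k w) = 0 := hx.2
  have ht0 : t = 0 := by
    have := ht' x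
    simp only [hx1, hx2, mul_zero, zero_mul, zero_smul, add_zero] at this
    exact (smul_eq_zero.1 this.symm).resolve_right (by simpa using hx0)
  obtain ⟨y, hy, hy'⟩ := Polar.exists_sep' (P := PW) (U := F ∙ w) (v := k w) (fun h => by
    obtain ⟨a, ha⟩ := Submodule.mem_span_singleton.1 h
    have := hB0 w
    rw [← ha] at this hw'
    simp [hw] at this
    simp [this] at hw') 1
  rw [Polar.perp_span_singleton, Polar.mem_pp] at hy
  have := ht' y
  simp [hy, hy', ht0, h2, hw, hw'] at this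

end Setup

/-- The property delivered by the slot lemma, for the group `G` of automorphisms. -/
def Slot (PW : Polar F W) (G : Subgroup (W ≃ₗ[F] W)) : Prop :=
  ∀ C : Subalgebra F (End F W), (∀ b ∈ C, PW.adj b ∈ C) →
    (∀ g ∈ G, ∀ b ∈ C, (g : End F W) * b * (g.symm : End F W) ∈ C) → (∃ b ∈ C, ¬ Scal b) → C = ⊤

/-- The property delivered by the rigidity theorem. -/
def Rigid (τ : TS F U W V) (PU : Polar F U) (PV : Polar F V) : Prop :=
  ∀ X : Subgroup (V ≃ₗ[F] V), X ≤ PV.Iso → (∀ g ∈ PU.E, τ.KL g ∈ X) → τ.Hpt PU X → ∀ g ∈ X,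
    (∀ a, τ.InA ((τ.map g).K a 1)) ∨ ∀ a, τ.flip.InA ((τ.map g).K a 1)

theorem Compat.maximal {τ : TS F U W V} {PU : Polar F U} {PW : Polar F W} {PV : Polar F V}
    [FiniteDimensional F V] (h : Compat τ PU PW PV) (hw : PU.W2) (hW : 2 ≤ finrank F W)
    (hL : ∀ g ∈ PU.E, τ.KL g ∈ PV.E) {G : Subgroup (W ≃ₗ[F] W)} (hR : ∀ d ∈ G, τ.KE 1 d ∈ PV.E)
    (hrig : Rigid τ PU PV) (hswap : ∀ g ∈ PV.Iso, ¬ ∀ a, τ.flip.InA ((τ.map g).K a 1))
    (hslot : Slot PW G)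
    (hns : ∀ X (S : Setup τ PU PW PV X), (∀ d ∈ G, τ.KE 1 d ∈ X) → ¬ τ.Hpt PU X →
      ∃ b ∈ S.MM, ¬ Scal b)
    (hΛ : ∀ c, PV.Val 0 c → ∃ a, c = a - PV.ε * PV.σ a) :
    Geo.IsMaximalIn PV.E (τ.NN ⊓ PV.E) := by
  have : Nontrivial W := Module.nontrivial_of_finrank_pos (R := F) (by omega)
  obtain ⟨g₀, h1, h2⟩ := h.exists_E_notMem hw hW
  refine isMaximalIn_of inf_le_right ⟨g₀, h1, fun h => h2 h.1⟩ fun X hHX hXE g hg hgH => ?_
  have S : Setup τ PU PW PV X :=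
    ⟨h, hXE.trans Polar.E_le_Iso, fun a ha => hHX ⟨⟨a, 1, rfl⟩, hL a ha⟩, hw⟩
  have hR' : ∀ d ∈ G, τ.KE 1 d ∈ X := fun d hd => hHX ⟨⟨1, d, rfl⟩, hR d hd⟩
  by_cases H : τ.Hpt PU X
  · exact absurd ⟨τ.exists_eq_KE ((hrig X S.iso S.hL H g hg).resolve_right (hswap g (S.iso hg))),
      hXE hg⟩ hgH
  · exact S.E_le_of_MM (hslot _ (fun _ => S.adj_mem_MM)
      (fun d hd _ => S.conj_mem_MM PU.Iso.one_mem (hR' d hd)) (hns X S hR' H)) hΛ

end Cfsg.Agent.Tens
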