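import Cfsg.Agent.Tens.Rigid
import Cfsg.Agent.H1.OApi

/-!
Rigidity of tensor structures, continued: the averaging argument in the individual types.
-/

set_option autoImplicit false
set_option linter.unusedSectionVars false

namespace Cfsg.Agent.Tens

open Module Cfsg.Agent.H7

variable {F U W V : Type*} [Field F] [AddCommGroup U] [Module F U] [AddCommGroup W] [Module F W]
  [AddCommGroup V] [Module F V] [Finite F] [FiniteDimensional F U] [FiniteDimensional F W]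

namespace TS

variable {τ : TS F U W V} {X : Subgroup (V ≃ₗ[F] V)} [Nontrivial W] {n : End F U} {hn : n * n = 0}
  {A : AddSubgroup F}

theorem Root.δ_apply_mem (h : τ.Root X hn A) (hA : A ≠ ⊥) {x : End F U} (hx : n * x = x * n)
    (d : End F W) {u : U} (hu : n u = 0) (w : W) :
    τ.δ X (τ.K x d) (τ.tp u w) ∈ LinearMap.range (τ.K n 1) := by
  have := Fintype.ofFinite A
  refine h.δ_mem (by simp [K_mul, hx]) (((LinearMap.range (τ.K n 1)).comap
    (LinearMap.applyₗ (τ.tp u w))).toAddSubgroup) fun z => ?_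
  rw [sum_conj_unip A hA]
  exact ⟨(∑ t : A, (t : F)) • z (τ.tp u w), by simp [hu]⟩

theorem Root.δ_apply_mem' (h : τ.Root X hn A) (hA : A ≠ ⊥) (h2 : (2 : F) ≠ 0) {x : End F U}
    (hx : n * x = x * n) (d : End F W) (v : V) :
    τ.δ X (τ.K x d) v ∈ LinearMap.range (τ.K n 1) := by
  have := Fintype.ofFinite A
  refine h.δ_mem (by simp [K_mul, hx]) (((LinearMap.range (τ.K n 1)).comap
    (LinearMap.applyₗ v)).toAddSubgroup) fun z => ?_
  rw [sum_conj_unip A hA, sum_eq_zero_of_two_ne A h2]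
  exact ⟨-(∑ t : A, (t : F) * t) • z (τ.K n 1 v), by simp⟩

theorem Root.δ_eq_zero (h : τ.Root X hn A) (hA : A ≠ ⊥) {l : F} (hl : l ≠ 0) (hl2 : l ^ 2 ≠ 1)
    (hlA : ∀ t ∈ A, l * t ∈ A) {x : End F U} (hx : n * x = x * n) (d : End F W) :
    τ.δ X (τ.K x d) = 0 := by
  have := Fintype.ofFinite A
  refine h.δ_mem (by simp [K_mul, hx]) ⊥ fun z => ?_
  have h1 := sum_eq_zero_of_smul A hl hlA 1 fun e => hl2 (by rw [pow_one] at e; simp [e])
  have h2 := sum_eq_zero_of_smul A hl hlA 2 hl2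
  simp only [pow_one, sq] at h1 h2
  rw [sum_conj_unip A hA, h1, h2]
  simp

omit [Nontrivial W] in
theorem mem_range_K_th {PU : Polar F U} {e e' : U} {v : V}
    (h : v ∈ LinearMap.range (τ.K (PU.th e e') 1)) : ∃ x, v = τ.tp e x := by
  obtain ⟨z, rfl⟩ := h
  exact ⟨_, τ.K_th PU _ _ _ _⟩

omit [Nontrivial W] in
theorem eq_zero_of_mem_range_th {PU : Polar F U} {e e' y : U} {v : V}
    (h : v ∈ LinearMap.range (τ.K (PU.th e e) 1)) (h' : v ∈ LinearMap.range (τ.K (PU.th e' e') 1))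
    (h1 : PU.B y e ≠ 0) (h2 : PU.B y e' = 0) : v = 0 := by
  obtain ⟨a, ha⟩ := mem_range_K_th h
  obtain ⟨b, hb⟩ := mem_range_K_th h'
  have := congrArg (τ.pB PU y) (ha.symm.trans hb)
  simp only [pB_tp, PU.B_symm h2, zero_smul, smul_eq_zero, PU.B_ne_symm h1, false_or] at this
  simp [ha, this]

omit [Nontrivial W] in
theorem eq_zero_of_three {PU : Polar F U} {z : End F V} {e₁ e₂ e₃ y₁ y₂ : U}
    (h₁ : ∀ u w, PU.B u e₁ = 0 → z (τ.tp u w) ∈ LinearMap.range (τ.K (PU.th e₁ e₁) 1))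
    (h₂ : ∀ u w, PU.B u e₂ = 0 → z (τ.tp u w) ∈ LinearMap.range (τ.K (PU.th e₂ e₂) 1))
    (h₃ : ∀ u w, PU.B u e₃ = 0 → z (τ.tp u w) ∈ LinearMap.range (τ.K (PU.th e₃ e₃) 1))
    (a1 : PU.B y₁ e₁ = 1) (a2 : PU.B y₁ e₂ = 0) (a3 : PU.B y₁ e₃ = 0) (b1 : PU.B y₂ e₁ = 0)
    (b2 : PU.B y₂ e₂ = 1) (b3 : PU.B y₂ e₃ = 0) : z = 0 := τ.ext fun u w => by
  have c1 := eq_zero_of_mem_range_th (h₂ y₁ (PU.B u e₁ • w) a2) (h₃ _ _ a3) (by simp [b2]) b3
  have c2 := eq_zero_of_mem_range_th (h₁ y₂ (PU.B u e₂ • w) b1) (h₃ _ _ b3) (by simp [a1]) a3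
  have c3 := eq_zero_of_mem_range_th (h₁ (u - PU.B u e₁ • y₁ - PU.B u e₂ • y₂) w (by simp [a1, b1]))
    (h₂ _ _ (by simp [a2, b2])) (by simp [a1]) a2
  simp only [map_sub, map_smul, LinearMap.sub_apply, LinearMap.smul_apply] at c1 c2 c3
  simpa [c1, c2] using c3

end TS

end Cfsg.Agent.Tens

namespace Cfsg.Agent.H7.Polar

open Module Cfsg.Agent.Tens

variable {F V : Type*} [Field F] [AddCommGroup V] [Module F V] (P : Polar F V)

/-- The form parameter. -/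
def lamA : AddSubgroup F where
  carrier := {t | P.Val 0 t}
  add_mem' := lam_add
  zero_mem' := val_zero
  neg_mem' := lam_neg

variable {P}

theorem lamA_ne_bot (h : ∃ c, c ≠ 0 ∧ P.Val 0 c) : P.lamA ≠ ⊥ := by
  obtain ⟨c, h0, hc⟩ := h
  exact AddSubgroup.ne_bot_iff_exists_ne_zero.2 ⟨⟨c, hc⟩, fun e => h0 (congrArg Subtype.val e)⟩

theorem th_sq {e : V} (he : P.Val e 0) : P.th e e * P.th e e = 0 := by
  simp [th_mul_th, sing_B he]

theorem unip_th_mem {e : V} (he : P.Val e 0) {t : F} (ht : P.Val 0 t) :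
    unip (th_sq he) t ∈ P.E := by
  have h1 : P.Val 0 (P.ε * t) := by rcases P.εε with h | h <;> simp [h, ht, lam_neg ht]
  convert eichE_mem_E he (w := 0) (by simp) h1 using 1
  exact LinearEquiv.ext fun x => by
    simp [unip_apply, eich, lam_σ ht, ← mul_assoc, smul_smul]

theorem th_comm {e u v : V} (h1 : P.B u e = 0) (h2 : P.B e v = 0) :
    P.th e e * P.th u v = P.th u v * P.th e e := by simp [th_mul_th, h1, h2]

/-- The long root element of an orthogonal space. -/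
theorem th_sub_sq {e v : V} (he : P.Val e 0) (hv : P.Val v 0) (hve : P.B v e = 0) :
    (P.th v e - P.ε • P.th e v) * (P.th v e - P.ε • P.th e v) = 0 := by
  simp [mul_sub, sub_mul, th_mul_th, sing_B he, sing_B hv, hve, P.B_symm hve]

variable [Finite F] [FiniteDimensional F V]

theorem eigen_of_comm_th {z : End F V} {u : V} (hu : P.Val u 0)
    (h : u ≠ 0 → P.th u u * z = z * P.th u u) : z u ∈ F ∙ u := by
  by_cases hu0 : u = 0
  · simp [hu0]
  obtain ⟨u', -, h2⟩ := exists_partner hu hu0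
  have := LinearMap.congr_fun (h hu0) u'
  exact Submodule.mem_span_singleton.2 ⟨_, by simpa [h2] using this⟩

theorem exists_three_perp (hn : 5 ≤ finrank F V) (u v : V) : ∃ e₁ e₂ e₃ y₁ y₂ : V,
    (P.B e₁ u = 0 ∧ P.B e₁ v = 0) ∧ (P.B e₂ u = 0 ∧ P.B e₂ v = 0) ∧ (P.B e₃ u = 0 ∧ P.B e₃ v = 0) ∧
    e₃ ≠ 0 ∧ P.B y₁ e₁ = 1 ∧ P.B y₁ e₂ = 0 ∧ P.B y₁ e₃ = 0 ∧ P.B y₂ e₁ = 0 ∧ P.B y₂ e₂ = 1 ∧
    P.B y₂ e₃ = 0 := by
  have h1 := finrank_inf_pp_ge (P := P) ⊤ u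
  have h2 := finrank_inf_pp_ge (P := P) (⊤ ⊓ P.pp u) v
  rw [finrank_top] at h1
  obtain ⟨e₃, a1, a2⟩ := exists_notMem_of_finrank_lt (U := ⊥) (W := ⊤ ⊓ P.pp u ⊓ P.pp v)
    (by rw [finrank_bot]; omega)
  obtain ⟨e₂, a3, a4⟩ := exists_notMem_of_finrank_lt (U := F ∙ e₃) (W := ⊤ ⊓ P.pp u ⊓ P.pp v)
    (by have := finrank_span_singleton_le (F := F) e₃; omega)
  obtain ⟨e₁, a5, a6⟩ := exists_notMem_of_finrank_lt (U := (F ∙ e₃) ⊔ F ∙ e₂)
    (W := ⊤ ⊓ P.pp u ⊓ P.pp v) (by have := finrank_span_pair_le (F := F) e₃ e₂; omega)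
  obtain ⟨y₁, b1, b2⟩ := exists_sep' (P := P) a6 1
  obtain ⟨y₂, b3, b4⟩ := exists_sep' (P := P) (notMem_sup_span_swap a4 a6) 1
  rw [perp_sup, perp_span_singleton, perp_span_singleton] at b1 b3
  exact ⟨e₁, e₂, e₃, y₁, y₂, ⟨a5.1.2, a5.2⟩, ⟨a3.1.2, a3.2⟩, ⟨a1.1.2, a1.2⟩, by simpa using a2,
    b2, b1.2, b1.1, b3.2, b4, b3.1⟩

theorem exists_two_perp (hn : 4 ≤ finrank F V) (u v : V) : ∃ e₁ e₂ y : V,
    (P.B e₁ u = 0 ∧ P.B e₁ v = 0) ∧ (P.B e₂ u = 0 ∧ P.B e₂ v = 0) ∧ e₂ ≠ 0 ∧ P.B y e₁ = 1 ∧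
    P.B y e₂ = 0 := by
  have h1 := finrank_inf_pp_ge (P := P) ⊤ u
  have h2 := finrank_inf_pp_ge (P := P) (⊤ ⊓ P.pp u) v
  rw [finrank_top] at h1
  obtain ⟨e₂, a1, a2⟩ := exists_notMem_of_finrank_lt (U := ⊥) (W := ⊤ ⊓ P.pp u ⊓ P.pp v)
    (by rw [finrank_bot]; omega)
  obtain ⟨e₁, a3, a4⟩ := exists_notMem_of_finrank_lt (U := F ∙ e₂) (W := ⊤ ⊓ P.pp u ⊓ P.pp v)
    (by have := finrank_span_singleton_le (F := F) e₂; omega)
  obtain ⟨y, b1, b2⟩ := exists_sep' (P := P) a4 1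
  rw [perp_span_singleton] at b1
  exact ⟨e₁, e₂, y, ⟨a3.1.2, a3.2⟩, ⟨a1.1.2, a1.2⟩, by simpa using a2, b2, b1⟩

theorem B_eq_zero_of_unitary (hσ : ∃ a, P.σ a ≠ a) {z : End F V}
    (hz : ∀ f, P.Val f 0 → P.B (z f) f = 0) {u v : V} (hu : P.Val u 0) (hv : P.Val v 0)
    (huv : P.B v u = 0) : P.B (z u) v = 0 := by
  obtain ⟨a, ha⟩ := hσ
  have key : ∀ c : F, P.σ c * P.B (z u) v + c * P.B (z v) u = 0 := fun c => by
    have := hz _ (sing_add hu (sing_smul hv c) (by simp [P.B_symm huv]))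
    simpa [hz u hu, hz v hv] using this
  have h1 := key 1
  rw [map_one] at h1
  have h2 : (P.σ a - a) * P.B (z u) v = 0 := by linear_combination key a - a * h1
  exact (mul_eq_zero.1 h2).resolve_left (sub_ne_zero.2 ha)

end Cfsg.Agent.H7.Polar

namespace Cfsg.Agent.Tens

open Module Cfsg.Agent.H7

variable {F U W V : Type*} [Field F] [AddCommGroup U] [Module F U] [AddCommGroup W] [Module F W]
  [AddCommGroup V] [Module F V] [Finite F] [FiniteDimensional F U] [FiniteDimensional F W]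

namespace Good

variable {τ : TS F U W V} {PU : Polar F U} {PW : Polar F W} {PV : Polar F V}
  {X : Subgroup (V ≃ₗ[F] V)} (h : Good τ PU PW PV X) [Nontrivial W]
include h

theorem root_th_of (hΛ : ∃ c, c ≠ 0 ∧ PU.Val 0 c) (hr : (2 : F) ≠ 0 ∨ 3 ≤ finrank F U)
    (hrig : ∀ e, PU.Val e 0 → e ≠ 0 → ∀ g ∈ X, (τ.map g).InA (τ.K (PU.th e e) 1) →
      (τ.map g).Same τ) {e : U} (he : PU.Val e 0) (he0 : e ≠ 0) :
    τ.Root X (Polar.th_sq he) PU.lamA :=
  TS.root_of_rigid (R := {n | ∃ f, PU.Val f 0 ∧ f ≠ 0 ∧ n = PU.th f f})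
    (by rintro _ ⟨f, hf, -, rfl⟩; exact Polar.th_sq hf)
    (by rintro _ ⟨f, hf, -, rfl⟩ t ht; exact h.left _ (Polar.unip_th_mem hf ht))
    (fun z hz => Polar.scal_of_sing_eigen_lam hΛ he he0 fun u hu =>
      Polar.eigen_of_comm_th hu fun h0 => hz _ ⟨u, hu, h0, rfl⟩)
    (hr.imp_right fun h => ⟨h, by
      rintro _ ⟨f, -, -, rfl⟩
      exact ⟨f, fun x => Submodule.smul_mem _ _ (Submodule.mem_span_singleton_self f)⟩⟩)
    (by rintro _ ⟨f, hf, h0, rfl⟩; exact hrig f hf h0) ⟨e, he, he0, rfl⟩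

theorem root_th (hw : PU.W2) (hΛ : ∃ c, c ≠ 0 ∧ PU.Val 0 c) {e : U} (he : PU.Val e 0)
    (he0 : e ≠ 0) : τ.Root X (Polar.th_sq he) PU.lamA :=
  h.root_th_of hΛ (Or.inr (by have := hw.four_le; omega))
    (fun _ hf h0 _ hg => h.same_of_th (h.map hg) hw (Or.inl hΛ) hf h0) he he0

theorem same_or_comm_unitary (hw : PU.W2) (hσ : ∃ a, PU.σ a ≠ a) (hε : PU.ε = 1) {g : V ≃ₗ[F] V}
    (hg : g ∈ X) : τ.Same (τ.map g) ∨ τ.flip.Same (τ.map g) := by
  have hΛ := Polar.exists_lam_ne_of_unitary hσ hε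
  have hA := Polar.lamA_ne_bot hΛ
  obtain ⟨e, he, he0⟩ := hw.exists_sing
  refine (h.root_th hw hΛ he he0).same_or_comm' hA (Or.inr ⟨by have := hw.four_le; omega,
    e, fun x => Submodule.smul_mem _ _ (Submodule.mem_span_singleton_self e)⟩)
    (fun z hz => hw.scal_of_sing fun u v => Polar.B_eq_zero_of_unitary hσ fun f hf => ?_) hg
  by_cases hf0 : f = 0
  · simp [hf0]
  rw [← PU.trace_mul_th]
  refine hz _ fun d => ?_
  obtain ⟨e₁, a1, a2, a3⟩ := hw.exists_sing_perp hf hf0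
  obtain ⟨e₂, a4, a5, a6⟩ := Polar.exists_partner_perp a1 a2 a3
  have key : ∀ e, PU.Val e 0 → e ≠ 0 → PU.B e f = 0 → ∀ u w, PU.B u e = 0 →
      τ.δ X (τ.K (PU.th f f) d) (τ.tp u w) ∈ LinearMap.range (τ.K (PU.th e e) 1) :=
    fun e he he0 hef u w hu => (h.root_th hw hΛ he he0).δ_apply_mem hA
      (Polar.th_comm (PU.B_symm hef) hef) d (by simp [hu]) w
  exact TS.eq_zero_of_three (key e₁ a1 (fun e => by simp [e] at a6) a2)
    (key e₂ a4 (fun e => by simp [e] at a6) a5) (key f hf hf0 (Polar.sing_B hf)) a6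
    (Polar.sing_B a4) a5 (Polar.sing_B a1) (by rw [PU.herm, a6, hε]; simp) a2

theorem same_or_comm_sp (hsp : ∀ u, PU.Val u 0)
    (hk : 5 ≤ finrank F U ∨ ((2 : F) ≠ 0 ∧ 4 ≤ finrank F U)) (hΛ : ∃ c, c ≠ 0 ∧ PU.Val 0 c)
    {g : V ≃ₗ[F] V} (hg : g ∈ X) : τ.Same (τ.map g) ∨ τ.flip.Same (τ.map g) := by
  have hw : PU.W2 := (Polar.wild_one_of_sp hsp).w2 (by omega)
  have hA := Polar.lamA_ne_bot hΛ
  obtain ⟨e, he, he0⟩ := hw.exists_sing
  refine (h.root_th hw hΛ he he0).same_or_comm' hA (Or.inr ⟨by have := hw.four_le; omega,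
    e, fun x => Submodule.smul_mem _ _ (Submodule.mem_span_singleton_self e)⟩)
    (fun z hz => hw.scal_of_sing fun u v _ _ _ => ?_) hg
  rw [← PU.trace_mul_th]
  refine hz _ fun d => ?_
  rcases hk with hk | ⟨h2, hk⟩
  · obtain ⟨e₁, e₂, e₃, y₁, y₂, a1, a2, a3, a4, a5, a6, a7, a8, a9, a10⟩ :=
      Polar.exists_three_perp (P := PU) hk u v
    have key : ∀ e, e ≠ 0 → (PU.B e u = 0 ∧ PU.B e v = 0) → ∀ y w, PU.B y e = 0 →
        τ.δ X (τ.K (PU.th u v) d) (τ.tp y w) ∈ LinearMap.range (τ.K (PU.th e e) 1) :=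
      fun e he0 hef y w hy => (h.root_th hw hΛ (hsp e) he0).δ_apply_mem hA
        (Polar.th_comm (PU.B_symm hef.1) hef.2) d (by simp [hy]) w
    exact TS.eq_zero_of_three (key e₁ (fun e => by simp [e] at a5) a1)
      (key e₂ (fun e => by simp [e] at a9) a2) (key e₃ a4 a3) a5 a6 a7 a8 a9 a10
  · obtain ⟨e₁, e₂, y, a1, a2, a3, a4, a5⟩ := Polar.exists_two_perp (P := PU) hk u v
    have key : ∀ e, e ≠ 0 → (PU.B e u = 0 ∧ PU.B e v = 0) → ∀ w,
        τ.δ X (τ.K (PU.th u v) d) w ∈ LinearMap.range (τ.K (PU.th e e) 1) :=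
      fun e he0 hef w => (h.root_th hw hΛ (hsp e) he0).δ_apply_mem' hA h2
        (Polar.th_comm (PU.B_symm hef.1) hef.2) d w
    exact LinearMap.ext fun w => TS.eq_zero_of_mem_range_th
      (key e₁ (fun e => by simp [e] at a4) a1 w) (key e₂ a3 a2 w) (by simp [a4]) a5

theorem root_orth (hO : H1.IsO PU) (h2 : (2 : F) ≠ 0) (hk : 5 ≤ finrank F U) {e v : U}
    (he : PU.Val e 0) (hv : PU.Val v 0) (hve : PU.B v e = 0) (he0 : e ≠ 0) (hv0 : v ∉ F ∙ e) :
    τ.Root X (Polar.th_sub_sq he hv hve) ⊤ := by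
  have hw : PU.W2 := ⟨e, v, he, hv, hve, he0, hv0⟩
  have hty : ∀ e v, PU.Val e 0 → PU.Val v 0 → PU.B v e = 0 →
      ∃ w, PU.B w e = 0 ∧ PU.B w v = 0 ∧ PU.B w w ≠ 0 := fun e v he hv hve => by
    have h1 := Polar.finrank_inf_pp_ge (P := PU) ⊤ e
    have h3 := Polar.finrank_inf_pp_ge (P := PU) (⊤ ⊓ PU.pp e) v
    rw [finrank_top] at h1
    obtain ⟨x, a1, a2⟩ := exists_notMem_of_finrank_lt (U := (F ∙ e) ⊔ F ∙ v)
      (W := ⊤ ⊓ PU.pp e ⊓ PU.pp v) (by have := finrank_span_pair_le (F := F) e v; omega)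
    obtain ⟨y, b1, b2⟩ := Polar.exists_sep (P := PU) a2 1
    rw [Polar.perp_sup, Polar.perp_span_singleton, Polar.perp_span_singleton] at b1
    obtain ⟨w, c1, c2⟩ := hO.exists_aniso h2 (W := PU.pp e ⊓ PU.pp v) ⟨a1.1.2, a1.2⟩ b1
      (by simp [b2])
    exact ⟨w, c1.1, c1.2, c2⟩
  refine TS.root_of_rigid (R := {n | ∃ e v, PU.Val e 0 ∧ PU.Val v 0 ∧ PU.B v e = 0 ∧ e ≠ 0 ∧
      v ∉ F ∙ e ∧ n = PU.th v e - PU.ε • PU.th e v})
    (by rintro _ ⟨e, v, he, hv, hve, -, -, rfl⟩; exact Polar.th_sub_sq he hv hve) ?_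
    (fun z hz => hw.scal_of_sing_eigen fun u hu => ?_) (Or.inl h2) ?_ ⟨e, v, he, hv, hve, he0, hv0, rfl⟩
  · rintro _ ⟨e, v, he, hv, hve, -, -, rfl⟩ t -
    convert h.left _ (Polar.eichE_mem_E he (w := t • v) (by simp [hve]) (Polar.sing_smul hv t))
      using 2
    exact LinearEquiv.ext fun x => by
      simp only [unip_apply, LinearMap.sub_apply, Polar.th_apply, LinearMap.smul_apply,
        Polar.eichE_apply, Polar.eich, Polar.B_smul_right, hO.σ]
      module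
  · by_cases hu0 : u = 0
    · simp [hu0]
    obtain ⟨v, a1, a2, a3⟩ := hw.exists_sing_perp hu hu0
    obtain ⟨v', a4, a5, a6⟩ := Polar.exists_partner_perp a1 a2 a3
    have a7 : PU.B v v' = 1 := by rw [hO.comm, a6]
    have b1 := LinearMap.congr_fun (hz _ ⟨u, v, hu, a1, a2, hu0, a3, rfl⟩) v'
    have b2 := LinearMap.congr_fun (hz _ ⟨u, v', hu, a4, a5, hu0, fun h => by
      obtain ⟨c, rfl⟩ := Submodule.mem_span_singleton.1 h
      simp [PU.B_symm a2] at a6, rfl⟩) v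
    simp only [End.mul_apply, LinearMap.sub_apply, Polar.th_apply, LinearMap.smul_apply, hO.ε,
      one_smul, a2, a5, a6, a7, zero_smul, zero_sub, map_neg] at b1 b2
    have b3 := congrArg (fun y => PU.B y v') (b1.trans b2.symm)
    simp [a7, PU.B_symm a5, Polar.sing_B a4] at b3
    rw [b3, zero_smul, zero_sub, neg_inj] at b1
    exact Submodule.mem_span_singleton.2 ⟨_, b1⟩
  · rintro _ ⟨e, v, he, hv, hve, he0, hv0, rfl⟩ g hg h1
    exact h.same_of_th (h.map hg) hw (Or.inr hty) hv (fun e => hv0 (by simp [e]))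
      (h.inA_th_of_line (h.map hg) he hv hve he0 hv0 (Or.inr (hty e v he hv hve)) h1)

theorem same_or_comm_orth (hO : H1.IsO PU) (h2 : (2 : F) ≠ 0) (hk : 5 ≤ finrank F U)
    {g : V ≃ₗ[F] V} (hg : g ∈ X) : τ.Same (τ.map g) ∨ τ.flip.Same (τ.map g) := by
  have hw : PU.W2 := (Polar.wild_three_of_σ hO.σ).w2 (by omega)
  have hA : (⊤ : AddSubgroup F) ≠ ⊥ := top_ne_bot
  obtain ⟨e₀, v₀, a1, a2, a3, a4, a5⟩ := id hw
  refine (h.root_orth hO h2 hk a1 a2 a3 a4 a5).same_or_comm' hA (Or.inl h2)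
    (fun z hz => hw.scal_of_sing ?_) hg
  have hind : ∀ {a b y : U}, PU.B a y = 0 → PU.B b y ≠ 0 → b ∉ F ∙ a := fun h1 h3 h4 => by
    obtain ⟨c, rfl⟩ := Submodule.mem_span_singleton.1 h4
    simp [h1] at h3
  have key : ∀ (x : End F U) (e v e' v' y : U) (he : PU.Val e 0) (hv : PU.Val v 0)
      (he' : PU.Val e' 0) (hv' : PU.Val v' 0), PU.B v e = 0 → PU.B v' e' = 0 → PU.B e' e ≠ 0 →
      PU.B v' e = 0 → PU.B v' y ≠ 0 → PU.B e y = 0 → PU.B v y = 0 → v ∉ F ∙ e →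
      (PU.th v e - PU.th e v) * x = x * (PU.th v e - PU.th e v) →
      (PU.th v' e' - PU.th e' v') * x = x * (PU.th v' e' - PU.th e' v') →
      LinearMap.trace F U (z * x) = 0 := by
    intro x e v e' v' y he hv he' hv' b1 b2 b3 b4 b5 b6 b7 b8 c1 c2
    refine hz _ fun d => LinearMap.ext fun w => ?_
    obtain ⟨r, hr⟩ := (h.root_orth hO h2 hk he hv b1 (fun e => by simp [e] at b3) b8).δ_apply_mem'
      hA h2 (by simpa [hO.ε] using c1) d w
    have b9 : e' ∉ F ∙ v' := hind b4 b3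
    obtain ⟨r', hr'⟩ := (h.root_orth hO h2 hk hv' he' (PU.B_symm b2) (fun e => by simp [e] at b5)
      b9).δ_apply_mem' hA h2 (x := x) (by
        rw [hO.ε, one_smul, ← neg_sub, neg_mul, c2, ← mul_neg]) d w
    simp only [hO.ε, one_smul, map_sub, LinearMap.sub_apply, TS.K_th, End.one_apply] at hr hr'
    have d1 := congrArg (τ.pB PU e) (hr.trans hr'.symm)
    simp [b1, Polar.sing_B he, b4] at d1
    replace d1 := (smul_eq_zero.1 d1.symm).resolve_left b3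
    have d2 := congrArg (τ.pB PU y) (hr.trans hr'.symm)
    simp only [map_sub, TS.pB_tp, b6, b7, d1, zero_smul, smul_zero, sub_self, zero_sub] at d2
    replace d2 := (smul_eq_zero.1 (neg_eq_zero.1 d2.symm)).resolve_left b5
    rw [← hr', d1, d2]
    simp
  have h3 : ∀ e, PU.Val e 0 → PU.B (z e) e = 0 := fun e he => by
    by_cases he0 : e = 0
    · simp [he0]
    obtain ⟨v, b1, b2, b3⟩ := hw.exists_sing_perp he he0
    obtain ⟨v', b4, b5, b6⟩ := Polar.exists_partner_perp b1 b2 b3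
    obtain ⟨e', b7, b8, b9⟩ := Polar.exists_hyperbolic (U := (F ∙ v) ⊔ F ∙ v') he (fun h => by
      obtain ⟨_, h4, c, h5⟩ := mem_sup_span_singleton.1 h
      obtain ⟨b, rfl⟩ := Submodule.mem_span_singleton.1 h4
      have h6 := congrArg (fun y => PU.B y v) h5
      have h7 := congrArg (fun y => PU.B v' y) h5
      simp [PU.B_symm b2, Polar.sing_B b1, b6, b5, Polar.sing_B b4] at h6 h7
      rw [hO.σ] at h7
      exact he0 (by rw [h5, ← h6, ← h7]; simp)) (by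
        rw [Polar.perp_sup, Polar.perp_span_singleton, Polar.perp_span_singleton]
        exact ⟨PU.B_symm b2, PU.B_symm b5⟩) 1 one_ne_zero
    rw [Polar.perp_sup, Polar.perp_span_singleton, Polar.perp_span_singleton] at b7
    have b10 : PU.B e' v = 0 := b7.1
    have b11 : PU.B e' v' = 0 := b7.2
    have b12 : PU.B e' e = 1 := by rw [hO.comm, b9]
    have f1 := Polar.finrank_inf_pp_ge (P := PU) ⊤ e
    have f2 := Polar.finrank_inf_pp_ge (P := PU) (⊤ ⊓ PU.pp e) v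
    have f3 := Polar.finrank_inf_pp_ge (P := PU) (⊤ ⊓ PU.pp e ⊓ PU.pp v) e'
    have f4 := Polar.finrank_inf_pp_ge (P := PU) (⊤ ⊓ PU.pp e ⊓ PU.pp v ⊓ PU.pp e') v'
    rw [finrank_top] at f1
    obtain ⟨w, ⟨⟨⟨⟨-, c1⟩, c2⟩, c3⟩, c4⟩, c5⟩ := exists_notMem_of_finrank_lt (U := ⊥)
      (W := ⊤ ⊓ PU.pp e ⊓ PU.pp v ⊓ PU.pp e' ⊓ PU.pp v') (by rw [finrank_bot]; omega)
    replace c1 : PU.B w e = 0 := c1
    replace c2 : PU.B w v = 0 := c2
    replace c3 : PU.B w e' = 0 := c3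
    replace c4 : PU.B w v' = 0 := c4
    obtain ⟨u₀, hu₀⟩ := PU.exists_B_ne (x := w) (by simpa using c5)
    obtain ⟨u, d1, d2, d3⟩ : ∃ u, PU.B u e = 0 ∧ PU.B u v' = 0 ∧ PU.B u w = -1 :=
      ⟨(-(PU.B u₀ w)⁻¹) • (u₀ - PU.B u₀ e • e' - PU.B u₀ v' • v), by simp [b12, b2],
        by simp [b11, hO.comm v v', b6], by
          simp [PU.B_symm c2, PU.B_symm c3, PU.B_ne_symm hu₀]⟩
    have h4 : ∀ t : F, PU.B (z (w + t • e)) (w + t • e) = 0 := fun t => by
      obtain ⟨a, ha⟩ := Polar.exists_val_add_sing (y := e' + t • u) he (by simp [b12, d1]) 0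
      have r1 : PU.B e (w + t • e) = 0 := by simp [PU.B_symm c1, Polar.sing_B he]
      have r2 : PU.B v (w + t • e) = 0 := by simp [PU.B_symm c2, b2]
      have r3 : PU.B v' (w + t • e) = 0 := by simp [PU.B_symm c4, b5]
      have r4 : PU.B (e' + t • u + a • e) (w + t • e) = 0 := by
        simp [PU.B_symm c1, PU.B_symm c3, b12, d1, d3, Polar.sing_B he, hO.σ]
      rw [← PU.trace_mul_th]
      exact key _ e v (e' + t • u + a • e) v' v he b1 ha b4 b2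
        (by simp [PU.B_symm b11, PU.B_symm d2, b5])
        (by simp [b12, d1, Polar.sing_B he]) b5 (by simp [b6]) (PU.B_symm b2) (Polar.sing_B b1) b3
        (by simp only [mul_sub, sub_mul, Polar.th_mul_th, r1, r2, PU.B_symm r1, PU.B_symm r2,
          zero_smul])
        (by simp only [mul_sub, sub_mul, Polar.th_mul_th, r3, r4, PU.B_symm r3, PU.B_symm r4,
          zero_smul])
    have h5 := h4 0
    have h6 := h4 1
    have h7 := h4 (-1)
    simp only [map_add, map_smul, LinearMap.add_apply, LinearMap.smul_apply, Polar.B_smul_right,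
      hO.σ, smul_eq_mul] at h5 h6 h7
    exact mul_left_cancel₀ h2 (by linear_combination h6 + h7 - 2 * h5)
  intro e v he hv hve
  by_cases hv0 : v ∈ F ∙ e
  · obtain ⟨c, rfl⟩ := Submodule.mem_span_singleton.1 hv0
    simp [h3 e he]
  by_cases he0 : e = 0
  · simp [he0]
  have hev : e ∉ F ∙ v := by
    simpa using notMem_sup_span_swap (F := F) (U := ⊥) (v := e) (z := v) (by simpa using he0)
      (by simpa using hv0)
  obtain ⟨v', b1, b2, b3⟩ := Polar.exists_partner_perp hv hve hv0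
  obtain ⟨e', b4, b5, b6⟩ := Polar.exists_hyperbolic (U := (F ∙ v) ⊔ F ∙ v') he (fun h => by
      obtain ⟨_, h4, c, h5⟩ := mem_sup_span_singleton.1 h
      obtain ⟨b, rfl⟩ := Submodule.mem_span_singleton.1 h4
      have h6 := congrArg (fun y => PU.B y v) h5
      simp [PU.B_symm hve, Polar.sing_B hv, b3] at h6
      exact hev (by rw [h5, ← h6]; simp [Submodule.smul_mem, Submodule.mem_span_singleton_self]))
    (by
      rw [Polar.perp_sup, Polar.perp_span_singleton, Polar.perp_span_singleton]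
      exact ⟨PU.B_symm hve, PU.B_symm b2⟩) 1 one_ne_zero
  rw [Polar.perp_sup, Polar.perp_span_singleton, Polar.perp_span_singleton] at b4
  have b7 : PU.B e' v = 0 := b4.1
  have b8 : PU.B e' v' = 0 := b4.2
  have b9 : PU.B e' e = 1 := by rw [hO.comm, b6]
  have b10 : PU.B v v' = 1 := by rw [hO.comm, b3]
  have h4 := key (PU.th v e - PU.th e v) e v' e' v v' he b1 b5 hv b2 (PU.B_symm b7) (by simp [b9])
    hve (by simp [b10]) (PU.B_symm b2) (Polar.sing_B b1) (hind (PU.B_symm hve) (by simp [b3]))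
    (by simp [mul_sub, sub_mul, Polar.th_mul_th, hve, PU.B_symm hve, b2, PU.B_symm b2, b3, b10,
      Polar.sing_B he])
    (by simp [mul_sub, sub_mul, Polar.th_mul_th, hve, PU.B_symm hve, b7, PU.B_symm b7, b6, b9,
      Polar.sing_B hv])
  have h5 := h3 _ (Polar.sing_add he hv (PU.B_symm hve))
  simp only [mul_sub, map_sub, Polar.trace_mul_th] at h4
  simp only [map_add, LinearMap.add_apply, h3 e he, h3 v hv] at h5
  exact mul_left_cancel₀ h2 (by linear_combination h5 - h4)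

end Good

end Cfsg.Agent.Tens
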