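import Cfsg.Agent.Tens.SlotA

/-!
The slot lemma for symplectic and unitary spaces, and the case of a trivial second factor.
-/

set_option autoImplicit false
set_option linter.unusedSectionVars false
set_option linter.unusedSimpArgs false

namespace Cfsg.Agent.Tens.Slot

open Module Cfsg.Agent.H7 Cfsg.Agent.H7.Polar

variable {F U W V : Type*} [Field F] [AddCommGroup U] [Module F U] [AddCommGroup W] [Module F W]
  [AddCommGroup V] [Module F V] {τ : TS F U W V} {P : Polar F U}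
  [Finite F] [FiniteDimensional F U] [FiniteDimensional F W]

omit [FiniteDimensional F W] in
theorem mem_span_of_B {u y : U} (h : ∀ w, P.B w u = 0 → P.B y w = 0) : y ∈ F ∙ u := by
  rw [← perp_perp (P := P) (F ∙ u), perp_span_singleton]
  exact fun w hw => h w hw

omit [FiniteDimensional F W] in
theorem lam_of_sp (hP : ∀ x, P.Val x 0) {e : U} (he : e ≠ 0) (c : F) : P.Val 0 c := by
  obtain ⟨y, -, hy⟩ := exists_sep (P := P) (U := ⊥) (v := e) (by simpa using he) c
  simpa [hy] using val_sub_val (P.val_add (hP e) (hP y)) (hP _)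

omit [FiniteDimensional F U] [FiniteDimensional F W] in
theorem exists_ne_zero_one (h : 2 < Nat.card F) : ∃ c : F, c ≠ 0 ∧ 1 ≠ c := by
  classical
  have := Fintype.ofFinite F
  obtain ⟨a, -, ha⟩ := Finset.exists_mem_notMem_of_card_lt_card (s := ({0, 1} : Finset F))
    (t := Finset.univ) (by
      rwa [Finset.card_univ, Finset.card_pair zero_ne_one, ← Nat.card_eq_fintype_card])
  simp only [Finset.mem_insert, Finset.mem_singleton, not_or] at ha
  exact ⟨a, ha.1, Ne.symm ha.2⟩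

omit [FiniteDimensional F W] in
theorem scal_of_unitary (hσ : ∃ a, P.σ a ≠ a) (hε : P.ε = 1) (hn : 2 ≤ finrank F U)
    {z : End F U} (hz : ∀ x, P.Val x 0 → P.B (z x) x = 0) : Scal z := by
  obtain ⟨e₀, -, h0, he₀⟩ := wild_two_of_unitary hσ hε ⊤ (by rwa [finrank_top])
  obtain ⟨κ, hκ0, hκ⟩ := exists_lam_ne_of_unitary hσ hε
  refine scal_of_sing_eigen_lam ⟨κ, hκ0, hκ⟩ he₀ h0 fun e he => ?_
  by_cases he0 : e = 0
  · simp [he0]
  obtain ⟨e', he', hee⟩ := exists_partner he he0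
  have k1 : ∀ x, P.Val x 0 → P.B x e = 1 → P.B (z e) x = P.B (z x) e := fun x hx hxe => by
    have := hz _ (val_congr (val_sub_lam (val_add_sing hx he (P.σ κ)) hκ) (by simp [hxe]))
    simp only [map_add, map_smul, LinearMap.add_apply, LinearMap.smul_apply, B_smul_right, σσ,
      hz x hx, hz e he, smul_eq_mul] at this
    rw [lam_σ hκ, hε] at this
    exact mul_left_cancel₀ hκ0 (by linear_combination -this)
  have k2 : ∀ w, P.B w e = 0 → P.B (z e) w = P.B (z w) e := fun w hw => by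
    obtain ⟨b, hb⟩ := exists_val_add_sing he (y := e' + w) (by simp [hee, hw]) 0
    have := k1 _ hb (by simp [hee, hw, sing_B he])
    simp only [map_add, map_smul, LinearMap.add_apply, LinearMap.smul_apply, B_smul_right,
      hz e he, smul_eq_mul, k1 e' he' hee] at this
    linear_combination this
  refine mem_span_of_B (P := P) fun w hw => ?_
  obtain ⟨μ, hμ⟩ := hσ
  have := k2 (μ • w) (by simp [hw])
  simp only [map_smul, LinearMap.smul_apply, B_smul_right, smul_eq_mul, ← k2 w hw] at this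
  exact mul_left_cancel₀ (sub_ne_zero.2 hμ) (by linear_combination this)

omit [FiniteDimensional F U] [FiniteDimensional F W] in
theorem exists_two_lam_of_unitary (hσ : ∃ a, P.σ a ≠ a) (hε : P.ε = 1) (h : 4 < Nat.card F) :
    ∃ κ κ', P.Val 0 κ ∧ P.Val 0 κ' ∧ κ ≠ 0 ∧ κ' ≠ 0 ∧ κ ≠ κ' := by
  classical
  by_contra! hcon
  obtain ⟨ω, hω⟩ := hσ
  have hl : ∀ a, P.Val 0 (a - P.σ a) := fun a => by simpa [hε] using P.val_min a
  have h0 : ω - P.σ ω ≠ 0 := sub_ne_zero.2 hω.symm
  have k1 : ∀ t, P.σ t = t → t = 0 ∨ t = 1 := fun t ht => by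
    by_cases ht0 : t = 0
    · exact Or.inl ht0
    have := hcon _ _ (hl ω) (hl (t * ω)) h0 (by
      rw [map_mul, ht, ← mul_sub]; exact mul_ne_zero ht0 h0)
    rw [map_mul, ht] at this
    exact Or.inr (mul_right_cancel₀ h0 (by linear_combination -this))
  have := Fintype.ofFinite F
  have k2 : (Finset.univ : Finset F) ⊆ {0, 1, ω, ω + 1} := fun a _ => by
    by_cases ha : a - P.σ a = 0
    · rcases k1 a (sub_eq_zero.1 ha).symm with h | h <;> simp [h]
    · have := hcon _ _ (hl ω) (hl a) h0 ha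
      rcases k1 (a - ω) (by rw [map_sub]; linear_combination this) with h | h
      · simp [sub_eq_zero.1 h]
      · simp [show a = ω + 1 by linear_combination h]
  have := (Finset.card_le_card k2).trans Finset.card_le_four
  rw [Finset.card_univ, ← Nat.card_eq_fintype_card] at this
  omega

section Main

variable {C : Subalgebra F (End F V)}
  (hL : ∀ g ∈ P.E, InvL τ (C : Set (End F V)) g) (hirr : Irr τ (C : Set (End F V)))
  (hc : ∃ c ∈ C, ¬ τ.flip.InA c)
include hL hirr hc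

/-- **Slot lemma**, symplectic case. -/
theorem slot_sp (hP : ∀ x, P.Val x 0) (h : 3 ≤ finrank F U ∨ 2 < Nat.card F) :
    ∃ d, d ≠ 0 ∧ ∀ a, τ.K a d ∈ C := by
  obtain ⟨e, he⟩ : ∃ e : U, e ≠ 0 := by
    by_contra! h0
    obtain ⟨c, -, hc⟩ := hc
    exact hc (τ.flip.inA_of_sl fun _ _ => ⟨0, fun x => (h0 _).trans (h0 _).symm⟩)
  have hΛ : ∃ c, c ≠ 0 ∧ P.Val 0 c := ⟨1, one_ne_zero, lam_of_sp hP he 1⟩
  by_cases hn : 3 ≤ finrank F U
  · exact slot_lam_two hL hirr hc hΛ ((wild_one_of_sp hP).w2 hn)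
  obtain ⟨κ, h0, h1⟩ := exists_ne_zero_one (h.resolve_left hn)
  obtain ⟨c, hcC, hc⟩ := hc
  obtain ⟨u, v, rfl, hS⟩ := exists_S_ne (P := P) hc (p := fun u v => u = v) fun z hz =>
    scal_of_eigen fun u => by
      by_cases hu : u = 0
      · simp [hu]
      refine mem_span_of_B (P := P) fun w hw => ?_
      have : (F ∙ u) = P.perp (F ∙ u) := Submodule.eq_of_le_of_finrank_le (by
        rw [perp_span_singleton, Submodule.span_singleton_le_iff_mem]; exact sing_B (hP u)) (by
        have := P.finrank_perp (F ∙ u)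
        rw [finrank_span_singleton hu] at this ⊢
        omega)
      rw [perp_span_singleton] at this
      obtain ⟨a, rfl⟩ := Submodule.mem_span_singleton.1 (this ▸ hw : w ∈ F ∙ u)
      simp [hz u u rfl]
  exact slot_of_top hL hirr (both_of_lam hΛ) (hP u) hS
    (top_lam (M := Subalgebra.toSubmodule C) hL (lam_of_sp hP he 1) (lam_of_sp hP he κ)
      one_ne_zero h0 h1 (hP u) hcC)

/-- **Slot lemma**, unitary case. -/
theorem slot_su (hσ : ∃ a, P.σ a ≠ a) (hε : P.ε = 1)
    (h : 3 ≤ finrank F U ∨ (2 ≤ finrank F U ∧ 4 < Nat.card F)) :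
    ∃ d, d ≠ 0 ∧ ∀ a, τ.K a d ∈ C := by
  obtain ⟨c, hcC, hc⟩ := hc
  obtain ⟨u, v, ⟨rfl, hu⟩, hS⟩ := exists_S_ne (P := P) hc (p := fun u v => u = v ∧ P.Val u 0)
    fun z hz => scal_of_unitary hσ hε (by omega) fun x hx => hz x x ⟨rfl, hx⟩
  have hΛ := exists_lam_ne_of_unitary hσ hε
  refine slot_of_top hL hirr (both_of_lam hΛ) hu hS ?_
  by_cases h2 : ∃ κ κ', P.Val 0 κ ∧ P.Val 0 κ' ∧ κ ≠ 0 ∧ κ' ≠ 0 ∧ κ ≠ κ'
  · obtain ⟨κ, κ', k1, k2, k3, k4, k5⟩ := h2
    exact top_lam (M := Subalgebra.toSubmodule C) hL k1 k2 k3 k4 k5 hu hcC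
  have hn : 3 ≤ finrank F U := h.resolve_right fun h => h2 (exists_two_lam_of_unitary hσ hε h.2)
  have h3 : (3 : F) ≠ 0 := fun h3 => by
    obtain ⟨κ, h0, hκ⟩ := hΛ
    exact h2 ⟨κ, -κ, hκ, lam_neg hκ, h0, by simpa using h0, fun e => h0 (by
      linear_combination κ * h3 - e)⟩
  have hu0 : u ≠ 0 := fun e => hS (by ext x; simp [S_apply, e])
  obtain ⟨w, hw, hww⟩ : ∃ w, P.B w u = 0 ∧ P.B w w ≠ 0 := by
    by_contra! hcon
    obtain ⟨y, hy, hy'⟩ := exists_notMem_of_finrank_lt (U := F ∙ u) (W := P.perp (F ∙ u)) (by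
      have := P.finrank_perp (F ∙ u)
      rw [finrank_span_singleton hu0] at this ⊢
      omega)
    rw [perp_span_singleton] at hy
    exact hy' (mem_span_of_B (P := P) fun w hw =>
      B_eq_zero_of_forall_isotropic hσ (U := P.pp u) hcon hy hw)
  obtain ⟨ω, hω⟩ := exists_trace_one P.σ P.σσ hσ
  refine top_four (M := Subalgebra.toSubmodule C) hL hu hw hw hw (w₄ := ω • w) (by simp [hw]) ?_ hcC
  simp only [map_smul, LinearMap.smul_apply, B_smul_right, smul_eq_mul]
  convert mul_ne_zero h3 (mul_ne_zero hww hww) using 1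
  linear_combination 3 * P.B w w * P.B w w * hω

end Main

/-! ### Trivial second factor -/

variable (F U) in
/-- The trivial tensor structure. -/
def triv : TS F U F U := ⟨TensorProduct.rid F U⟩

omit [Finite F] [FiniteDimensional F U] [FiniteDimensional F W] in
theorem triv_tp (u : U) (x : F) : (triv F U).tp u x = x • u := rfl

omit [Finite F] [FiniteDimensional F U] [FiniteDimensional F W] in
theorem triv_K (a : End F U) (d : End F F) : (triv F U).K a d = d 1 • a :=
  (triv F U).ext fun u x => by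
    rw [TS.K_tp, triv_tp, triv_tp, show d x = x * d 1 by rw [← smul_eq_mul, ← map_smul]; simp]
    simp [smul_smul, mul_comm]

omit [Finite F] [FiniteDimensional F U] [FiniteDimensional F W] in
theorem triv_S (c : End F U) (x y : U) : S (triv F U) P c x y 1 = P.B (c x) y := by
  rw [S_apply, triv_tp, one_smul]
  conv_lhs => rw [← one_smul F (c x), ← triv_tp, TS.pB_tp]
  simp

omit [Finite F] [FiniteDimensional F U] [FiniteDimensional F W] in
theorem triv_invL {M : Set (End F U)} {g : U ≃ₗ[F] U}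
    (h : ∀ c ∈ M, (g : End F U) * c * (g.symm : End F U) ∈ M) : InvL (triv F U) M g :=
  fun c hc => by simpa [triv_K] using h c hc

omit [Finite F] [FiniteDimensional F U] [FiniteDimensional F W] in
theorem triv_absIrr (M : Set (End F U)) : AbsIrr (triv F U) M := by
  refine eq_top_iff.2 fun d _ => ?_
  rw [show d = d 1 • (1 : End F F) from LinearMap.ext_ring (by simp)]
  refine Submodule.smul_mem _ _ (Submodule.subset_span ⟨1, fun c hc => ?_, rfl⟩)
  rw [show (((1 : F ≃ₗ[F] F).symm : F ≃ₗ[F] F) : End F F) = 1 from rfl,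
    show ((1 : F ≃ₗ[F] F) : End F F) = 1 from rfl]
  simpa using hc

omit [Finite F] [FiniteDimensional F U] [FiniteDimensional F W] in
theorem triv_not_inA {c : End F U} (h : ¬ Scal c) : ¬ (triv F U).flip.InA c := fun e => by
  obtain ⟨d, rfl⟩ := (triv F U).flip_inA.1 e
  exact h (by rw [triv_K]; exact scal_smul_one _)

omit [Finite F] [FiniteDimensional F U] [FiniteDimensional F W] in
theorem triv_eq_top {C : Subalgebra F (End F U)} (h : ∃ d, d ≠ 0 ∧ ∀ a, (triv F U).K a d ∈ C) :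
    C = ⊤ := by
  obtain ⟨d, h0, h⟩ := h
  have h1 : d 1 ≠ 0 := fun e => h0 (LinearMap.ext_ring (by simpa using e))
  refine eq_top_iff.2 fun a _ => ?_
  simpa [triv_K, smul_smul, h1] using h ((d 1)⁻¹ • a)

omit [FiniteDimensional F W] in
theorem eq_top_sp {C : Subalgebra F (End F U)}
    (hL : ∀ g ∈ P.E, ∀ c ∈ C, (g : End F U) * c * (g.symm : End F U) ∈ C)
    (hc : ∃ c ∈ C, ¬ Scal c) (hP : ∀ x, P.Val x 0) (h : 3 ≤ finrank F U ∨ 2 < Nat.card F) :
    C = ⊤ :=
  triv_eq_top (slot_sp (fun g hg => triv_invL (hL g hg)) (triv_absIrr _).irr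
    (hc.imp fun _ h => ⟨h.1, triv_not_inA h.2⟩) hP h)

omit [FiniteDimensional F W] in
theorem eq_top_su {C : Subalgebra F (End F U)}
    (hL : ∀ g ∈ P.E, ∀ c ∈ C, (g : End F U) * c * (g.symm : End F U) ∈ C)
    (hc : ∃ c ∈ C, ¬ Scal c) (hσ : ∃ a, P.σ a ≠ a) (hε : P.ε = 1)
    (h : 3 ≤ finrank F U ∨ (2 ≤ finrank F U ∧ 4 < Nat.card F)) : C = ⊤ :=
  triv_eq_top (slot_su (fun g hg => triv_invL (hL g hg)) (triv_absIrr _).irr
    (hc.imp fun _ h => ⟨h.1, triv_not_inA h.2⟩) hσ hε h)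

variable (P) in
/-- The span of the elementary group. -/
def spanE : Subalgebra F (End F U) :=
  (Submodule.span F {a : End F U | ∃ g ∈ P.E, a = g}).toSubalgebra
    (Submodule.subset_span ⟨1, P.E.one_mem, rfl⟩) fun x y hx hy => by
      have := Submodule.mul_mem_mul hx hy
      rw [Submodule.span_mul_span] at this
      refine Submodule.span_mono ?_ this
      rintro _ ⟨_, ⟨g, hg, rfl⟩, _, ⟨g', hg', rfl⟩, rfl⟩
      exact ⟨g * g', P.E.mul_mem hg hg', rfl⟩

omit [FiniteDimensional F W] in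
theorem spanE_inv {g : U ≃ₗ[F] U} (hg : g ∈ P.Iso) {c : End F U} (hc : c ∈ spanE P) :
    (g : End F U) * c * (g.symm : End F U) ∈ spanE P := by
  induction hc using Submodule.span_induction with
  | mem x hx =>
    obtain ⟨e, he, rfl⟩ := hx
    exact Submodule.subset_span ⟨_, E_normal hg he, rfl⟩
  | zero => simp
  | add x y _ _ hx hy => simpa [mul_add, add_mul] using (spanE P).add_mem hx hy
  | smul a x _ hx => simpa using (spanE P).smul_mem hx a

omit [FiniteDimensional F W] in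
theorem spanE_not_scal {u w : U} {c : F} (hu : P.Val u 0) (hu0 : u ≠ 0) (hw : P.B w u = 0)
    (hc : P.Val w c) (h : w ∉ F ∙ u ∨ (w = 0 ∧ c ≠ 0)) : ∃ c ∈ spanE P, ¬ Scal c := by
  refine ⟨_, Submodule.subset_span ⟨_, eichE_mem_E hu hw hc, rfl⟩, ?_⟩
  rintro ⟨s, hs⟩
  obtain ⟨u', -, h1⟩ := exists_partner hu hu0
  have h2 := hs u
  have h3 := hs u'
  simp only [LinearEquiv.coe_coe, eichE_apply, eich, sing_B hu, P.B_symm hw, h1] at h2 h3
  have h4 : s = 1 := smul_left_injective F hu0 (by simpa using h2.symm)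
  rw [h4, one_smul, one_smul, mul_one, add_sub_assoc, add_eq_left, sub_eq_zero] at h3
  rcases h with h | ⟨rfl, h⟩
  · exact h (h3 ▸ Submodule.smul_mem _ _ (Submodule.mem_span_singleton_self u))
  · simp [h, hu0, eq_comm (a := (0 : U))] at h3

omit [Finite F] [FiniteDimensional F U] [FiniteDimensional F W] in
theorem span_eq_top_of (h : spanE P = ⊤) :
    Submodule.span F {a : End F U | ∃ g ∈ P.E, a = g} = ⊤ :=
  eq_top_iff.2 fun a _ => (h ▸ Algebra.mem_top : a ∈ spanE P)

omit [FiniteDimensional F W] in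
theorem span_E_sp (hP : ∀ x, P.Val x 0) (hn : 1 ≤ finrank F U)
    (h : 3 ≤ finrank F U ∨ 2 < Nat.card F) :
    Submodule.span F {a : End F U | ∃ g ∈ P.E, a = g} = ⊤ := by
  obtain ⟨e, -, h0, he⟩ := wild_one_of_sp hP ⊤ (by rwa [finrank_top])
  exact span_eq_top_of (eq_top_sp (fun g hg c hc => spanE_inv (E_le_Iso hg) hc)
    (spanE_not_scal he h0 (by simp) (lam_of_sp hP h0 1) (Or.inr ⟨rfl, one_ne_zero⟩)) hP h)

omit [FiniteDimensional F W] in
theorem span_E_su (hσ : ∃ a, P.σ a ≠ a) (hε : P.ε = 1)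
    (h : 3 ≤ finrank F U ∨ (2 ≤ finrank F U ∧ 4 < Nat.card F)) :
    Submodule.span F {a : End F U | ∃ g ∈ P.E, a = g} = ⊤ := by
  obtain ⟨e, -, h0, he⟩ := wild_two_of_unitary hσ hε ⊤ (by rw [finrank_top]; omega)
  obtain ⟨κ, hκ0, hκ⟩ := exists_lam_ne_of_unitary hσ hε
  exact span_eq_top_of (eq_top_su (fun g hg c hc => spanE_inv (E_le_Iso hg) hc)
    (spanE_not_scal he h0 (by simp) hκ (Or.inr ⟨rfl, hκ0⟩)) hσ hε h)

end Cfsg.Agent.Tens.Slot
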