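import Cfsg.Agent.Tens.C4
import Cfsg.Agent.Tens.Rigid2
import Cfsg.Agent.Tens.SlotB
import Cfsg.Agent.H7.SubInst

/-!
Tensor product subgroups of the classical groups: the abstract theorems by type.
-/

set_option autoImplicit false
set_option linter.unusedSectionVars false

namespace Cfsg.Agent.Tens

open Module Cfsg.Agent.H7 Cfsg.Agent.H1

variable {F U W V : Type*} [Field F] [AddCommGroup U] [Module F U] [AddCommGroup W] [Module F W]
  [AddCommGroup V] [Module F V]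

/-- Symplectic polar spaces. -/
structure IsSp (P : Polar F V) : Prop where
  σ : ∀ a, P.σ a = a
  ε : P.ε = -1
  val : ∀ x c, P.Val x c

/-- Unitary polar spaces. -/
structure IsUn (P : Polar F V) : Prop where
  σ : ∃ a, P.σ a ≠ a
  ε : P.ε = 1

section scale

variable {P : Polar F V} {c : F} (hc : c ≠ 0) (hσ : P.σ c = 1 * c)

theorem IsSp.scale (h : IsSp P) : IsSp (P.scale hc (Or.inl rfl) hσ) :=
  ⟨h.σ, by rw [Polar.scale_ε, mul_one, h.ε], fun _ _ => h.val _ _⟩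

theorem IsUn.scale (h : IsUn P) : IsUn (P.scale hc (Or.inl rfl) hσ) :=
  ⟨h.σ, by rw [Polar.scale_ε, mul_one, h.ε]⟩

theorem isO_scale (h : IsO P) : IsO (P.scale hc (Or.inl rfl) hσ) :=
  ⟨h.σ, by rw [Polar.scale_ε, mul_one, h.ε], fun d hd => by simpa [hc] using h.lam _ hd⟩

end scale

theorem IsSp.lam {P : Polar F V} (h : IsSp P) (h2 : (2 : F) ≠ 0) (c : F) (_ : P.Val 0 c) :
    ∃ a, c = a - P.ε * P.σ a := ⟨c / 2, by rw [h.σ, h.ε]; field_simp; ring⟩

theorem isO_lam {P : Polar F V} (h : IsO P) (c : F) (hc : P.Val 0 c) :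
    ∃ a, c = a - P.ε * P.σ a := ⟨0, by simp [h.lam c hc]⟩

variable [Finite F] [FiniteDimensional F U] [FiniteDimensional F W] [FiniteDimensional F V]

theorem exists_sing_of_wild {P : Polar F V} {d : ℕ} (h : P.Wild d) (hd : d ≤ finrank F V) :
    ∃ e, P.Val e 0 ∧ e ≠ 0 := by
  obtain ⟨e, -, h0, he⟩ := h ⊤ (by rwa [finrank_top])
  exact ⟨e, he, h0⟩

namespace Compat

variable {τ : TS F U W V} {PU : Polar F U} {PW : Polar F W} {PV : Polar F V}
  (h : Compat τ PU PW PV)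
include h

theorem rigid_su [Nontrivial W] (hU : IsUn PU) (hk : 4 ≤ finrank F U) : Rigid τ PU PV :=
  fun _ h1 h2 h3 _ hg => Good.same_or_comm_unitary
    ⟨h, h1, h2, h3, fun _ => (Polar.sing_iff_of_unitary hU.σ hU.ε).2⟩
    ((Polar.wild_two_of_unitary hU.σ hU.ε).w2 hk) hU.σ hU.ε hg

theorem rigid_sp [Nontrivial W] (hU : IsSp PU)
    (hk : 5 ≤ finrank F U ∨ ((2 : F) ≠ 0 ∧ 4 ≤ finrank F U)) : Rigid τ PU PV :=
  fun _ h1 h2 h3 _ hg => Good.same_or_comm_sp ⟨h, h1, h2, h3, fun _ _ => hU.val _ _⟩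
    (fun _ => hU.val _ _) hk ⟨1, one_ne_zero, hU.val _ _⟩ hg

theorem rigid_o [Nontrivial W] (hU : IsO PU) (h2 : (2 : F) ≠ 0) (hk : 5 ≤ finrank F U) :
    Rigid τ PU PV :=
  fun _ h1 h3 h4 _ hg => Good.same_or_comm_orth ⟨h, h1, h3, h4, fun _ => (hU.sing_iff h2).2⟩
    hU h2 hk hg

/-- `GU_k ⊗ GU_j` in `SU`. -/
theorem maximal_su (hU : IsUn PU) (hW : IsUn PW) (hk : 4 ≤ finrank F U)
    (hlt : finrank F W < finrank F U)
    (hj : 3 ≤ finrank F W ∨ (2 ≤ finrank F W ∧ 4 < Nat.card F)) :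
    Geo.IsMaximalIn PV.E (τ.NN ⊓ PV.E) := by
  have : Nontrivial W := Module.nontrivial_of_finrank_pos (R := F) (by omega)
  have hV : IsUn PV := ⟨by simpa only [h.σV] using hU.σ, by rw [h.εV, hU.ε, hW.ε, mul_one]⟩
  have hE := Polar.E_eq_SU hV.σ hV.ε (by rw [τ.finrank_eq]; nlinarith [show 2 ≤ finrank F W by omega])
  have hwU := Polar.wild_two_of_unitary hU.σ hU.ε
  refine h.maximal (hwU.w2 hk) (by omega)
    (fun g => h.KL_mem_E_su hE (exists_sing_of_wild hwU (by omega))) (G := PW.E)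
    (fun d hd => τ.flip_KL d ▸ h.flip.KL_mem_E_su hE
      (exists_sing_of_wild (Polar.wild_two_of_unitary hW.σ hW.ε) (by omega)) hd)
    (h.rigid_su hU hk) (fun g _ => τ.not_swap_of_lt hlt g)
    (fun C _ h1 h2 => Slot.eq_top_su h1 h2 hW.σ hW.ε hj)
    (fun X S _ => S.exists_not_scal_MM (Or.inr hU.σ)) fun c => Polar.lam_of_unitary hV.σ hV.ε

/-- `Sp_k ⊗ Sp_j` in `Ω`. -/
theorem maximal_sp_sp (hU : IsSp PU) (hW : IsSp PW) (hV : IsO PV) (hk : 5 ≤ finrank F U)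
    (hlt : finrank F W < finrank F U) (hj2 : 2 ≤ finrank F W)
    (hj : 3 ≤ finrank F W ∨ 2 < Nat.card F) : Geo.IsMaximalIn PV.E (τ.NN ⊓ PV.E) := by
  have : Nontrivial W := Module.nontrivial_of_finrank_pos (R := F) (by omega)
  have : Nontrivial U := Module.nontrivial_of_finrank_pos (R := F) (by omega)
  exact h.maximal ((Polar.wild_one_of_sp fun _ => hU.val _ _).w2 (by omega)) hj2
    (fun g => h.KL_mem_E_of_sp hV fun _ => hU.val _ _) (G := PW.E)
    (fun d hd => τ.flip_KL d ▸ h.flip.KL_mem_E_of_sp hV (fun _ => hW.val _ _) hd)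
    (h.rigid_sp hU (Or.inl hk)) (fun g _ => τ.not_swap_of_lt hlt g)
    (fun C _ h1 h2 => Slot.eq_top_sp h1 h2 (fun _ => hW.val _ _) hj)
    (fun X S _ => S.exists_not_scal_MM (Or.inl hk)) (isO_lam hV)

/-- `O_k ⊗ O_j` in `Ω`. -/
theorem maximal_o_o (hU : IsO PU) (hW : IsO PW) (hV : IsO PV) (h2 : (2 : F) ≠ 0)
    (hk : 5 ≤ finrank F U) (hlt : finrank F W < finrank F U) (hj : 3 ≤ finrank F W)
    (hS : Slot PW PW.E) : Geo.IsMaximalIn PV.E (τ.NN ⊓ PV.E) := by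
  have : Nontrivial W := Module.nontrivial_of_finrank_pos (R := F) (by omega)
  have hn : 7 ≤ finrank F V := by rw [τ.finrank_eq]; nlinarith
  have hwU := Polar.wild_three_of_σ hU.σ
  exact h.maximal (hwU.w2 hk) (by omega)
    (fun g => h.KL_mem_E_of_o hV hn hU h2 (exists_sing_of_wild hwU (by omega))) (G := PW.E)
    (fun d hd => τ.flip_KL d ▸ h.flip.KL_mem_E_of_o hV hn hW h2
      (exists_sing_of_wild (Polar.wild_three_of_σ hW.σ) hj) hd)
    (h.rigid_o hU h2 hk) (fun g _ => τ.not_swap_of_lt hlt g) hS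
    (fun X S _ => S.exists_not_scal_MM (Or.inl hk)) (isO_lam hV)

/-- `O_k ⊗ Sp_j` in `Sp`, the orthogonal factor being the larger one. -/
theorem maximal_o_sp (hU : IsO PU) (hW : IsSp PW) (hV : IsSp PV) (h2 : (2 : F) ≠ 0)
    (hk : 5 ≤ finrank F U) (hlt : finrank F W < finrank F U) (hj2 : 2 ≤ finrank F W)
    (hq : 2 < Nat.card F) : Geo.IsMaximalIn PV.E (τ.NN ⊓ PV.E) := by
  have : Nontrivial W := Module.nontrivial_of_finrank_pos (R := F) (by omega)
  have hwU := Polar.wild_three_of_σ hU.σ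
  exact h.maximal (hwU.w2 hk) hj2
    (fun g hg => h.KL_mem_E_sp (fun _ => hV.val _ _) (exists_sing_of_wild hwU (by omega))
      (Polar.E_le_Iso hg)) (G := PW.E)
    (fun d hd => τ.flip_KL d ▸ h.flip.KL_mem_E_sp (fun _ => hV.val _ _)
      (exists_sing_of_wild (Polar.wild_one_of_sp fun _ => hW.val _ _) (by omega))
      (Polar.E_le_Iso hd))
    (h.rigid_o hU h2 hk) (fun g _ => τ.not_swap_of_lt hlt g)
    (fun C _ h1 h3 => Slot.eq_top_sp h1 h3 (fun _ => hW.val _ _) (Or.inr hq))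
    (fun X S _ => S.exists_not_scal_MM (Or.inl hk)) (hV.lam h2)

/-- `Sp_k ⊗ O_j` in `Sp`, the symplectic factor being the larger one. -/
theorem maximal_sp_o (hU : IsSp PU) (hW : IsO PW) (hV : IsSp PV) (h2 : (2 : F) ≠ 0)
    (hk : 4 ≤ finrank F U) (hle : finrank F W ≤ finrank F U) (hj : 3 ≤ finrank F W)
    (hS : Slot PW PW.Iso) : Geo.IsMaximalIn PV.E (τ.NN ⊓ PV.E) := by
  have : Nontrivial W := Module.nontrivial_of_finrank_pos (R := F) (by omega)
  have : Nontrivial U := Module.nontrivial_of_finrank_pos (R := F) (by omega)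
  have hwU : PU.Wild 1 := Polar.wild_one_of_sp fun _ => hU.val _ _
  exact h.maximal (hwU.w2 (by omega)) (by omega)
    (fun g hg => h.KL_mem_E_sp (fun _ => hV.val _ _) (exists_sing_of_wild hwU (by omega))
      (Polar.E_le_Iso hg)) (G := PW.Iso)
    (fun d hd => τ.flip_KL d ▸ h.flip.KL_mem_E_sp (fun _ => hV.val _ _)
      (exists_sing_of_wild (Polar.wild_three_of_σ hW.σ) hj) hd)
    (h.rigid_sp hU (Or.inr ⟨h2, hk⟩)) (fun g => h.not_swap_of_type hle hU.ε hW h2) hS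
    (fun X S hR => S.exists_not_scal_MM_sp hU.ε hW h2 hj fun w c hc h0 =>
      hR _ (Polar.reflE_mem_Iso hc h0)) (hV.lam h2)

end Compat

end Cfsg.Agent.Tens
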