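import Cfsg.Agent.Tens.W2

/-!
Levels of the elements of the unipotent radical of the stabiliser of `e ⊗ W`.
-/

set_option autoImplicit false
set_option linter.unusedSectionVars false

namespace Cfsg.Agent.Tens

open Module Cfsg.Agent.H7

variable {F U W V : Type*} [Field F] [AddCommGroup U] [Module F U] [AddCommGroup W] [Module F W]
  [AddCommGroup V] [Module F V]

theorem has_of_comp_right {X : Subgroup (V ≃ₗ[F] V)} {T T₁ T' : V → V} (h : Has X T)
    (h₁ : Has X T₁) (hT : ∀ x, T' (T₁ x) = T x) : Has X T' := by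
  obtain ⟨g, hg, h1⟩ := h
  obtain ⟨g₁, hg₁, h2⟩ := h₁
  refine ⟨g * g₁⁻¹, X.mul_mem hg (X.inv_mem hg₁), fun x => ?_⟩
  obtain ⟨y, rfl⟩ := g₁.surjective x
  rw [LinearEquiv.mul_apply, show g₁⁻¹ (g₁ y) = y from g₁.symm_apply_apply y, h1, h2, hT]

variable [Finite F] [FiniteDimensional F U] [FiniteDimensional F W]

namespace TS

variable (τ : TS F U W V) (PU : Polar F U) (PW : Polar F W)

/-- The general element of the unipotent radical with level `y ↦ B y u • b`. -/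
noncomputable def QE (e u : U) (b ζ : End F W) (v : V) : V :=
  v + τ.tp e (b (τ.pB PU u v)) - PU.ε • τ.tp u (PW.adj b (τ.pB PU e v)) +
    τ.tp e (ζ (τ.pB PU e v))

/-- The elementary map attached to a totally singular pair. -/
noncomputable def EE (e f : U) (b : End F W) : End F V :=
  1 + τ.K (PU.th e f) b - PU.ε • τ.K (PU.th f e) (PW.adj b)

/-- The central elements. -/
def ZZ (e : U) (ζ : End F W) (v : V) : V := v + τ.tp e (ζ (τ.pB PU e v))

theorem EE_apply (e f : U) (b : End F W) (v : V) : τ.EE PU PW e f b v = τ.QE PU PW e f b 0 v := by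
  simp [EE, QE, K_th]

theorem ZZ_eq (e : U) (ζ : End F W) (v : V) :
    τ.ZZ PU e ζ v = (1 + τ.K (PU.th e e) ζ : End F V) v := by simp [ZZ, K_th]

@[simp] theorem pB_zero (v : V) : τ.pB PU 0 v = 0 := by simp [pB]

theorem pB_neg (u : U) (v : V) : τ.pB PU (-u) v = -τ.pB PU u v := by simp [pB]

theorem pB_sub (u u' : U) (v : V) : τ.pB PU (u - u') v = τ.pB PU u v - τ.pB PU u' v := by
  simp [pB]

theorem QE_zero (e : U) (b ζ : End F W) (v : V) : τ.QE PU PW e 0 b ζ v = τ.ZZ PU e ζ v := by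
  simp [QE, ZZ]

variable {PU}

theorem pB_K_iso {a : U ≃ₗ[F] U} (ha : a ∈ PU.Iso) (d : End F W) (u : U) (v : V) :
    τ.pB PU (a u) (τ.K a d v) = d (τ.pB PU u v) := by
  induction v using τ.induction with
  | h0 => simp
  | h y x => simp [Polar.Iso.B ha]
  | hadd a b ha hb => simp [ha, hb]

theorem QE_comp {e u u' : U} (he : PU.B e e = 0) (hu : PU.B u e = 0) (hu' : PU.B u' e = 0)
    (b ζ ζ' : End F W) (v : V) :
    τ.QE PU PW e u b ζ (τ.QE PU PW e u' b ζ' v) =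
      τ.QE PU PW e (u + u') b (ζ + ζ' - (PU.ε * PU.B u' u) • (b * PW.adj b)) v := by
  have h1 := PU.B_symm hu
  simp only [QE, map_add, map_sub, map_smul, pB_tp, he, hu', h1, pB_add, LinearMap.add_apply,
    LinearMap.sub_apply, LinearMap.smul_apply, End.mul_apply, zero_smul, smul_zero, map_zero]
  module

theorem QE_comp' {e u : U} (he : PU.B e e = 0) (hu : PU.B u e = 0) (huu : PU.B u u = 0)
    (b b' : End F W) (v : V) :
    τ.QE PU PW e u b 0 (τ.QE PU PW e u b' 0 v) = τ.QE PU PW e u (b + b') 0 v := by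
  have h1 := PU.B_symm hu
  simp only [QE, map_add, map_sub, map_smul, pB_tp, he, hu, huu, h1, LinearMap.add_apply,
    Polar.adj_add, LinearMap.zero_apply, zero_smul, smul_zero, map_zero]
  module

theorem QE_comm {e u u' : U} (he : PU.B e e = 0) (hu : PU.B u e = 0) (hu' : PU.B u' e = 0)
    (b b' ζ ζ' : End F W) (v : V) :
    τ.ZZ PU e (PU.σ (PU.B u' u) • (b' * PW.adj b) - (PU.ε * PU.B u' u) • (b * PW.adj b'))
      (τ.QE PU PW e u' b' ζ' (τ.QE PU PW e u b ζ v)) =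
    τ.QE PU PW e u b ζ (τ.QE PU PW e u' b' ζ' v) := by
  have h1 := PU.B_symm hu
  have h2 := PU.B_symm hu'
  simp only [QE, ZZ, map_add, map_sub, map_smul, pB_tp, he, hu, hu', h1, h2,
    LinearMap.sub_apply, LinearMap.smul_apply, End.mul_apply, zero_smul, smul_zero, map_zero,
    PU.σ_herm]
  module

theorem QE_conj {a : U ≃ₗ[F] U} (ha : a ∈ PU.Iso) (e u : U) (b ζ : End F W) (v : V) :
    τ.QE PU PW (a e) (a u) b ζ (τ.KL a v) = τ.KL a (τ.QE PU PW e u b ζ v) := by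
  simp [QE, pB_K_iso τ ha]

theorem QE_smul (e u : U) (c : F) (b ζ : End F W) (hσ : ∀ a, PW.σ a = PU.σ a) (v : V) :
    τ.QE PU PW e (c • u) b ζ v = τ.QE PU PW e u (PU.σ c • b) ζ v := by
  simp [QE, pB_smul, hσ]

theorem KL_eich {e u : U} {c : F} (he : PU.Val e 0) (hw : PU.B (-(PU.ε • u)) e = 0)
    (hc : PU.Val (-(PU.ε • u)) c) (v : V) :
    τ.KL (Polar.eichE he hw hc) v = τ.QE PU PW e u 1 ((-PU.σ c) • 1) v := by
  induction v using τ.induction with
  | h0 => simp [QE]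
  | h y x =>
    have h2 := PU.ε_mul_ε
    simp only [KL_tp, Polar.eichE_apply, Polar.eich, QE, map_add, map_sub, map_smul, pB_tp,
      LinearMap.add_apply, LinearMap.sub_apply, LinearMap.smul_apply, End.one_apply,
      Polar.adj_one, map_neg, LinearMap.neg_apply, Polar.B_smul_right, Polar.σ_ε, smul_neg]
    match_scalars
    · ring
    · ring
    · linear_combination (PU.B y u) * h2
  | hadd a b ha hb =>
    rw [map_add, ha, hb]
    simp only [QE, map_add, smul_add]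
    abel

end TS

/-- The standing hypotheses. -/
structure Setup (τ : TS F U W V) (PU : Polar F U) (PW : Polar F W) (PV : Polar F V)
    (X : Subgroup (V ≃ₗ[F] V)) : Prop where
  cp : Compat τ PU PW PV
  iso : X ≤ PV.Iso
  hL : ∀ g ∈ PU.E, τ.KL g ∈ X
  w2 : PU.W2

namespace TS

variable (τ : TS F U W V) (PU : Polar F U) (PW : Polar F W) (X : Subgroup (V ≃ₗ[F] V))

/-- `X` contains an element of the unipotent radical at `e` with level map `L`. -/
def Lv (e : U) (L : V →ₗ[F] W) : Prop :=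
  (∀ x, L (τ.tp e x) = 0) ∧ ∃ c ∈ X, ∀ v, τ.pB PU e v = 0 → c v = v + τ.tp e (L v)

/-- `X` contains an element of the unipotent radical at `e` with level `y ↦ B y u • b`. -/
def Lev (e u : U) (b : End F W) : Prop :=
  ∃ c ∈ X, ∀ v, τ.pB PU e v = 0 → c v = v + τ.tp e (b (τ.pB PU u v))

variable {τ PU PW X}

namespace Lv

variable {e : U} {L L' : V →ₗ[F] W}

theorem congr (h : τ.Lv PU X e L) (he : PU.B e e = 0)
    (hL : ∀ v, τ.pB PU e v = 0 → L v = L' v) : τ.Lv PU X e L' := by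
  obtain ⟨h0, c, hc, h1⟩ := h
  exact ⟨fun x => by rw [← hL _ (by simp [he]), h0], c, hc, fun v hv => by rw [h1 v hv, hL v hv]⟩

theorem add (h : τ.Lv PU X e L) (h' : τ.Lv PU X e L') (he : PU.B e e = 0) :
    τ.Lv PU X e (L + L') := by
  obtain ⟨h0, c, hc, h1⟩ := h
  obtain ⟨h0', c', hc', h1'⟩ := h'
  refine ⟨fun x => by simp [h0, h0'], c * c', X.mul_mem hc hc', fun v hv => ?_⟩
  rw [LinearEquiv.mul_apply, h1' v hv, h1 _ (by simp [hv, he])]
  simp only [map_add, h0, LinearMap.add_apply, map_zero]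
  abel

theorem neg (h : τ.Lv PU X e L) (he : PU.B e e = 0) : τ.Lv PU X e (-L) := by
  obtain ⟨h0, c, hc, h1⟩ := h
  refine ⟨fun x => by simp [h0], c⁻¹, X.inv_mem hc, fun v hv => ?_⟩
  have : c (v + τ.tp e ((-L) v)) = v := by
    rw [h1 _ (by simp [hv, he])]
    simp [h0]
  conv_lhs => rw [← this]
  exact c.symm_apply_apply _

theorem sub (h : τ.Lv PU X e L) (h' : τ.Lv PU X e L') (he : PU.B e e = 0) :
    τ.Lv PU X e (L - L') := by
  rw [sub_eq_add_neg]; exact h.add (h'.neg he) he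

end Lv

theorem lev_iff {e u : U} {b : End F W} (hu : PU.B u e = 0) :
    τ.Lev PU X e u b ↔ τ.Lv PU X e (b ∘ₗ τ.pB PU u) :=
  ⟨fun h => ⟨fun x => by simp [PU.B_symm hu], h⟩, fun h => h.2⟩

namespace Lev

variable {e u u' : U} {b b' : End F W}

theorem of_pB (h : ∀ v, τ.pB PU e v = 0 → τ.tp e (b (τ.pB PU u v)) = 0) : τ.Lev PU X e u b :=
  ⟨1, X.one_mem, fun v hv => by simp [h v hv]⟩

theorem zero_left (u : U) (b : End F W) : τ.Lev PU X 0 u b := of_pB fun v _ => by simp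

theorem self (e : U) (a : F) (b : End F W) : τ.Lev PU X e (a • e) b :=
  of_pB fun v hv => by simp [pB_smul, hv]

theorem congr (h : τ.Lev PU X e u b)
    (hh : ∀ v, τ.pB PU e v = 0 → b (τ.pB PU u v) = b' (τ.pB PU u' v)) : τ.Lev PU X e u' b' := by
  obtain ⟨c, hc, h1⟩ := h
  exact ⟨c, hc, fun v hv => by rw [h1 v hv, hh v hv]⟩

theorem add (h : τ.Lev PU X e u b) (h' : τ.Lev PU X e u' b) (he : PU.B e e = 0)
    (hu : PU.B u e = 0) (hu' : PU.B u' e = 0) : τ.Lev PU X e (u + u') b :=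
  (lev_iff (by simp [hu, hu'])).2
    ((((lev_iff hu).1 h).add ((lev_iff hu').1 h') he).congr he fun v _ => by simp [pB_add])

theorem sub (h : τ.Lev PU X e u b) (h' : τ.Lev PU X e u' b) (he : PU.B e e = 0)
    (hu : PU.B u e = 0) (hu' : PU.B u' e = 0) : τ.Lev PU X e (u - u') b :=
  (lev_iff (by simp [hu, hu'])).2
    ((((lev_iff hu).1 h).sub ((lev_iff hu').1 h') he).congr he fun v _ => by simp [pB_sub])

theorem add' (h : τ.Lev PU X e u b) (h' : τ.Lev PU X e u b') (he : PU.B e e = 0)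
    (hu : PU.B u e = 0) : τ.Lev PU X e u (b + b') :=
  (lev_iff hu).2 ((((lev_iff hu).1 h).add ((lev_iff hu).1 h') he).congr he fun v _ => by simp)

theorem smul_iff (c : F) : τ.Lev PU X e (c • u) b ↔ τ.Lev PU X e u (PU.σ c • b) :=
  ⟨fun h => h.congr fun v _ => by simp [pB_smul], fun h => h.congr fun v _ => by simp [pB_smul]⟩

theorem smul_left {c : F} (hc : c ≠ 0) :
    τ.Lev PU X (c • e) u b ↔ τ.Lev PU X e (PU.σ c • u) b := by
  have : ∀ v, τ.pB PU (c • e) v = 0 ↔ τ.pB PU e v = 0 := fun v => by simp [pB_smul, hc]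
  refine exists_congr fun g => and_congr_right fun _ => forall_congr' fun v => ?_
  rw [this]
  simp [pB_smul]

theorem of_has {ζ : End F W} (h : Has X (τ.QE PU PW e u b ζ)) : τ.Lev PU X e u b := by
  obtain ⟨c, hc, h1⟩ := h
  exact ⟨c, hc, fun v hv => by simp [h1, QE, hv]⟩

theorem conj (h : τ.Lev PU X e u b) {a : U ≃ₗ[F] U} (ha : a ∈ PU.Iso) (haX : τ.KL a ∈ X) :
    τ.Lev PU X (a e) (a u) b := by
  obtain ⟨c, hc, h1⟩ := h
  refine ⟨τ.KL a * c * (τ.KL a)⁻¹, X.mul_mem (X.mul_mem haX hc) (X.inv_mem haX), fun v hv => ?_⟩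
  obtain ⟨w, rfl⟩ := (τ.KL a).surjective v
  rw [KL_apply, pB_K_iso τ ha] at hv
  rw [LinearEquiv.mul_apply, LinearEquiv.mul_apply,
    show (τ.KL a)⁻¹ (τ.KL a w) = w from (τ.KL a).symm_apply_apply w, h1 w hv]
  simp [pB_K_iso τ ha]

end Lev

end TS

namespace Setup

variable {τ : TS F U W V} {PU : Polar F U} {PW : Polar F W} {PV : Polar F V}
  {X : Subgroup (V ≃ₗ[F] V)} (S : Setup τ PU PW PV X)
include S

theorem lv_conj {e : U} {L : V →ₗ[F] W} (h : τ.Lv PU X e L) {g : V ≃ₗ[F] V} (hg : g ∈ X)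
    (hge : ∀ x, g (τ.tp e x) = τ.tp e x) : τ.Lv PU X e (L ∘ₗ g.toLinearMap) := by
  obtain ⟨h0, c, hc, h1⟩ := h
  refine ⟨fun x => by simp [hge, h0], g⁻¹ * c * g, X.mul_mem (X.mul_mem (X.inv_mem hg) hc) hg,
    fun v hv => ?_⟩
  rw [LinearEquiv.mul_apply, LinearEquiv.mul_apply, h1 _ (by rw [S.cp.pB_apply (S.iso hg) hge, hv]),
    ← hge (L (g v)), ← map_add]
  exact g.symm_apply_apply _

/-- The basic commutator operation on levels. -/
theorem lv_comm {e : U} (he : PU.B e e = 0) {L L' : V →ₗ[F] W} (h : τ.Lv PU X e L) {T : V → V}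
    (hT : Has X T) (hTe : ∀ x, T (τ.tp e x) = τ.tp e x)
    (hL : ∀ v, τ.pB PU e v = 0 → L (T v) - L v = L' v) : τ.Lv PU X e L' := by
  obtain ⟨g, hg, h1⟩ := hT
  exact ((S.lv_conj h hg fun x => by rw [h1, hTe]).sub h he).congr he fun v hv => by
    simp [h1, hL v hv]

/-- The structure of an isometry with a given level. -/
theorem exists_QE' {e u : U} (he : PU.Val e 0) (h0 : e ≠ 0) (hu : PU.B u e = 0) {b : End F W}
    {c : V ≃ₗ[F] V} (hc : c ∈ PV.Iso)
    (h1 : ∀ v, τ.pB PU e v = 0 → c v = v + τ.tp e (b (τ.pB PU u v))) :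
    ∃ ζ, ∀ v, c v = τ.QE PU PW e u b ζ v := by
  obtain ⟨e', -, he'⟩ := Polar.exists_partner he h0
  have hee := Polar.sing_B he
  have heu := PU.B_symm hu
  let T : V →ₗ[F] V := c.toLinearMap - τ.EE PU PW e u b
  have hT : ∀ v, T v = c v - τ.QE PU PW e u b 0 v := fun v => by simp [T, TS.EE_apply]
  have hT0 : ∀ v, τ.pB PU e v = 0 → T v = 0 := fun v hv => by simp [hT, h1 v hv, TS.QE, hv]
  have hT1 : ∀ v, ∃ x, T v = τ.tp e x := fun v => τ.exists_eq_tp_of_pB PU fun y hy => by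
    have hy' := PU.B_symm hy
    refine S.cp.pB_eq_zero fun x => ?_
    have h2 : c (τ.tp y x - PU.B y u • τ.tp e (b x)) = τ.tp y x := by
      rw [h1 _ (by simp [hy', hee])]
      simp [heu]
    have h3 : PV.B (c v) (τ.tp y x) =
        PV.B v (τ.tp y x) - PU.σ (PU.B y u) * PW.B (τ.pB PU e v) (b x) := by
      conv_lhs => rw [← h2, Polar.Iso.B hc]
      simp [S.cp.B_right, S.cp.σV]
    rw [hT]
    simp only [TS.QE, map_add, map_sub, map_smul, LinearMap.add_apply, LinearMap.sub_apply,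
      LinearMap.smul_apply, h3, S.cp.B_tp, hy, PW.adj_B, PU.σ_herm, smul_eq_mul,
      LinearMap.zero_apply, map_zero]
    ring
  refine ⟨τ.pB PU (PU.ε • e') ∘ₗ T ∘ₗ τ.tp e', fun v => ?_⟩
  have h4 : T v = T (τ.tp e' (τ.pB PU e v)) := by
    have := hT0 (v - τ.tp e' (τ.pB PU e v)) (by simp [he'])
    rwa [map_sub, sub_eq_zero] at this
  obtain ⟨x, hx⟩ := hT1 (τ.tp e' (τ.pB PU e v))
  have h5 : PU.B e (PU.ε • e') = 1 := by
    rw [Polar.B_smul_right, PU.herm e' e, he']; simp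
  have h6 : c v = τ.QE PU PW e u b 0 v + T v := by rw [hT]; abel
  rw [h6, h4]
  simp only [TS.QE, LinearMap.comp_apply, hx, TS.pB_tp, h5, one_smul, LinearMap.zero_apply,
    map_zero, add_zero]

theorem exists_QE {e u : U} (he : PU.Val e 0) (hu : PU.B u e = 0) {b : End F W}
    (h : τ.Lev PU X e u b) : ∃ ζ, Has X (τ.QE PU PW e u b ζ) := by
  by_cases h0 : e = 0
  · exact ⟨0, Has.id.congr fun v => by simp [TS.QE, h0]⟩
  obtain ⟨c, hc, h1⟩ := h
  obtain ⟨ζ, hζ⟩ := S.exists_QE' he h0 hu (S.iso hc) h1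
  exact ⟨ζ, c, hc, hζ⟩

theorem has_QE_one {e u : U} (he : PU.Val e 0) (hu : PU.B u e = 0) :
    ∃ s : F, Has X (τ.QE PU PW e u 1 (s • 1)) := by
  obtain ⟨c, hc⟩ := PU.val_ex (-(PU.ε • u))
  have hw : PU.B (-(PU.ε • u)) e = 0 := by simp [hu]
  exact ⟨_, _, S.hL _ (Polar.eichE_mem_E he hw hc), τ.KL_eich PW he hw hc⟩

theorem lev_one {e u : U} (he : PU.Val e 0) (hu : PU.B u e = 0) : τ.Lev PU X e u 1 := by
  obtain ⟨s, hs⟩ := S.has_QE_one he hu
  exact TS.Lev.of_has hs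

theorem lev_conj {e u : U} {b : End F W} (h : τ.Lev PU X e u b) {a : U ≃ₗ[F] U} (ha : a ∈ PU.E) :
    τ.Lev PU X (a e) (a u) b := h.conj (Polar.E_le_Iso ha) (S.hL a ha)

/-- Product of two levels at different points. -/
theorem lev_prod {e f u u' : U} (he : PU.Val e 0) (hf : PU.Val f 0) (hu : PU.B u e = 0)
    (hfe : PU.B f e = 0) (hu'e : PU.B u' e = 0) (huf : PU.B u f = 0) (hu'f : PU.B u' f = 0)
    {b b' : End F W} (h : τ.Lev PU X e u b) (h' : τ.Lev PU X f u' b') :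
    τ.Lev PU X e f ((-(PU.ε * PU.B u' u)) • (b * PW.adj b')) := by
  obtain ⟨ζ, hζ⟩ := S.exists_QE hf hu'f h'
  refine (TS.lev_iff hfe).2 (S.lv_comm (Polar.sing_B he) ((TS.lev_iff hu).1 h) hζ
    (fun x => by simp [TS.QE, PU.B_symm hfe, PU.B_symm hu'e]) fun v _ => ?_)
  simp [TS.QE, PU.B_symm huf, smul_smul]

/-- Product of a level with a central element. -/
theorem lev_mul_ZZ {e f u : U} (he : PU.Val e 0) (hu : PU.B u e = 0) (hfe : PU.B f e = 0)
    {b ζ : End F W} (h : τ.Lev PU X e u b) (h' : Has X (τ.ZZ PU f ζ)) :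
    τ.Lev PU X e f (PU.B f u • (b * ζ)) := by
  refine (TS.lev_iff hfe).2 (S.lv_comm (Polar.sing_B he) ((TS.lev_iff hu).1 h) h'
    (fun x => by simp [TS.ZZ, PU.B_symm hfe]) fun v _ => ?_)
  simp [TS.ZZ]

/-- Commutator of two levels at the same point. -/
theorem has_ZZ_comm {e u u' : U} (he : PU.Val e 0) (hu : PU.B u e = 0) (hu' : PU.B u' e = 0)
    {b b' : End F W} (h : τ.Lev PU X e u b) (h' : τ.Lev PU X e u' b') :
    Has X (τ.ZZ PU e
      (PU.σ (PU.B u' u) • (b' * PW.adj b) - (PU.ε * PU.B u' u) • (b * PW.adj b'))) := by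
  obtain ⟨ζ, hζ⟩ := S.exists_QE he hu h
  obtain ⟨ζ', hζ'⟩ := S.exists_QE he hu' h'
  exact has_of_comp_right (hζ.comp hζ') (hζ'.comp hζ)
    (τ.QE_comm PW (Polar.sing_B he) hu hu' b b' ζ ζ')

/-- The commutator with an element of the first factor does not depend on the central part. -/
theorem has_exact {e u w : U} (he : PU.Val e 0) (hu : PU.B u e = 0) (hw : PU.B w e = 0)
    {b : End F W} (h : τ.Lev PU X e u b) {a : U ≃ₗ[F] U} (ha : a ∈ PU.E) (hae : a e = e)
    (hau : a u = w + u) (hZ : Has X (τ.ZZ PU e ((PU.ε * PU.B u w) • (b * PW.adj b)))) :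
    Has X (τ.QE PU PW e w b 0) := by
  obtain ⟨ζ, hζ⟩ := S.exists_QE he hu h
  have h1 : Has X (τ.QE PU PW e (w + u) b ζ) := by
    have := hζ.conj (T' := τ.QE PU PW (a e) (a u) b ζ) (S.hL a ha)
      (τ.QE_conj PW (Polar.E_le_Iso ha) e u b ζ)
    rwa [hae, hau] at this
  have h2 : Has X (τ.QE PU PW e w b ((PU.ε * PU.B u w) • (b * PW.adj b))) :=
    has_of_comp_right h1 hζ fun v => by
      rw [τ.QE_comp PW (Polar.sing_B he) hw hu]; simp
  refine has_of_comp_right h2 hZ fun v => ?_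
  rw [← τ.QE_zero PU PW e b, τ.QE_comp PW (Polar.sing_B he) hw (by simp)]
  simp

end Setup

end Cfsg.Agent.Tens
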