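import Cfsg.Agent.Tens.Level

/-!
The space of levels: spreading a level over all singular points, exactness, products.
-/

set_option autoImplicit false
set_option linter.unusedSectionVars false

namespace Cfsg.Agent.H7.Polar

open Module Cfsg.Agent.Tens

variable {F V : Type*} [Field F] [AddCommGroup V] [Module F V] (P : Polar F V)

/-- The dimension is at least five, or there are transvections with a minimal parameter. -/
def Reg : Prop := 5 ≤ finrank F V ∨ ∃ a, a - P.ε * P.σ a ≠ 0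

/-- The dimension is at least five, or the space is unitary. -/
def Rng : Prop := 5 ≤ finrank F V ∨ ∃ a, P.σ a ≠ a

variable {P}

theorem exists_min_ne_of_σ (h : ∃ a, P.σ a ≠ a) : ∃ a, a - P.ε * P.σ a ≠ 0 := by
  by_contra! h1
  obtain ⟨a, ha⟩ := h
  have h2 := h1 1
  have h3 := h1 a
  rw [map_one] at h2
  exact ha (by linear_combination -h3 + P.σ a * h2)

theorem Rng.reg (h : P.Rng) : P.Reg := h.imp id exists_min_ne_of_σ

/-- An additive set of scalars containing the minimal form parameter and stable under the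
elements `σ m / m` is everything. -/
theorem scalar_induction (h : ∃ a, a - P.ε * P.σ a ≠ 0) {p : F → Prop}
    (hadd : ∀ a b, p a → p b → p (a + b)) (hmin : ∀ a, p (a - P.ε * P.σ a))
    (hmul : ∀ a m, m ≠ 0 → p a → p (P.σ m * m⁻¹ * a)) (c : F) : p c := by
  obtain ⟨a, ha⟩ := h
  have key : ∀ t, P.σ t = t → p (t * (a - P.ε * P.σ a)) := fun t ht => by
    convert hmin (t * a) using 1
    rw [map_mul, ht]; ring
  by_cases hσ : ∀ x, P.σ x = x
  · convert key (c / (a - P.ε * P.σ a)) (hσ _) using 1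
    field_simp
  push Not at hσ
  obtain ⟨m, hm0, hm⟩ : ∃ m, m ≠ 0 ∧ P.σ (P.σ m * m⁻¹) ≠ P.σ m * m⁻¹ := by
    obtain ⟨x, hx⟩ := hσ
    have hx0 : x ≠ 0 := fun e => hx (by simp [e])
    have hx1 : x + 1 ≠ 0 := fun e => hx (by simp [eq_neg_of_add_eq_zero_left e])
    have aux : ∀ m, m ≠ 0 → P.σ m ≠ m → P.σ (P.σ m * m⁻¹) = P.σ m * m⁻¹ → P.σ m = -m := by
      intro m h0 h1 h2
      have h3 : P.σ m ≠ 0 := by simpa using h0
      rw [map_mul, map_inv₀, σσ] at h2
      field_simp at h2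
      have : (P.σ m - m) * (P.σ m + m) = 0 := by linear_combination -h2
      exact eq_neg_of_add_eq_zero_left ((mul_eq_zero.1 this).resolve_left (sub_ne_zero.2 h1))
    by_contra! hcon
    have h1 := aux x hx0 hx (hcon x hx0)
    have h2 := aux (x + 1) hx1 (by simpa using hx) (hcon _ hx1)
    rw [map_add, map_one, h1] at h2
    exact hx (by rw [h1]; linear_combination (-x) * h2)
  obtain ⟨ν, hν⟩ : ∃ ν, ν = P.σ m * m⁻¹ := ⟨_, rfl⟩
  rw [← hν] at hm
  have hm' : ν - P.σ ν ≠ 0 := sub_ne_zero.2 hm.symm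
  have hm'' : P.σ ν - ν ≠ 0 := sub_ne_zero.2 hm
  obtain ⟨x, hx⟩ : ∃ x, x = c / (a - P.ε * P.σ a) := ⟨_, rfl⟩
  obtain ⟨t, ht⟩ : ∃ t, t = (x - P.σ x) / (ν - P.σ ν) := ⟨_, rfl⟩
  have h1 : P.σ t = t := by
    rw [ht, map_div₀, map_sub, map_sub, σσ, σσ]; field_simp; ring
  have h2 : P.σ (x - t * ν) = x - t * ν := by
    rw [map_sub, map_mul, h1, ht]; field_simp; ring
  convert hadd _ _ (key _ h2) (hmul _ m hm0 (key _ h1)) using 1
  rw [← hν]
  have : c = x * (a - P.ε * P.σ a) := by rw [hx]; field_simp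
  rw [this]; ring

variable [Finite F] [FiniteDimensional F V]

theorem finrank_pp_five (h : 5 ≤ finrank F V) (e : V) :
    finrank F ↥(P.pp e ⊓ P.perp (P.pp e)) + 3 ≤ finrank F (P.pp e) := by
  have h1 := finrank_inf_pp_ge (P := P) ⊤ e
  rw [finrank_top, top_inf_eq] at h1
  have h2 : P.pp e ⊓ P.perp (P.pp e) ≤ F ∙ e := by
    rw [← perp_span_singleton, perp_perp]; exact inf_le_right
  have h3 := Submodule.finrank_mono h2
  have h4 := finrank_span_singleton_le (F := F) e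
  omega

theorem exists_pair_five (h : 5 ≤ finrank F V) {e f : V} (hfe : P.B f e = 0) (μ : F) :
    ∃ u w, P.B u e = 0 ∧ P.B u f = 0 ∧ P.B w e = 0 ∧ P.B w f = 0 ∧ P.B u w = μ := by
  obtain ⟨u, hu, w, hw, h1⟩ := exists_nonperp_pair (M := P.pp e) (e := f) hfe (finrank_pp_five h e)
  have hu1 : P.B u e = 0 := hu.1
  have hu2 : P.B u f = 0 := hu.2
  exact ⟨(μ / P.B u w) • u, w, by simp [hu1], by simp [hu2], hw.1, hw.2, by simp [h1]⟩

/-- Elementary transvections on a totally singular plane. -/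
theorem exists_E_plane {e v : V} (hv : P.Val v 0) (he : P.Val e 0) (hev : P.B e v = 0)
    (h : e ∉ F ∙ v) (a : F) : ∃ g ∈ P.E, g v = v ∧ g e = e + a • v := by
  obtain ⟨e', h1, h2, h3⟩ := exists_partner_perp he hev h
  have h4 : P.B e e' = P.ε := by rw [P.herm e' e, h3]; simp
  refine ⟨_, eichE_mem_E (w := (-P.σ a) • e') hv (by simp [h2]) (sing_smul h1 _), ?_, ?_⟩
  · simp [eich, sing_B hv, P.B_symm h2]
  · simp [eich, hev, h4, mul_comm a, ← mul_assoc]

omit [Finite F] [FiniteDimensional F V] in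
theorem notMem_span_symm {e v : V} (he : e ≠ 0) (h : v ∉ F ∙ e) : e ∉ F ∙ v := by
  intro h1
  obtain ⟨a, rfl⟩ := Submodule.mem_span_singleton.1 h1
  have ha : a ≠ 0 := fun e => he (by simp [e])
  exact h (Submodule.mem_span_singleton.2 ⟨a⁻¹, by simp [smul_smul, ha]⟩)

theorem W2.exists_pair (h : P.W2) {e : V} (he : P.Val e 0) (h0 : e ≠ 0) (μ : F) :
    ∃ u u', P.B u e = 0 ∧ P.B u' e = 0 ∧ P.B u' u = μ := by
  obtain ⟨f, hf, hfe, hfe'⟩ := h.exists_sing_perp he h0
  obtain ⟨f', -, h2, h3⟩ := exists_partner_perp hf hfe hfe'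
  exact ⟨f, μ • f', hfe, by simp [h2], by simp [h3]⟩

end Cfsg.Agent.H7.Polar

namespace Cfsg.Agent.Tens

open Module Cfsg.Agent.H7

variable {F U W V : Type*} [Field F] [AddCommGroup U] [Module F U] [AddCommGroup W] [Module F W]
  [AddCommGroup V] [Module F V] [Finite F] [FiniteDimensional F U] [FiniteDimensional F W]

namespace TS

variable (τ : TS F U W V) (PU : Polar F U) (PW : Polar F W) (X : Subgroup (V ≃ₗ[F] V))

/-- The vectors all of whose multiples occur in a level with coefficient `b`. -/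
def levSub {e : U} (he : PU.Val e 0) (b : End F W) : Submodule F U where
  carrier := {u | PU.B u e = 0 ∧ ∀ a : F, τ.Lev PU X e (a • u) b}
  zero_mem' := ⟨by simp, fun a => by simpa using Lev.self e 0 b⟩
  add_mem' := by
    rintro u u' ⟨h1, h2⟩ ⟨h1', h2'⟩
    refine ⟨by simp [h1, h1'], fun a => ?_⟩
    rw [smul_add]
    exact (h2 a).add (h2' a) (Polar.sing_B he) (by simp [h1]) (by simp [h1'])
  smul_mem' := by
    rintro c u ⟨h1, h2⟩
    exact ⟨by simp [h1], fun a => by rw [smul_smul]; exact h2 _⟩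

/-- The coefficients occurring in all levels. -/
def LL : Submodule F (End F W) where
  carrier := {b | ∀ e, PU.Val e 0 → ∀ u, PU.B u e = 0 → τ.Lev PU X e u b}
  zero_mem' := fun e _ u _ => Lev.of_pB fun v _ => by simp
  add_mem' := fun h h' e he u hu => (h e he u hu).add' (h' e he u hu) (Polar.sing_B he) hu
  smul_mem' := fun c b h e he u hu => by
    have := (Lev.smul_iff (PU.σ c)).1 (h e he (PU.σ c • u) (by simp [hu]))
    simpa using this

/-- The coefficients of the central elements. -/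
def DD : AddSubgroup (End F W) where
  carrier := {ζ | ∀ e, PU.Val e 0 → Has X (τ.ZZ PU e ζ)}
  zero_mem' := fun e _ => Has.id.congr fun v => by simp [ZZ]
  add_mem' := fun {a b} h h' e he => ((h e he).comp (h' e he)).congr fun v => by
    simp only [ZZ, map_add, pB_tp, Polar.sing_B he, zero_smul, LinearMap.add_apply, map_zero]
    abel
  neg_mem' := fun {a} h e he => (h e he).inv fun v => by simp [ZZ, Polar.sing_B he]

theorem mem_LL {b : End F W} :
    b ∈ τ.LL PU X ↔ ∀ e, PU.Val e 0 → ∀ u, PU.B u e = 0 → τ.Lev PU X e u b := Iff.rfl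

theorem mem_DD {ζ : End F W} : ζ ∈ τ.DD PU X ↔ ∀ e, PU.Val e 0 → Has X (τ.ZZ PU e ζ) := Iff.rfl

theorem mem_DD' {ζ : End F W} :
    ζ ∈ τ.DD PU X ↔ ∀ e, PU.Val e 0 → Has X (1 + τ.K (PU.th e e) ζ : End F V) := by
  simp only [mem_DD]
  exact forall₂_congr fun e _ =>
    ⟨fun h => h.congr (τ.ZZ_eq PU e ζ), fun h => h.congr fun v => (τ.ZZ_eq PU e ζ v).symm⟩

end TS

namespace Setup

variable {τ : TS F U W V} {PU : Polar F U} {PW : Polar F W} {PV : Polar F V}
  {X : Subgroup (V ≃ₗ[F] V)} (S : Setup τ PU PW PV X)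

/-- The coefficients of the elementary maps contained in `X`. -/
def CC : Submodule F (End F W) where
  carrier := {b | ∀ e f, PU.Val e 0 → PU.Val f 0 → PU.B f e = 0 → Has X (τ.EE PU PW e f b)}
  zero_mem' := fun e f _ _ _ => Has.id.congr fun v => by simp [TS.EE]
  add_mem' := fun {a b} h h' e f he hf hfe =>
    ((h e f he hf hfe).comp (h' e f he hf hfe)).congr fun v => by
      simp only [TS.EE_apply]
      exact τ.QE_comp' PW (Polar.sing_B he) hfe (Polar.sing_B hf) a b v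
  smul_mem' := fun c b h e f he hf hfe =>
    (h e (PU.σ c • f) he (Polar.sing_smul hf _) (by simp [hfe])).congr fun v => by
      simp only [TS.EE_apply]
      rw [τ.QE_smul PW e f _ b 0 S.cp.σW, PU.σσ]

theorem mem_CC {b : End F W} : b ∈ S.CC ↔
    ∀ e f, PU.Val e 0 → PU.Val f 0 → PU.B f e = 0 → Has X (τ.EE PU PW e f b) := Iff.rfl

theorem has_QE_of_CC {b : End F W} (h : b ∈ S.CC) {e f : U} (he : PU.Val e 0) (hf : PU.Val f 0)
    (hfe : PU.B f e = 0) : Has X (τ.QE PU PW e f b 0) :=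
  (h e f he hf hfe).congr (τ.EE_apply PU PW e f b)

theorem adj_mem_CC {b : End F W} (h : b ∈ S.CC) : PW.adj b ∈ S.CC := fun e f he hf hfe =>
  (S.CC.smul_mem (-PU.ε) h f e hf he (PU.B_symm hfe)).congr fun v => by
    have h2 := PU.ε_mul_ε
    simp only [TS.EE, map_smul, Polar.adj_smul, Polar.adj_adj, S.cp.σW, map_neg, Polar.σ_ε,
      LinearMap.add_apply, LinearMap.sub_apply, LinearMap.smul_apply, End.one_apply]
    match_scalars
    · ring
    · ring
    · linear_combination h2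

include S

theorem mem_LL_of {b : End F W} (h : ∀ e f, PU.Val e 0 → PU.Val f 0 → PU.B f e = 0 → e ≠ 0 →
    f ∉ F ∙ e → τ.Lev PU X e f b) : b ∈ τ.LL PU X := fun e he u hu => by
  by_cases h0 : e = 0
  · exact h0 ▸ TS.Lev.zero_left u b
  refine (S.w2.perp_induction he h0 (p := fun y => PU.B y e = 0 ∧ τ.Lev PU X e y b)
    (fun f h1 h2 => ⟨h1, ?_⟩) (fun a c ha hc => ⟨by simp [ha.1, hc.1], ?_⟩) hu).2
  · by_cases h3 : f ∈ F ∙ e
    · obtain ⟨a, rfl⟩ := Submodule.mem_span_singleton.1 h3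
      exact TS.Lev.self e a b
    · exact h e f he h2 h1 h0 h3
  · exact ha.2.add hc.2 (Polar.sing_B he) ha.1 hc.1

theorem CC_le_LL : S.CC ≤ τ.LL PU X := fun _ h =>
  S.mem_LL_of fun _ _ he hf hfe _ _ => TS.Lev.of_has (S.has_QE_of_CC h he hf hfe)

theorem one_mem_LL : (1 : End F W) ∈ τ.LL PU X := fun _ he _ hu => S.lev_one he hu

theorem mem_DD_of_LL {b b' : End F W} (h : b ∈ τ.LL PU X) (h' : b' ∈ τ.LL PU X) (μ : F) :
    PU.σ μ • (b' * PW.adj b) - (PU.ε * μ) • (b * PW.adj b') ∈ τ.DD PU X := fun e he => by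
  by_cases h0 : e = 0
  · exact Has.id.congr fun v => by simp [TS.ZZ, h0]
  obtain ⟨u, u', h1, h2, rfl⟩ := S.w2.exists_pair he h0 μ
  exact S.has_ZZ_comm he h1 h2 (h e he u h1) (h' e he u' h2)

theorem LL_le_CC (hr : PU.Reg) : τ.LL PU X ≤ S.CC := fun b h e f he hf hfe => by
  refine Has.congr ?_ fun v => (τ.EE_apply PU PW e f b v).symm
  by_cases h0 : e = 0
  · exact Has.id.congr fun v => by simp [TS.QE, h0]
  by_cases h1 : f ∈ F ∙ e
  · obtain ⟨a, rfl⟩ := Submodule.mem_span_singleton.1 h1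
    refine (S.mem_DD_of_LL h S.one_mem_LL (-(PU.ε * PU.σ a)) e he).congr fun v => ?_
    have h2 := PU.ε_mul_ε
    simp only [TS.ZZ, TS.QE, TS.pB_smul, map_smul, map_neg, map_mul, Polar.σ_ε, Polar.σσ,
      Polar.adj_one, mul_one, one_mul, LinearMap.sub_apply, LinearMap.smul_apply, map_sub,
      LinearMap.zero_apply, map_zero]
    match_scalars
    · ring
    · ring
    · linear_combination (PU.σ a) * h2
  rcases hr with hr | ⟨a, ha⟩
  · obtain ⟨u, w, h2, h3, h4, h5, h6⟩ := Polar.exists_pair_five hr hfe (-PU.ε)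
    obtain ⟨c, hc⟩ := PU.val_ex w
    refine S.has_exact he h2 hfe (h e he u h2) (Polar.eichE_mem_E hf h5 hc)
      (by simp [Polar.eich, PU.B_symm hfe, PU.B_symm h4]) (by simp [Polar.eich, h3, h6, add_comm])
      (Has.id.congr fun v => by simp [TS.ZZ, h3])
  · obtain ⟨u, -, h2, h3⟩ := Polar.exists_partner_perp hf hfe h1
    have hκ : PU.σ (a - PU.ε * PU.σ a) ≠ 0 := fun h => ha (PU.σ_eq_zero.1 h)
    suffices ∀ b ∈ τ.LL PU X, Has X (τ.QE PU PW e ((-PU.σ (a - PU.ε * PU.σ a)) • f) b 0) by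
      refine (this _ ((τ.LL PU X).smul_mem (-(a - PU.ε * PU.σ a))⁻¹ h)).congr fun v => ?_
      rw [τ.QE_smul PW e f _ _ 0 S.cp.σW, smul_smul, map_neg, PU.σσ,
        mul_inv_cancel₀ (neg_ne_zero.2 ha), one_smul]
    intro b h
    refine S.has_exact he h2 (by simp [hfe]) (h e he u h2)
      (Polar.eichE_mem_E (w := 0) hf (by simp) (PU.val_min a))
      (by simp [Polar.eich, PU.B_symm hfe]) (by simp only [Polar.eichE_apply, Polar.eich, h3, map_zero]; module)
      ((S.mem_DD_of_LL h h a e he).congr fun v => ?_)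
    congr 1
    have h2 := PU.ε_mul_ε
    simp only [Polar.B_smul_right, h3, map_neg, Polar.σσ]
    match_scalars
    linear_combination (-PU.σ a) * h2

theorem CC_eq_LL (hr : PU.Reg) : S.CC = τ.LL PU X := le_antisymm S.CC_le_LL (S.LL_le_CC hr)

theorem one_mem_CC : (1 : End F W) ∈ S.CC := fun e f he hf hfe => by
  have hw : PU.B (-(PU.ε • f)) e = 0 := by simp [hfe]
  have hc : PU.Val (-(PU.ε • f)) 0 := Polar.val_neg (Polar.sing_smul hf _)
  exact ⟨_, S.hL _ (Polar.eichE_mem_E he hw hc), fun v => by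
    rw [τ.KL_eich PW he hw hc, TS.EE_apply]; simp⟩

theorem scal_mem_CC {b : End F W} (h : Scal b) : b ∈ S.CC := by
  obtain ⟨c, rfl⟩ := h.eq
  exact S.CC.smul_mem c S.one_mem_CC

theorem mem_DD_of_CC {b b' : End F W} (h : b ∈ S.CC) (h' : b' ∈ S.CC) (μ : F) :
    PU.σ μ • (b' * PW.adj b) - (PU.ε * μ) • (b * PW.adj b') ∈ τ.DD PU X :=
  S.mem_DD_of_LL (S.CC_le_LL h) (S.CC_le_LL h') μ

theorem mul_mem_LL_of_DD {b ζ : End F W} (h : b ∈ τ.LL PU X) (hζ : ζ ∈ τ.DD PU X) :
    b * ζ ∈ τ.LL PU X := S.mem_LL_of fun e f he hf hfe _ h1 => by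
  obtain ⟨u, -, h2, h3⟩ := Polar.exists_partner_perp hf hfe h1
  have h4 : PU.B f (PU.ε • u) = 1 := by rw [Polar.B_smul_right, PU.herm u f, h3]; simp
  have := S.lev_mul_ZZ he (u := PU.ε • u) (by simp [h2]) hfe (h e he _ (by simp [h2])) (hζ f hf)
  rwa [h4, one_smul] at this

/-- `C · D ⊆ C`. -/
theorem mul_mem_CC_of_DD (hr : PU.Reg) {b ζ : End F W} (h : b ∈ S.CC) (hζ : ζ ∈ τ.DD PU X) :
    b * ζ ∈ S.CC := S.LL_le_CC hr (S.mul_mem_LL_of_DD (S.CC_le_LL h) hζ)

theorem mem_CC_of_DD (hr : PU.Reg) {ζ : End F W} (hζ : ζ ∈ τ.DD PU X) : ζ ∈ S.CC := by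
  simpa using S.mul_mem_CC_of_DD hr S.one_mem_CC hζ

theorem adj_of_DD {ζ : End F W} (hζ : ζ ∈ τ.DD PU X) : PW.adj ζ = (-PU.ε) • ζ := by
  obtain ⟨e, he, h0⟩ := S.w2.exists_sing
  obtain ⟨e', he', h1⟩ := Polar.exists_partner he h0
  obtain ⟨c, hc, h2⟩ := hζ e he
  refine PW.adj_eq_of fun z x => ?_
  have := Polar.Iso.B (S.iso hc) (τ.tp e' z) (τ.tp e' x)
  have h4 : PU.B e e' = PU.ε := by rw [PU.herm e' e, h1]; simp
  simp [h2, TS.ZZ, S.cp.B_tp, h1, h4, Polar.sing_B he, Polar.sing_B he'] at this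
  simp only [LinearMap.smul_apply, map_smul, smul_eq_mul]
  linear_combination -this

theorem mul_adj_mem_CC (hr : PU.Rng) {b b' : End F W} (h : b ∈ S.CC) (h' : b' ∈ S.CC) :
    b * PW.adj b' ∈ S.CC := by
  rcases hr with hr | ⟨m, hm⟩
  · refine S.LL_le_CC (Or.inl hr) (S.mem_LL_of fun e f he hf hfe _ _ => ?_)
    obtain ⟨u', u, h2, h3, h4, h5, h6⟩ := Polar.exists_pair_five hr hfe (-PU.ε)
    have := S.lev_prod he hf h4 hfe h2 h5 h3 (S.CC_le_LL h e he u h4) (S.CC_le_LL h' f hf u' h3)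
    simpa [h6] using this
  · have hr : PU.Reg := Polar.Rng.reg (Or.inr ⟨m, hm⟩)
    have h1 := S.mem_CC_of_DD hr (S.mem_DD_of_CC h' h m)
    have h2 := S.mem_CC_of_DD hr (S.mem_DD_of_CC h' h 1)
    have h3 := S.CC.smul_mem (PU.σ m - m)⁻¹ (S.CC.sub_mem h1 (S.CC.smul_mem m h2))
    convert h3 using 1
    have h4 : PU.σ m - m ≠ 0 := sub_ne_zero.2 hm
    rw [map_one]
    match_scalars
    · field_simp
    · ring

/-- `C` is a ring. -/
theorem mul_mem_CC (hr : PU.Rng) {b b' : End F W} (h : b ∈ S.CC) (h' : b' ∈ S.CC) :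
    b * b' ∈ S.CC := by
  simpa using S.mul_adj_mem_CC hr h (S.adj_mem_CC h')

/-! ### Spreading -/

theorem lev_swap {e v : U} (he : PU.Val e 0) (hv : PU.Val v 0) (hve : PU.B v e = 0) (h0 : e ≠ 0)
    (h1 : v ∉ F ∙ e) {b : End F W} (h : τ.Lev PU X e v b) {a : F} (ha : a ≠ 0) :
    τ.Lev PU X (a • v) ((-a⁻¹) • e) b := by
  have hev := PU.B_symm hve
  obtain ⟨g, hg, h2, h3⟩ := Polar.exists_E_plane hv he hev (Polar.notMem_span_symm h0 h1) a
  obtain ⟨g', hg', h2', h3'⟩ := Polar.exists_E_plane he hv hve h1 (-a⁻¹)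
  have h4 := S.lev_conj h hg
  rw [h2, h3] at h4
  have h5 := S.lev_conj (h4.sub (TS.Lev.self (e + a • v) a⁻¹ b)
    (by simp [hve, hev, Polar.sing_B he, Polar.sing_B hv]) (by simp [hve, Polar.sing_B hv])
    (by simp [hve, hev, Polar.sing_B he, Polar.sing_B hv])) hg'
  convert h5 using 1
  · rw [map_add, map_smul, h2', h3']
    match_scalars
    · field_simp
    · field_simp; ring
  · rw [map_sub, map_smul, map_add, map_smul, h2', h3']
    match_scalars
    · field_simp; ring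
    · field_simp; ring

theorem levSub_swap {e v : U} (he : PU.Val e 0) (hv : PU.Val v 0) (h0 : e ≠ 0)
    (h1 : v ∉ F ∙ e) {b : End F W} (h : v ∈ τ.levSub PU X he b) : e ∈ τ.levSub PU X hv b := by
  refine ⟨PU.B_symm h.1, fun a => ?_⟩
  by_cases ha : a = 0
  · simpa [ha] using TS.Lev.self v 0 b
  have ha' : -PU.σ a ≠ 0 := by simpa using ha
  have := S.lev_swap he (Polar.sing_smul hv _) (by simp [h.1]) h0
    (by rwa [Submodule.smul_mem_iff _ ha']) (h.2 (-PU.σ a)) one_ne_zero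
  rw [one_smul, TS.Lev.smul_left ha'] at this
  simpa using this

theorem lev_torus {e v : U} (he : PU.Val e 0) (hv : PU.Val v 0) (hve : PU.B v e = 0) (h0 : e ≠ 0)
    (h1 : v ∉ F ∙ e) {b : End F W} {a m : F} (hm : m ≠ 0) (h : τ.Lev PU X e (a • v) b) :
    τ.Lev PU X e ((PU.σ m * m⁻¹ * a) • v) b := by
  by_cases ha : a = 0
  · simpa [ha] using TS.Lev.self e 0 b
  have hv0 : v ≠ 0 := fun h => h1 (by simp [h])
  have h2 : a • v ∉ F ∙ e := by rwa [Submodule.smul_mem_iff _ ha]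
  have h3 := S.lev_swap he (Polar.sing_smul hv _) (by simp [hve]) h0 h2 h one_ne_zero
  rw [one_smul] at h3
  have h4 := S.lev_swap (Polar.sing_smul hv _) (Polar.sing_smul he _) (by simp [PU.B_symm hve])
    (smul_ne_zero ha hv0) (by
      rw [Submodule.smul_mem_iff _ (by simp)]; exact Polar.notMem_span_symm h0 h2) h3
    (neg_ne_zero.2 hm)
  rw [smul_smul, show -m * -1⁻¹ = m by simp, TS.Lev.smul_left hm, smul_smul, smul_smul] at h4
  convert h4 using 2
  simp

theorem levSub_eInv {e : U} (he : PU.Val e 0) (b : End F W) :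
    PU.EInv (PU.pp e) (τ.levSub PU X he b) := by
  intro f hf w hw c h1 h2 h3 x hx
  have hf' : PU.B e f = 0 := PU.B_symm hf
  have hw' : PU.B e w = 0 := PU.B_symm hw
  have h4 : Polar.eichE h1 h2 h3 e = e := by simp [Polar.eich, hf', hw']
  refine ⟨?_, fun a => ?_⟩
  · rw [← Polar.eichE_apply h1 h2 h3, ← h4, Polar.Iso.B (Polar.eichE_mem_Iso h1 h2 h3)]
    exact hx.1
  · have := S.lev_conj (hx.2 a) (Polar.eichE_mem_E h1 h2 h3)
    rwa [h4, map_smul] at this

theorem levSub_spread (hr : PU.Reg) {e v : U} (he : PU.Val e 0) (hv : PU.Val v 0)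
    (h1 : v ∉ F ∙ e) {b : End F W} (h : v ∈ τ.levSub PU X he b) :
    PU.pp e ≤ τ.levSub PU X he b := by
  obtain ⟨v', h2, h3, h4⟩ := Polar.exists_partner_perp hv h.1 h1
  have h5 : PU.B v v' ≠ 0 := PU.B_ne_symm (by simp [h4])
  rcases hr with hr | ⟨a, ha⟩
  · exact (S.levSub_eInv he b).le_of_sing h h3 h2 h5 (Polar.finrank_pp_five hr e)
  have hκ : PU.σ (a - PU.ε * PU.σ a) ≠ 0 := fun h => ha (PU.σ_eq_zero.1 h)
  have key : ∀ u, PU.B u e = 0 → PU.Val u 0 → PU.B v u ≠ 0 → u ∈ τ.levSub PU X he b := by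
    intro u hu hus huv
    have := Submodule.sub_mem _ h
      (S.levSub_eInv he b u hu 0 (by simp) _ hus (by simp) (PU.val_min a) v h)
    simp only [Polar.eich, map_zero, smul_zero, mul_zero, zero_add, add_zero, sub_sub_cancel] at this
    rwa [Submodule.smul_mem_iff _ (mul_ne_zero hκ huv)] at this
  have key2 : ∀ y, PU.B y e = 0 → PU.B y v ≠ 0 → y ∈ τ.levSub PU X he b := by
    intro y hy hyv
    obtain ⟨c, hc⟩ := Polar.exists_val_add_sing hv hyv 0
    have := key _ (by simp [hy, h.1]) hc (by simpa [Polar.sing_B hv] using PU.B_ne_symm hyv)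
    simpa using Submodule.sub_mem _ this (Submodule.smul_mem _ c h)
  intro y hy
  have hy' : PU.B y e = 0 := hy
  by_cases h6 : PU.B y v = 0
  · simpa using Submodule.sub_mem _ (key2 (y + v') (by simp [hy', h3]) (by simp [h6, h4]))
      (key v' h3 h2 h5)
  · exact key2 y hy h6

/-- A coefficient occurring for one totally singular pair (with all multiples) lies in `C`. -/
theorem mem_CC_of_levSub (hr : PU.Reg) {e v : U} (he : PU.Val e 0) (hv : PU.Val v 0) (h0 : e ≠ 0)
    (h1 : v ∉ F ∙ e) {b : End F W} (h : v ∈ τ.levSub PU X he b) : b ∈ S.CC := by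
  refine S.LL_le_CC hr fun f hf => ?_
  by_cases hf0 : f = 0
  · exact fun u _ => hf0 ▸ TS.Lev.zero_left u b
  refine S.w2.connected (p := fun f => ∀ u, PU.B u f = 0 → τ.Lev PU X f u b)
    (fun e f he hf h0 hf0 hfe hp u hu => ?_) he hf h0 hf0
    fun u hu => by simpa using (S.levSub_spread hr he hv h1 h hu).2 1
  by_cases h2 : f ∈ F ∙ e
  · obtain ⟨a, rfl⟩ := Submodule.mem_span_singleton.1 h2
    have ha : a ≠ 0 := fun h => hf0 (by simp [h])
    exact (TS.Lev.smul_left ha).2 (hp _ (by simpa [ha] using hu))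
  · have h3 : f ∈ τ.levSub PU X he b := ⟨hfe, fun a => hp _ (by simp [hfe])⟩
    simpa using (S.levSub_spread hr hf he (Polar.notMem_span_symm h0 h2)
      (S.levSub_swap he hf h0 h2 h3) hu).2 1

/-- All slices of a level map lie in `C`. -/
theorem slice_mem_CC (hr : PU.Reg) {e : U} (he : PU.Val e 0) (h0 : e ≠ 0) {L : V →ₗ[F] W}
    (h : τ.Lv PU X e L) {y : U} (hy : PU.B y e = 0) : L ∘ₗ τ.tp y ∈ S.CC := by
  have hee := Polar.sing_B he
  refine S.w2.perp_induction he h0 (p := fun y => L ∘ₗ τ.tp y ∈ S.CC) (fun v hve hv => ?_)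
    (fun a c ha hc => by simpa [LinearMap.comp_add] using S.CC.add_mem ha hc) hy
  by_cases h1 : v ∈ F ∙ e
  · obtain ⟨a, rfl⟩ := Submodule.mem_span_singleton.1 h1
    rw [show L ∘ₗ τ.tp (a • e) = 0 from LinearMap.ext fun x => by simp [h.1]]
    exact S.CC.zero_mem
  have hev := PU.B_symm hve
  have hvv := Polar.sing_B hv
  refine S.mem_CC_of_levSub hr he hv h0 h1 ⟨hve, ?_⟩
  have step : ∀ (L L' : V →ₗ[F] W), τ.Lv PU X e L → ∀ w c, PU.B w e = 0 → PU.B w v = 0 →
      PU.Val w c → (∀ y x, L' (τ.tp y x) = PU.B y v • L (τ.tp w x) -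
        (PU.ε * PU.B y w + PU.σ c * PU.B y v) • L (τ.tp v x)) → τ.Lv PU X e L' := by
    intro L L' hL w c h2 h3 h4 h5
    refine S.lv_comm hee hL (Has.of_mem (S.hL _ (Polar.eichE_mem_E hv h3 h4)))
      (fun x => by simp [Polar.eich, hev, PU.B_symm h2]) fun z hz => ?_
    clear hz
    induction z using τ.induction with
    | h0 => simp
    | h y x =>
      simp only [TS.KL_tp, Polar.eichE_apply, Polar.eich, map_add, map_sub, map_smul, h5,
        LinearMap.add_apply, LinearMap.sub_apply, LinearMap.smul_apply]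
      abel
    | hadd a b ha hb =>
      simp only [map_add, ← ha, ← hb]
      abel
  rcases hr with hr | hr
  · intro a
    obtain ⟨w2, w, h2, h3, h4, h5, h6⟩ := Polar.exists_pair_five hr hve (-(PU.ε * PU.σ a))
    obtain ⟨c, hc⟩ := PU.val_ex w
    obtain ⟨c2, hc2⟩ := PU.val_ex w2
    have h7 := step L (L ∘ₗ (τ.KL (Polar.eichE hv h5 hc)).toLinearMap - L) h w c h4 h5 hc
      (fun y x => by
        simp only [LinearMap.sub_apply, LinearMap.comp_apply, LinearEquiv.coe_coe, TS.KL_tp,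
          Polar.eichE_apply, Polar.eich, map_add, map_sub, map_smul, LinearMap.add_apply,
          LinearMap.smul_apply]
        abel)
    refine (TS.lev_iff (by simp [hve])).2 (step _ _ h7 w2 c2 h2 h3 hc2 fun y x => ?_)
    have h8 := PU.ε_mul_ε
    simp only [LinearMap.sub_apply, LinearMap.comp_apply, LinearEquiv.coe_coe, TS.KL_tp,
      Polar.eichE_apply, Polar.eich, map_add, map_sub, map_smul, LinearMap.add_apply,
      LinearMap.smul_apply, h3, h6, hvv, PU.B_symm h5, TS.pB_tp, Polar.B_smul_right]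
    match_scalars
    · linear_combination (-(PU.σ a * PU.B y v)) * h8
    · ring
    · ring
  · refine Polar.scalar_induction hr (p := fun a => τ.Lev PU X e (a • v) (L ∘ₗ τ.tp v))
      (fun a c ha hc => ?_) (fun a => ?_) fun a m hm ha => S.lev_torus he hv hve h0 h1 hm ha
    · rw [add_smul]; exact ha.add hc hee (by simp [hve]) (by simp [hve])
    · refine (TS.lev_iff (by simp [hve])).2
        (step _ _ h 0 _ (by simp) (by simp) (PU.val_min (-a)) fun y x => ?_)
      simp only [LinearMap.comp_apply, TS.pB_tp, Polar.B_smul_right, map_smul, map_zero,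
        LinearMap.zero_apply, map_sub, map_neg, map_mul]
      module

end Setup

end Cfsg.Agent.Tens
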