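import Cfsg.Agent.Tens.PowC
import Cfsg.Agent.Tens.Rigid3
import Cfsg.Agent.Tens.C4Typ

/-!
Step C for tensor factors of Witt index one with transvections: one slot.
-/

set_option autoImplicit false
set_option linter.unusedSectionVars false

namespace Cfsg.Agent.Tens.One

open Module Cfsg.Agent.H7 Cfsg.Agent.H7.Polar

variable {F U W V : Type*} [Field F] [AddCommGroup U] [Module F U] [AddCommGroup W] [Module F W]
  [AddCommGroup V] [Module F V]

/-- Extraction of the top component with two transvections. -/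
theorem extract {R : Type*} [Ring R] [Algebra F R] (M : AddSubgroup R) (σ : F →+* F)
    (hM : ∀ t, σ t = t → ∀ c ∈ M, t • c ∈ M) {κ t : F} (h0 : κ ≠ 0) (hκ : σ (κ * κ) = κ * κ)
    (ht : σ t = t) (ht0 : t ≠ 0) (ht1 : t ≠ 1) {θ z : R} (hz : z ∈ M)
    (h1 : (1 + κ • θ) * z * (1 - κ • θ) ∈ M) (h2 : (1 + (t * κ) • θ) * z * (1 - (t * κ) • θ) ∈ M) :
    θ * z * θ ∈ M := by
  have h3 : t - 1 ≠ 0 := sub_ne_zero.2 ht1
  have h4 := hM (t * (t - 1) * (κ * κ))⁻¹ (by simp only [map_inv₀, map_mul σ (t * _), hκ, map_mul σ t,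
    map_sub, ht, map_one]) _ (M.sub_mem (hM t ht _ (M.sub_mem h1 hz)) (M.sub_mem h2 hz))
  convert h4 using 1
  simp only [mul_sub, add_mul, one_mul, mul_one, smul_mul_assoc, mul_smul_comm]
  match_scalars <;> field_simp <;> ring

section Types

variable (P : Polar F U)

/-- The elementary group is transitive on the non-zero singular vectors. -/
def Trans : Prop := ∀ u v : U, P.Val u 0 → P.Val v 0 → u ≠ 0 → v ≠ 0 → ∃ g ∈ P.E, g u = v

/-- Fixed elements are differences of norms. -/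
def Nrm : Prop := ∀ t, P.σ t = t → ∃ a b, t = a * P.σ a - b * P.σ b

/-- There are two different transvections with the same centre. -/
def Two : Prop := ∃ κ t, P.Val 0 κ ∧ κ ≠ 0 ∧ P.σ t = t ∧ t ≠ 0 ∧ t ≠ 1 ∧ P.Val 0 (t * κ)

/-- The shape of the orthogonal complement of a singular point. -/
def Rk : Prop := ∀ e, P.Val e 0 → e ≠ 0 → ∃ u, P.B u e = 0 ∧
  (∀ y, P.B y e = 0 → ∃ α γ : F, y = α • e + γ • u) ∧ (u = 0 ∨ (P.B u u ≠ 0 ∧ ∃ m, P.σ m ≠ m))

variable {P}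

theorem Two.lam (h : Two P) : ∃ c, c ≠ 0 ∧ P.Val 0 c := by
  obtain ⟨κ, -, h1, h2, -⟩ := h
  exact ⟨κ, h2, h1⟩

theorem nrm_of_two (hσ : ∀ a, P.σ a = a) (h2 : (2 : F) ≠ 0) : Nrm P := fun t _ =>
  ⟨(t + 1) / 2, (t - 1) / 2, by rw [hσ, hσ]; field_simp; ring⟩

theorem IsSp.two (h : IsSp P) (h2 : (2 : F) ≠ 0) : Two P :=
  ⟨1, -1, h.val _ _, one_ne_zero, h.σ _, by simp, fun e => h2 (by linear_combination -e), h.val _ _⟩

theorem lam_sq {κ : F} (h : P.Val 0 κ) : P.σ (κ * κ) = κ * κ := by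
  rw [map_mul, lam_σ h]
  linear_combination (κ * κ) * P.ε_mul_ε

variable [Finite F] [FiniteDimensional F U]

theorem isSp_of (hsp : ∀ x, P.Val x 0) [Nontrivial U] : IsSp P := by
  obtain ⟨e, he⟩ := exists_ne (0 : U)
  have hε : P.ε = -1 := by
    have := lam_σ (Slot.lam_of_sp hsp he 1)
    rw [map_one] at this
    linear_combination this
  exact ⟨fun a => by rw [lam_σ (Slot.lam_of_sp hsp he a), hε]; ring, hε, fun x c => by
    simpa using val_add_lam (hsp x) (Slot.lam_of_sp hsp he c)⟩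

theorem IsUn.nrm (h : IsUn P) : Nrm P := fun t ht => by
  obtain ⟨a, ha⟩ := exists_norm_eq P.σ P.σσ h.σ ht
  exact ⟨a, 0, by simp [ha]⟩

theorem IsUn.two (h : IsUn P) (hF : 4 < Nat.card F) : Two P := by
  obtain ⟨κ, κ', a1, a2, a3, a4, a5⟩ := Slot.exists_two_lam_of_unitary h.σ h.ε hF
  refine ⟨κ, κ' / κ, a1, a3, ?_, div_ne_zero a4 a3, fun e => a5 ?_, by rwa [div_mul_cancel₀ _ a3]⟩
  · rw [map_div₀, lam_σ a1, lam_σ a2, h.ε]; field_simp
  · field_simp at e; exact e.symm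

theorem IsSp.trans (h : IsSp P) : Trans P := fun u v hu hv hu0 hv0 => by
  obtain ⟨g, hg, -, h1⟩ := witt_vec (P := P) (U := ⊥) (by simpa using hu0) (by simpa using hv0)
    (by simp) hu hv
  exact ⟨g, by rwa [E_eq_Iso fun x => h.val x 0], h1⟩

theorem IsUn.exists_aniso (h : IsUn P) (hk : 3 ≤ finrank F U) {e e' : U} (he : P.Val e 0)
    (he' : P.Val e' 0) (h1 : P.B e' e = 1) : ∃ w, P.B w e = 0 ∧ P.B w e' = 0 ∧ P.B w w ≠ 0 := by
  by_contra! hcon
  obtain ⟨z, hz, hz0⟩ := exists_notMem_of_finrank_lt (U := ⊥) (W := P.pp e ⊓ P.pp e') (by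
    have h2 := finrank_inf_pp_ge (P := P) ⊤ e
    have h3 := finrank_inf_pp_ge (P := P) (P.pp e) e'
    rw [finrank_top, top_inf_eq] at h2
    rw [finrank_bot]; omega)
  refine hz0 (P.nondeg' fun y => ?_)
  obtain ⟨y', a1, a2, a3⟩ := eq_add_of_pair he he' h1 y
  have h4 : P.B z e = 0 := hz.1
  have h5 : P.B z e' = 0 := hz.2
  rw [a3]
  simp [h4, h5, B_eq_zero_of_forall_isotropic h.σ (U := P.pp e ⊓ P.pp e')
    (fun x hx => hcon x hx.1 hx.2) hz ⟨a1, a2⟩]

theorem IsUn.exists_val (h : IsUn P) {w : U} (hw : P.B w w ≠ 0) (c : F) :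
    ∃ a : F, P.Val (a • w) c := by
  obtain ⟨a, ha⟩ := exists_norm_eq P.σ P.σσ h.σ (t := (c + P.σ c) / P.B w w) (by
    simp [σ_B_self h.ε, add_comm])
  refine ⟨a, (val_iff_of_unitary h.σ h.ε).2 ?_⟩
  simp only [map_smul, LinearMap.smul_apply, B_smul_right, smul_eq_mul]
  field_simp at ha
  linear_combination ha

theorem IsUn.trans (h : IsUn P) (hk : 3 ≤ finrank F U) : Trans P := fun u v hu hv hu0 hv0 => by
  obtain ⟨g, hg, a, ha, h1⟩ :=
    (Slot.both_of_lam (exists_lam_ne_of_unitary h.σ h.ε)).exists_move hu hu0 hv hv0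
  obtain ⟨v', hv', h2⟩ := exists_partner hv hv0
  obtain ⟨w, b1, b2, b3⟩ := IsUn.exists_aniso h hk hv hv' h2
  obtain ⟨a₁, c1⟩ := IsUn.exists_val h b3 1
  obtain ⟨a₂, c2⟩ := IsUn.exists_val h b3 a
  obtain ⟨k, hk, h3, -⟩ := exists_tor hv hv' h2 (by simp [b1]) (by simp [b2]) c1 one_ne_zero
    (by simp [b1]) (by simp [b2]) c2 ha
  exact ⟨k * g, P.E.mul_mem hk hg, by
    rw [LinearEquiv.mul_apply, h1, map_smul, h3, smul_smul, h.ε]; simp [ha]⟩

theorem IsSp.rk (hk : finrank F U = 2) : Rk P := fun e he h0 => by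
  refine ⟨0, by simp, fun y hy => ?_, Or.inl rfl⟩
  have h1 := P.finrank_perp (F ∙ e)
  rw [finrank_span_singleton h0, hk, perp_span_singleton] at h1
  have h2 : (F ∙ e) = P.pp e := Submodule.eq_of_le_of_finrank_eq (by simpa using sing_B he) (by
    rw [finrank_span_singleton h0]; omega)
  obtain ⟨a, ha⟩ := Submodule.mem_span_singleton.1 (h2.ge hy)
  exact ⟨a, 0, by simp [ha]⟩

theorem IsUn.rk (h : IsUn P) (hk : finrank F U = 3) : Rk P := fun e he h0 => by
  obtain ⟨e', he', h1⟩ := exists_partner he h0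
  obtain ⟨w, b1, b2, b3⟩ := IsUn.exists_aniso h hk.ge he he' h1
  refine ⟨w, b1, fun y hy => ?_, Or.inr ⟨b3, h.σ⟩⟩
  have h1 := P.finrank_perp (F ∙ e)
  rw [finrank_span_singleton h0, hk, perp_span_singleton] at h1
  have h3 : w ∉ F ∙ e := fun hw => by
    obtain ⟨a, rfl⟩ := Submodule.mem_span_singleton.1 hw
    simp [sing_B he] at b3
  have h2 : (F ∙ e) ⊔ (F ∙ w) = P.pp e := Submodule.eq_of_le_of_finrank_eq
    (by simp [sing_B he, b1]) (by
      rw [Submodule.finrank_sup_span_singleton h3, finrank_span_singleton h0]; omega)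
  obtain ⟨_, h4, _, h5, rfl⟩ := Submodule.mem_sup.1 (h2.ge hy)
  obtain ⟨a, rfl⟩ := Submodule.mem_span_singleton.1 h4
  obtain ⟨b, rfl⟩ := Submodule.mem_span_singleton.1 h5
  exact ⟨a, b, rfl⟩

theorem IsSp.scal (h : IsSp P) (hk : finrank F U = 2) {z : End F U}
    (hz : ∀ x, P.Val x 0 → P.B (z x) x = 0) : Scal z := by
  refine scal_of_eigen fun u => ?_
  by_cases h0 : u = 0
  · simp [h0]
  obtain ⟨w, -, h1, h2⟩ := IsSp.rk (P := P) hk u (h.val _ _) h0
  obtain ⟨a, b, hab⟩ := h1 _ (hz u (h.val _ _))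
  rcases h2 with rfl | ⟨h2, -⟩
  · exact Submodule.mem_span_singleton.2 ⟨a, by simp [hab]⟩
  · exact absurd (sing_B (h.val _ _)) h2

/-- The singular vectors not orthogonal to a given one span. -/
theorem eq_top_of_opp (hΛ : ∃ c, c ≠ 0 ∧ P.Val 0 c) {e : U} (he : P.Val e 0) (h0 : e ≠ 0)
    {M : Submodule F U} (hM : ∀ y, P.Val y 0 → P.B y e ≠ 0 → y ∈ M) : M = ⊤ := by
  obtain ⟨f, hf, h1⟩ := exists_partner he h0
  obtain ⟨a, ha, h2⟩ := exists_sing_add_of_lam hΛ he hf (by simp [h1])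
  have h3 : f ∈ M := hM f hf (by simp [h1])
  have h4 : e ∈ M := by
    have := M.sub_mem (hM _ h2 (by simp [h1, sing_B he])) h3
    rwa [add_sub_cancel_left, M.smul_mem_iff ha] at this
  have key : ∀ y, P.B y e ≠ 0 → y ∈ M := fun y hy => by
    obtain ⟨b, hb⟩ := exists_val_add_sing he hy 0
    simpa using M.sub_mem (hM _ hb (by simpa [sing_B he] using hy)) (M.smul_mem b h4)
  refine eq_top_iff.2 fun y _ => ?_
  by_cases hy : P.B y e = 0
  · simpa using M.sub_mem (key (y + f) (by simp [hy, h1])) h3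
  · exact key y hy

theorem exists_rep (φ : Dual F (End F U)) : ∃ z : End F U, ∀ u v, P.B (z u) v = φ (P.th u v) := by
  have key : ∀ u, ∃ y, ∀ v, P.B y v = φ (P.th u v) := fun u => by
    obtain ⟨y, hy⟩ := P.exists_B_eq
      { toFun := fun v => P.ε * P.σ (φ (P.th u v))
        map_add' := fun a b => by simp [th_add_right, mul_add]
        map_smul' := fun a b => by simp [th_smul_right]; ring }
    exact ⟨y, fun v => by rw [P.herm v y, hy]; simp [← mul_assoc]⟩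
  choose f hf using key
  exact ⟨{ toFun := f
           map_add' := fun a b => P.ext_B fun v => by simp [hf, th_add_left]
           map_smul' := fun a b => P.ext_B fun v => by simp [hf, th_smul_left] }, hf⟩

theorem th_mem_of_diag (hs : ∀ z : End F U, (∀ x, P.Val x 0 → P.B (z x) x = 0) → Scal z)
    {N : Submodule F (End F U)} (hN : ∀ u, P.Val u 0 → P.th u u ∈ N) {u w : U}
    (h : P.B u w = 0) : P.th u w ∈ N := by
  by_contra h1
  obtain ⟨φ, h2, h3⟩ := exists_dual_one h1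
  obtain ⟨z, hz⟩ := exists_rep (P := P) φ
  obtain ⟨s, hs⟩ := hs z fun x hx => by rw [hz, h3 _ (hN x hx)]
  rw [← hz, hs] at h2
  simp [h] at h2

end Types

variable [Finite F] [FiniteDimensional F U] [FiniteDimensional F W]

/-- The standing hypotheses. -/
structure Set0 (τ : TS F U W V) (PU : Polar F U) (PW : Polar F W) (PV : Polar F V)
    (X : Subgroup (V ≃ₗ[F] V)) : Prop where
  cp : Compat τ PU PW PV
  iso : X ≤ PV.Iso
  hL : ∀ g ∈ PU.E, τ.KL g ∈ X

variable {τ : TS F U W V} {PU : Polar F U} {PW : Polar F W} {PV : Polar F V}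
  {X : Subgroup (V ≃ₗ[F] V)}

theorem smul_mem_DD (h : Nrm PU) {t : F} (ht : PU.σ t = t) {ζ : End F W} (hζ : ζ ∈ τ.DD PU X) :
    t • ζ ∈ τ.DD PU X := by
  have key : ∀ a : F, (a * PU.σ a) • ζ ∈ τ.DD PU X := fun a e he =>
    (hζ _ (sing_smul he a)).congr fun v => by simp [TS.ZZ, TS.pB_smul, smul_smul, mul_comm]
  obtain ⟨a, b, rfl⟩ := h t ht
  rw [sub_smul]
  exact sub_mem (key a) (key b)

theorem conj_mem_DD {d : W ≃ₗ[F] W} (hd : τ.KE 1 d ∈ X) {b : End F W} (hb : b ∈ τ.DD PU X) :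
    (d : End F W) * b * (d.symm : End F W) ∈ τ.DD PU X := fun e he =>
  (hb e he).conj hd fun v => by
    have := τ.pB_K_iso PU.Iso.one_mem (d : End F W) e v
    simp only [LinearEquiv.coe_one, id, LinearEquiv.coe_toLinearMap_one] at this
    simp [TS.ZZ, this]

theorem exists_QE (cp : Compat τ PU PW PV) {e u : U} (he : PU.Val e 0) (h0 : e ≠ 0)
    (hu : PU.B u e = 0) {b : End F W} {c : V ≃ₗ[F] V} (hc : c ∈ PV.Iso)
    (h1 : ∀ v, τ.pB PU e v = 0 → c v = v + τ.tp e (b (τ.pB PU u v))) :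
    ∃ ζ, ∀ v, c v = τ.QE PU PW e u b ζ v := by
  obtain ⟨e', -, he'⟩ := exists_partner he h0
  have hee := sing_B he
  have heu := PU.B_symm hu
  let T : V →ₗ[F] V := c.toLinearMap - τ.EE PU PW e u b
  have hT : ∀ v, T v = c v - τ.QE PU PW e u b 0 v := fun v => by simp [T, TS.EE_apply]
  have hT0 : ∀ v, τ.pB PU e v = 0 → T v = 0 := fun v hv => by simp [hT, h1 v hv, TS.QE, hv]
  have hT1 : ∀ v, ∃ x, T v = τ.tp e x := fun v => τ.exists_eq_tp_of_pB PU fun y hy => by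
    have hy' := PU.B_symm hy
    refine cp.pB_eq_zero fun x => ?_
    have h2 : c (τ.tp y x - PU.B y u • τ.tp e (b x)) = τ.tp y x := by
      rw [h1 _ (by simp [hy', hee])]
      simp [heu]
    have h3 : PV.B (c v) (τ.tp y x) =
        PV.B v (τ.tp y x) - PU.σ (PU.B y u) * PW.B (τ.pB PU e v) (b x) := by
      conv_lhs => rw [← h2, Iso.B hc]
      simp [cp.B_right, cp.σV]
    rw [hT]
    simp only [TS.QE, map_add, map_sub, map_smul, LinearMap.add_apply, LinearMap.sub_apply,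
      LinearMap.smul_apply, h3, cp.B_tp, hy, PW.adj_B, PU.σ_herm, smul_eq_mul,
      LinearMap.zero_apply, map_zero]
    ring
  refine ⟨τ.pB PU (PU.ε • e') ∘ₗ T ∘ₗ τ.tp e', fun v => ?_⟩
  have h4 : T v = T (τ.tp e' (τ.pB PU e v)) := by
    have := hT0 (v - τ.tp e' (τ.pB PU e v)) (by simp [he'])
    rwa [map_sub, sub_eq_zero] at this
  obtain ⟨x, hx⟩ := hT1 (τ.tp e' (τ.pB PU e v))
  have h5 : PU.B e (PU.ε • e') = 1 := by
    rw [B_smul_right, PU.herm e' e, he']; simp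
  have h6 : c v = τ.QE PU PW e u b 0 v + T v := by rw [hT]; abel
  rw [h6, h4]
  simp only [TS.QE, LinearMap.comp_apply, hx, TS.pB_tp, h5, one_smul, LinearMap.zero_apply,
    map_zero, add_zero]

namespace Set0

variable (S : Set0 τ PU PW PV X)
include S

theorem has_QE_one {e u : U} (he : PU.Val e 0) (hu : PU.B u e = 0) :
    ∃ s : F, Has X (τ.QE PU PW e u 1 (s • 1)) := by
  obtain ⟨c, hc⟩ := PU.val_ex (-(PU.ε • u))
  have hw : PU.B (-(PU.ε • u)) e = 0 := by simp [hu]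
  exact ⟨_, _, S.hL _ (eichE_mem_E he hw hc), τ.KL_eich PW he hw hc⟩

theorem mem_DD_of_ZZ (hT : Trans PU) {e : U} (he : PU.Val e 0) (h0 : e ≠ 0) {ζ : End F W}
    (h : Has X (τ.ZZ PU e ζ)) : ζ ∈ τ.DD PU X := fun f hf => by
  by_cases hf0 : f = 0
  · exact Has.id.congr fun v => by simp [TS.ZZ, hf0]
  obtain ⟨g, hg, rfl⟩ := hT e f he hf h0 hf0
  exact h.conj (S.hL g hg) fun v => by simp [TS.ZZ, τ.pB_K_iso (E_le_Iso hg)]

theorem adj_of_DD {e : U} (he : PU.Val e 0) (h0 : e ≠ 0) {ζ : End F W} (hζ : ζ ∈ τ.DD PU X) :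
    PW.adj ζ = (-PU.ε) • ζ := by
  obtain ⟨e', he', h1⟩ := exists_partner he h0
  obtain ⟨c, hc, h2⟩ := hζ e he
  refine PW.adj_eq_of fun z x => ?_
  have := Iso.B (S.iso hc) (τ.tp e' z) (τ.tp e' x)
  have h4 : PU.B e e' = PU.ε := by rw [PU.herm e' e, h1]; simp
  simp [h2, TS.ZZ, S.cp.B_tp, h1, h4, sing_B he, sing_B he'] at this
  simp only [LinearMap.smul_apply, map_smul, smul_eq_mul]
  linear_combination -this

/-- If `Hpt` fails there is a central element with a non-scalar coefficient. -/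
theorem exists_DD (hT : Trans PU) (hR : Rk PU) (h : ¬ τ.Hpt PU X) :
    ∃ ζ ∈ τ.DD PU X, ¬ Scal ζ := by
  by_contra! hcon
  refine h fun e he h0 c hc hQ => ?_
  obtain ⟨u, hu, h1, h2⟩ := hR e he h0
  obtain ⟨e', -, he'⟩ := exists_partner he h0
  have hee := sing_B he
  have h5 : PU.B e (PU.ε • e') = 1 := by
    rw [B_smul_right, PU.herm e' e, he']; simp
  obtain ⟨b, hb⟩ : ∃ b : End F W, ∀ x, c (τ.tp u x) = τ.tp u x + τ.tp e (PU.B u u • b x) := by
    rcases h2 with rfl | ⟨h2, -⟩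
    · exact ⟨0, by simp⟩
    refine ⟨(PU.B u u)⁻¹ • τ.pB PU (PU.ε • e') ∘ₗ (c.toLinearMap - 1) ∘ₗ τ.tp u, fun x => ?_⟩
    obtain ⟨x', hx'⟩ := hQ.2 u hu x
    simp [hx', h5, h2]
  obtain ⟨ζ, hζ⟩ := exists_QE S.cp he h0 hu (b := b) (S.iso hc) fun v hv =>
    τ.perp_induction PU hv (p := fun v => c v = v + τ.tp e (b (τ.pB PU u v))) (by simp)
      (fun y x hy => by
        obtain ⟨α, γ, rfl⟩ := h1 y hy
        simp only [map_add, map_smul, LinearMap.add_apply, LinearMap.smul_apply, hQ.1, hb,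
          TS.pB_tp, PU.B_symm hu]
        module)
      fun a b ha hb => by
        simp only [map_add]
        rw [ha, hb]; abel
  have key : ∀ u' s, PU.B u' e = 0 → (∀ v, c v = τ.QE PU PW e u' 1 s v) → τ.InA c := by
    intro u' ζ hu' hζ
    obtain ⟨s, hs⟩ := S.has_QE_one he hu'
    obtain ⟨t, ht⟩ := (hcon _ (S.mem_DD_of_ZZ hT he h0 (ζ := ζ - s • 1)
      (has_of_comp_right ⟨c, hc, hζ⟩ hs fun v => by
        rw [← τ.QE_zero PU PW e 1, τ.QE_comp PW hee (by simp) hu']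
        simp))).eq
    refine ⟨1 + PU.th e u' - PU.ε • PU.th u' e + (t + s) • PU.th e e, LinearMap.ext fun v => ?_⟩
    rw [sub_eq_iff_eq_add.1 ht] at hζ
    simp [hζ, TS.QE, TS.K_th, add_smul]
  rcases h2 with rfl | ⟨h2, m, hm⟩
  · exact key 0 ζ (by simp) fun v => by rw [hζ, TS.QE_zero, TS.QE_zero]
  have h3 : ∀ μ : F, Scal (PU.σ μ • PW.adj b - (PU.ε * μ) • b) := fun μ => by
    have h4 : PU.B ((μ / PU.B u u) • u) e = 0 := by simp [hu]
    obtain ⟨s, hs⟩ := S.has_QE_one he h4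
    have h6 : Has X (τ.QE PU PW e u b ζ) := ⟨c, hc, hζ⟩
    have := hcon _ (S.mem_DD_of_ZZ hT he h0 (has_of_comp_right (h6.comp hs) (hs.comp h6)
      (τ.QE_comm PW hee hu h4 b 1 ζ (s • 1))))
    simpa [h2] using this
  obtain ⟨s, hs⟩ := (Scal.of_smul (a := PU.ε * (PU.σ m - m)) (z := b)
    (mul_ne_zero PU.ε_ne_zero (sub_ne_zero.2 hm)) (by
      convert (h3 m).sub ((h3 1).smul (PU.σ m)) using 1
      rw [map_one]; module)).eq
  exact key (PU.σ s • u) ζ (by simp [hu]) fun v => by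
    rw [hζ, hs, τ.QE_smul PW e u _ _ _ S.cp.σW, PU.σσ]

end Set0

end Cfsg.Agent.Tens.One
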