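import Cfsg.Agent.Tens.One2
import Cfsg.Agent.Tens.PowMat

/-!
Step C for tensor powers of `Sp_2` and `GU_3`: general part.
-/

set_option autoImplicit false
set_option linter.unusedSectionVars false

namespace Cfsg.Agent.Tens.One

open Module Cfsg.Agent.H7 Cfsg.Agent.H7.Polar Cfsg.Agent.H1

variable {F : Type*} [Field F] {ι κ : Type} [Fintype ι] [DecidableEq ι] [Fintype κ]
  [DecidableEq κ] {V : Type*} [AddCommGroup V] [Module F V]

theorem has_comm {X : Subgroup (V ≃ₗ[F] V)} {A B : End F V} (hA : Has X (1 + A : End F V))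
    (hB : Has X (1 + B : End F V)) (h1 : A * A = 0) (h2 : B * B = 0) (h3 : A * B * A = 0)
    (h4 : B * A * B = 0) : Has X (1 + (A * B - B * A) : End F V) := by
  refine has_of_comp_right (hA.comp hB) (hB.comp hA) fun v => ?_
  have : (1 + (A * B - B * A)) * ((1 + B) * (1 + A)) = (1 + A) * (1 + B) := by
    have e1 : (1 + (A * B - B * A)) * ((1 + B) * (1 + A)) = (1 + A) * (1 + B) + A * B * A -
      B * (A * A) + A * (B * B) - B * A * B + A * (B * B) * A - B * A * B * A := by noncomm_ring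
    rw [e1, h1, h2, h3, h4]; simp
  exact LinearMap.congr_fun this v

variable (Φ : Pw F ι κ ≃ₗ[F] V)

theorem mo_smul (c : ι → F) (as : ι → End F (κ → F)) :
    mo Φ (fun i => c i • as i) = (∏ i, c i) • mo Φ as :=
  pv_ext Φ fun xs => by
    simp only [mo_pv, LinearMap.smul_apply]
    exact (pv Φ).map_smul_univ c _

theorem mo_eq_zero {as : ι → End F (κ → F)} (i : ι) (h : as i = 0) : mo Φ as = 0 :=
  pv_ext Φ fun xs => by
    rw [mo_pv]
    exact (pv Φ).map_coord_zero i (by simp [h])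

theorem pv_mem_of_span {A : ι → Set (κ → F)} {M : Submodule F V}
    (h : ∀ y, (∀ m, y m ∈ A m) → pv Φ y ∈ M) (y : ι → κ → F)
    (hy : ∀ m, y m ∈ Submodule.span F (A m)) : pv Φ y ∈ M := by
  have key : ∀ S : Finset ι, ∀ y : ι → κ → F, (∀ m ∈ S, y m ∈ Submodule.span F (A m)) →
      (∀ m ∉ S, y m ∈ A m) → pv Φ y ∈ M := fun S => by
    induction S using Finset.induction_on with
    | empty => exact fun y _ h1 => h y fun m => h1 m (by simp)
    | insert l S hl ih =>
      intro y h1 h2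
      have : Submodule.span F (A l) ≤ M.comap ((pv Φ).toLinearMap y l) :=
        Submodule.span_le.2 fun u hu => ih _ (fun m hm => by
          rw [Function.update_of_ne fun e : m = l => hl (e ▸ hm)]
          exact h1 m (by simp [hm])) fun m hm => by
            by_cases e : m = l
            · subst e; simpa using hu
            · rw [Function.update_of_ne e]; exact h2 m (by simp [e, hm])
      simpa using this (h1 l (by simp))
  exact key Finset.univ y (fun m _ => hy m) (by simp)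

theorem eq_top_of_pv {M : Submodule F V} (h : ∀ y, pv Φ y ∈ M) : M = ⊤ :=
  eq_top_iff.2 fun v _ => pv_induction Φ v M.zero_mem (fun c xs => M.smul_mem c (h xs))
    fun _ _ => M.add_mem

variable (PU : Polar F (κ → F))

/-- Pure operators with rank one maps in the slots of `J`. -/
noncomputable def NJ (J : Finset ι) (x y : ι → κ → F) : End F V :=
  mo Φ fun i => if i ∈ J then PU.th (x i) (y i) else 1

theorem NJ_insert {J : Finset ι} {l : ι} (hl : l ∉ J) (x y : ι → κ → F) :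
    NJ Φ PU (insert l J) x y = (τ1 Φ l).K (PU.th (x l) (y l)) 1 * NJ Φ PU J x y := by
  rw [← mo_mulSingle, NJ, NJ, ← map_mul]
  congr 1
  ext1 m
  by_cases e : m = l
  · subst e; simp [hl]
  · simp [e]

theorem NJ_comm {J : Finset ι} {l : ι} (hl : l ∉ J) (x y : ι → κ → F) (a : End F (κ → F)) :
    (τ1 Φ l).K a 1 * NJ Φ PU J x y = NJ Φ PU J x y * (τ1 Φ l).K a 1 := by
  rw [← mo_mulSingle, NJ, ← map_mul, ← map_mul]
  congr 1
  ext1 m
  by_cases e : m = l
  · subst e; simp [hl]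
  · simp [e]

theorem NJ_empty (x y : ι → κ → F) : NJ Φ PU ∅ x y = 1 := map_one (mo Φ)

theorem NJ_update {J : Finset ι} {l : ι} (hl : l ∉ J) (x : ι → κ → F) (u : κ → F) :
    NJ Φ PU J (Function.update x l u) (Function.update x l u) = NJ Φ PU J x x := by
  rw [NJ, NJ]
  congr 1
  ext1 m
  by_cases e : m = l
  · subst e; simp [hl]
  · simp [e]

theorem NJ_pv (J : Finset ι) (x y w : ι → κ → F) : NJ Φ PU J x y (pv Φ w) =
    (∏ m ∈ J, PU.B (w m) (y m)) • pv Φ fun m => if m ∈ J then x m else w m := by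
  rw [NJ, mo_pv, ← Finset.prod_ite_mem_eq, ← (pv Φ).map_smul_univ]
  congr 1
  ext1 m
  by_cases e : m ∈ J <;> simp [e]

variable {Φ PU} {PV : Polar F V} {X : Subgroup (V ≃ₗ[F] V)} [Finite F]

theorem NJ_univ (hc : PCompat Φ PU PV) (x y : ι → κ → F) :
    NJ Φ PU Finset.univ x y = PV.th (pv Φ x) (pv Φ y) :=
  pv_ext Φ fun w => by simp [NJ_pv, hc.B]

theorem perp_le (hc : PCompat Φ PU PV) {e : ι → κ → F} (he : ∀ m, PU.Val (e m) 0 ∧ e m ≠ 0)
    {M : Submodule F V} (hM : M ≤ PV.pp (pv Φ e))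
    (h : ∀ i y, PU.B (y i) (e i) = 0 → pv Φ y ∈ M) : PV.pp (pv Φ e) ≤ M := by
  choose f _ hf using fun m => exists_partner (he m).1 (he m).2
  have h1 : M ⊔ F ∙ pv Φ f = ⊤ := eq_top_of_pv Φ fun y => pv_mem_of_span Φ
    (A := fun m => {u | u = f m ∨ PU.B u (e m) = 0}) (fun y hy => by
      by_cases h2 : ∀ m, y m = f m
      · rw [funext h2]
        exact Submodule.mem_sup_right (Submodule.mem_span_singleton_self _)
      · obtain ⟨m, hm⟩ := not_forall.1 h2
        exact Submodule.mem_sup_left (h m y ((hy m).resolve_left hm))) y fun m => by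
      have := Submodule.add_mem (Submodule.span F {u | u = f m ∨ PU.B u (e m) = 0})
        (Submodule.subset_span (a := y m - PU.B (y m) (e m) • f m) (Or.inr (by simp [hf])))
        (Submodule.smul_mem _ (PU.B (y m) (e m)) (Submodule.subset_span (Or.inl rfl)))
      simpa using this
  intro v hv
  obtain ⟨w, hw, a, rfl⟩ := mem_sup_span_singleton.1 (h1 ▸ trivial : v ∈ M ⊔ F ∙ pv Φ f)
  have h2 : PV.B w (pv Φ e) = 0 := hM hw
  have h3 : a = 0 := by simpa [h2, hc.B, hf] using hv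
  simpa [h3] using hw

variable (Φ PU X) in
/-- The coefficients at the point `e` of slot `i`. -/
noncomputable def MA (i : ι) (e : κ → F) : AddSubgroup (End F V) :=
  ((τ1 Φ i).DD PU X).map ((τ1 Φ i).K (PU.th e e)).toAddMonoidHom

variable (Φ PU X) in
/-- The root elements supported on `J` lie in `X`. -/
def Full (J : Finset ι) : Prop := ∃ s, s ≠ 0 ∧ ∀ t, PU.σ t = t → ∀ x : ι → κ → F,
  (∀ m, PU.Val (x m) 0) → Has X (1 + (t * s) • NJ Φ PU J x x : End F V)

/-- The properties of the factor. -/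
structure Fac (PU : Polar F (κ → F)) : Prop where
  trans : Trans PU
  nrm : Nrm PU
  two : Two PU
  rk : Rk PU
  scal : ∀ z : End F (κ → F), (∀ x, PU.Val x 0 → PU.B (z x) x = 0) → Scal z
  trv : (2 : F) ≠ 0 ∨ ∃ a, PU.σ a ≠ a
  sing : ∃ e, PU.Val e 0 ∧ e ≠ 0

theorem Fac.trV (hf : Fac PU) (ι : Type) : TrV PU ι := hf.trv.imp id Or.inl

theorem Fac.nontrivial (hf : Fac PU) : Nontrivial (κ → F) := by
  obtain ⟨e, -, h⟩ := hf.sing
  exact nontrivial_of_ne e 0 h

theorem has_of_MA {i : ι} {e : κ → F} (he : PU.Val e 0) {n : End F V} (hn : n ∈ MA Φ PU X i e) :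
    Has X (1 + n : End F V) := by
  obtain ⟨ζ, hζ, rfl⟩ := hn
  exact (TS.mem_DD' _ _ _).1 hζ e he

theorem smul_mem_MA (hf : Fac PU) {i : ι} {e : κ → F} (t : F) (ht : PU.σ t = t) (n : End F V)
    (hn : n ∈ MA Φ PU X i e) : t • n ∈ MA Φ PU X i e := by
  obtain ⟨ζ, hζ, rfl⟩ := hn
  exact ⟨_, smul_mem_DD hf.nrm ht hζ, by simp⟩

variable (h : PX Φ PU PV X) (hf : Fac PU)
include h hf

theorem set0 (i : ι) : Set0 (τ1 Φ i) PU (powPolar PU (hf.trV _)) PV X :=
  ⟨h.pc.compat _, h.iso, h.hL i⟩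

theorem extract_MA {i l : ι} (hl : i ≠ l) {e z : κ → F} (hz : PU.Val z 0) {n : End F V}
    (hn : n ∈ MA Φ PU X i e) :
    (τ1 Φ l).K (PU.th z z) 1 * n * (τ1 Φ l).K (PU.th z z) 1 ∈ MA Φ PU X i e := by
  have := hf.nontrivial
  have key : ∀ c, PU.Val 0 c → (1 + c • (τ1 Φ l).K (PU.th z z) 1) * n *
      (1 - c • (τ1 Φ l).K (PU.th z z) 1) ∈ MA Φ PU X i e := fun c hc => by
    obtain ⟨ζ, hζ, rfl⟩ := hn
    obtain ⟨d, h1, h2, h3⟩ := (multi Φ).exists_KE hl (unip (th_sq hz) c)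
    refine ⟨_, conj_mem_DD (h1 ▸ h.hL l _ (unip_th_mem hz hc)) hζ, ?_⟩
    simp only [coe_unip, coe_unip_symm, map_add, map_sub, map_smul, LinearMap.add_apply,
      LinearMap.sub_apply, LinearMap.smul_apply, TS.K_one] at h2 h3
    simp [h2, h3, TS.K_mul]
  obtain ⟨c, t, a1, a2, a3, a4, a5, a6⟩ := hf.two
  exact extract _ PU.σ (smul_mem_MA hf) a2 (lam_sq a1) a3 a4 a5 hn (key _ a1) (key _ a6)

theorem extract_NJ {i : ι} {e : κ → F} {z : ι → κ → F} (hz : ∀ m, PU.Val (z m) 0) {n : End F V}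
    (hn : n ∈ MA Φ PU X i e) {S : Finset ι} (hS : i ∉ S) :
    NJ Φ PU S z z * n * NJ Φ PU S z z ∈ MA Φ PU X i e := by
  induction S using Finset.induction_on with
  | empty => simpa [NJ_empty] using hn
  | insert l S hl ih =>
    have := extract_MA h hf (l := l) (fun e => hS (by simp [e])) (hz l) (ih fun e => hS (by simp [e]))
    nth_rw 2 [NJ_insert Φ PU hl]
    rw [NJ_comm Φ PU hl, NJ_insert Φ PU hl]
    simpa only [mul_assoc] using this

theorem full_of_MA {i : ι} {J : Finset ι} {x : ι → κ → F} (hx : ∀ m, PU.Val (x m) 0 ∧ x m ≠ 0)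
    {s : F} (hs : s ≠ 0) (hn : s • NJ Φ PU J x x ∈ MA Φ PU X i (x i)) : Full Φ PU X J := by
  refine ⟨s, hs, fun t ht y hy => ?_⟩
  by_cases h0 : ∃ m ∈ J, y m = 0
  · obtain ⟨m, hm, h0⟩ := h0
    have : NJ Φ PU J y y = 0 := mo_eq_zero Φ m (by simp [hm, h0])
    exact Has.id.congr fun v => by simp [this]
  push Not at h0
  have h1 : ∀ m, ∃ g ∈ PU.E, m ∈ J → g (x m) = y m := fun m => by
    by_cases hm : m ∈ J
    · obtain ⟨g, a1, a2⟩ := hf.trans _ _ (hx m).1 (hy m) (hx m).2 (h0 m hm)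
      exact ⟨g, a1, fun _ => a2⟩
    · exact ⟨1, PU.E.one_mem, fun e => absurd e hm⟩
  choose g hg hgx using h1
  obtain ⟨G, hG, hG'⟩ := mo_mem Φ (as := fun m => (g m : End F (κ → F)))
    (B := { carrier := {T : End F V | Has X T}
            mul_mem' := fun a b => a.comp b
            one_mem' := Has.id }) fun m => Has.of_mem (h.hL m _ (hg m))
  have h2 : NJ Φ PU J y y * mo Φ (fun m => (g m : End F (κ → F))) =
      mo Φ (fun m => (g m : End F (κ → F))) * NJ Φ PU J x x := by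
    rw [NJ, NJ, ← map_mul, ← map_mul]
    congr 1
    ext1 m
    by_cases hm : m ∈ J
    · exact LinearMap.ext fun u => by simp [hm, ← hgx m hm, Iso.B (E_le_Iso (hg m))]
    · simp [hm]
  refine (has_of_MA (hx i).1 (smul_mem_MA hf t ht _ hn)).conj hG fun v => ?_
  have := LinearMap.congr_fun h2 v
  simp only [End.mul_apply] at this
  simp [hG', this, smul_smul]

/-- Extraction of root elements. -/
theorem exists_full {i : ι} (hi : ¬ (τ1 Φ i).Hpt PU X) : ∃ J, 2 ≤ J.card ∧ Full Φ PU X J := by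
  obtain ⟨e, he, he0⟩ := hf.sing
  have := hf.nontrivial
  obtain ⟨ζ, hζ, hζ'⟩ := (set0 h hf i).exists_DD hf.trans hf.rk hi
  have key : ∀ S : Finset ι, ∃ (J : Finset ι) (x : ι → κ → F) (c : End F V), i ∈ J ∧
      J ⊆ insert i S ∧ (∀ m, PU.Val (x m) 0 ∧ x m ≠ 0) ∧ x i = e ∧ c ≠ 0 ∧
      (∀ m ∈ insert i S, ∀ a, (τ1 Φ m).K a 1 * c = c * (τ1 Φ m).K a 1) ∧
      NJ Φ PU J x x * c ∈ MA Φ PU X i e ∧ (J = {i} → ¬ Scal c) := fun S => by
    induction S using Finset.induction_on with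
    | empty =>
      have h1 : ¬ Scal ((τ1 Φ i).K 1 ζ) := fun e => hζ' ((τ1 Φ i).scal_of_one_K e)
      refine ⟨{i}, fun _ => e, (τ1 Φ i).K 1 ζ, by simp, by simp, fun _ => ⟨he, he0⟩, rfl,
        fun e => h1 (e ▸ scal_zero), fun m hm a => ?_, ⟨ζ, hζ, ?_⟩, fun _ => h1⟩
      · obtain rfl : m = i := by simpa using hm
        exact TS.K_comm _ _ _
      · rw [← insert_empty_eq, NJ_insert Φ PU (by simp), NJ_empty, mul_one, ← TS.K_eq_mul]; rfl
    | insert l S hl ih =>
      obtain ⟨J, x, c, a1, a2, a3, a4, a5, a6, a7, a8⟩ := ih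
      have a2' : J ⊆ insert i (insert l S) :=
        a2.trans (Finset.insert_subset_insert _ (Finset.subset_insert _ _))
      by_cases hc : (τ1 Φ l).flip.InA c
      · refine ⟨J, x, c, a1, a2', a3, a4, a5, fun m hm a => ?_, a7, a8⟩
        by_cases e : m = l
        · subst e
          obtain ⟨d, rfl⟩ := (τ1 Φ m).flip_inA.1 hc
          exact TS.K_comm _ _ _
        · exact a6 m (by simpa only [Finset.mem_insert, e, false_or] using hm) a
      have hl' : l ∉ insert i S := fun e => hc ((τ1 Φ l).flip.inA_of_comm fun a => by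
        simpa using a6 l e a)
      have hli : i ≠ l := fun e => hl' (by simp [e])
      have hlJ : l ∉ J := fun e => hl' (a2 e)
      obtain ⟨z, _, ⟨rfl, hz⟩, hS⟩ := Slot.exists_S_ne (P := PU) hc
        (p := fun u v => u = v ∧ PU.Val u 0) fun z hz => hf.scal z fun x hx => hz x x ⟨rfl, hx⟩
      refine ⟨insert l J, Function.update x l z, (τ1 Φ l).K 1 (Slot.S (τ1 Φ l) PU c z z),
        by simp [a1], Finset.insert_subset (by simp) a2', fun m => ?_, by simp [hli, a4],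
        Slot.K_ne_zero _ one_ne_zero hS, fun m hm a => ?_, ?_, fun e => ?_⟩
      · by_cases e : m = l
        · subst e
          exact ⟨by simpa using hz, fun e => hS (by ext x; simp [Slot.S_apply, show z = 0 by simpa using e])⟩
        · simpa [e] using a3 m
      · refine (multi Φ).slice_mem_Cm (J := (insert i (insert l S))ᶜ) (j := l) (c := c)
          (fun m hm a => a6 m ?_ a) _ _ m (fun e => Finset.mem_compl.1 e hm) a
        simp only [Finset.mem_insert, Finset.mem_compl, not_or, not_and, not_not] at hm ⊢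
        tauto
      · have := extract_MA h hf hli hz a7
        rw [NJ_insert Φ PU hlJ, NJ_update Φ PU hlJ, Function.update_self, NJ_comm Φ PU hlJ,
          mul_assoc, ← TS.K_eq_mul, ← Slot.θ_mul_mul]
        rw [← mul_assoc, NJ_comm Φ PU hlJ] at this
        simpa only [mul_assoc] using this
      · exact absurd (Finset.mem_singleton.1 (e ▸ Finset.mem_insert_self l J)).symm hli
  obtain ⟨J, x, c, a1, -, a3, a4, a5, a6, a7, a8⟩ := key Finset.univ
  have h1 := (multi Φ).scal c fun j => a6 j (by simp)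
  obtain ⟨s, rfl⟩ := h1.eq
  refine ⟨J, ?_, full_of_MA h hf (i := i) a3 (s := s) (fun e => a5 (by simp [e]))
    (by simpa [a4] using a7)⟩
  by_contra h2
  exact a8 (Finset.eq_singleton_iff_unique_mem.2
    ⟨a1, fun y hy => Finset.card_le_one.1 (by omega) y hy i a1⟩) h1

omit h hf in
theorem has_comm_NJ {J J' : Finset ι} {i j : ι} (hi : i ∈ J) (hi' : i ∉ J') (hj : j ∈ J')
    (hj' : j ∉ J) {x y : ι → κ → F} (hx : PU.Val (x i) 0) (hy : PU.Val (y j) 0) {s s' : F}
    (h1 : Has X (1 + s • NJ Φ PU J x x : End F V))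
    (h2 : Has X (1 + s' • NJ Φ PU J' y y : End F V)) :
    Has X (1 + (s * s') • (NJ Φ PU J x x * NJ Φ PU J' y y - NJ Φ PU J' y y * NJ Φ PU J x x) :
      End F V) := by
  have a1 : NJ Φ PU J x x * NJ Φ PU J x x = 0 := by
    rw [NJ, ← map_mul]; exact mo_eq_zero Φ i (by simp [hi, th_sq hx])
  have a2 : NJ Φ PU J' y y * NJ Φ PU J' y y = 0 := by
    rw [NJ, ← map_mul]; exact mo_eq_zero Φ j (by simp [hj, th_sq hy])
  have a3 : NJ Φ PU J x x * NJ Φ PU J' y y * NJ Φ PU J x x = 0 := by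
    rw [NJ, NJ, ← map_mul, ← map_mul]; exact mo_eq_zero Φ i (by simp [hi, hi', th_sq hx])
  have a4 : NJ Φ PU J' y y * NJ Φ PU J x x * NJ Φ PU J' y y = 0 := by
    rw [NJ, NJ, ← map_mul, ← map_mul]; exact mo_eq_zero Φ j (by simp [hj, hj', th_sq hy])
  have := has_comm h1 h2 (by simp [a1]) (by simp [a2]) (by simp [a3]) (by simp [a4])
  simpa [smul_sub, smul_smul, mul_comm s' s] using this

/-- Enlarging the support. -/
theorem full_union {J J' : Finset ι} (hJ : Full Φ PU X J) (hJ' : Full Φ PU X J') {i j : ι}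
    (hi : i ∈ J) (hi' : i ∉ J') (hj : j ∈ J') (hj' : j ∉ J) {x y z : ι → κ → F}
    (hx : ∀ m, PU.Val (x m) 0 ∧ x m ≠ 0) (hy : ∀ m, PU.Val (y m) 0 ∧ y m ≠ 0)
    (hz : ∀ m, PU.Val (z m) 0 ∧ z m ≠ 0)
    (hne : ∏ m ∈ J ∩ J', PU.B (z m) (y m) * PU.B (y m) (x m) * PU.B (x m) (z m) ≠
      ∏ m ∈ J ∩ J', PU.B (z m) (x m) * PU.B (x m) (y m) * PU.B (y m) (z m)) :
    Full Φ PU X (J ∪ J') := by
  obtain ⟨s, hs, h1⟩ := hJ
  obtain ⟨s', hs', h2⟩ := hJ'
  have h3 := has_comm_NJ hi hi' hj hj' (hx i).1 (hy j).1 (h1 1 (map_one _) x fun m => (hx m).1)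
    (h2 1 (map_one _) y fun m => (hy m).1)
  have h4 : (1 * s * (1 * s')) • (NJ Φ PU J x x * NJ Φ PU J' y y -
      NJ Φ PU J' y y * NJ Φ PU J x x) ∈ MA Φ PU X i (x i) := by
    obtain ⟨ζ, hζ⟩ : ∃ ζ, (1 * s * (1 * s')) • (NJ Φ PU J x x * NJ Φ PU J' y y -
        NJ Φ PU J' y y * NJ Φ PU J x x) = (τ1 Φ i).K (PU.th (x i) (x i)) ζ := by
      rw [NJ, NJ, ← map_mul, ← map_mul, ← K_mo Φ i, ← K_mo Φ i]
      simp only [Pi.mul_apply, hi, hi', if_true, if_false, mul_one, one_mul, ← map_sub, ← map_smul]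
      exact ⟨_, rfl⟩
    rw [hζ] at h3 ⊢
    exact ⟨ζ, (set0 h hf i).mem_DD_of_ZZ hf.trans (hx i).1 (hx i).2
      (h3.congr fun v => (TS.ZZ_eq _ _ _ _ v).symm), rfl⟩
  have h5 := extract_NJ h hf (fun m => (hz m).1) h4 (S := J ∩ J') (by simp [hi'])
  obtain ⟨w, hw⟩ : ∃ w : ι → κ → F,
      w = fun m => if m ∈ J then if m ∈ J' then z m else x m else y m := ⟨_, rfl⟩
  have hwi : w i = x i := by simp [hw, hi, hi']
  refine full_of_MA h hf (i := i) (x := w) (fun m => ?_)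
    (mul_ne_zero (mul_ne_zero hs hs') (sub_ne_zero.2 hne)) ?_
  · simp only [hw]
    split_ifs
    exacts [hz m, hx m, hy m]
  rw [hwi]
  convert h5 using 1
  rw [mul_smul_comm, smul_mul_assoc, one_mul, one_mul, mul_smul (s * s'), sub_smul, mul_sub, sub_mul,
    NJ, ← Finset.prod_ite_mem_eq, ← mo_smul, ← Finset.prod_ite_mem_eq (J ∩ J'), ← mo_smul]
  simp only [NJ, ← map_mul]
  congr 3 <;> ext1 m <;> by_cases a1 : m ∈ J <;> by_cases a2 : m ∈ J' <;>
    simp [hw, a1, a2, th_mul_th, smul_smul, mul_comm, mul_left_comm]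

omit hf in
theorem full_parity {J : Finset ι} (hJ : J.Nonempty) {s : F} {x : ι → κ → F}
    (hx : ∀ m, PU.Val (x m) 0 ∧ x m ≠ 0) (h1 : Has X (1 + s • NJ Φ PU J x x : End F V)) :
    PU.σ s = -(PU.ε ^ J.card * s) := by
  choose f _ hf using fun m => exists_partner (hx m).1 (hx m).2
  have hf' : ∀ m, PU.B (x m) (f m) = PU.ε := fun m => by rw [PU.herm (f m) (x m), hf]; simp
  obtain ⟨g, hg, h2⟩ := h1
  obtain ⟨j, hj⟩ := hJ
  have h3 := Iso.B (h.iso hg) (pv Φ fun m => if m ∈ J then f m else x m) (pv Φ f)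
  have e1 : ∏ m ∈ J, PU.B (if m ∈ J then f m else x m) (x m) = 1 :=
    Finset.prod_eq_one fun m hm => by simp [hm, hf]
  have e2 : (fun m => if m ∈ J then x m else if m ∈ J then f m else x m) = x := by
    ext1 m; by_cases hm : m ∈ J <;> simp [hm]
  have e3 : ∏ m, PU.B (x m) (if m ∈ J then x m else f m) = 0 :=
    Finset.prod_eq_zero (Finset.mem_univ j) (by simp [hj, sing_B (hx j).1])
  have e4 : ∏ m, PU.B (if m ∈ J then f m else x m) (if m ∈ J then x m else f m) =
      PU.ε ^ Jᶜ.card := by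
    rw [← Finset.prod_mul_prod_compl J, Finset.prod_eq_one fun m hm => by simp [hm, hf], one_mul,
      ← Finset.prod_const]
    exact Finset.prod_congr rfl fun m hm => by simp [Finset.mem_compl.1 hm, hf']
  simp only [h2, LinearMap.add_apply, End.one_apply, LinearMap.smul_apply, NJ_pv, e1, e2, hf,
    Finset.prod_const_one, one_smul, map_add, map_smul, B_smul_right, h.pc.B, e3, e4, hf',
    Finset.prod_const, h.pc.σ, smul_eq_mul, Finset.card_univ,
    ← Finset.card_add_card_compl J, pow_add] at h3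
  refine mul_right_cancel₀ (pow_ne_zero Jᶜ.card PU.ε_ne_zero) ?_
  linear_combination h3

omit hf in
theorem full_move (hE : ∀ g ∈ PV.Iso, ∀ k ∈ PV.Iso, g * k * g⁻¹ * k⁻¹ ∈ PV.E)
    (hs : ∃ e, PU.Val e 0 ∧ e ≠ 0) {J : Finset ι} (hJ : Full Φ PU X J) {i l j : ι} (hi : i ∈ J)
    (hl : l ∈ J) (hli : l ≠ i) (hj : j ∉ J) : Full Φ PU X (insert j (J.erase i)) := by
  have : Nonempty ι := ⟨i⟩
  obtain ⟨s, hs0, h1⟩ := hJ
  have hji : j ≠ i := fun e => hj (e ▸ hi)
  have hjl : j ≠ l := fun e => hj (e ▸ hl)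
  obtain ⟨π, hπ, h2⟩ : ∃ π : Equiv.Perm ι, perm Φ π ∈ X ∧
      ∀ m, π.symm m ∈ J ↔ m ∈ insert j (J.erase i) := by
    refine ⟨Equiv.swap i l * Equiv.swap i j * (Equiv.swap i l)⁻¹ * (Equiv.swap i j)⁻¹,
      h.wr _ (by
        simpa only [map_mul, map_inv] using hE _ (h.pc.perm_mem_Iso hs (Equiv.swap i l)) _
          (h.pc.perm_mem_Iso hs (Equiv.swap i j))) _ (same_perm Φ _), fun m => ?_⟩
    rw [← Equiv.Perm.inv_def]
    simp only [mul_inv_rev, Equiv.swap_inv, Equiv.Perm.mul_apply, Finset.mem_insert,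
      Finset.mem_erase]
    by_cases a1 : m = i
    · subst a1
      simp [Equiv.swap_apply_of_ne_of_ne hli hjl.symm, hj, hji.symm]
    by_cases a2 : m = j
    · subst a2
      simp [Equiv.swap_apply_of_ne_of_ne a1 hjl, Equiv.swap_apply_of_ne_of_ne hli hjl.symm, hl]
    by_cases a3 : m = l
    · subst a3
      simp [Equiv.swap_apply_of_ne_of_ne hji hjl, hi, hl, hli]
    · simp [Equiv.swap_apply_of_ne_of_ne a1 a2, Equiv.swap_apply_of_ne_of_ne a1 a3, a1, a2]
  refine ⟨s, hs0, fun t ht x hx => (h1 t ht (fun m => x (π m)) fun m => hx _).conj hπ fun v => ?_⟩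
  have : NJ Φ PU (insert j (J.erase i)) x x ∘ₗ (perm Φ π : End F V) =
      (perm Φ π : End F V) ∘ₗ NJ Φ PU J (fun m => x (π m)) fun m => x (π m) :=
    pv_ext Φ fun w => by
      simp only [NJ, LinearMap.comp_apply, LinearEquiv.coe_coe, perm_pv, mo_pv, h2,
        Equiv.apply_symm_apply]
  simpa using congrArg (fun z => perm Φ π v + (t * s) • z) (LinearMap.congr_fun this v)

end Cfsg.Agent.Tens.One
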