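import Cfsg.Agent.Tens.One1

/-!
Orthogonal tensor factors of Witt index one: tools for one slot.
-/

set_option autoImplicit false
set_option linter.unusedSectionVars false
set_option linter.unusedSimpArgs false

namespace Cfsg.Agent.Tens.OneO

open Module Cfsg.Agent.H7 Cfsg.Agent.H7.Polar Cfsg.Agent.H1 Cfsg.Agent.Tens.Slot

variable {F U W V : Type*} [Field F] [AddCommGroup U] [Module F U] [AddCommGroup W] [Module F W]
  [AddCommGroup V] [Module F V]

theorem mem_of_span₂ {M N L : Type*} [AddCommGroup M] [Module F M] [AddCommGroup N] [Module F N]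
    [AddCommGroup L] [Module F L] (f : M →ₗ[F] N →ₗ[F] L) {s : Set M} {t : Set N}
    {T : Submodule F L} (h : ∀ a ∈ s, ∀ b ∈ t, f a b ∈ T) {a : M} (ha : a ∈ Submodule.span F s)
    {b : N} (hb : b ∈ Submodule.span F t) : f a b ∈ T :=
  (Submodule.span_le.2 fun a ha =>
    (Submodule.span_le.2 (h a ha) : Submodule.span F t ≤ T.comap (f a)) hb :
      Submodule.span F s ≤ T.comap (f.flip b)) ha

/-- The elementary skew maps. -/
def wg (P : Polar F U) (u v : U) : End F U := P.th u v - P.th v u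

/-- Orthogonal spaces of Witt index one. -/
structure R1 (P : Polar F U) : Prop where
  o : IsO P
  two : (2 : F) ≠ 0
  dim : (finrank F U = 4 ∧ ¬ P.W2) ∨ (finrank F U = 3 ∧ 5 ≤ Nat.card F)

variable {P : Polar F U} {τ : TS F U W V}

theorem one_add_el {u w : U} {c : F} (hu : P.Val u 0) (hw : P.B w u = 0) (hc : P.Val w c) :
    1 + el τ P u w c = τ.K (eichE hu hw hc : End F U) 1 ∧
      1 + er τ P u w c = τ.K ((eichE hu hw hc).symm : End F U) 1 := by
  constructor
  · rw [show ((eichE hu hw hc : U ≃ₗ[F] U) : End F U) = P.eichL u w c from rfl, eichL_eq]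
    simp only [el, map_add, map_sub, map_smul, LinearMap.add_apply, LinearMap.sub_apply,
      LinearMap.smul_apply, TS.K_one]
    abel
  · rw [show (((eichE hu hw hc).symm : U ≃ₗ[F] U) : End F U) = P.eichL u (-w) (P.ε * P.σ c) from rfl,
      eichL_eq, show P.th (-w) u = -P.th w u from by ext; simp,
      show P.th u (-w) = -P.th u w from by ext; simp]
    simp only [er, map_add, map_sub, map_smul, map_neg, LinearMap.add_apply, LinearMap.sub_apply,
      LinearMap.smul_apply, LinearMap.neg_apply, TS.K_one, map_mul, σ_ε, σσ]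
    module

theorem dd_mem' {M : AddSubgroup (End F V)} (hL : ∀ g ∈ P.E, InvL τ (M : Set (End F V)) g)
    {u w : U} {c : F} (hu : P.Val u 0) (hw : P.B w u = 0) (hc : P.Val w c) {z : End F V}
    (hz : z ∈ M) : dd (el τ P u w c) (er τ P u w c) z ∈ M := by
  refine M.sub_mem ?_ hz
  rw [(one_add_el hu hw hc).1, (one_add_el hu hw hc).2]
  exact hL _ (eichE_mem_E hu hw hc) z hz

variable [Finite F] [FiniteDimensional F U] [FiniteDimensional F W]

theorem adj_wg (h : IsO P) (u v : U) : P.adj (wg P u v) = -wg P u v := by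
  simp [wg, adj_th, h.ε]

/-- An additive induction principle for endomorphisms. -/
theorem th_induction {N : AddSubgroup (End F U)} (h : ∀ u v, P.th u v ∈ N) (a : End F U) :
    a ∈ N := by
  have : a = ∑ i, ((finBasis F U).coord i).smulRight (a (finBasis F U i)) := by
    ext x
    conv_lhs => rw [← (finBasis F U).sum_repr x, map_sum]
    simp
  rw [this]
  refine N.sum_mem fun i _ => ?_
  obtain ⟨y, hy⟩ := P.exists_B_eq ((finBasis F U).coord i)
  convert h (a (finBasis F U i)) y using 2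
  exact LinearMap.ext fun x => by simp [hy]

section O

variable (h : IsO P) (h2 : (2 : F) ≠ 0) (hn : 3 ≤ finrank F U)
include h h2 hn

/-- The singular vectors not orthogonal to a given one span. -/
theorem eq_top_of_opp_o {e : U} (he : P.Val e 0) (h0 : e ≠ 0)
    {M : Submodule F U} (hM : ∀ y, P.Val y 0 → P.B y e ≠ 0 → y ∈ M) : M = ⊤ := by
  obtain ⟨f, hf, h1⟩ := exists_partner he h0
  obtain ⟨w, k1, k2, k3⟩ := exists_aniso_top h h2 hn hf he (by simp [h1])
  obtain ⟨Q, hQ⟩ := P.val_ex w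
  have hQ0 : Q ≠ 0 := fun e => k3 (by rw [h.self hQ, e, mul_zero])
  have h3 : f ∈ M := hM f hf (by simp [h1])
  have h4 : e ∈ M := by
    have a1 := hM _ (eich_val he k2 hQ hf) (by simp [h.eich_eq, h1, k2, sing_B he])
    have a2 := hM _ (eich_val he (w := -w) (by simp [k2]) (val_neg hQ) hf)
      (by simp [h.eich_eq, h1, k2, sing_B he])
    rw [← M.smul_mem_iff (mul_ne_zero h2 hQ0)]
    convert M.sub_mem (M.smul_mem 2 h3) (M.add_mem a1 a2) using 1
    simp only [h.eich_eq, h1, P.B_symm k1, map_neg]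
    module
  have key : ∀ y, P.B y e ≠ 0 → y ∈ M := fun y hy => by
    obtain ⟨b, hb⟩ := exists_val_add_sing he hy 0
    simpa using M.sub_mem (hM _ hb (by simpa [sing_B he] using hy)) (M.smul_mem b h4)
  refine eq_top_iff.2 fun y _ => ?_
  by_cases hy : P.B y e = 0
  · simpa using M.sub_mem (key (y + f) (by simp [hy, h1])) h3
  · exact key y hy

theorem exists_sing_o : ∃ e, P.Val e 0 ∧ e ≠ 0 := exists_sing_of_wild (wild_three_of_σ h.σ) hn

theorem eq_top_of_th {N : Submodule F (End F U)}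
    (hN : ∀ y y', P.Val y 0 → P.Val y' 0 → P.B y' y ≠ 0 → P.th y y' ∈ N) : N = ⊤ := by
  obtain ⟨e, he, h0⟩ := exists_sing_o h h2 hn
  refine eq_top_iff.2 fun a _ => th_induction (P := P) (N := N.toAddSubgroup) (fun u v => ?_) a
  refine sing_induction_top he h0 (p := fun u => P.th u v ∈ N) (fun y hy => ?_)
    (fun a b ha hb => by simpa [th_add_left] using N.add_mem ha hb) u
  by_cases hy0 : y = 0
  · simp [hy0]
  let f : U →ₗ[F] End F U :=
    { toFun := P.th y
      map_add' := P.th_add_right y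
      map_smul' := fun c v => by simp [th_smul_right, h.σ] }
  exact (eq_top_of_opp_o h h2 hn hy hy0 (M := N.comap f) fun y' a1 a2 => hN y y' hy a1 a2).ge
    (trivial : v ∈ (⊤ : Submodule F U))

/-- Products of two symmetric root elements span. -/
theorem span_th_mul : Submodule.span F {c | ∃ a ∈ {a | ∃ y, P.Val y 0 ∧ a = P.th y y},
    ∃ a' ∈ {a | ∃ y, P.Val y 0 ∧ a = P.th y y}, c = a' * P.adj a} = ⊤ :=
  eq_top_of_th h h2 hn fun y y' hy hy' hyy => by
    rw [← Submodule.smul_mem_iff _ hyy]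
    exact Submodule.subset_span ⟨_, ⟨y', hy', rfl⟩, _, ⟨y, hy, rfl⟩, by
      simp [adj_th, h.ε, th_mul_th]⟩

/-- Products of two skew maps span. -/
theorem span_wg_mul : Submodule.span F {c | ∃ a ∈ {a | ∃ u v, a = wg P u v},
    ∃ a' ∈ {a | ∃ u v, a = wg P u v}, c = a' * P.adj a} = ⊤ :=
  eq_top_of_th h h2 hn fun y y' hy hy' hyy => by
    set N := Submodule.span F {c | ∃ a ∈ {a | ∃ u v, a = wg P u v},
      ∃ a' ∈ {a | ∃ u v, a = wg P u v}, c = a' * P.adj a}
    have key : ∀ u v w, P.B w v = 0 → P.B v u = 0 →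
        P.B v v • P.th u w + P.B w u • P.th v v ∈ N := fun u v w a1 a2 =>
      Submodule.subset_span ⟨_, ⟨w, v, rfl⟩, _, ⟨u, v, rfl⟩, by
        rw [adj_wg h]
        simp [wg, mul_sub, sub_mul, th_mul_th, a1, a2]⟩
    obtain ⟨d, k1, k2, k3⟩ := exists_aniso_top h h2 hn hy hy' (P.B_ne_symm hyy)
    have a1 := key (y + y') d (y + y') (by simp [P.B_symm k1, P.B_symm k2]) (by simp [k1, k2])
    have a2 := key (y - y') d (y - y') (by simp [P.B_symm k1, P.B_symm k2]) (by simp [k1, k2])
    have a3 := key (y + y') (y - y') (y + y') (by simp [sing_B hy, sing_B hy', h.comm y y'])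
      (by simp [sing_B hy, sing_B hy', h.comm y y'])
    have a4 := key y d y' (P.B_symm k2) k1
    rw [← N.smul_mem_iff (mul_ne_zero (mul_ne_zero h2 (mul_ne_zero h2 h2)) (mul_ne_zero hyy k3))]
    convert N.sub_mem (N.smul_mem (8 * P.B y' y) a4) (N.add_mem
      (N.smul_mem (2 * P.B y' y) (N.sub_mem a1 a2)) (N.smul_mem (P.B d d) a3)) using 1
    simp only [map_add, map_sub, LinearMap.add_apply, LinearMap.sub_apply, sing_B hy, sing_B hy',
      h.comm y y']
    module

end O

namespace R1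

variable (h : R1 P)
include h

theorem three_le : 3 ≤ finrank F U := by rcases h.dim with h | h <;> omega

theorem hn : 4 ≤ finrank F U ∨ (3 ≤ finrank F U ∧ 5 ≤ Nat.card F) := by
  rcases h.dim with h | h <;> omega

theorem not_w2 : ¬ P.W2 := fun hw => by
  have := hw.four_le
  rcases h.dim with h | h
  · exact h.2 hw
  · omega

theorem kind : Kind P :=
  Or.inr (Or.inr ⟨h.o, h.two, h.three_le, fun e => by rcases h.dim with h | h <;> omega,
    fun _ => h.not_w2⟩)

theorem exists_sing : ∃ e, P.Val e 0 ∧ e ≠ 0 := exists_sing_o h.o h.two h.three_le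

theorem nontrivial : Nontrivial U := h.kind.nontrivial

theorem both : Both P := both_o h.o h.two h.three_le

theorem aniso {e w : U} (he : P.Val e 0) (h0 : e ≠ 0) (hw : P.B w e = 0) (h1 : w ∉ F ∙ e) :
    P.B w w ≠ 0 := fun h2 => h.not_w2 ⟨e, w, he, (h.o.sing_iff h.two).2 h2, hw, h0, h1⟩

theorem exists_aniso {e : U} (he : P.Val e 0) (h0 : e ≠ 0) : ∃ w, P.B w e = 0 ∧ P.B w w ≠ 0 := by
  obtain ⟨e', he', h1⟩ := exists_partner he h0
  obtain ⟨w, -, k2, k3⟩ := exists_aniso_top h.o h.two h.three_le he' he (by simp [h1])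
  exact ⟨w, k2, k3⟩

/-- Torus elements acting by squares. -/
theorem exists_tor_sq {e : U} (he : P.Val e 0) (h0 : e ≠ 0) {l : F} (hl : l ≠ 0) :
    ∃ k ∈ P.E, k e = (l * l) • e ∧ ∀ y, P.B y e = 0 → ∃ a : F, k y = y + a • e := by
  obtain ⟨e', he', h1⟩ := exists_partner he h0
  obtain ⟨w, k1, k2, k3⟩ := exists_aniso_top h.o h.two h.three_le he' he (by simp [h1])
  obtain ⟨Q, hQ⟩ := P.val_ex w
  have hQ0 : Q ≠ 0 := fun e => k3 (by rw [h.o.self hQ, e, mul_zero])
  obtain ⟨k, hk, a1, -, a3⟩ := exists_tor he he' h1 (w₁ := l • w) (by simp [k2]) (by simp [k1])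
    (h.o.val_smul l hQ) (by simp [hl, hQ0]) k2 k1 hQ hQ0
  have a4 : k e = (l * l) • e := by rw [a1, h.o.ε, h.o.σ]; congr 1; field_simp
  refine ⟨k, hk, a4, fun y hy => ?_⟩
  obtain ⟨z, b1, b2, b3⟩ := eq_add_of_pair he he' h1 y
  refine ⟨(l * l - 1) * P.B y e', ?_⟩
  have a5 : k z = z := by
    rw [a3 z b1 b2]
    simp only [h.o.ε, h.o.σ, h.o.smul_right, h.o.self hQ]
    match_scalars <;> (field_simp; try ring)
  rw [hy] at b3
  generalize P.B y e' = t at b3 ⊢
  rw [b3]
  simp only [map_add, map_smul, a4, a5, h.o.ε, zero_smul, map_zero]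
  module

/-- The double difference of an element without top component. -/
theorem dd_two {z : End F V} (hz : ∀ y, P.Val y 0 → S τ P z y y = 0) {x w₁ w₂ : U} (c₁ c₂ : F)
    (hx : P.Val x 0) (h1 : P.B w₁ x = 0) (h2 : P.B w₂ x = 0) :
    dd (el τ P x w₁ c₁) (er τ P x w₁ c₁) (dd (el τ P x w₂ c₂) (er τ P x w₂ c₂) z) =
      -(τ.K (wg P w₁ x) 1 * z * τ.K (wg P w₂ x) 1 + τ.K (wg P w₂ x) 1 * z * τ.K (wg P w₁ x) 1) -
        P.B w₂ w₁ • (τ.K (P.th x x) 1 * z + z * τ.K (P.th x x) 1) := by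
  rw [dd_dd, el_mul_el _ _ (sing_B hx) h1 h2, er_mul_er _ _ (sing_B hx) h2 h1]
  simp only [mul_add, add_mul, smul_mul_assoc, mul_smul_comm, ← mul_assoc]
  simp only [el, er, wg, h.o.ε, h.o.σ, one_smul, map_sub, LinearMap.sub_apply, mul_sub, sub_mul,
    mul_neg, neg_sub, smul_mul_assoc, mul_smul_comm, K_th_mul_mul, one_mul, mul_one, hz x hx,
    map_zero, S_skew h.o h.two h.hn hz hx h1, S_skew h.o h.two h.hn hz hx h2, map_neg,
    h.o.comm w₁ w₂]
  module

/-- An invariant group of endomorphisms containing a non-zero skew map contains all of them. -/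
theorem wg_mem {N : AddSubgroup (End F U)}
    (hL : ∀ g ∈ P.E, ∀ c ∈ N, (g : End F U) * c * (g.symm : End F U) ∈ N) {z : End F U}
    (hz : z ∈ N) (hz0 : z ≠ 0) (hs : P.adj z = -z) (u v : U) : wg P u v ∈ N := by
  have hB : ∀ x y, P.B (z x) y = -P.B (z y) x := fun x y => by
    rw [← B_adj, hs, h.o.comm (z y)]; simp
  have hB0 : ∀ x, P.B (z x) x = 0 := fun x =>
    mul_left_cancel₀ h.two (by linear_combination hB x x)
  obtain ⟨x, hx, hzx⟩ : ∃ x, P.Val x 0 ∧ z x ∉ F ∙ x := by
    by_contra! hcon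
    obtain ⟨s, hs'⟩ := (scal_of_sing_eigen_o h.o h.two h.three_le hcon).eq
    rw [hs', adj_smul, adj_one, h.o.σ, eq_neg_iff_add_eq_zero, ← two_smul F] at hs
    exact hz0 (hs' ▸ (smul_eq_zero.1 hs).resolve_left h.two)
  have hx0 : x ≠ 0 := fun e => hzx (by simp [e])
  have h00 := h.aniso hx hx0 (hB0 x) hzx
  have hL' : ∀ g ∈ P.E, InvL (triv F U) (N : Set (End F U)) g := fun g hg => triv_invL (hL g hg)
  have k1 : ∀ w, P.B w x = 0 → wg P w x ∈ N := fun w hw => by
    obtain ⟨c₁, h1⟩ := P.val_ex (z x)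
    obtain ⟨c₂, h2⟩ := P.val_ex ((P.B (z x) (z x))⁻¹ • w)
    have := dd_mem' hL' hx (hB0 x) h1 (dd_mem' hL' hx (by simp [hw]) h2 hz)
    rw [h.dd_two (fun y _ => LinearMap.ext_ring (by rw [triv_S, hB0]; rfl)) _ _ hx (hB0 x)
      (by simp [hw])] at this
    convert this using 1
    ext y
    simp only [triv_K, wg, End.one_apply, one_smul, LinearMap.sub_apply, LinearMap.add_apply,
      LinearMap.neg_apply, LinearMap.smul_apply, End.mul_apply, th_apply, map_sub, map_smul,
      smul_eq_mul, h.o.smul_right, hB0, hB (z x) x, hB w x, hB y x, hB w (z x), h.o.comm (z x) w,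
      h.o.comm (z x) y]
    match_scalars <;> field_simp <;> ring
  have k2 : ∀ y w, P.Val y 0 → P.B w y = 0 → wg P w y ∈ N := fun y w hy hw => by
    by_cases hy0 : y = 0
    · simp [hy0, wg]
    obtain ⟨g, hg, a, ha, hga⟩ := h.both.exists_move hx hx0 hy hy0
    have := hL g hg _ (k1 (g.symm (a⁻¹ • w)) (by
      rw [← Iso.B (E_le_Iso hg), hga]; simp [hw]))
    simpa [wg, mul_sub, sub_mul, conj_th (E_le_Iso hg), hga, th_smul_left, th_smul_right, h.o.σ,
      smul_smul, ha] using this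
  have hadd : ∀ a b v, wg P (a + b) v = wg P a v + wg P b v := fun a b v => by
    simp only [wg, th_add_left, th_add_right]; abel
  have hswap : ∀ a b, wg P a b = -wg P b a := fun a b => by simp [wg]
  refine sing_induction_top hx hx0 (p := fun u => wg P u v ∈ N) (fun y hy => ?_)
    (fun a b ha hb => hadd a b v ▸ N.add_mem ha hb) u
  rw [hswap]
  refine N.neg_mem (sing_induction_top hx hx0 (p := fun v => wg P v y ∈ N) (fun y' hy' => ?_)
    (fun a b ha hb => hadd a b y ▸ N.add_mem ha hb) v)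
  by_cases hyy : P.B y' y = 0
  · exact k2 y y' hy hyy
  obtain ⟨w, a1, a2, a3⟩ := exists_aniso_top h.o h.two h.three_le hy' hy hyy
  obtain ⟨Q, hQ⟩ := P.val_ex w
  have hQ0 : Q ≠ 0 := fun e => a3 (by rw [h.o.self hQ, e, mul_zero])
  have b1 := k2 _ ((2 * Q)⁻¹ • P.eich y w Q w) (eich_val hy a2 hQ hy') (by
    simp [eich_B (sing_B hy) a2 hQ, a1])
  have b2 := k2 y' ((2 * Q)⁻¹ • w) hy' (by simp [a1])
  have b3 := k2 y ((2 : F)⁻¹ • P.B y' y • w) hy (by simp [a2])
  convert N.sub_mem (N.sub_mem b1 b2) b3 using 1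
  have h2 := h.two
  ext t
  simp only [wg, h.o.eich_eq, LinearMap.sub_apply, th_apply, map_sub, map_add, map_smul,
    h.o.smul_right, a2, P.B_symm a1, h.o.self hQ, smul_eq_mul]
  match_scalars <;> field_simp <;> ring

theorem sub_adj_mem {N : AddSubgroup (End F U)} (hN : ∀ u v, wg P u v ∈ N) (a : End F U) :
    a - P.adj a ∈ N :=
  th_induction (P := P) (N :=
    { carrier := {a | a - P.adj a ∈ N}
      zero_mem' := by simp
      add_mem' := fun {a b} ha hb => by
        change _ ∈ N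
        convert N.add_mem ha hb using 1
        rw [adj_add]; abel
      neg_mem' := fun {a} ha => by
        change _ ∈ N
        convert N.neg_mem ha using 1
        rw [adj_neg]; abel }) (fun u v => by simpa [adj_th, h.o.ε, wg] using hN u v) a

theorem mem_of_skew {N : AddSubgroup (End F U)} (hN : ∀ u v, wg P u v ∈ N) {a : End F U}
    (ha : P.adj a = -a) : a ∈ N := by
  convert h.sub_adj_mem hN ((2 : F)⁻¹ • a) using 1
  have := h.two
  rw [adj_smul, h.o.σ, ha]
  match_scalars; field_simp; ring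

end R1

end Cfsg.Agent.Tens.OneO
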