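import Cfsg.Agent.Tens.OneO1

/-!
Orthogonal tensor factors of Witt index one: extraction lemmas, levels, and the final step.
-/

set_option autoImplicit false
set_option linter.unusedSectionVars false
set_option linter.unusedSimpArgs false

namespace Cfsg.Agent.Tens.OneO

open Module Cfsg.Agent.H7 Cfsg.Agent.H7.Polar Cfsg.Agent.H1 Cfsg.Agent.Tens.Slot
  Cfsg.Agent.Tens.One

variable {F U W V : Type*} [Field F] [AddCommGroup U] [Module F U] [AddCommGroup W] [Module F W]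
  [AddCommGroup V] [Module F V] [Finite F] [FiniteDimensional F U] [FiniteDimensional F W]
  {P : Polar F U} {τ : TS F U W V}

theorem th_ne_zero {u v : U} (hu : u ≠ 0) (hv : v ≠ 0) : P.th u v ≠ 0 := fun e => by
  obtain ⟨y, hy⟩ := P.exists_B_ne hv
  simpa [hu, P.B_ne_symm hy] using LinearMap.congr_fun e y

theorem S_zero_left (z : End F V) (y : U) : S τ P z 0 y = 0 := by ext v; simp [S_apply]

namespace R1

variable (h : R1 P)
include h

/-- The top component, for an additive group closed under fourth powers. -/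
theorem top_add (hF : 5 ≤ Nat.card F) {M : AddSubgroup (End F V)}
    (hL : ∀ g ∈ P.E, InvL τ (M : Set (End F V)) g) (h4 : ∀ t : F, ∀ c ∈ M, t ^ 4 • c ∈ M)
    {u : U} (hu : P.Val u 0) (hu0 : u ≠ 0) {z : End F V} (hz : z ∈ M) :
    ∃ s : F, s ≠ 0 ∧ τ.K (P.th u u) (s • S τ P z u u) ∈ M := by
  classical
  have := Fintype.ofFinite F
  rw [Nat.card_eq_fintype_card] at hF
  obtain ⟨w, k2, k3⟩ := h.exists_aniso hu hu0
  obtain ⟨Q, hQ⟩ := P.val_ex w
  have hQ0 : Q ≠ 0 := fun e => k3 (by rw [h.o.self hQ, e, mul_zero])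
  refine ⟨Q * Q, mul_ne_zero hQ0 hQ0, ?_⟩
  rw [map_smul, ← θ_mul_mul]
  set n := τ.K (P.th w u - P.th u w) 1
  set θ := τ.K (P.th u u) 1
  have key : ∀ s : Fˣ, (s : F) ^ 3 • (n * z - z * n) +
      (s : F) ^ 2 • (-(Q • (θ * z)) - Q • (z * θ) - n * z * n) +
      (s : F) ^ 1 • (Q • (θ * z * n) - Q • (n * z * θ)) + (s : F) ^ 0 • (Q * Q) • (θ * z * θ) ∈ M :=
    fun s => by
      obtain ⟨t, ht⟩ : ∃ t : F, t = (s : F)⁻¹ := ⟨_, rfl⟩
      convert h4 s _ (dd_mem' hL hu (w := t • w) (by simp [k2]) (h.o.val_smul t hQ) hz) using 1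
      have e1 : el τ P u (t • w) (t * t * Q) = t • n - (t * t * Q) • θ := by
        simp [el, n, θ, th_smul_left, th_smul_right, h.o.σ, h.o.ε, smul_sub]
      have e2 : er τ P u (t • w) (t * t * Q) = -(t • n) - (t * t * Q) • θ := by
        simp [er, n, θ, th_smul_left, th_smul_right, h.o.σ, h.o.ε, smul_sub]
      rw [dd_eq, e1, e2, ht]
      simp only [mul_sub, sub_mul, mul_neg, neg_mul, smul_mul_assoc, mul_smul_comm]
      have := s.ne_zero
      match_scalars <;> field_simp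
  have h5 := M.neg_mem (M.sum_mem (t := Finset.univ) fun s _ => key s)
  have h6 : ∀ i, 0 < i → i < 4 → ¬ Fintype.card F - 1 ∣ i := fun i a1 a2 a3 => by
    have := Nat.le_of_dvd a1 a3
    omega
  simp only [Finset.sum_add_distrib, ← Finset.sum_smul, FiniteField.sum_pow_units,
    h6 3 (by omega) (by omega), h6 2 (by omega) (by omega), h6 1 (by omega) (by omega)] at h5
  simpa using h5

theorem S_anti {z : End F V} (hz : ∀ y, P.Val y 0 → S τ P z y y = 0) (ψ : Dual F W) (x₀ : W) :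
    ∃ s : F, ∀ u v, ψ (S τ P z u v x₀) + ψ (S τ P z v u x₀) = s * P.B u v := by
  obtain ⟨s, hs⟩ := scal_of_sing_eigen_o h.o h.two h.three_le
    (z := τ.flip.sl ψ x₀ z + P.adj (τ.flip.sl ψ x₀ z)) fun u hu =>
      mem_span_of_B (P := P) fun w hw => by
        rw [LinearMap.add_apply, map_add, LinearMap.add_apply, adj_B, h.o.comm u]
        exact skew_of_sing h.o h.two h.hn (fun y hy => by rw [B_flip_sl, hz y hy]; simp) hu hw
  refine ⟨s, fun u v => ?_⟩
  have := congrArg (fun y => P.B y v) (hs u)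
  simp only [LinearMap.add_apply, map_add, adj_B, h.o.comm u, B_flip_sl, map_smul,
    LinearMap.smul_apply, smul_eq_mul] at this
  rw [this, h.o.comm u]

theorem exists_orth {z : End F V} (hz : ∀ y, P.Val y 0 → S τ P z y y = 0)
    (hc : ¬ τ.flip.InA z) :
    ∃ d d', P.B d d ≠ 0 ∧ P.B d' d' ≠ 0 ∧ P.B d' d = 0 ∧ S τ P z d d' ≠ 0 := by
  by_contra! hcon
  refine hc (τ.flip.inA_of_sl fun ψ x₀ => ?_)
  obtain ⟨s, hs⟩ := h.S_anti hz ψ x₀
  simp only [← B_flip_sl] at hs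
  have h2 := h.two
  obtain ⟨a, ha⟩ : ∃ a, a = τ.flip.sl ψ x₀ z - (s / 2) • 1 := ⟨_, rfl⟩
  have hB : ∀ u v, P.B (a u) v = -P.B (a v) u := fun u v => by
    simp only [ha, LinearMap.sub_apply, map_sub, LinearMap.smul_apply, map_smul, End.one_apply,
      smul_eq_mul, h.o.comm v u]
    linear_combination (norm := (field_simp; ring)) hs u v
  suffices a = 0 from ⟨s / 2, fun x => by
    simpa [sub_eq_zero] using LinearMap.congr_fun (ha.symm.trans this) x⟩
  by_contra h0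
  obtain ⟨x, hx⟩ : ∃ x, a x ≠ 0 := by by_contra! e; exact h0 (LinearMap.ext e)
  obtain ⟨y, hy⟩ := P.exists_B_ne hx
  obtain ⟨d, -, h4, h5⟩ := h.o.exists_aniso_ne h2 (W := ⊤) trivial trivial hy (z := a x) trivial hy
  have h6 : a d ≠ 0 := fun e => h5 (by simp [hB x, e])
  have h7 : P.B (a d) d = 0 := mul_left_cancel₀ h2 (by linear_combination hB d d)
  obtain ⟨w, hw⟩ := P.exists_B_ne h6
  have h8 : w - (P.B w d / P.B d d) • d ∈ P.pp d := by simp [h4]
  have h9 : P.B (a d) (w - (P.B w d / P.B d d) • d) ≠ 0 := by simpa [h7] using hw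
  obtain ⟨d', k1, k2, k3⟩ := h.o.exists_aniso_ne h2 (W := P.pp d) h7 h8 h9 h8 h9
  refine k3 ?_
  rw [ha, LinearMap.sub_apply, map_sub, LinearMap.sub_apply, B_flip_sl, hcon d d' h4 k2 k1]
  simp [P.B_symm k1]

/-- **Extraction lemma.** -/
theorem extract {M : Submodule F (End F V)} (hI : ∀ g ∈ P.Iso, InvL τ (M : Set (End F V)) g)
    {z : End F V} (hz : z ∈ M) (hc : ¬ τ.flip.InA z) : ∃ u v, S τ P z u v ≠ 0 ∧
      ((∀ y, P.Val y 0 → τ.K (P.th y y) (S τ P z u v) ∈ M) ∨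
        ∀ x y, τ.K (wg P x y) (S τ P z u v) ∈ M) := by
  have hL : ∀ g ∈ P.E, InvL τ (M : Set (End F V)) g := fun g hg => hI g (E_le_Iso hg)
  by_cases h0 : ∀ y, P.Val y 0 → S τ P z y y = 0
  swap
  · push Not at h0
    obtain ⟨u, hu, hS⟩ := h0
    exact ⟨u, u, hS, Or.inl fun y hy => top_move hL h.both hu
      (fun e => hS (by rw [e, S_zero_left])) (top_o h.o h.two hL h.hn hu hz) hy⟩
  obtain ⟨d, d', h1, h2, h3, h4⟩ := h.exists_orth h0 hc
  refine ⟨d, d', h4, Or.inr ?_⟩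
  have key : ∀ d, P.B d d ≠ 0 → ∀ z ∈ M, P.B d d • (τ.K (P.th d d) 1 * z + z * τ.K (P.th d d) 1) -
      (2 : F) • (τ.K (P.th d d) 1 * z * τ.K (P.th d d) 1) ∈ M := fun d hd z hz => by
    obtain ⟨c, hc⟩ := P.val_ex d
    have hc0 : c ≠ 0 := fun e => hd (by rw [h.o.self hc, e, mul_zero])
    have e1 : (reflE hc hc0 : End F U) = 1 - c⁻¹ • P.th d d :=
      LinearMap.ext fun x => by simp [Polar.refl, smul_smul]
    have e2 : ((reflE hc hc0).symm : End F U) = 1 - c⁻¹ • P.th d d :=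
      LinearMap.ext fun x => by
        change P.refl d (P.ε * P.σ c) x = _
        simp [Polar.refl, smul_smul, h.o.σ, h.o.ε]
    have := hI _ (reflE_mem_Iso hc hc0) z hz
    rw [e1, e2] at this
    convert M.smul_mem (2 * c * c) (M.sub_mem hz this) using 1
    simp only [h.o.self hc, map_sub, map_smul, LinearMap.sub_apply, LinearMap.smul_apply,
      TS.K_one, mul_sub, sub_mul, one_mul, mul_one, smul_mul_assoc, mul_smul_comm]
    match_scalars <;> (field_simp; try ring)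
  have h5 := key d h1 _ (key d' h2 z hz)
  have e1 : τ.K (P.th d d) 1 * τ.K (P.th d' d') 1 = 0 := by simp [TS.K_mul, th_mul_th, h3]
  have e2 : τ.K (P.th d' d') 1 * τ.K (P.th d d) 1 = 0 := by
    simp [TS.K_mul, th_mul_th, P.B_symm h3]
  have e3 : S τ P z d' d = -S τ P z d d' := LinearMap.ext fun x₀ =>
    eq_neg_of_add_eq_zero_left (eq_zero_of_forall_dual (F := F) fun ψ => by
      obtain ⟨s, hs⟩ := h.S_anti h0 ψ x₀
      rw [map_add, hs, h3, mul_zero])
  simp only [mul_add, add_mul, mul_sub, sub_mul, smul_mul_assoc, mul_smul_comm, ← mul_assoc, e1,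
    zero_mul] at h5
  simp only [mul_assoc _ _ (τ.K (P.th d d) 1), e2, mul_zero] at h5
  simp only [← mul_assoc, K_th_mul_mul, one_mul, mul_one, e3, map_neg] at h5
  refine h.wg_mem (N := (M.comap (τ.K.flip (S τ P z d d'))).toAddSubgroup)
    (fun g hg c hc => ?_) (z := wg P d' d) ?_ (fun e => h1 ?_) (adj_wg h.o _ _)
  · simpa [TS.K_mul] using hL g hg _ hc
  · refine (M.smul_mem_iff (mul_ne_zero h1 h2)).1 ?_
    convert h5 using 1
    simp only [wg, LinearMap.flip_apply, map_sub, LinearMap.sub_apply]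
    module
  · simpa [wg, h3, P.B_symm h3, h2] using congrArg (fun f : End F U => P.B (f d) d') e

end R1

variable {PU : Polar F U} {PW : Polar F W} {PV : Polar F V} {X : Subgroup (V ≃ₗ[F] V)}

theorem lv_KE {e : U} {L : V →ₗ[F] W} (h : τ.Lv PU X e L) {a : U ≃ₗ[F] U} (ha : a ∈ PU.Iso)
    {d : W ≃ₗ[F] W} (hg : τ.KE a d ∈ X) {s : F} (hs : s ≠ 0) (hae : a e = s • e) :
    τ.Lv PU X e (s • (d : W →ₗ[F] W) ∘ₗ L ∘ₗ ((τ.KE a d).symm : V →ₗ[F] V)) := by
  obtain ⟨h0, c, hc, h1⟩ := h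
  have h2 : a.symm e = s⁻¹ • e := by
    rw [LinearEquiv.symm_apply_eq, map_smul, hae, smul_smul, inv_mul_cancel₀ hs, one_smul]
  refine ⟨fun x => by simp [h2, h0], τ.KE a d * c * (τ.KE a d)⁻¹,
    X.mul_mem (X.mul_mem hg hc) (X.inv_mem hg), fun v hv => ?_⟩
  obtain ⟨w, rfl⟩ := (τ.KE a d).surjective v
  have h3 : τ.pB PU e w = 0 := by
    have := τ.pB_K_iso ha (d : End F W) e w
    rw [hae, TS.pB_smul, ← TS.KE_apply, hv, smul_zero] at this
    exact d.map_eq_zero_iff.1 this.symm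
  rw [LinearEquiv.mul_apply, LinearEquiv.mul_apply,
    show (τ.KE a d)⁻¹ (τ.KE a d w) = w from (τ.KE a d).symm_apply_apply w, h1 w h3, map_add]
  simp only [LinearMap.smul_apply, LinearMap.comp_apply, LinearEquiv.coe_coe,
    LinearEquiv.symm_apply_apply]
  simp [hae]

theorem has_ZZ_KE {e : U} {ζ : End F W} (h : Has X (τ.ZZ PU e ζ)) {a : U ≃ₗ[F] U}
    (ha : a ∈ PU.Iso) {d : W ≃ₗ[F] W} (hg : τ.KE a d ∈ X) :
    Has X (τ.ZZ PU (a e) ((d : End F W) * ζ * (d.symm : End F W))) :=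
  h.conj hg fun v => by simp [TS.ZZ, τ.pB_K_iso ha]

theorem ZZ_smul (hσ : ∀ a, PU.σ a = a) (s : F) (e : U) (ζ : End F W) :
    τ.ZZ PU (s • e) ζ = τ.ZZ PU e ((s * s) • ζ) :=
  funext fun v => by simp [TS.ZZ, TS.pB_smul, hσ, smul_smul]

section Set0

variable (S : Set0 τ PU PW PV X) (hU : R1 PU)
include S

theorem has_ZZ_comm {e u u' : U} (he : PU.Val e 0) (h0 : e ≠ 0) (hu : PU.B u e = 0)
    (hu' : PU.B u' e = 0) {b b' : End F W} (h : τ.Lev PU X e u b) (h' : τ.Lev PU X e u' b') :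
    Has X (τ.ZZ PU e
      (PU.σ (PU.B u' u) • (b' * PW.adj b) - (PU.ε * PU.B u' u) • (b * PW.adj b'))) := by
  obtain ⟨c, hc, h1⟩ := h
  obtain ⟨c', hc', h1'⟩ := h'
  obtain ⟨ζ, hζ⟩ := exists_QE S.cp he h0 hu (S.iso hc) h1
  obtain ⟨ζ', hζ'⟩ := exists_QE S.cp he h0 hu' (S.iso hc') h1'
  have a : Has X (τ.QE PU PW e u b ζ) := ⟨c, hc, hζ⟩
  have a' : Has X (τ.QE PU PW e u' b' ζ') := ⟨c', hc', hζ'⟩
  exact has_of_comp_right (a.comp a') (a'.comp a) (τ.QE_comm PW (sing_B he) hu hu' b b' ζ ζ')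

theorem adj_of_ZZ {e : U} (he : PU.Val e 0) (h0 : e ≠ 0) {ζ : End F W}
    (hζ : Has X (τ.ZZ PU e ζ)) : PW.adj ζ = (-PU.ε) • ζ := by
  obtain ⟨e', he', h1⟩ := exists_partner he h0
  obtain ⟨c, hc, h2⟩ := hζ
  refine PW.adj_eq_of fun z x => ?_
  have := Iso.B (S.iso hc) (τ.tp e' z) (τ.tp e' x)
  have h4 : PU.B e e' = PU.ε := by rw [PU.herm e' e, h1]; simp
  simp [h2, TS.ZZ, S.cp.B_tp, h1, h4, sing_B he, sing_B he'] at this
  simp only [LinearMap.smul_apply, map_smul, smul_eq_mul]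
  linear_combination -this

/-- The failure of `Hpt`. -/
theorem exists_of_not_hpt (h : ¬ τ.Hpt PU X) : ∃ e, PU.Val e 0 ∧ e ≠ 0 ∧
    ((∃ ζ, ζ ≠ 0 ∧ Has X (τ.ZZ PU e ζ)) ∨
      ∃ L y, τ.Lv PU X e L ∧ PU.B y e = 0 ∧ ¬ Scal (L ∘ₗ τ.tp y)) := by
  by_contra! hcon
  refine h fun e he h0 c hc hQ => ?_
  obtain ⟨k1, k2⟩ := hcon e he h0
  rcases subsingleton_or_nontrivial W with hW | hW
  · exact τ.inA_of_sl fun φ u => ⟨0, fun _ => Subsingleton.elim _ _⟩
  obtain ⟨x₀, hx₀⟩ := exists_ne (0 : W)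
  obtain ⟨ψ, hψ⟩ := exists_dual_one' (F := F) hx₀
  obtain ⟨e', -, he'⟩ := exists_partner he h0
  have h5 : PU.B e (PU.ε • e') = 1 := by
    rw [B_smul_right, PU.herm e' e, he']; simp
  let L : V →ₗ[F] W := τ.pB PU (PU.ε • e') ∘ₗ (c.toLinearMap - 1)
  have hL : ∀ v, L v = τ.pB PU (PU.ε • e') (c v - v) := fun _ => rfl
  have h1 : ∀ v, τ.pB PU e v = 0 → c v = v + τ.tp e (L v) := fun v hv =>
    τ.perp_induction PU hv (p := fun v => c v = v + τ.tp e (L v)) (by simp)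
      (fun y x hy => by
        obtain ⟨x', hx'⟩ := hQ.2 y hy x
        rw [hL, hx', add_sub_cancel_left, TS.pB_tp, h5, one_smul])
      fun a b ha hb => by
        simp only [map_add]
        rw [ha, hb]; abel
  have h2 : τ.Lv PU X e L := ⟨fun x => by simp [hL, hQ.1], c, hc, h1⟩
  obtain ⟨u, hu⟩ := PU.exists_B_eq (ψ ∘ₗ L ∘ₗ τ.tp.flip x₀)
  have h3 : ∀ y, PU.B y e = 0 → ∀ x, L (τ.tp y x) = PU.B y u • x := fun y hy x => by
    obtain ⟨s, hs⟩ := k2 L y h2 hy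
    have h4 : ∀ x, L (τ.tp y x) = s • x := hs
    simp [hu, h4, hψ]
  have hue : PU.B u e = 0 := PU.B_symm (by simp [hu, h2.1])
  obtain ⟨ζ, hζ⟩ := exists_QE S.cp he h0 hue (b := 1) (S.iso hc) fun v hv => by
    rw [h1 v hv]
    congr 2
    exact τ.perp_induction PU hv (p := fun v => L v = τ.pB PU u v) (by simp)
      (fun y x hy => by simp [h3 y hy]) fun a b ha hb => by simp [ha, hb]
  obtain ⟨s, hs⟩ := S.has_QE_one he hue
  have ht : ζ - s • 1 = 0 := by
    by_contra hne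
    exact k1 _ hne (has_of_comp_right ⟨c, hc, hζ⟩ hs fun v => by
      rw [← τ.QE_zero PU PW e 1, τ.QE_comp PW (sing_B he) (by simp) hue]
      simp)
  refine ⟨1 + PU.th e u - PU.ε • PU.th u e + s • PU.th e e, LinearMap.ext fun v => ?_⟩
  rw [sub_eq_zero.1 ht] at hζ
  simp [hζ, TS.QE, TS.K_th]

/-- The commutator of an element with an Eichler transformation. -/
theorem has_ZZ_of_lv {e u : U} (he : PU.Val e 0) (hu : PU.B u e = 0) {L : V →ₗ[F] W}
    (h : τ.Lv PU X e L) :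
    Has X (τ.ZZ PU e (PW.adj (L ∘ₗ τ.tp u) - PU.ε • (L ∘ₗ τ.tp u))) := by
  obtain ⟨h0, c, hc, h1⟩ := h
  obtain ⟨s, hs⟩ := S.has_QE_one he hu
  have hee := sing_B he
  have h2 : ∀ x, c (τ.tp e x) = τ.tp e x := fun x => by simp [h1, hee, h0]
  have h3 : ∀ x, c (τ.tp u x) = τ.tp u x + τ.tp e (L (τ.tp u x)) := fun x => h1 _ (by simp [hu])
  have h4 : ∀ v, τ.pB PU e (c v) = τ.pB PU e v := S.cp.pB_apply (S.iso hc) h2
  have h5 : ∀ v, τ.pB PU u (c v) = τ.pB PU u v - PW.adj (L ∘ₗ τ.tp u) (τ.pB PU e v) := fun v =>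
    PW.ext_B fun x => by
      have := Iso.B (S.iso hc) v (τ.tp u x)
      rw [h3, map_add, S.cp.B_right, S.cp.B_right, S.cp.B_right, h4] at this
      simp [adj_B, ← this]
  refine has_of_comp_right (hs.conj (T' := fun v => τ.ZZ PU e
    (PW.adj (L ∘ₗ τ.tp u) - PU.ε • (L ∘ₗ τ.tp u)) (τ.QE PU PW e u 1 (s • 1) v)) hc fun v => ?_) hs
    fun _ => rfl
  simp only [TS.QE, TS.ZZ, map_add, map_sub, map_smul, h2, h3, h4, h5, TS.pB_tp, hee, hu,
    adj_one, End.one_apply, LinearMap.smul_apply, LinearMap.sub_apply, LinearMap.comp_apply,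
    zero_smul, smul_zero, map_zero]
  module

include hU

theorem lv_smul {e : U} (he : PU.Val e 0) (h0 : e ≠ 0) {L : V →ₗ[F] W} (h : τ.Lv PU X e L)
    (s : F) : τ.Lv PU X e (s • L) := by
  have hee := sing_B he
  have key : ∀ l : F, τ.Lv PU X e ((l * l) • L) := fun l => by
    by_cases hl : l = 0
    · simpa [hl] using h.sub h hee
    obtain ⟨k, hk, a1, a2⟩ := hU.exists_tor_sq he h0 hl
    refine (lv_KE h (E_le_Iso hk) (d := 1) (S.hL k hk) (mul_ne_zero hl hl) a1).congr hee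
      fun v hv => ?_
    have : ∀ v, τ.pB PU e v = 0 → L (τ.KE k 1 v) = L v := fun v hv =>
      τ.perp_induction PU hv (p := fun v => L (τ.KE k 1 v) = L v) (by simp)
        (fun y x hy => by
          obtain ⟨a, ha⟩ := a2 y hy
          simp [ha, h.1]) fun a b ha hb => by simp only [map_add, ha, hb]
    obtain ⟨w, rfl⟩ := (τ.KE k 1).surjective v
    have h3 : τ.pB PU e w = 0 := by
      have := τ.pB_K_iso (E_le_Iso hk) 1 e w
      rw [a1, TS.pB_smul] at this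
      rw [← End.one_apply (R := F) (τ.pB PU e w), ← this]
      exact smul_eq_zero_of_right _ hv
    simp only [LinearMap.smul_apply, LinearMap.comp_apply, LinearEquiv.coe_coe,
      LinearEquiv.symm_apply_apply, this w h3]
    rfl
  convert (key ((s + 1) / 2)).sub (key ((s - 1) / 2)) hee using 1
  have := hU.two
  match_scalars; field_simp; ring

theorem mem_DD_of_line {e : U} (he : PU.Val e 0) (h0 : e ≠ 0) {ζ : End F W}
    (h : ∀ s : F, Has X (τ.ZZ PU e (s • ζ))) : ζ ∈ τ.DD PU X := fun f hf => by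
  by_cases hf0 : f = 0
  · exact Has.id.congr fun v => by simp [TS.ZZ, hf0]
  obtain ⟨g, hg, a, ha, hga⟩ := hU.both.exists_move he h0 hf hf0
  have := has_ZZ_KE (h (a * a)⁻¹) (E_le_Iso hg) (d := 1) (S.hL g hg)
  rw [hga, ZZ_smul hU.o.σ] at this
  exact this.congr fun v => by
    simp only [TS.ZZ, LinearMap.smul_apply, End.mul_apply, smul_smul, LinearEquiv.coe_coe,
      LinearEquiv.coe_one, id, mul_inv_cancel₀ (mul_ne_zero ha ha), one_smul]
    rfl

theorem has_ZZ_four {e : U} (he : PU.Val e 0) (h0 : e ≠ 0) {ζ : End F W}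
    (h : Has X (τ.ZZ PU e ζ)) (t : F) : Has X (τ.ZZ PU e (t ^ 4 • ζ)) := by
  by_cases ht : t = 0
  · exact Has.id.congr fun v => by simp [TS.ZZ, ht]
  obtain ⟨k, hk, a1, -⟩ := hU.exists_tor_sq he h0 ht
  have := has_ZZ_KE h (E_le_Iso hk) (d := 1) (S.hL k hk)
  rw [a1, ZZ_smul hU.o.σ] at this
  exact this.congr fun v => by
    rw [show t ^ 4 = t * t * (t * t) by ring]
    rfl

variable [FiniteDimensional F V] (hV : IsO PV) (hW : 3 ≤ finrank F W)
  (hD : ∀ x y, wg PW x y ∈ τ.DD PU X)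
include hV hW hD

theorem perp_mem_eSub {e : U} (he : PU.Val e 0) (h0 : e ≠ 0) (x₀ : W) :
    (∀ x, τ.tp e x ∈ PV.eSub X (S.cp.val_left e x₀ he)) ∧
      ∀ y x, PW.B x x₀ = 0 → τ.tp y x ∈ PV.eSub X (S.cp.val_left e x₀ he) := by
  have hε : PW.ε = 1 := by simpa [hU.o.ε, hV.ε] using S.cp.εV.symm
  have h1 : ∀ x, τ.tp e x ∈ PV.eSub X (S.cp.val_left e x₀ he) := fun x =>
    ⟨by simp [S.cp.B_tp, sing_B he], fun a => ⟨0, by
      rw [← map_smul]; exact S.cp.val_left _ _ he, by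
      rw [← map_smul]
      exact (hD (a • x) x₀ e he).congr fun v => by
        rw [S.cp.eich_tp]
        simp [TS.EE_apply, TS.QE, TS.ZZ, wg, adj_th, hε, hU.o.ε]; abel⟩⟩
  refine ⟨h1, fun y x hx => ?_⟩
  refine (eq_top_of_opp_o hU.o hU.two hU.three_le he h0
    (M := (PV.eSub X (S.cp.val_left e x₀ he)).comap (τ.tp.flip x)) fun y hy hye => ?_).ge
    (trivial : y ∈ (⊤ : Submodule F U))
  obtain ⟨x', hx', hx''⟩ := exists_notMem_of_finrank_lt (U := F ∙ x) (W := PW.pp x₀) (by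
    have := finrank_span_singleton_le (F := F) x
    have := finrank_inf_pp_ge (P := PW) ⊤ x₀
    rw [finrank_top, top_inf_eq] at this
    omega)
  obtain ⟨z, hz, hz'⟩ := exists_sep' (P := PW) hx'' 1
  rw [perp_span_singleton, mem_pp] at hz
  obtain ⟨g, hg, hg'⟩ := hD x x' y hy
  have h2 := Submodule.sub_mem _ (apply_mem_eSub _ hg (S.iso hg) (by
    simp [hg', TS.ZZ, wg, PW.B_symm hx, PW.B_symm hx']) (h1 z)) (h1 z)
  rw [Submodule.mem_comap, ← Submodule.smul_mem_iff _ (PU.B_ne_symm hye)]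
  simpa [hg', TS.ZZ, wg, hz, hz'] using h2

theorem fullA_of_wg {e : U} (he : PU.Val e 0) (h0 : e ≠ 0) {x₀ : W} (hx₀ : x₀ ≠ 0) :
    PV.FullA X (τ.tp e x₀) := by
  have hp := S.cp.val_left e x₀ he
  obtain ⟨h1, h2⟩ := perp_mem_eSub S hU hV hW hD he h0 x₀
  obtain ⟨e', -, h3⟩ := exists_partner he h0
  obtain ⟨x₂, -, hx₂⟩ := exists_notMem_of_finrank_lt (U := F ∙ x₀) (W := ⊤) (by
    rw [finrank_top, finrank_span_singleton hx₀]; omega)
  obtain ⟨x₄, a1, a2⟩ := exists_sep' (P := PW) hx₂ 1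
  obtain ⟨x₃, a3, a4⟩ := exists_sep' (P := PW) (notMem_span_symm hx₀ hx₂) 1
  rw [perp_span_singleton, mem_pp] at a1 a3
  have h4 : ∀ w, PU.B w e = 0 → τ.tp w x₃ ∈ PV.eSub X hp := fun w hw => by
    obtain ⟨c, -, g, hg, hg'⟩ := ((perp_mem_eSub S hU hV hW hD he h0 x₂).2 w x₃ a3).2 1
    have h5 := Submodule.sub_mem _ (apply_mem_eSub hp hg (S.iso hg) (by
      simp [hg', eich, S.cp.B_tp, sing_B he, PU.B_symm hw]) (h2 e' x₄ a1)) (h2 e' x₄ a1)
    have h6 := Submodule.add_mem _ h5 (Submodule.smul_mem _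
      (PV.ε * PV.B (τ.tp e' x₄) (τ.tp w x₃) + PV.σ c) (h1 x₂))
    convert h6 using 1
    simp [hg', eich, S.cp.B_tp, h3, a2]
    abel
  refine fullA_of_eSub hp (fun c hc => hV.lam c hc ▸ EI.zero _) fun v hv => ?_
  have hv' : PW.B (τ.pB PU e v) x₀ = 0 := by rw [← S.cp.B_right]; exact hv
  have h5 := τ.perp_induction PU (e := e) (v := v - τ.tp e' (τ.pB PU e v)) (by simp [h3])
    (p := fun v => v ∈ PV.eSub X hp) (Submodule.zero_mem _) (fun y x hy => by
      simpa using Submodule.add_mem _ (h2 y (x - PW.B x x₀ • x₃) (by simp [a4]))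
        (Submodule.smul_mem _ (PW.B x x₀) (h4 y hy))) fun _ _ => Submodule.add_mem _
  simpa using Submodule.add_mem _ h5 (h2 e' _ hv')

/-- **The final step.** -/
theorem E_le_of_wg : PV.E ≤ X := by
  obtain ⟨e, he, h0⟩ := hU.exists_sing
  obtain ⟨e', he', h3⟩ := exists_partner he h0
  have : Nontrivial W := Module.nontrivial_of_finrank_pos (R := F) (by omega)
  obtain ⟨x, hx⟩ := exists_ne (0 : W)
  obtain ⟨y, hy⟩ := PW.exists_B_ne hx
  exact E_le_of_fullA (S.cp.val_left e y he) (S.cp.val_left e' x he')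
    (fullA_of_wg S hU hV hW hD he h0 fun h => hy (by simp [h]))
    (fullA_of_wg S hU hV hW hD he' (fun h => by simp [h] at h3) hx) (by simp [S.cp.B_tp, h3, hy])

end Set0

end Cfsg.Agent.Tens.OneO
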