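import Cfsg.Agent.Tens.OneO2

/-!
Orthogonal tensor factors of Witt index one: step C for two slots.
-/

set_option autoImplicit false
set_option linter.unusedSectionVars false
set_option linter.unusedSimpArgs false

namespace Cfsg.Agent.Tens.OneO

open Module Cfsg.Agent.H7 Cfsg.Agent.H7.Polar Cfsg.Agent.H1 Cfsg.Agent.Tens.Slot
  Cfsg.Agent.Tens.One

variable {F U W V U' W' : Type*} [Field F] [AddCommGroup U] [Module F U] [AddCommGroup W]
  [Module F W] [AddCommGroup V] [Module F V] [AddCommGroup U'] [Module F U'] [AddCommGroup W']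
  [Module F W'] [Finite F] [FiniteDimensional F U] [FiniteDimensional F W]
  [FiniteDimensional F U'] [FiniteDimensional F W']
  {τ : TS F U W V} {PU : Polar F U} {PW : Polar F W} {PV : Polar F V} {X : Subgroup (V ≃ₗ[F] V)}
  {τ' : TS F U' W' V} {PU' : Polar F U'} {PW' : Polar F W'}

theorem one_K_inj (τ : TS F U W V) [Nontrivial U] {d d' : End F W} (h : τ.K 1 d = τ.K 1 d') :
    d = d' := τ.flip.K_one_inj (by simpa using h)

theorem one_K_mul (τ : TS F U W V) (d d' : End F W) : τ.K 1 (d * d') = τ.K 1 d * τ.K 1 d' := by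
  simp [TS.K_mul]

theorem K_one_mul (τ : TS F U W V) (a a' : End F U) : τ.K (a * a') 1 = τ.K a 1 * τ.K a' 1 := by
  simp [TS.K_mul]

theorem coe_mul_symm (g : U ≃ₗ[F] U) : (g : End F U) * (g.symm : End F U) = 1 :=
  LinearMap.ext fun u => by simp

theorem symm_mul_coe (g : U ≃ₗ[F] U) : (g.symm : End F U) * (g : End F U) = 1 :=
  LinearMap.ext fun u => by simp

theorem finrank_le_of_inA [Nontrivial U] [Nontrivial W'] (h : ∀ b, τ.flip.InA (τ'.K b 1)) :
    finrank F U' ≤ finrank F W := by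
  choose f hf using fun a => τ.flip_inA.1 (h a)
  let ψ : End F U' →ₗ[F] End F W :=
    { toFun := f
      map_add' := fun a b => one_K_inj τ (by simp [← hf])
      map_smul' := fun c a => one_K_inj τ (by simp [← hf]) }
  have := LinearMap.finrank_le_finrank_of_injective (f := ψ) fun a b e =>
    τ'.K_one_inj (by rw [hf, hf]; exact congrArg (τ.K 1) e)
  rw [Module.finrank_linearMap, Module.finrank_linearMap] at this
  exact Nat.mul_self_le_mul_self_iff.1 this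

theorem exists_KE_of_inA [Nontrivial U] (h : ∀ b, τ.flip.InA (τ'.K b 1)) (g : U' ≃ₗ[F] U') :
    ∃ d, τ'.KL g = τ.KE 1 d ∧ τ'.K g 1 = τ.K 1 d ∧ τ'.K g.symm 1 = τ.K 1 d.symm := by
  obtain ⟨d, hd⟩ := τ.flip_inA.1 (h g)
  obtain ⟨d', hd'⟩ := τ.flip_inA.1 (h g.symm)
  have h1 : d * d' = 1 := one_K_inj τ (by
    rw [← one_mul (1 : End F U), ← TS.K_mul, ← hd, ← hd', TS.K_mul, mul_one, one_mul,
      coe_mul_symm, TS.K_one, TS.K_one])
  have h2 : d' * d = 1 := one_K_inj τ (by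
    rw [← one_mul (1 : End F U), ← TS.K_mul, ← hd, ← hd', TS.K_mul, mul_one, one_mul,
      symm_mul_coe, TS.K_one, TS.K_one])
  exact ⟨LinearEquiv.ofLinearMap d d' h1 h2, LinearEquiv.toLinearMap_injective hd, hd, hd'⟩

variable (τ PU X) in
/-- The coefficients of the central elements at one point. -/
def ZV {e : U} (he : PU.Val e 0) : AddSubgroup (End F V) where
  carrier := {c | ∃ ζ, Has X (τ.ZZ PU e ζ) ∧ τ.K 1 ζ = c}
  zero_mem' := ⟨0, Has.id.congr fun v => by simp [TS.ZZ], by simp⟩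
  add_mem' := by
    rintro _ _ ⟨a, h, rfl⟩ ⟨b, h', rfl⟩
    refine ⟨a + b, (h.comp h').congr fun v => ?_, by simp⟩
    simp only [TS.ZZ, map_add, TS.pB_tp, sing_B he, zero_smul, LinearMap.add_apply, map_zero]
    abel
  neg_mem' := by
    rintro _ ⟨a, h, rfl⟩
    exact ⟨-a, h.inv fun v => by simp [TS.ZZ, sing_B he], by simp⟩

theorem invL_ZV [Nontrivial U] {e : U} (he : PU.Val e 0) (h : ∀ b, τ.flip.InA (τ'.K b 1))
    {g : U' ≃ₗ[F] U'} (hg : τ'.KL g ∈ X) : InvL τ' (ZV τ PU X he : Set (End F V)) g := by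
  rintro _ ⟨ζ, h1, rfl⟩
  obtain ⟨d, a1, a2, a3⟩ := exists_KE_of_inA h g
  exact ⟨_, has_ZZ_KE h1 PU.Iso.one_mem (a1 ▸ hg), by simp [a2, a3, TS.K_mul]⟩

theorem R1.exists_sing_ne (h : R1 PU) {b : End F U} (hb : PU.adj b = b) (hb' : ¬ Scal b) :
    ∃ y, PU.Val y 0 ∧ PU.B (b y) y ≠ 0 := by
  by_contra! hcon
  refine hb' (scal_of_sing_eigen_o h.o h.two h.three_le fun u hu =>
    mem_span_of_B (P := PU) fun w hw => mul_left_cancel₀ h.two ?_)
  have := skew_of_sing h.o h.two h.hn hcon hu hw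
  rw [← B_adj PU b w u, hb, h.o.comm w] at this
  linear_combination this

variable [FiniteDimensional F V]

theorem adj_of_K_eq (cp : Compat τ PU PW PV) (cp' : Compat τ' PU' PW' PV) {a : End F U'}
    {b : End F W} (h : τ.K 1 b = τ'.K a 1) : τ.K 1 (PW.adj b) = τ'.K (PU'.adj a) 1 := by
  have h1 := cp.adj_K 1 b
  rw [h, cp'.adj_K] at h1
  simpa using h1.symm

variable (S : Set0 τ PU PW PV X) (S' : Set0 τ' PU' PW' PV X) (hU : R1 PU) (hU' : R1 PU')
  (hcomm : ∀ b, τ.flip.InA (τ'.K b 1)) (hcent : ∀ d, τ'.InA (τ.K 1 d)) [Nontrivial W']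
include S S' hU hU' hcomm hcent

theorem exists_ZZ_two (h : ¬ τ.Hpt PU X) :
    ∃ e, PU.Val e 0 ∧ e ≠ 0 ∧ ∃ ζ, ζ ≠ 0 ∧ Has X (τ.ZZ PU e ζ) := by
  have := hU.nontrivial
  obtain ⟨e, he, h0, h1⟩ := exists_of_not_hpt S h
  refine ⟨e, he, h0, h1.elim id ?_⟩
  rintro ⟨L, y, hL, hy, hb⟩
  have hee := sing_B he
  by_cases hsa : PW.adj (L ∘ₗ τ.tp y) = L ∘ₗ τ.tp y
  swap
  · exact ⟨_, by simpa [hU.o.ε, sub_eq_zero] using hsa, has_ZZ_of_lv S he hy hL⟩
  obtain ⟨b', hb'⟩ := hcent (L ∘ₗ τ.tp y)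
  obtain ⟨x, hx, hx'⟩ := hU'.exists_sing_ne (b := b')
    (τ'.K_one_inj (by rw [← adj_of_K_eq S.cp S'.cp hb', hsa, hb'])) fun ⟨s, hs⟩ =>
      hb (τ.scal_of_one_K (by
        rw [hb', show b' = s • 1 from LinearMap.ext hs]; simpa using scal_smul_one s))
  have hx0 : x ≠ 0 := fun e => hx' (by simp [e])
  obtain ⟨e', -, he'⟩ := exists_partner he h0
  replace he' : PU.B e e' = 1 := by rw [hU.o.comm, he']
  let M : Submodule F (End F V) :=
    { carrier := {z | τ.Lv PU X e (τ.pB PU e' ∘ₗ z)}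
      zero_mem' := by simpa using hL.sub hL hee
      add_mem' := fun ha hb => by simpa [LinearMap.comp_add] using TS.Lv.add ha hb hee
      smul_mem' := fun s z hz => by simpa [LinearMap.comp_smul] using lv_smul S hU he h0 hz s }
  have hM : ∀ g ∈ PU'.E, InvL τ' (M : Set (End F V)) g := fun g hg z hz => by
    obtain ⟨d, a1, a2, a3⟩ := exists_KE_of_inA hcomm g
    refine (lv_KE hz PU.Iso.one_mem (a1 ▸ S'.hL g hg) one_ne_zero (by simp)).congr hee fun v _ => ?_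
    have := τ.pB_K_iso PU.Iso.one_mem (d : End F W) e'
    simp only [LinearEquiv.coe_one, id, LinearEquiv.coe_toLinearMap_one] at this
    simp only [a2, a3, LinearMap.comp_apply, End.mul_apply, one_smul, LinearEquiv.coe_coe]
    exact (this _).symm
  have hz : τ.tp e ∘ₗ L ∈ M := hL.congr hee fun v _ => by simp [he']
  have h2 := top_o hU'.o hU'.two hM hU'.hn hx hz
  obtain ⟨a, ha⟩ : τ.InA (τ'.K 1 (Slot.S τ' PU' (τ.tp e ∘ₗ L) x x)) := τ.inA_of_comm fun d => by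
    obtain ⟨b, hb⟩ := hcent d
    rw [hb, τ'.K_comm]
  choose β hβ using fun x => τ.flip_inA.1 (hcomm (PU'.th x x))
  have h3 : ∀ x', τ'.K (PU'.th x' x') (Slot.S τ' PU' (τ.tp e ∘ₗ L) x x) = τ.K a (β x') :=
    fun x' => by rw [TS.K_eq_mul, ha, hβ, ← TS.K_comm, ← TS.K_eq_mul]
  have h4 : ∀ x', τ.pB PU e' ∘ₗ τ.K a (β x') = β x' ∘ₗ τ.pB PU (PU.adj a e') := fun x' =>
    τ.ext fun y v => by simp [B_adj]
  have hβ0 : β x ≠ 0 := fun e => K_ne_zero τ' (th_ne_zero (P := PU') hx0 hx0) one_ne_zero (by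
    rw [hβ, e, map_zero])
  have h5 : ∀ x', PU'.Val x' 0 → τ.Lv PU X e (β x' ∘ₗ τ.pB PU (PU.adj a e')) := fun x' hx' => by
    rw [← h4, ← h3]
    exact top_move hM hU'.both hx hx0 h2 hx'
  have hue : PU.B (PU.adj a e') e = 0 := PU.B_symm (by
    by_contra hne
    exact hβ0 (LinearMap.ext fun v => by simpa [hne] using (h5 x hx).1 v))
  have huu : PU.B (PU.adj a e') (PU.adj a e') ≠ 0 := hU.aniso he h0 hue fun hmem => by
    obtain ⟨s, hs⟩ := Submodule.mem_span_singleton.1 hmem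
    have h6 : β x * (L ∘ₗ τ.tp y) * β x = 0 := LinearMap.ext fun v => by
      have := LinearMap.congr_fun (h4 x) (τ.tp y v)
      rw [← h3, ← θ_mul_mul, hβ, ← hs] at this
      simpa [hy, he'] using this
    have h7 := congrArg (τ.K 1) h6
    rw [one_K_mul, one_K_mul, ← hβ, hb', ← K_one_mul, ← K_one_mul, mul_assoc, mul_th, th_mul_th,
      map_zero, map_smul, LinearMap.smul_apply] at h7
    exact K_ne_zero τ' (th_ne_zero (P := PU') hx0 hx0) one_ne_zero
      ((smul_eq_zero.1 h7).resolve_left hx')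
  obtain ⟨x₁, hx₁, h6⟩ := exists_partner hx hx0
  have hβa : ∀ x, PW.adj (β x) = β x := fun x => one_K_inj τ (by
    rw [adj_of_K_eq S.cp S'.cp (hβ x).symm, adj_th, hU'.o.ε, one_smul, hβ])
  refine ⟨_, fun h7 => ?_, has_ZZ_comm S he h0 hue hue ((TS.lev_iff hue).2 (h5 x hx))
    ((TS.lev_iff hue).2 (h5 x₁ hx₁))⟩
  rw [hβa, hβa, hU.o.σ, hU.o.ε, one_mul, ← smul_sub, smul_eq_zero, or_iff_right huu,
    sub_eq_zero] at h7
  have h8 := congrArg (τ.K 1) h7
  rw [one_K_mul, one_K_mul, ← hβ, ← hβ, ← K_one_mul, ← K_one_mul] at h8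
  have h9 := congrArg (fun f : End F U' => PU'.B (f x₁) x) (τ'.K_one_inj h8)
  simp [h6, sing_B hx, sing_B hx₁, hU'.o.comm x x₁] at h9

/-- **Step C** for two slots. -/
theorem E_le_two (hV : IsO PV) (h : ¬ τ.Hpt PU X) : PV.E ≤ X := by
  have := hU.nontrivial
  obtain ⟨e, he, h0, ζ, hζ0, hζ⟩ := exists_ZZ_two S S' hU hU' hcomm hcent h
  obtain ⟨a, ha⟩ := hcent ζ
  have hε : PW.ε = 1 := by simpa [hU.o.ε, hV.ε] using S.cp.εV.symm
  have hskew : ∀ {ζ : End F W} {a : End F U'}, τ.K 1 ζ = τ'.K a 1 → PW.adj ζ = -ζ →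
      PU'.adj a = -a := fun h1 h2 => τ'.K_one_inj (by
    rw [← adj_of_K_eq S.cp S'.cp h1, h2, map_neg, h1]; simp)
  have key := hU'.wg_mem (N := (ZV τ PU X he).comap (τ'.K.flip 1).toAddMonoidHom)
    (fun g hg c hc => by simpa [TS.K_mul] using invL_ZV he hcomm (S'.hL g hg) _ hc) (z := a)
    ⟨ζ, hζ, ha⟩ (fun e => hζ0 (one_K_inj τ (by simp [ha, e])))
    (hskew ha (by simpa [hU.o.ε] using adj_of_ZZ S he h0 hζ))
  refine E_le_of_wg S hU hV (hU'.three_le.trans (finrank_le_of_inA hcomm)) fun x y =>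
    mem_DD_of_line S hU he h0 fun s => ?_
  obtain ⟨a, ha⟩ := hcent (s • wg PW x y)
  obtain ⟨ζ, h1, h2⟩ := hU'.mem_of_skew key
    (hskew ha (by simp [wg, adj_th, hε, S.cp.σW, hU.o.σ, smul_sub]))
  rwa [← one_K_inj τ (h2.trans ha.symm)]

end Cfsg.Agent.Tens.OneO
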