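import Cfsg.Agent.Tens.OneO3

/-!
Orthogonal tensor factors of Witt index one: many slots, the growth of the centre.
-/

set_option autoImplicit false
set_option linter.unusedSectionVars false
set_option linter.unusedSimpArgs false

namespace Cfsg.Agent.Tens.OneO

open Module Cfsg.Agent.H7 Cfsg.Agent.H7.Polar Cfsg.Agent.H1 Cfsg.Agent.Tens.Slot
  Cfsg.Agent.Tens.One

variable {F U V : Type*} [Field F] [AddCommGroup U] [Module F U] [AddCommGroup V] [Module F V]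
  [Finite F] [FiniteDimensional F U] [FiniteDimensional F V]
  {PU : Polar F U} {PV : Polar F V} {X : Subgroup (V ≃ₗ[F] V)}

section One

variable {W : Type*} [AddCommGroup W] [Module F W] [FiniteDimensional F W] {τ : TS F U W V}
  {PW : Polar F W}

variable (τ X) in
/-- The coefficients of the central elements. -/
def DV (hU : R1 PU) : Submodule F (End F V) where
  carrier := {c | ∃ ζ ∈ τ.DD PU X, τ.K 1 ζ = c}
  zero_mem' := ⟨0, zero_mem _, by simp⟩
  add_mem' := by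
    rintro _ _ ⟨a, h, rfl⟩ ⟨b, h', rfl⟩
    exact ⟨a + b, add_mem h h', by simp⟩
  smul_mem' := by
    rintro s _ ⟨a, h, rfl⟩
    exact ⟨s • a, smul_mem_DD (nrm_of_two hU.o.σ hU.two) (hU.o.σ s) h, by simp⟩

theorem mem_DV {hU : R1 PU} {c : End F V} : c ∈ DV X τ hU ↔ τ.flip.InA c ∧
    ∀ e, PU.Val e 0 → Has X (1 + τ.K (PU.th e e) 1 * c : End F V) := by
  constructor
  · rintro ⟨ζ, h, rfl⟩
    exact ⟨τ.flip_inA.2 ⟨ζ, rfl⟩, fun e he => by
      simpa [TS.K_mul] using (τ.mem_DD' PU X).1 h e he⟩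
  · rintro ⟨h1, h2⟩
    obtain ⟨ζ, rfl⟩ := τ.flip_inA.1 h1
    exact ⟨ζ, (τ.mem_DD' PU X).2 fun e he => by simpa [TS.K_mul] using h2 e he, rfl⟩

theorem conj_mem_DV {hU : R1 PU} {a : U ≃ₗ[F] U} (ha : a ∈ PU.Iso) {d : W ≃ₗ[F] W}
    (hd : τ.KE a d ∈ X) {c : End F V} (hc : c ∈ DV X τ hU) :
    τ.K 1 d * c * τ.K 1 d.symm ∈ DV X τ hU := by
  obtain ⟨ζ, h, rfl⟩ := hc
  refine ⟨(d : End F W) * ζ * (d.symm : End F W), fun e he => ?_, by simp [TS.K_mul]⟩
  obtain ⟨e, rfl⟩ := a.surjective e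
  exact has_ZZ_KE (h e ((Iso.val_iff ha).1 he)) ha hd

theorem adj_of_DV (S : Set0 τ PU PW PV X) {hU : R1 PU} {c : End F V} (hc : c ∈ DV X τ hU) :
    PV.adj c = -c := by
  obtain ⟨ζ, h, rfl⟩ := hc
  obtain ⟨e, he, h0⟩ := hU.exists_sing
  simp [S.cp.adj_K, S.adj_of_DD he h0 h, hU.o.ε]

theorem eq_zero_of_K_mul {a : End F U} (ha : a ≠ 0) {c : End F V} (hc : τ.flip.InA c)
    (h : τ.K a 1 * c = 0) : c = 0 := by
  obtain ⟨d, rfl⟩ := τ.flip_inA.1 hc
  by_contra h1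
  exact K_ne_zero τ ha (d := d) (fun e => h1 (by simp [e])) (by simpa [TS.K_mul] using h)

theorem adj_S_self (cp : Compat τ PU PW PV) (hU : R1 PU) {z : End F V} (hz : PV.adj z = -z) {y : U}
    (hy : y ≠ 0) : PV.adj (τ.K 1 (S τ PU z y y)) = -τ.K 1 (S τ PU z y y) := by
  have h1 := congrArg PV.adj (θ_mul_mul (τ := τ) (P := PU) z y)
  rw [adj_mul, adj_mul, hz, cp.adj_K, cp.adj_K, adj_th, adj_one, hU.o.ε, one_smul, neg_mul, mul_neg,
    ← mul_assoc, θ_mul_mul] at h1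
  rw [cp.adj_K, adj_one, eq_neg_iff_add_eq_zero]
  refine eq_zero_of_K_mul (th_ne_zero (P := PU) hy hy) (TS.InA.add ⟨_, (τ.flip_K _ _).symm⟩
    ⟨_, (τ.flip_K _ _).symm⟩) ?_
  simp [mul_add, TS.K_mul, ← h1]

end One

/-- The elements whose skew part lies in a given subspace. -/
def skewPre (hV : IsO PV) (N : Submodule F (End F V)) : Submodule F (End F V) where
  carrier := {c | c - PV.adj c ∈ N}
  zero_mem' := by simp
  add_mem' {a b} ha hb := by
    change _ ∈ N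
    convert N.add_mem ha hb using 1
    rw [adj_add]; abel
  smul_mem' s a ha := by
    change _ ∈ N
    convert N.smul_mem s ha using 1
    rw [adj_smul, hV.σ, smul_sub]

variable (PV) in
/-- The span of the products. -/
def PP (B : Set (End F V)) : Submodule F (End F V) :=
  Submodule.span F {c | ∃ γ ∈ B, ∃ γ' ∈ B, c = γ' * PV.adj γ}

variable {ι : Type*} {W : ι → Type*} [∀ i, AddCommGroup (W i)] [∀ i, Module F (W i)]
  [∀ i, FiniteDimensional F (W i)] {τ : ∀ i, TS F U (W i) V} {PW : ∀ i, Polar F (W i)}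

theorem inA_of_Cm {J : Finset ι} {j : ι} (hj : j ∉ J) {c : End F V} (hc : c ∈ Cm τ J) :
    (τ j).flip.InA c := (τ j).flip.inA_of_comm fun a => by simpa using hc j hj a

theorem Cm_mono {J J' : Finset ι} (h : J ⊆ J') {c : End F V} (hc : c ∈ Cm τ J) : c ∈ Cm τ J' :=
  fun l hl => hc l fun e => hl (h e)

theorem comm_of_inA {j : ι} {c : End F V} (hc : (τ j).flip.InA c) (a : End F U) :
    (τ j).K a 1 * c = c * (τ j).K a 1 := by simpa using hc.comm a

theorem Cm_of_insert [DecidableEq ι] {J : Finset ι} {j : ι} {c : End F V}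
    (hc : c ∈ Cm τ (insert j J)) (h : (τ j).flip.InA c) : c ∈ Cm τ J := fun l hl a => by
  by_cases hlj : l = j
  · subst hlj; exact comm_of_inA h a
  · exact hc l (by simp [hl, hlj]) a

variable (τ) in
/-- The cofactors of a set of endomorphisms of one slot. -/
def sub (M : Submodule F (End F V)) (j : ι) (J : Finset ι) (A : Set (End F U)) :
    Submodule F (End F V) where
  carrier := {γ | γ ∈ Cm τ J ∧ ∀ a ∈ A, (τ j).K a 1 * γ ∈ M}
  zero_mem' := ⟨zero_mem _, fun a _ => by simp⟩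
  add_mem' h h' := ⟨add_mem h.1 h'.1, fun a ha => by
    simpa [mul_add] using M.add_mem (h.2 a ha) (h'.2 a ha)⟩
  smul_mem' s c h := ⟨Subalgebra.smul_mem _ h.1 s, fun a ha => by
    simpa using M.smul_mem s (h.2 a ha)⟩

section Multi

variable [Fintype ι] (h : Multi τ)
include h

theorem invL_sub {M : Submodule F (End F V)} {j l : ι} (hl : l ≠ j) (J : Finset ι)
    (A : Set (End F U)) {g : U ≃ₗ[F] U} (hg : InvL (τ l) (M : Set (End F V)) g) :
    InvL (τ l) (sub τ M j J A : Set (End F V)) g := fun c hc =>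
  ⟨h.invL_Cm J l g c hc.1, fun a ha => by
    have := hg _ (hc.2 a ha)
    rwa [← mul_assoc, h.comm l j hl, mul_assoc, mul_assoc, ← mul_assoc ((τ l).K _ _)] at this⟩

theorem mem_of_insert [DecidableEq ι] {J : Finset ι} {j : ι} {T : Submodule F (End F V)}
    (hT : ∀ a, ∀ ν ∈ Cm τ J, (τ j).K a 1 * ν ∈ T) {μ : End F V} (hμ : μ ∈ Cm τ (insert j J)) :
    μ ∈ T := by
  rw [← (τ j).sum_K_sl (finBasis F U) μ]
  refine T.sum_mem fun _ _ => T.sum_mem fun _ _ => ?_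
  rw [TS.K_eq_mul]
  exact hT _ _ (h.slice_mem_Cm hμ _ _)

variable (hU : R1 PU)
include hU

theorem exists_sub_ne [DecidableEq ι] {J : Finset ι} {j : ι} {M : Submodule F (End F V)}
    (hM : ∀ c ∈ M, c ∈ Cm τ (insert j J)) (hI : ∀ g ∈ PU.Iso, InvL (τ j) (M : Set (End F V)) g)
    (h0 : M ≠ ⊥) : sub τ M j J {1} ≠ ⊥ ∨ sub τ M j J {a | ∃ y, PU.Val y 0 ∧ a = PU.th y y} ≠ ⊥ ∨
      sub τ M j J {a | ∃ u v, a = wg PU u v} ≠ ⊥ := by
  have := hU.nontrivial
  simp only [Submodule.ne_bot_iff] at h0 ⊢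
  obtain ⟨z, hz, hz0⟩ := h0
  by_cases hc : (τ j).flip.InA z
  · exact Or.inl ⟨z, ⟨Cm_of_insert (hM z hz) hc, by simpa using hz⟩, hz0⟩
  obtain ⟨u, v, h1, h2⟩ := hU.extract hI hz hc
  have h3 := h.slice_mem_Cm (hM z hz) (PU.B.flip v) u
  have h4 : (τ j).K 1 (S (τ j) PU z u v) ≠ 0 := K_ne_zero _ one_ne_zero h1
  refine Or.inr (h2.imp (fun h2 => ⟨_, ⟨h3, ?_⟩, h4⟩) fun h2 => ⟨_, ⟨h3, ?_⟩, h4⟩)
  · rintro _ ⟨y, hy, rfl⟩
    simpa [TS.K_mul, S] using h2 y hy
  · rintro _ ⟨x, y, rfl⟩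
    simpa [TS.K_mul, S] using h2 x y

omit hU

variable (cp : ∀ i, Compat (τ i) PU (PW i) PV)
include cp

omit h in
theorem adj_ρ (j : ι) (a : End F U) : PV.adj ((τ j).K a 1) = (τ j).K (PU.adj a) 1 := by
  rw [(cp j).adj_K, adj_one]

omit h in
theorem adj_mem_Cm {J : Finset ι} {c : End F V} (hc : c ∈ Cm τ J) : PV.adj c ∈ Cm τ J :=
  fun l hl a => by
    simpa [adj_mul, adj_ρ cp] using (congrArg PV.adj (hc l hl (PU.adj a))).symm

omit h in
theorem mul_mem_PP {J : Finset ι} {j : ι} (hj : j ∉ J) {A : Set (End F U)} {B G : Set (End F V)}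
    (hB : ∀ γ ∈ B, γ ∈ Cm τ J) (hG : ∀ a ∈ A, ∀ γ ∈ B, (τ j).K a 1 * γ ∈ G) {a : End F U}
    (ha : a ∈ PP PU A) {μ : End F V} (hμ : μ ∈ PP PV B) : (τ j).K a 1 * μ ∈ PP PV G := by
  refine mem_of_span₂ ((LinearMap.mul F (End F V)).comp ((τ j).K.flip 1)) ?_ ha hμ
  rintro _ ⟨a, ha, a', ha', rfl⟩ _ ⟨γ, hγ, γ', hγ', rfl⟩
  refine Submodule.subset_span ⟨_, hG a ha γ hγ, _, hG a' ha' γ' hγ', ?_⟩
  simp only [LinearMap.comp_apply, LinearMap.flip_apply, LinearMap.mul_apply', adj_mul, adj_ρ cp,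
    K_one_mul, mul_assoc]
  rw [← adj_mem_Cm cp (hB γ hγ) j hj, ← mul_assoc γ', ← hB γ' hγ' j hj, mul_assoc]

include hU

theorem eq_zero_of_skew {c : End F V} (hc : c ∈ Cm τ ∅) (hV : IsO PV) (hs : PV.adj c = -c) :
    c = 0 := by
  obtain ⟨s, rfl⟩ := (h.scal c fun j a => hc j (by simp) a).eq
  rw [adj_smul, adj_one, hV.σ, eq_neg_iff_add_eq_zero, ← two_smul F] at hs
  exact (smul_eq_zero.1 hs).resolve_left hU.two

theorem one_mem_PP (J : Finset ι) {M : Submodule F (End F V)} (hM : ∀ c ∈ M, c ∈ Cm τ J)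
    (hI : ∀ j ∈ J, ∀ g ∈ PU.Iso, InvL (τ j) (M : Set (End F V)) g) (h0 : M ≠ ⊥) :
    1 ∈ PP PV (M : Set (End F V)) := by
  classical
  induction J using Finset.induction_on generalizing M with
  | empty =>
    obtain ⟨z, hz, hz0⟩ := (Submodule.ne_bot_iff _).1 h0
    obtain ⟨s, rfl⟩ := (h.scal z fun j a => hM z hz j (by simp) a).eq
    have hs : s ≠ 0 := fun e => hz0 (by simp [e])
    rw [M.smul_mem_iff hs] at hz
    exact Submodule.subset_span ⟨1, hz, 1, hz, by simp⟩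
  | insert j J hj ih =>
    have key : ∀ A, 1 ∈ PP PU A → sub τ M j J A ≠ ⊥ → 1 ∈ PP PV (M : Set (End F V)) :=
      fun A hA h1 => by
        simpa using mul_mem_PP cp hj (B := sub τ M j J A) (G := M) (fun _ h => h.1)
          (fun a ha γ h => h.2 a ha) hA (ih (M := sub τ M j J A) (fun _ h => h.1) (fun l hl g hg =>
            invL_sub h (ne_of_mem_of_not_mem hl hj) J A (hI l (by simp [hl]) g hg)) h1)
    rcases exists_sub_ne h hU hM (hI j (by simp)) h0 with h1 | h1 | h1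
    · exact key {1} (Submodule.subset_span ⟨1, rfl, 1, rfl, by simp⟩) h1
    · exact key _ ((span_th_mul hU.o hU.two hU.three_le).ge trivial) h1
    · exact key _ ((span_wg_mul hU.o hU.two hU.three_le).ge trivial) h1

theorem exists_skew_slot [DecidableEq ι] (hV : IsO PV) (J : Finset ι) {M : Submodule F (End F V)}
    (hM : ∀ c ∈ M, c ∈ Cm τ J) (hI : ∀ j ∈ J, ∀ g ∈ PU.Iso, InvL (τ j) (M : Set (End F V)) g)
    (hs : ∀ c ∈ M, PV.adj c = -c) (h0 : M ≠ ⊥) :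
    ∃ m ∈ J, sub τ M m (J.erase m) {a | ∃ u v, a = wg PU u v} ≠ ⊥ := by
  induction J using Finset.induction_on generalizing M with
  | empty =>
    obtain ⟨z, hz, hz0⟩ := (Submodule.ne_bot_iff _).1 h0
    exact absurd (eq_zero_of_skew h hU cp (hM z hz) hV (hs z hz)) hz0
  | insert j J hj ih =>
    have key : ∀ A, ∀ a ∈ A, a ≠ 0 → PU.adj a = a → sub τ M j J A ≠ ⊥ → ∃ m ∈ insert j J,
        sub τ M m ((insert j J).erase m) {a | ∃ u v, a = wg PU u v} ≠ ⊥ := fun A a ha ha0 ha' h1 => by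
      obtain ⟨m, hm, h2⟩ := ih (M := sub τ M j J A) (fun _ h => h.1) (fun l hl g hg =>
        invL_sub h (ne_of_mem_of_not_mem hl hj) J A (hI l (by simp [hl]) g hg)) (fun c hc => by
          have h2 := hs _ (hc.2 a ha)
          rw [adj_mul, adj_ρ cp, ha', ← adj_mem_Cm cp hc.1 j hj] at h2
          refine eq_neg_of_add_eq_zero_left (eq_zero_of_K_mul ha0
            (inA_of_Cm hj (add_mem (adj_mem_Cm cp hc.1) hc.1)) ?_)
          rw [mul_add, h2, neg_add_cancel]) h1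
      obtain ⟨γ, h3, h4⟩ := (Submodule.ne_bot_iff _).1 h2
      have hmj : m ≠ j := fun e => hj (e ▸ hm)
      refine ⟨m, by simp [hm], (Submodule.ne_bot_iff _).2 ⟨(τ j).K a 1 * γ, ⟨mul_mem
        (h.K_mem_Cm (by simp [hmj.symm]) a) (Cm_mono (Finset.erase_subset_erase _
          (Finset.subset_insert _ _)) h3.1), fun b hb => ?_⟩, fun e => h4
        (eq_zero_of_K_mul ha0 (inA_of_Cm (fun e => hj (Finset.mem_of_mem_erase e)) h3.1) e)⟩⟩
      rw [← mul_assoc, h.comm m j hmj, mul_assoc]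
      exact (h3.2 b hb).2 a ha
    obtain ⟨e, he, he0⟩ := hU.exists_sing
    have := hU.nontrivial
    rcases exists_sub_ne h hU hM (hI j (by simp)) h0 with h1 | h1 | h1
    · exact key {1} 1 rfl one_ne_zero (by simp) h1
    · exact key _ (PU.th e e) (by exact ⟨e, he, rfl⟩) (th_ne_zero he0 he0)
        (by simp [adj_th, hU.o.ε]) h1
    · exact ⟨j, by simp, by rwa [Finset.erase_insert hj]⟩

theorem Cm_le_PP (J : Finset ι) {μ : End F V} (hμ : μ ∈ Cm τ J) :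
    μ ∈ PP PV {s | s ∈ Cm τ J ∧ PV.adj s = s} := by
  classical
  induction J using Finset.induction_on generalizing μ with
  | empty =>
    obtain ⟨s, rfl⟩ := (h.scal μ fun j a => hμ j (by simp) a).eq
    exact Submodule.smul_mem _ _ (Submodule.subset_span
      ⟨1, ⟨one_mem _, by simp⟩, 1, ⟨one_mem _, by simp⟩, by simp⟩)
  | insert j J hj ih =>
    refine mem_of_insert h (fun a ν hν => mul_mem_PP cp hj (fun _ h => h.1) ?_
      ((span_th_mul hU.o hU.two hU.three_le).ge trivial) (ih hν)) hμ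
    rintro _ ⟨y, -, rfl⟩ γ ⟨h1, h2⟩
    exact ⟨mul_mem (h.K_mem_Cm (by simp) _) (Cm_mono (Finset.subset_insert _ _) h1), by
      rw [adj_mul, adj_ρ cp, adj_th, hU.o.ε, one_smul, h2, h1 j hj]⟩

end Multi

variable [Fintype ι] (S : ∀ i, Set0 (τ i) PU (PW i) PV X) (h : Multi τ) (hU : R1 PU)
  (hV : IsO PV)
include S h hV

/-- Change of the point of view from slot `i` to slot `m`. -/
theorem view {i m : ι} (him : i ≠ m) {G : Set (End F V)}
    (hG : ∀ γ ∈ G, (τ i).flip.InA γ ∧ (τ m).flip.InA γ ∧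
      ∀ u v, (τ m).K (wg PU u v) 1 * γ ∈ DV X (τ i) hU) (a : End F U) {μ : End F V}
    (hμ : μ ∈ PP PV G) : (τ i).K a 1 * μ - PV.adj ((τ i).K a 1 * μ) ∈ DV X (τ m) hU := by
  have := hU.nontrivial
  have cp := fun i => (S i).cp
  refine mem_of_span₂ (T := skewPre hV (DV X (τ m) hU)) ((LinearMap.mul F (End F V)).comp ((τ i).K.flip 1))
    (s := {a | ∃ y y', PU.Val y 0 ∧ PU.Val y' 0 ∧ PU.B y' y ≠ 0 ∧ a = PU.th y y'}) ?_
    ((eq_top_of_th hU.o hU.two hU.three_le fun y y' a1 a2 a3 =>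
      Submodule.subset_span (by exact ⟨y, y', a1, a2, a3, rfl⟩)).ge trivial) hμ
  rintro _ ⟨y', y, hy', hy, hyy, rfl⟩ _ ⟨γ, hγ, γ', hγ', rfl⟩
  have hsa : ∀ γ ∈ G, PV.adj γ = γ := fun γ hγ => by
    obtain ⟨a1, a2, a3⟩ := hG γ hγ
    obtain ⟨d, rfl⟩ := (τ m).flip_inA.1 a2
    have := adj_of_DV (S i) (a3 y y')
    rw [← TS.K_eq_mul, (cp m).adj_K, adj_wg hU.o, map_neg, LinearMap.neg_apply, neg_inj] at this
    rw [(cp m).adj_K, adj_one, ← sub_eq_zero, ← map_sub]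
    refine eq_zero_of_K_mul (a := wg PU y y') (fun e => hyy ?_) ((τ m).flip_inA.2 ⟨_, rfl⟩) (by
      rw [← TS.K_eq_mul, map_sub, this, sub_self])
    simpa [wg, sing_B hy, sing_B hy', hU.o.comm y' y] using
      congrArg (fun f : End F U => PU.B (f y) y') e
  have key : ∀ γ ∈ G, ∀ y, PU.Val y 0 → ∃ β, (τ m).K 1 β = (τ i).K (PU.th y y) 1 * γ ∧
      (PW m).adj β = β ∧ ∀ x w, (τ m).Lev PU X x w β := fun γ hγ y hy => by
    obtain ⟨a1, a2, a3⟩ := hG γ hγ
    obtain ⟨d, hd⟩ := h.exists_K him.symm (PU.th y y)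
    obtain ⟨β, hβ⟩ := (τ m).flip_inA.1 (((τ m).flip_inA.2 ⟨d, hd⟩).mul a2)
    have h1 : (PW m).adj β = β := one_K_inj (τ m) (by
      have := (cp m).adj_K 1 β
      rw [adj_one] at this
      rw [← this, ← hβ, adj_mul, hsa γ hγ, adj_ρ cp, adj_th, hU.o.ε, one_smul, comm_of_inA a1])
    refine ⟨β, hβ.symm, h1, fun x w => TS.Lev.of_has (PW := PW m) (ζ := 0)
      ((((mem_DV.1 (a3 x w)).2 y hy)).congr fun v => ?_)⟩
    rw [← mul_assoc, h.comm i m him, mul_assoc, hβ, ← TS.K_eq_mul]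
    simp [TS.QE, wg, TS.K_th, h1, hU.o.ε]
    abel
  obtain ⟨β, b1, b2, b3⟩ := key γ hγ y hy
  obtain ⟨β', c1, c2, c3⟩ := key γ' hγ' y' hy'
  refine (Submodule.smul_mem_iff _ hyy).1 ⟨β' * β - β * β', fun x hx => ?_, ?_⟩
  · by_cases hx0 : x = 0
    · exact Has.id.congr fun v => by simp [TS.ZZ, hx0]
    obtain ⟨w, a1, a2⟩ := hU.exists_aniso hx hx0
    simpa [b2, c2, a2, hU.o.ε] using has_ZZ_comm (S m) hx hx0 a1
      (u' := (PU.B w w)⁻¹ • w) (by simp [a1]) (b3 x w) (c3 x _)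
  · simp only [map_sub, one_K_mul, b1, c1, LinearMap.comp_apply, LinearMap.flip_apply,
      LinearMap.mul_apply', adj_mul, adj_adj, hsa γ hγ, hsa γ' hγ', adj_ρ cp, adj_th, hU.o.ε,
      one_smul, mul_assoc, smul_sub, adj_smul, hV.σ]
    rw [← mul_assoc γ', ← comm_of_inA (hG γ' hγ').1, ← mul_assoc γ, ← comm_of_inA (hG γ hγ).1,
      ← comm_of_inA (hG γ' hγ').1, ← mul_assoc γ, ← comm_of_inA (hG γ hγ).1]
    simp only [← mul_assoc, ← K_one_mul, th_mul_th, map_smul, LinearMap.smul_apply,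
      smul_mul_assoc, hU.o.comm y' y]

variable (τ X) in
omit S h hV in
/-- The skew maps of slot `m` are coefficients of central elements for slot `i`. -/
def RP (i m : ι) : Prop := ∀ u v, (τ m).K (wg PU u v) 1 ∈ DV X (τ i) hU

theorem rp_of_one {i m : ι} (him : i ≠ m) {G : Set (End F V)}
    (hG : ∀ γ ∈ G, (τ i).flip.InA γ ∧ (τ m).flip.InA γ ∧
      ∀ u v, (τ m).K (wg PU u v) 1 * γ ∈ DV X (τ i) hU) (h1 : 1 ∈ PP PV G) : RP X τ hU m i :=
  fun u v => by
    simpa [adj_ρ fun i => (S i).cp, adj_th, hU.o.ε, wg] using view S h hU hV him hG (PU.th u v) h1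

theorem RP.symm {i m : ι} (him : i ≠ m) (hR : RP X τ hU i m) : RP X τ hU m i :=
  rp_of_one S h hU hV him (G := {1}) (by
    rintro _ rfl
    exact ⟨TS.inA_one, TS.inA_one, by simpa [RP] using hR⟩)
    (Submodule.subset_span ⟨1, rfl, 1, rfl, by simp⟩)

omit S hV in
theorem RP.conj {i j i' j' : ι} (hij : i' ≠ j') (hR : RP X τ hU i j) {k : V ≃ₗ[F] V} (hk : k ∈ X)
    (hi : ∀ a, ((τ i).map k).K a 1 = (τ i').K a 1) (hj : ∀ a, ((τ j).map k).K a 1 = (τ j').K a 1) :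
    RP X τ hU i' j' := fun u v => mem_DV.2 ⟨(τ i').flip_inA.2 (h.exists_K hij _), fun e he =>
  ((mem_DV.1 (hR u v)).2 e he).conj hk fun v => by simp [← hi, ← hj, TS.map_K_apply]⟩

theorem RP.all (hc : Cyc τ X) {i m : ι} (him : i ≠ m) (hR : RP X τ hU i m) {a b : ι} (hab : a ≠ b) :
    RP X τ hU a b := by
  have key : ∀ i m, i ≠ m → RP X τ hU i m → ∀ l, i ≠ l → RP X τ hU i l := fun i m him hR l hl => by
    by_cases hml : m = l
    · exact hml ▸ hR
    obtain ⟨k, hk, h1, h2⟩ := hc i m l him hl hml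
    exact RP.symm S h hU hV hl.symm (hR.conj h hU hl.symm hk h1 h2)
  by_cases hia : i = a
  · exact hia ▸ key i m him hR b (hia ▸ hab)
  · exact key a i (Ne.symm hia) (RP.symm S h hU hV hia (key i m him hR a hia)) b hab

variable [DecidableEq ι]

theorem exists_rp (hP : ∀ i j, i ≠ j → ∀ g ∈ PU.Iso, ∃ a ∈ PU.Iso, (τ i).KL a * (τ j).KL g ∈ X)
    {i : ι} (hi : DV X (τ i) hU ≠ ⊥) : ∃ m, m ≠ i ∧ RP X τ hU m i := by
  have := hU.nontrivial
  have cp := fun i => (S i).cp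
  have hI : ∀ j ∈ Finset.univ.erase i, ∀ g ∈ PU.Iso,
      InvL (τ j) (DV X (τ i) hU : Set (End F V)) g := fun j hj g hg c hc => by
    have hij : i ≠ j := (Finset.ne_of_mem_erase hj).symm
    obtain ⟨a, ha, h1⟩ := hP i j hij g hg
    obtain ⟨d, a1, a2, a3⟩ := h.exists_KE hij g
    rw [a2, a3]
    refine conj_mem_DV ha (?_ : (τ i).KE a d ∈ X) hc
    rwa [a1, show (τ i).KL a = (τ i).KE a 1 from rfl, TS.KE_mul, mul_one, one_mul] at h1
  obtain ⟨m, hm, h1⟩ := exists_skew_slot h hU cp hV (Finset.univ.erase i) (fun c hc l hl a => by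
    obtain rfl : l = i := by simpa using hl
    exact comm_of_inA (mem_DV.1 hc).1 a) hI (fun c => adj_of_DV (S i)) hi
  have hmi := Finset.ne_of_mem_erase hm
  refine ⟨m, hmi, rp_of_one S h hU hV hmi.symm (fun γ hγ => ⟨inA_of_Cm (by simp) hγ.1,
    inA_of_Cm (by simp) hγ.1, fun u v => hγ.2 _ ⟨u, v, rfl⟩⟩) (one_mem_PP h hU cp _
      (M := sub τ _ m _ _) (fun _ h => h.1) (fun l hl g hg => invL_sub h (Finset.ne_of_mem_erase hl) _ _
        (hI l (Finset.mem_of_mem_erase hl) g hg)) h1)⟩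

theorem grow (hR : ∀ a b, a ≠ b → RP X τ hU a b) {l m i : ι} {J : Finset ι} (hl : l ∉ J)
    (hm : m ∉ insert l J) (hi : i ∈ J) (hJ : ∀ μ ∈ Cm τ J, μ - PV.adj μ ∈ DV X (τ l) hU) :
    ∀ μ ∈ Cm τ (insert l J), μ - PV.adj μ ∈ DV X (τ m) hU := by
  have := hU.nontrivial
  have cp := fun i => (S i).cp
  have hml : m ≠ l := fun e => hm (by simp [e])
  have hmJ : m ∉ J := fun e => hm (by simp [e])
  have him : i ≠ m := fun e => hmJ (e ▸ hi)
  have hil : i ≠ l := fun e => hl (e ▸ hi)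
  refine fun μ => mem_of_insert h (T := skewPre hV (DV X (τ m) hU)) fun a ν hν => view S h hU hV hml.symm
    (G := sub τ (DV X (τ l) hU) m J {a | ∃ u v, a = wg PU u v}) (fun γ hγ =>
      ⟨inA_of_Cm hl hγ.1, inA_of_Cm hmJ hγ.1, fun u v => hγ.2 _ ⟨u, v, rfl⟩⟩) a ?_
  rw [← Finset.insert_erase hi] at hν
  refine mem_of_insert h (fun a ν hν => mul_mem_PP cp (J := J.erase i) (by simp) (fun _ h => h.1) ?_
    ((span_th_mul hU.o hU.two hU.three_le).ge trivial) (Cm_le_PP h hU cp _ hν)) hν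
  rintro _ ⟨e, he, rfl⟩ s ⟨hs, hs'⟩
  have hsJ := Cm_mono (Finset.erase_subset i J) hs
  refine ⟨mul_mem (h.K_mem_Cm hi _) hsJ, ?_⟩
  rintro _ ⟨u, v, rfl⟩
  by_cases he0 : e = 0
  · simp [he0]
  obtain ⟨e', -, he'⟩ := exists_partner he he0
  have hz : (τ i).K (wg PU e e') 1 * s ∈ DV X (τ l) hU := by
    have := hJ _ (mul_mem (h.K_mem_Cm hi (PU.th e e')) hsJ)
    rwa [adj_mul, hs', adj_ρ cp, adj_th, hU.o.ε, one_smul, ← hs i (by simp), ← sub_mul,
      ← LinearMap.sub_apply, ← map_sub] at this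
  obtain ⟨n, hn⟩ : ∃ n, n = (τ i).K (PU.th e e) 1 * (τ m).K (wg PU u v) 1 := ⟨_, rfl⟩
  have hn2 : n * n = 0 := by
    rw [hn, mul_assoc, ← mul_assoc ((τ m).K _ _), ← h.comm i m him, ← mul_assoc, ← mul_assoc,
      θ_mul_θ (sing_B he), zero_mul, zero_mul]
  have key : ∀ t : F, ∀ z ∈ DV X (τ l) hU, (1 + t • n) * z * (1 - t • n) ∈ DV X (τ l) hU := by
    intro t z hz
    obtain ⟨g, hg, hg'⟩ := (mem_DV.1 (Submodule.smul_mem _ t (hR i m him u v))).2 e he
    rw [mul_smul_comm, ← hn] at hg'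
    obtain ⟨d, hd⟩ := h.exists_K hil.symm (PU.th e e)
    obtain ⟨d', hd'⟩ := h.exists_K hml.symm (wg PU u v)
    have h1 : n = (τ l).K 1 (d * d') := by rw [hn, hd, hd', one_K_mul]
    have h2 : d * d' * (d * d') = 0 := one_K_inj (τ l) (by rw [one_K_mul, ← h1, hn2, map_zero])
    let D : W l ≃ₗ[F] W l := LinearEquiv.ofLinearMap (1 + t • (d * d')) (1 - t • (d * d'))
      (by rw [← End.mul_eq_comp, ← End.one_eq_id]; simp [mul_sub, add_mul, h2])
      (by rw [← End.mul_eq_comp, ← End.one_eq_id]; simp [mul_add, sub_mul, h2])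
    have h3 : (τ l).K 1 D = 1 + t • n := by simp [D, h1]
    have h4 : (τ l).K 1 D.symm = 1 - t • n := by
      change (τ l).K 1 (1 - t • (d * d')) = _
      simp [h1]
    rw [← h3, ← h4]
    exact conj_mem_DV PU.Iso.one_mem (Has.mem ⟨g, hg, hg'⟩ fun v => by rw [← h3]; rfl) hz
  refine (Submodule.smul_mem_iff _ (neg_ne_zero.2 (mul_ne_zero hU.two hU.two))).1 ?_
  convert Submodule.sub_mem _ (key 1 _ hz) (key (-1) _ hz) using 1
  have e1 : n * ((τ i).K (wg PU e e') 1 * s) =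
      -((τ m).K (wg PU u v) 1 * ((τ i).K (PU.th e e) 1 * s)) := by
    rw [hn, h.comm i m him, mul_assoc, ← mul_assoc ((τ i).K _ _), ← K_one_mul]
    simp [wg, mul_sub, th_mul_th, sing_B he, he']
  have e2 : (τ i).K (wg PU e e') 1 * s * n =
      (τ m).K (wg PU u v) 1 * ((τ i).K (PU.th e e) 1 * s) := by
    rw [hn, hs i (by simp), mul_assoc, ← mul_assoc ((τ i).K _ _), ← K_one_mul, ← mul_assoc,
      ← hs i (by simp), ← mul_mem (h.K_mem_Cm hi _) hsJ m hmJ]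
    simp [wg, sub_mul, th_mul_th, sing_B he, he', hU.o.comm e e']
  simp only [add_mul, mul_sub, one_mul, mul_one, smul_mul_assoc, mul_smul_comm, e1, e2]
  module

/-- If the centre is non-trivial then `X` contains the elementary group. -/
theorem E_le_of_DV [∀ i, Nontrivial (W i)] (hc : Cyc τ X)
    (hP : ∀ i j, i ≠ j → ∀ g ∈ PU.Iso, ∃ a ∈ PU.Iso, (τ i).KL a * (τ j).KL g ∈ X)
    {i : ι} (hi : DV X (τ i) hU ≠ ⊥) : PV.E ≤ X := by
  have := hU.nontrivial
  have cp := fun i => (S i).cp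
  obtain ⟨m, hm, h1⟩ := exists_rp S h hU hV hP hi
  have hR : ∀ a b, a ≠ b → RP X τ hU a b := fun a b => RP.all S h hU hV hc hm h1
  have key : ∀ n, n + 2 ≤ Fintype.card ι → ∃ l, ∃ J : Finset ι, J.card = n + 1 ∧ l ∉ J ∧
      ∀ μ ∈ Cm τ J, μ - PV.adj μ ∈ DV X (τ l) hU := fun n => by
    induction n with
    | zero =>
      refine fun _ => ⟨m, {i}, rfl, by simpa using hm, fun μ hμ => ?_⟩
      obtain ⟨a, rfl⟩ := h.inA_of_comm (i := i) fun j hj => hμ j (by simpa using hj)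
      simpa [adj_ρ cp] using hU.sub_adj_mem
        (N := ((DV X (τ m) hU).comap ((τ i).K.flip 1)).toAddSubgroup) h1 a
    | succ n ih =>
      intro hn
      obtain ⟨l, J, h2, h3, h4⟩ := ih (by omega)
      obtain ⟨m, -, hm⟩ := Finset.exists_mem_notMem_of_card_lt_card (s := insert l J)
        (t := Finset.univ) (by rw [Finset.card_insert_of_notMem h3, Finset.card_univ]; omega)
      obtain ⟨i, hi⟩ := Finset.card_pos.1 (show 0 < J.card by omega)
      exact ⟨m, insert l J, by rw [Finset.card_insert_of_notMem h3, h2], hm,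
        grow S h hU hV hR h3 hm hi h4⟩
  have h2 : 2 ≤ Fintype.card ι := Fintype.one_lt_card_iff.2 ⟨m, i, hm⟩
  obtain ⟨l, J, h3, h4, h5⟩ := key (Fintype.card ι - 2) (by omega)
  have h6 : insert l J = Finset.univ := Finset.eq_univ_of_card _ (by
    rw [Finset.card_insert_of_notMem h4]; omega)
  obtain ⟨j, hj⟩ := Finset.card_pos.1 (show 0 < J.card by omega)
  have hε : (PW l).ε = 1 := by simpa [hU.o.ε, hV.ε] using (cp l).εV.symm
  refine E_le_of_wg (S l) hU hV (hU.three_le.trans (finrank_le_of_inA (τ' := τ j) fun b =>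
    (τ l).flip_inA.2 (h.exists_K (ne_of_mem_of_not_mem hj h4).symm b))) fun x y => ?_
  obtain ⟨ζ, a1, a2⟩ := h5 ((τ l).K 1 ((PW l).th x y)) fun j hj a => by
    obtain rfl : j = l := by simpa [hj] using h6.ge (Finset.mem_univ j)
    exact (τ j).K_comm _ _
  rw [(cp l).adj_K, adj_one, ← map_sub, adj_th, hε, one_smul] at a2
  rwa [wg, ← one_K_inj (τ l) a2]

end Cfsg.Agent.Tens.OneO
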