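import Cfsg.Agent.Tens.Rigid4

/-!
Rigidity for orthogonal tensor factors of Witt index one: the averaging argument.
-/

set_option autoImplicit false
set_option linter.unusedSectionVars false

namespace Cfsg.Agent.Tens

open Module Cfsg.Agent.H7

theorem sum_mem_of_orbits {A S M : Type*} [AddCommGroup A] [Fintype A] [AddCommGroup M]
    (act : A → S → S) (h0 : ∀ s, act 0 s = s) (hadd : ∀ a b s, act (a + b) s = act a (act b s))
    (f : S → M) (N : AddSubgroup M) (T : Finset S) (hT : ∀ a, ∀ s ∈ T, act a s ∈ T)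
    (h : ∀ s ∈ T, ∃ (B : AddSubgroup A) (_ : Fintype B), (∀ b ∈ B, act b s = s → b = 0) ∧
      ∀ t, ∑ b : B, f (act b (act t s)) ∈ N) : ∑ s ∈ T, f s ∈ N := by
  classical
  induction T using Finset.strongInduction with
  | H T ih =>
    rcases T.eq_empty_or_nonempty with rfl | ⟨s, hs⟩
    · simp
    have hsub : Finset.univ.image (fun a => act a s) ⊆ T := by
      intro x hx
      obtain ⟨a, -, rfl⟩ := Finset.mem_image.1 hx
      exact hT a s hs
    rw [← Finset.sum_sdiff hsub]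
    refine N.add_mem (ih _ (Finset.sdiff_ssubset hsub ⟨s, Finset.mem_image.2 ⟨0, by simp [h0]⟩⟩)
      (fun a x hx => ?_) fun x hx => h x (Finset.mem_sdiff.1 hx).1) ?_
    · rw [Finset.mem_sdiff] at hx ⊢
      refine ⟨hT a x hx.1, fun h => hx.2 ?_⟩
      obtain ⟨b, -, hb⟩ := Finset.mem_image.1 h
      exact Finset.mem_image.2 ⟨-a + b, by simp, by rw [hadd, hb, ← hadd, neg_add_cancel, h0]⟩
    obtain ⟨B, _, h1, h2⟩ := h s hs
    refine sum_mem_of_free (A := B) (fun b => act b) h0 (fun a b => hadd a b) f N _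
      (fun b x hx => ?_) (fun b x hx e => ?_) fun x hx => ?_
    all_goals obtain ⟨a, -, rfl⟩ := Finset.mem_image.1 hx
    · exact Finset.mem_image.2 ⟨b + a, by simp, hadd _ _ _⟩
    · refine Subtype.ext (h1 b b.2 ?_)
      have := congrArg (act (-a)) e
      simp only [← hadd] at this
      rwa [neg_add_cancel, h0, add_comm (b : A), neg_add_cancel_left] at this
    · exact h2 a

section Field

variable {F : Type*} [Field F] [Finite F]

theorem sum_top_pow [Fintype (⊤ : AddSubgroup F)] {k : ℕ} (hk : k + 1 < Nat.card F) :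
    ∑ t : (⊤ : AddSubgroup F), (t : F) ^ k = 0 := by
  have := Fintype.ofFinite F
  rw [← FiniteField.sum_pow_lt_card_sub_one F k (by rw [← Nat.card_eq_fintype_card]; omega)]
  exact Fintype.sum_equiv AddSubgroup.topEquiv.toEquiv _ _ fun _ => rfl

theorem mem_zmultiples_of_ne {b c : F} (hc : c ∈ AddSubgroup.zmultiples b) (h0 : c ≠ 0) :
    b ∈ AddSubgroup.zmultiples c := by
  obtain ⟨p, hp⟩ := CharP.exists F
  have : Fact p.Prime := ⟨CharP.char_is_prime F p⟩
  have h1 : ∀ x : F, x ≠ 0 → Nat.card (AddSubgroup.zmultiples x) = p := fun x hx => by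
    rw [Nat.card_zmultiples, addOrderOf_eq_prime (p := p) (by simp) hx]
  have hb : b ≠ 0 := by rintro rfl; simp [h0] at hc
  rw [AddSubgroup.eq_of_le_of_card_ge (AddSubgroup.zmultiples_le_of_mem hc)
    (by rw [h1 b hb, h1 c h0])]
  exact AddSubgroup.mem_zmultiples b

theorem exists_pow_four_ne_one (h : 7 ≤ Nat.card F) : ∃ t : F, t ≠ 0 ∧ t ^ 4 ≠ 1 := by
  classical
  have := Fintype.ofFinite F
  by_contra! hc
  have h1 := FiniteField.sum_pow_lt_card_sub_one F 4 (by rw [← Nat.card_eq_fintype_card]; omega)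
  rw [← Finset.add_sum_erase _ _ (Finset.mem_univ 0), Finset.sum_congr rfl
    (fun t ht => hc t (Finset.ne_of_mem_erase ht))] at h1
  have h2 := FiniteField.cast_card_eq_zero F
  simp only [Finset.sum_const, Finset.card_erase_of_mem (Finset.mem_univ (0 : F)), Finset.card_univ,
    nsmul_eq_mul, mul_one] at h1
  rw [Nat.cast_sub Fintype.card_pos, h2] at h1
  simp at h1

end Field

variable {F U W V : Type*} [Field F] [AddCommGroup U] [Module F U] [AddCommGroup W] [Module F W]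
  [AddCommGroup V] [Module F V] [Finite F] [FiniteDimensional F U] [FiniteDimensional F W]

namespace TS

variable {τ : TS F U W V} {X : Subgroup (V ≃ₗ[F] V)}

theorem cj_mem_Bad {k : U ≃ₗ[F] U} (hk : τ.KL k ∈ X) {θ : End F (End F V)} (hθ : θ ∈ τ.Bad X) :
    cj (τ.KL k) θ ∈ τ.Bad X := by
  obtain ⟨g, hg, rfl, h4, h5⟩ := mem_Bad.1 hθ
  refine mem_Bad.2 ⟨_, X.mul_mem hk hg, by rw [cj_Θ, map_mul], fun h6 => h4 ?_, fun h6 => h5 ?_⟩
  · exact Same.of_KE_mul (a := k) (d := 1) h6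
  · exact Same.of_KE_mul (τ := τ.flip) (a := 1) (d := k) (by rwa [flip_KE])

theorem δ_conj {k : U ≃ₗ[F] U} (hk : τ.KL k ∈ X) (y : End F V) :
    τ.δ X ((τ.KL k).conj y) = (τ.KL k).conj (τ.δ X y) := by
  rw [δ, LinearMap.sum_apply, LinearMap.sum_apply, map_sum]
  refine (Finset.sum_nbij' (cj (τ.KL k)) (cj (τ.KL k⁻¹)) (fun _ => cj_mem_Bad hk)
    (fun _ => cj_mem_Bad (by rw [map_inv]; exact X.inv_mem hk))
    (fun θ _ => by rw [← cj_mul, map_inv, inv_mul_cancel, cj_one])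
    (fun θ _ => by rw [← cj_mul, map_inv, mul_inv_cancel, cj_one])
    fun θ _ => (cj_apply _ θ y).symm).symm

theorem trace_conj_mul [Nontrivial W] {x x' : End F U} (hx : LinearMap.trace F U x = 0)
    (hδ : ∀ d, τ.δ X (τ.K x d) = 0) (hx' : LinearMap.trace F U x' = 0) {d' : End F W}
    (hd' : LinearMap.trace F W d' = 0) (hδ' : τ.δ X (τ.K x' d') = 0) {g : V ≃ₗ[F] V} (hg : g ∈ X) :
    LinearMap.trace F V ((τ.map g).K x 1 * τ.K x' d') = 0 := by
  obtain ⟨d₁, hd₁⟩ := exists_trace_one (F := F) (W := W)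
  have h1 : ∑ θ ∈ τ.Om X, θ ((τ.map g).K x d₁) = (τ.map g).K x 1 := by
    rw [map_K_conj, sum_Om_conj hg, sum_Om_K hx, hδ, hd₁, one_smul, add_zero, map_K_conj]
  have h3 := sum_Om_K (τ := τ) (X := X) hx' d'
  rw [hδ', hd', zero_smul, add_zero] at h3
  rw [← h1, Finset.sum_mul, map_sum, Finset.sum_congr rfl (g := fun θ =>
    LinearMap.trace F V ((τ.map g).K x d₁ * θ (τ.K x' d'))), ← map_sum, ← Finset.mul_sum, h3]
  · simp
  · intro θ hθ
    obtain ⟨k, -, rfl⟩ := mem_Om.1 hθ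
    exact (τ.map k).trace_Θ_mul _ _

theorem Same.symm_map' [Nontrivial W] {g : V ≃ₗ[F] V} (h : (τ.map g).Same τ) :
    τ.Same (τ.map g) := by
  have := Same.symm_map (τ := τ.map g) (g := g⁻¹) (by rwa [← map_mul, inv_mul_cancel])
  rwa [← map_mul, inv_mul_cancel] at this

theorem InA.map_inv {W' : Type*} [AddCommGroup W'] [Module F W'] {τ' : TS F U W' V}
    {U' W'' : Type*} [AddCommGroup U'] [Module F U'] [AddCommGroup W''] [Module F W'']
    {τ'' : TS F U' W'' V} {g : V ≃ₗ[F] V} {a : End F U} (h : τ''.InA ((τ'.map g).K a 1)) :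
    (τ''.map g⁻¹).InA (τ'.K a 1) := by
  have h3 := h.map g⁻¹
  rwa [← map_K, ← map_mul, inv_mul_cancel, map_one] at h3

variable (τ X) in
/-- Conjugates of the structure with a common point coincide. -/
def RP (PU : Polar F U) : Prop := ∀ g ∈ X, ∀ e f, PU.Val e 0 → e ≠ 0 → f ≠ 0 →
  LinearMap.range (τ.tp e) = LinearMap.range ((τ.map g).tp f) → (τ.map g).Same τ

end TS

/-- Torus elements in the elementary group. -/
def TorE (PU : Polar F U) (l m n : F) : Prop :=
  ∀ e e', PU.Val e 0 → PU.Val e' 0 → PU.B e' e = 1 → ∃ k ∈ PU.E,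
    k e = l • e ∧ k e' = n • e' ∧ ∀ z, PU.B z e = 0 → PU.B z e' = 0 → k z = m • z

namespace R1

variable {P : Polar F U} (h : R1 P)
include h

theorem torE_sq {t : F} (ht : t ≠ 0) : TorE P (t * t) 1 (t * t)⁻¹ := fun e e' he he' h1 => by
  obtain ⟨w, a1, a2, a3⟩ := h.exists_aniso he he' h1
  have h2 := h.two
  have a4 : P.B w w / 2 ≠ 0 := div_ne_zero a3 h2
  obtain ⟨k, b1, b2, b3, b4⟩ := Polar.exists_tor he he' h1 (w₁ := t • w) (by simp [a1])
    (by simp [a2]) (h.o.val_smul t (h.val_half w)) (by simp [ht, a3, h2]) a1 a2 (h.val_half w) a4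
  refine ⟨k, b1, ?_, ?_, fun z hz hz' => ?_⟩
  · rw [b2, h.o.σ, h.o.ε]; congr 1; field_simp
  · rw [b3, h.o.σ, h.o.ε]; congr 1; field_simp
  · rw [b4 z hz hz', h.o.σ, h.o.σ, h.o.ε, h.o.smul_right, h.o.smul_right]
    match_scalars
    · ring
    · field_simp; ring

theorem exists_plane (hk : finrank F U = 4) {e e' : U} (he : P.Val e 0) (he' : P.Val e' 0)
    (h1 : P.B e' e = 1) {w : U} (a1 : P.B w e = 0) (a2 : P.B w e' = 0) (a3 : P.B w w ≠ 0) :
    ∃ v, P.B v e = 0 ∧ P.B v e' = 0 ∧ P.B v w = 0 ∧ P.B v v ≠ 0 ∧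
      ∀ z, P.B z e = 0 → P.B z e' = 0 → z = (P.B z w / P.B w w) • w + (P.B z v / P.B v v) • v := by
  obtain ⟨v, b1, b2, b3, b4⟩ := Slot.exists_aniso_pp h.o h.two (y := w) (fun e => a3 (by simp [e]))
    (Or.inr ⟨hk.ge, a3⟩) he' he (by simp [h1]) (P.B_symm a2) (P.B_symm a1)
  refine ⟨v, b3, b2, b1, b4, fun z hz hz' => ?_⟩
  have he0 : e ≠ 0 := fun e => by simp [e] at h1
  have h3 := P.finrank_perp ((F ∙ e) ⊔ F ∙ e')
  rw [Submodule.finrank_sup_span_singleton (Polar.notMem_span_of_B_ne (Polar.sing_B he)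
    (by simp [h1])), finrank_span_singleton he0, Polar.perp_sup, Polar.perp_span_singleton,
    Polar.perp_span_singleton] at h3
  have h4 : (F ∙ w) ⊔ (F ∙ v) = P.pp e ⊓ P.pp e' := Submodule.eq_of_le_of_finrank_eq
    (sup_le (by simpa using ⟨a1, a2⟩) (by simpa using ⟨b3, b2⟩)) (by
      rw [Submodule.finrank_sup_span_singleton (fun e => by
        obtain ⟨c, rfl⟩ := Submodule.mem_span_singleton.1 e
        simp [a3] at b1
        simp [b1] at b4), finrank_span_singleton (fun e => a3 (by simp [e]))]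
      omega)
  obtain ⟨_, h5, c, rfl⟩ := mem_sup_span_singleton.1 (h4.ge ⟨hz, hz'⟩)
  obtain ⟨b, rfl⟩ := Submodule.mem_span_singleton.1 h5
  simp [b1, P.B_symm b1, a3, b4]

theorem torE_neg (hk : finrank F U = 4) {l : F} (hl : ∀ c : F, c ≠ 0 → (∀ s, c + s * s ≠ 0) →
    ∃ t, t ≠ 0 ∧ t * t * c = l) : TorE P l (-1) l⁻¹ := fun e e' he he' h1 => by
  obtain ⟨w, a1, a2, a3⟩ := h.exists_aniso he he' h1
  obtain ⟨v, b1, b2, b3, b4, b5⟩ := h.exists_plane hk he he' h1 a1 a2 a3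
  have h2 := h.two
  obtain ⟨t, ht, rfl⟩ := hl (P.B w w / P.B v v) (div_ne_zero a3 b4) fun s hs => by
    obtain ⟨c, hc⟩ := Submodule.mem_span_singleton.1 (h.mem_span he (fun e => by simp [e] at h1)
      (w := w + s • v) (by simp [a1, b1]) (by
        simp only [map_add, map_smul, LinearMap.add_apply, LinearMap.smul_apply, h.o.smul_right, b3,
          P.B_symm b3, smul_eq_mul]
        field_simp at hs
        linear_combination hs))
    have := congrArg (fun y => P.B y w) hc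
    simp [P.B_symm a1, b3] at this
    exact a3 this.symm
  obtain ⟨k, c1, c2, c3, c4⟩ := Polar.exists_tor he he' h1 (w₁ := t • w) (by simp [a1])
    (by simp [a2]) (h.o.val_smul t (h.val_half w)) (by simp [ht, a3, h2]) b1 b2 (h.val_half v)
    (div_ne_zero b4 h2)
  refine ⟨k, c1, ?_, ?_, fun z hz hz' => ?_⟩
  · rw [c2, h.o.σ, h.o.ε]; congr 1; field_simp
  · rw [c3, h.o.σ, h.o.ε]; congr 1; field_simp
  · rw [c4 z hz hz', h.o.σ, h.o.σ, h.o.ε, h.o.smul_right, h.o.smul_right, b3]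
    have := b5 z hz hz'
    generalize P.B z w = x at *
    generalize P.B z v = y at *
    subst this
    match_scalars <;> field_simp <;> ring

theorem torE_three (hk : finrank F U = 4) (hF : Nat.card F = 3) : TorE P 1 (-1) 1 := by
  have := Fintype.ofFinite F
  have := h.torE_neg hk (l := 1) fun c hc hs => ⟨1, one_ne_zero, by
    have h1 := FiniteField.pow_card_sub_one_eq_one c hc
    rw [← Nat.card_eq_fintype_card, hF] at h1
    exact mul_left_cancel₀ (hs 1) (by linear_combination h1)⟩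
  rwa [inv_one] at this

theorem torE_five (hk : finrank F U = 4) (hF : Nat.card F = 5) : TorE P 2 (-1) 2⁻¹ := by
  have := Fintype.ofFinite F
  have h5 : (5 : F) = 0 := by
    have := FiniteField.cast_card_eq_zero F
    rwa [← Nat.card_eq_fintype_card, hF] at this
  refine h.torE_neg hk fun c hc hs => ?_
  have h1 := FiniteField.pow_card_sub_one_eq_one c hc
  rw [← Nat.card_eq_fintype_card, hF] at h1
  have h2 : (c - 2) * (c + 2) = 0 := mul_left_cancel₀ (mul_ne_zero (hs 1) (hs 2)) (by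
    linear_combination h1 + (c ^ 3 - 4 * c - 3) * h5)
  rcases mul_eq_zero.1 h2 with h3 | h3
  · exact ⟨1, one_ne_zero, by linear_combination h3⟩
  · exact ⟨2, h.two, by linear_combination 4 * h3 - 2 * h5⟩

variable {e w : U}

theorem sum_conj_eta (τ : TS F U W V) (he : P.Val e 0) (hw : P.B w e = 0) (B : AddSubgroup F)
    [Fintype B] (hB : B ≠ ⊥) (z : End F V) :
    ∑ t : B, (τ.KL (h.eta he (w := (t : F) • w) (by simp [hw]))).conj z =
      (∑ t : B, (t : F) ^ 2) • (-((P.B w w / 2) • (τ.K (P.th e e) 1 * z + z * τ.K (P.th e e) 1)) -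
        τ.K (nn P e w) 1 * z * τ.K (nn P e w) 1) +
      (∑ t : B, (t : F) ^ 4) • ((P.B w w / 2) ^ 2 • (τ.K (P.th e e) 1 * z * τ.K (P.th e e) 1)) := by
  have h1 : (Fintype.card B : F) = 0 := by
    obtain ⟨x, hx⟩ := AddSubgroup.ne_bot_iff_exists_ne_zero.1 hB
    have h2 : Fintype.card B • x = 0 := card_nsmul_eq_zero
    have h3 : (Fintype.card B : F) * (x : F) = 0 := by
      rw [← nsmul_eq_mul]; exact congrArg Subtype.val h2
    exact (mul_eq_zero.1 h3).resolve_right fun e => hx (Subtype.ext e)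
  have h3 := sum_eq_zero_of_smul B (l := -1) (by simp) (fun t ht => by simpa using ht) 3
    fun e => h.two (by linear_combination -e)
  simp only [h.conj_eta τ he hw, Finset.sum_add_distrib, ← Finset.sum_smul, Finset.sum_const,
    Finset.card_univ, sum_eq_zero_of_two_ne B h.two, h3]
  rw [← Nat.cast_smul_eq_nsmul F, h1]
  simp

theorem conj_eta_of_comm (τ : TS F U W V) (he : P.Val e 0) (hw : P.B w e = 0) {y : End F V}
    (h1 : τ.K (nn P e w) 1 * y = y * τ.K (nn P e w) 1)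
    (h2 : τ.K (P.th e e) 1 * y = y * τ.K (P.th e e) 1) : (τ.KL (h.eta he hw)).conj y = y := by
  have h3 : (τ.KL (h.eta he hw) : End F V) * y = y * τ.KL (h.eta he hw) := by
    simp [h.coe_eta, add_mul, mul_add, sub_mul, mul_sub, h1, h2]
  change (τ.KL (h.eta he hw) : End F V) * y * (τ.KL (h.eta he hw)).symm = y
  rw [h3, mul_assoc]
  exact LinearMap.ext fun v => congrArg y ((τ.KL (h.eta he hw)).apply_symm_apply v)

theorem comm_th_of_comm (τ : TS F U W V) (he : P.Val e 0) (hw : P.B w e = 0) (hww : P.B w w ≠ 0)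
    {y : End F V} (h1 : τ.K (nn P e w) 1 * y = y * τ.K (nn P e w) 1) :
    τ.K (P.th e e) 1 * y = y * τ.K (P.th e e) 1 := by
  have h4 : τ.K (nn P e w) 1 * τ.K (nn P e w) 1 = -P.B w w • τ.K (P.th e e) 1 := by
    simp [TS.K_mul, h.nn_mul he hw hw]
  refine smul_right_injective _ (neg_ne_zero.2 hww) ?_
  simp only
  rw [← smul_mul_assoc, ← mul_smul_comm, ← h4, mul_assoc, h1, ← mul_assoc, h1, mul_assoc]

end R1

namespace Good

variable {τ : TS F U W V} {PU : Polar F U} {PW : Polar F W} {PV : Polar F V}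
  {X : Subgroup (V ≃ₗ[F] V)} (h : Good τ PU PW PV X) [Nontrivial W] (r : R1 PU)
include h r

omit r in
theorem tor {l m n : F} (hT : TorE PU l m n) : τ.Tor PU X l m n := fun e e' he he' h1 => by
  obtain ⟨k, a1, a2⟩ := hT e e' he he' h1
  exact ⟨k, h.left k a1, a2⟩

theorem rp_of_tor {l m n : F} (hT : TorE PU l m n) (hl : n ≠ l) (hm : n ≠ m) : τ.RP X PU :=
  fun g hg e f he he0 hf0 hf => h.same_of_tor (h.map hg) (h.tor hT) ((h.tor hT).map hg) hl hm
    (Slot.both_o r.o r.two r.dim) (fun u hu hu0 => by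
      obtain ⟨u', a1, a2⟩ := Polar.exists_partner hu hu0
      obtain ⟨w, a3, -, a4⟩ := r.exists_aniso hu a1 a2
      exact Or.inr ⟨w, a3, a4⟩) (fun z => Slot.scal_of_sing_eigen_o r.o r.two r.dim) he he0 hf0 hf

variable (hR : τ.RP X PU) (hF : 5 ≤ Nat.card F ∨ (Nat.card F = 3 ∧ finrank F U = 4)) {e w : U}
  (he : PU.Val e 0) (he0 : e ≠ 0) (hw : PU.B w e = 0) (hww : PU.B w w ≠ 0)
include hR he he0 hw hww

omit h in
theorem rigA {g : V ≃ₗ[F] V} (hg : g ∈ X) (h1 : (τ.map g).InA (τ.K (nn PU e w) 1)) :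
    (τ.map g).Same τ := by
  obtain ⟨f, a1, a2⟩ := TS.exists_range_eq (PU := PU) (τ := τ) (τ' := τ.map g) he0 he0 (by
    simpa [TS.K_mul, r.nn_mul he hw hw, smul_smul, hww] using (h1.mul h1).smul (-(PU.B w w)⁻¹))
  exact hR g hg e f he he0 a1 a2

include hF

theorem rigB {g : V ≃ₗ[F] V} (hg : g ∈ X) (h1 : (τ.map g).flip.InA (τ.K (nn PU e w) 1)) :
    τ.Same (τ.map g) ∨ τ.flip.Same (τ.map g) := by
  have := τ.finiteDimensional
  by_cases h2 : ∃ e' w', PU.Val e' 0 ∧ e' ≠ 0 ∧ PU.B w' e' = 0 ∧ PU.B w' w' ≠ 0 ∧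
      τ.InA ((τ.map g).K (nn PU e' w') 1)
  · obtain ⟨e', w', a1, a2, a3, a4, h2⟩ := h2
    have := (rigA r hR a1 a2 a3 a4 (X.inv_mem hg) h2.map_inv).map g
    rw [← TS.map_mul, mul_inv_cancel] at this
    exact Or.inl this
  refine Or.inr (TS.same_of_cent (R := {n | ∃ e' w', PU.Val e' 0 ∧ e' ≠ 0 ∧ PU.B w' e' = 0 ∧
    PU.B w' w' ≠ 0 ∧ n = nn PU e' w'}) (fun z hz => r.scal_of_comm_nn fun e' w' a1 a2 a3 a4 =>
      hz _ ⟨e', w', a1, a2, a3, a4, rfl⟩) ?_)
  rintro _ ⟨e', w', a1, a2, a3, a4, rfl⟩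
  refine (r.inA_or_flip h.compat (h.map hg).compat hF a1 a3 fun t => TS.Same.symm_map'
    (rigA r hR he he0 hw hww ((h.map hg).left _ (r.eta_mem _ _)) ?_)).resolve_left
      fun h3 => h2 ⟨e', w', a1, a2, a3, a4, h3⟩
  generalize r.eta a1 _ = k
  rw [TS.map_inA]
  have h3 := h1.comm k
  rw [TS.flip_K] at h3
  rw [TS.coe_KL, mul_assoc, ← h3, ← mul_assoc, ← TS.coe_KL,
    show ((((τ.map g).KL k).symm : End F V)) * ((τ.map g).KL k : End F V) = 1 from
      LinearMap.ext fun x => ((τ.map g).KL k).symm_apply_apply x, one_mul]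
  exact τ.inA_K _

theorem rigO {g : V ≃ₗ[F] V} (hg : g ∈ X) (h1 : (τ.map g).InA (τ.K (nn PU e w) 1) ∨
    (τ.map g).flip.InA (τ.K (nn PU e w) 1)) : τ.Same (τ.map g) ∨ τ.flip.Same (τ.map g) :=
  h1.elim (fun h1 => Or.inl (rigA r hR he he0 hw hww hg h1).symm_map')
    (h.rigB r hR hF he he0 hw hww hg)

theorem exists_move_bad {θ : End F (End F V)} (hθ : θ ∈ τ.Bad X) :
    ∃ t : F, TS.cj (τ.KL (r.eta he (w := t • w) (by simp [hw]))) θ ≠ θ := by
  have := τ.finiteDimensional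
  obtain ⟨g, hg, rfl, h4, h5⟩ := TS.mem_Bad.1 hθ
  by_contra! hc
  refine (h.rigO r hR hF he he0 hw hww hg (r.inA_or_flip (h.map hg).compat h.compat hF he hw
    fun t => TS.same_of_Θ_eq ?_)).elim h4 h5
  rw [← TS.cj_Θ, hc]

omit hF in
theorem δ_mem_line (hF : 5 ≤ Nat.card F) {y : End F V}
    (hy : τ.K (nn PU e w) 1 * y = y * τ.K (nn PU e w) 1) (N : Submodule F (End F V))
    (hN : 7 ≤ Nat.card F ∨ ∀ z, τ.K (PU.th e e) 1 * z * τ.K (PU.th e e) 1 ∈ N) : τ.δ X y ∈ N := by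
  have := Fintype.ofFinite F
  have hp : ∀ t : F, PU.B (t • w) e = 0 := fun t => by simp [hw]
  have hadd : ∀ a b : F, τ.KL (r.eta he (hp (a + b))) = τ.KL (r.eta he (hp a)) *
      τ.KL (r.eta he (hp b)) := fun a b => by
    rw [← map_mul, ← r.eta_add he _ _ (by simp [hw])]
    exact congrArg _ (r.eta_congr he _ _ (add_smul a b w))
  have hfix : ∀ (t : F) θ, TS.cj (τ.KL (r.eta he (hp t))) θ y = (τ.KL (r.eta he (hp t))).conj (θ y) :=
    fun t θ => by
      rw [← TS.cj_apply, r.conj_eta_of_comm τ he _ (by simp [r.nn_smul, hy])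
        (r.comm_th_of_comm τ he hw hww hy)]
  rw [TS.δ, LinearMap.sum_apply]
  refine sum_mem_of_orbits (A := F) (fun t θ => TS.cj (τ.KL (r.eta he (hp t))) θ)
    (fun θ => by rw [r.eta_congr he _ (w' := 0) (by simp) (by simp), r.eta_zero, map_one, TS.cj_one])
    (fun a b θ => by rw [hadd, TS.cj_mul]) (fun θ => θ y) N.toAddSubgroup _
    (fun t θ => TS.cj_mem_Bad (h.left _ (r.eta_mem _ _))) fun θ hθ => ?_
  by_cases hfree : ∀ a, TS.cj (τ.KL (r.eta he (hp a))) θ = θ → a = 0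
  · have := Fintype.ofFinite (⊤ : AddSubgroup F)
    refine ⟨⊤, this, fun b _ => hfree b, fun t => ?_⟩
    simp only [hfix _ (TS.cj _ θ)]
    rw [r.sum_conj_eta τ he hw ⊤ top_ne_bot, sum_top_pow (by omega), zero_smul, zero_add]
    rcases hN with hN | hN
    · rw [sum_top_pow (by omega), zero_smul]; exact N.zero_mem
    · exact N.smul_mem _ (N.smul_mem _ (hN _))
  push Not at hfree
  obtain ⟨a, ha, ha0⟩ := hfree
  obtain ⟨b, hb⟩ := h.exists_move_bad r hR (Or.inl hF) he he0 hw hww hθ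
  let H : AddSubgroup F :=
    { carrier := {t | TS.cj (τ.KL (r.eta he (hp t))) θ = θ}
      add_mem' := fun {a b} h1 h2 => by
        change TS.cj _ θ = θ
        rw [hadd, TS.cj_mul, h2, h1]
      zero_mem' := by
        change TS.cj _ θ = θ
        rw [r.eta_congr he _ (w' := 0) (by simp) (by simp), r.eta_zero, map_one, TS.cj_one]
      neg_mem' := fun {a} h1 => by
        change TS.cj _ θ = θ
        conv_lhs => rw [← show TS.cj _ θ = θ from h1]
        rw [← TS.cj_mul, ← hadd, r.eta_congr he _ (w' := 0) (by simp) (by simp), r.eta_zero,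
          map_one, TS.cj_one] }
  have := Fintype.ofFinite (AddSubgroup.zmultiples b)
  refine ⟨AddSubgroup.zmultiples b, this, fun c hc h1 => ?_, fun t => ?_⟩
  · by_contra h0
    exact hb (AddSubgroup.zmultiples_le_of_mem (H := H) h1 (mem_zmultiples_of_ne hc h0))
  simp only [hfix _ (TS.cj _ θ)]
  rw [r.sum_conj_eta τ he hw _ (by
    rw [Ne, AddSubgroup.zmultiples_eq_bot]
    rintro rfl
    exact hb H.zero_mem)]
  have h1 : ∀ s : F, (τ.KL (r.eta he (hp (s + a)))).conj (TS.cj (τ.KL (r.eta he (hp t))) θ y) -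
      (τ.KL (r.eta he (hp s))).conj (TS.cj (τ.KL (r.eta he (hp t))) θ y) = 0 := fun s => by
    rw [← hfix, ← hfix, ← TS.cj_mul, ← TS.cj_mul, ← hadd, ← hadd, sub_eq_zero]
    conv_rhs => rw [← ha, ← TS.cj_mul, ← hadd]
    rw [add_right_comm]
  simp only [r.conj_eta τ he hw] at h1
  generalize TS.cj (τ.KL (r.eta he (hp t))) θ y = z at *
  generalize τ.K (PU.th e e) 1 = T at *
  generalize τ.K (nn PU e w) 1 = n at *
  generalize (PU.B w w / 2) ^ 2 • (T * z * T) = c₄ at *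
  generalize (PU.B w w / 2) • (T * z * n - n * z * T) = c₃ at *
  generalize -((PU.B w w / 2) • (T * z + z * T)) - n * z * n = c₂ at *
  generalize n * z - z * n = c₁ at *
  obtain ⟨a1, a2, a3, -⟩ := coeff_mem (⊥ : Submodule F (End F V)) hF
    (c₀ := a • c₁ + a ^ 2 • c₂ + a ^ 3 • c₃ + a ^ 4 • c₄)
    (c₁ := (2 * a) • c₂ + (3 * a ^ 2) • c₃ + (4 * a ^ 3) • c₄) (c₂ := (3 * a) • c₃ + (6 * a ^ 2) • c₄)
    (c₃ := (2 * 2 * a) • c₄) (c₄ := 0) fun s => by
      rw [Submodule.mem_bot, smul_zero, add_zero, ← h1 s]; module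
  rw [Submodule.mem_bot] at a1 a2 a3
  obtain rfl := (smul_eq_zero.1 a3).resolve_left (mul_ne_zero (mul_ne_zero r.two r.two) ha0)
  obtain rfl : c₂ = 0 := smul_right_injective _ (mul_ne_zero r.two ha0) (by
    linear_combination (norm := module) a1 - a • a2)
  simp

omit hF in
theorem δ_mem_plane (hF : Nat.card F = 3) (hk : finrank F U = 4) {v : U} (hv : PU.B v e = 0)
    (hvw : PU.B v w = 0) (hvv : PU.B v v ≠ 0) {y : End F V}
    (hy : τ.K (nn PU e w) 1 * y = y * τ.K (nn PU e w) 1)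
    (hy' : τ.K (nn PU e v) 1 * y = y * τ.K (nn PU e v) 1) (N : Submodule F (End F V))
    (hN : ∀ z, τ.K (PU.th e e) 1 * z * τ.K (PU.th e e) 1 ∈ N) : τ.δ X y ∈ N := by
  have := Fintype.ofFinite F
  have := Fintype.ofFinite (⊤ : AddSubgroup F)
  have hp : ∀ t : (⊤ : AddSubgroup F) × (⊤ : AddSubgroup F),
    PU.B ((t.1 : F) • w + (t.2 : F) • v) e = 0 := fun t => by simp [hw, hv]
  have hadd : ∀ a b, τ.KL (r.eta he (hp (a + b))) = τ.KL (r.eta he (hp a)) *
      τ.KL (r.eta he (hp b)) := fun a b => by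
    rw [← map_mul, ← r.eta_add he _ _ (by simp [hw, hv])]
    refine congrArg _ (r.eta_congr he _ _ ?_)
    simp only [Prod.fst_add, Prod.snd_add, AddSubgroup.coe_add]
    module
  have hzero : τ.KL (r.eta he (hp 0)) = 1 := by
    rw [r.eta_congr he _ (w' := 0) (by simp) (by simp), r.eta_zero, map_one]
  rw [TS.δ, LinearMap.sum_apply]
  refine sum_mem_of_free (fun t θ => TS.cj (τ.KL (r.eta he (hp t))) θ)
    (fun θ => by rw [hzero, TS.cj_one]) (fun a b θ => by rw [hadd, TS.cj_mul]) (fun θ => θ y)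
    N.toAddSubgroup _ (fun t θ => TS.cj_mem_Bad (h.left _ (r.eta_mem _ _))) (fun a θ hθ ha => ?_)
    fun θ _ => ?_
  · by_contra h0
    obtain ⟨t, ht⟩ := h.exists_move_bad r hR (Or.inr ⟨hF, hk⟩) he he0 (hp a) (fun h1 => h0 (by
      obtain ⟨c, hc⟩ := Submodule.mem_span_singleton.1 (r.mem_span he he0 (hp a) h1)
      have h2 := congrArg (fun y => PU.B y w) hc
      have h3 := congrArg (fun y => PU.B y v) hc
      simp [PU.B_symm hw, PU.B_symm hv, hvw, PU.B_symm hvw, hww, hvv] at h2 h3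
      exact Prod.ext h2 h3)) hθ
    refine ht ?_
    have h1 := FiniteField.pow_card t
    rw [← Nat.card_eq_fintype_card, hF] at h1
    obtain h2 | h2 | h2 : t = 0 ∨ t = 1 ∨ t = -1 := by
      have : t * ((t - 1) * (t + 1)) = 0 := by linear_combination h1
      simpa [sub_eq_zero, add_eq_zero_iff_eq_neg] using this
    · rw [r.eta_congr he _ (hp 0) (by simp [h2]), hzero, TS.cj_one]
    · rw [r.eta_congr he _ (hp a) (by simp [h2]), ha]
    · rw [r.eta_congr he _ (hp (-a)) (by simp [h2, add_comm])]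
      conv_lhs => rw [← ha, ← TS.cj_mul, ← hadd, neg_add_cancel, hzero, TS.cj_one]
  have hp1 : ∀ t : F, PU.B (t • w) e = 0 := fun t => by simp [hw]
  have hp2 : ∀ t : F, PU.B (t • v) e = 0 := fun t => by simp [hv]
  have h1 : ∀ t, TS.cj (τ.KL (r.eta he (hp t))) θ y =
      (τ.KL (r.eta he (hp1 t.1))).conj ((τ.KL (r.eta he (hp2 t.2))).conj (θ y)) := fun t => by
    have h2 := r.conj_eta_of_comm τ he (hp t) (y := y)
      (by simp [R1.nn_add, r.nn_smul, add_mul, mul_add, hy, hy']) (r.comm_th_of_comm τ he hw hww hy)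
    conv_lhs => rw [← h2, TS.cj_apply, r.eta_add he (hp1 t.1) (hp2 t.2), map_mul]
    rfl
  have h2 : ∀ (k : V ≃ₗ[F] V) (f : (⊤ : AddSubgroup F) → End F V),
    ∑ x, k.conj (f x) = k.conj (∑ x, f x) := fun k f => (map_sum _ _ _).symm
  simp only [h1, Fintype.sum_prod_type]
  rw [Finset.sum_congr rfl fun (x : (⊤ : AddSubgroup F)) _ => h2 (τ.KL (r.eta he (hp1 x)))
    fun x' => (τ.KL (r.eta he (hp2 x'))).conj (θ y),
    r.sum_conj_eta τ he hv ⊤ top_ne_bot, r.sum_conj_eta τ he hw ⊤ top_ne_bot]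
  have a1 : τ.K (PU.th e e) 1 * τ.K (PU.th e e) 1 = 0 := by simp [TS.K_mul, Polar.th_sq he]
  have a2 : ∀ w, PU.B w e = 0 → τ.K (PU.th e e) 1 * τ.K (nn PU e w) 1 = 0 := fun w hw => by
    simp [TS.K_mul, R1.th_mul_nn he hw]
  have a3 : ∀ w, PU.B w e = 0 → τ.K (nn PU e w) 1 * τ.K (PU.th e e) 1 = 0 := fun w hw => by
    simp [TS.K_mul, R1.nn_mul_th he hw]
  have a4 : τ.K (nn PU e w) 1 * τ.K (nn PU e v) 1 = 0 := by
    simp [TS.K_mul, r.nn_mul he hw hv, PU.B_symm hvw]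
  have a5 := hN (θ y)
  generalize τ.K (PU.th e e) 1 = T at *
  simp only [mul_add, add_mul, mul_sub, sub_mul, mul_neg, neg_mul, smul_mul_assoc, mul_smul_comm,
    ← mul_assoc, a1, a2 v hv, a3 w hw, a4, zero_mul]
  simp only [mul_assoc _ T T, mul_assoc _ _ (τ.K (nn PU e w) 1), mul_assoc _ (τ.K (nn PU e v) 1) T,
    a1, a2 w hw, a3 v hv, mul_zero, smul_zero, add_zero, zero_add, neg_zero, sub_zero, smul_add]
  exact N.smul_mem _ (N.neg_mem (N.add_mem
    (N.smul_mem _ (N.smul_mem _ (N.neg_mem (N.smul_mem _ a5))))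
    (N.smul_mem _ (N.smul_mem _ (N.neg_mem (N.smul_mem _ a5))))))

theorem δ_nn (d : End F W) : τ.δ X (τ.K (nn PU e w) d) = 0 := by
  obtain ⟨e', a1, a2, a3⟩ := Polar.exists_hyperbolic (U := F ∙ w) he (fun h => by
    obtain ⟨a, rfl⟩ := Submodule.mem_span_singleton.1 h
    simp [r.o.σ, hww] at hw
    simp [hw] at he0) (by simpa [Polar.perp_span_singleton] using PU.B_symm hw) 1 one_ne_zero
  rw [Polar.perp_span_singleton] at a1
  rw [r.o.comm] at a3
  have hN : ∀ z, τ.K (PU.th e e) 1 * z * τ.K (PU.th e e) 1 ∈ LinearMap.range (τ.K (PU.th e e)) :=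
    fun z => ⟨_, (Slot.θ_mul_mul z e).symm⟩
  obtain ⟨⟨ζ, hζ⟩, l, m, n, hlm, hT⟩ : τ.δ X (τ.K (nn PU e w) d) ∈
      LinearMap.range (τ.K (PU.th e e)) ∧ ∃ l m n, l ≠ m ∧ TorE PU l m n := by
    rcases hF with hF | ⟨hF, hk⟩
    · obtain ⟨t, ht0, ht⟩ := Slot.exists_sq_ne_one hF
      exact ⟨h.δ_mem_line r hR he he0 hw hww hF (by simp [TS.K_mul]) _ (Or.inr hN), _, _, _, ht,
        r.torE_sq ht0⟩
    · obtain ⟨v, b1, -, b2, b3, -⟩ := r.exists_plane hk he a2 a3 hw (PU.B_symm a1) hww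
      exact ⟨h.δ_mem_plane r hR he he0 hw hww hF hk b1 b2 b3 (by simp [TS.K_mul])
        (by simp [TS.K_mul, r.nn_mul he b1 hw, r.nn_mul he hw b1, b2, PU.B_symm b2]) _ hN, _, _, _,
        fun e => r.two (by linear_combination e), r.torE_three hk hF⟩
  obtain ⟨k, b1, b2, -, b3⟩ := hT e e' he a2 a3
  have hI := Polar.E_le_Iso b1
  have hl : l ≠ 0 := by rintro rfl; exact he0 (k.injective (by simp [b2]))
  have h1 : ∀ a d, (τ.KL k).conj (τ.K a d) = τ.K (k * a * k.symm) d := fun a d => by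
    change τ.K k 1 * τ.K a d * τ.K k.symm 1 = _
    simp [TS.K_mul]
  have h2 := TS.δ_conj (h.left k b1) (τ.K (nn PU e w) d)
  rw [← hζ, h1, h1, nn, mul_sub, sub_mul, Slot.conj_th hI, Slot.conj_th hI, Slot.conj_th hI, b2,
    b3 w hw (PU.B_symm a1)] at h2
  simp only [Polar.th_smul_left, Polar.th_smul_right, r.o.σ, smul_comm m l, ← smul_sub, map_smul,
    LinearMap.smul_apply] at h2
  rw [← nn, ← hζ] at h2
  rw [← hζ]
  refine (smul_eq_zero.1 (show (l * (l - m)) • τ.K (PU.th e e) ζ = 0 by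
    linear_combination (norm := module) -h2)).resolve_left (mul_ne_zero hl (sub_ne_zero.2 hlm))

omit he he0 hw hww hF in
theorem same_or_comm_of_th (hF : 5 ≤ Nat.card F) (hδ : ∀ z : End F U, (∀ x,
    (∀ d, τ.δ X (τ.K x d) = 0) → LinearMap.trace F U (z * x) = 0) → ∀ f, PU.Val f 0 →
      PU.B (z f) f = 0) {g : V ≃ₗ[F] V} (hg : g ∈ X) :
    τ.Same (τ.map g) ∨ τ.flip.Same (τ.map g) := by
  have hK : ∀ x d, LinearMap.trace F U x = 0 → τ.δ X (τ.K x d) = 0 := fun x d hx =>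
    LinearMap.congr_fun (map_eq_zero_of_trace (L := τ.K.compr₂ (τ.δ X)) (fun z hz => by
      have hz' := fun x (hx : ∀ d, τ.δ X (τ.K x d) = 0) => hz x (LinearMap.ext hx)
      have h1 := r.adj_eq_of_nn fun e w a1 a2 a3 a4 => hz' _ (h.δ_nn r hR (Or.inl hF) a1 a2 a3 a4)
      refine Slot.scal_of_sing_eigen_o r.o r.two r.dim fun u hu =>
        Slot.mem_span_of_B (P := PU) fun w hw => mul_left_cancel₀ r.two ?_
      have h2 := Slot.skew_of_sing r.o r.two (Or.inr ⟨r.dim, hF⟩) (hδ z hz') hu hw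
      have h3 := PU.adj_B z u w
      rw [h1] at h3
      linear_combination h2 + h3 + r.o.comm u (z w)) hx) d
  obtain ⟨e, he, he0⟩ := r.exists_sing
  obtain ⟨e', a1, a2⟩ := Polar.exists_partner he he0
  obtain ⟨w, hw, -, hww⟩ := r.exists_aniso he a1 a2
  have key : ∀ x, LinearMap.trace F U x = 0 → ∃ a d, (τ.map g⁻¹).K x 1 = τ.K a 1 + τ.K 1 d :=
    fun x hx => τ.exists_eq_add_of_trace fun x' d' hx' hd' =>
      TS.trace_conj_mul hx (fun d => hK x d hx) hx' hd' (hK _ _ hx') (X.inv_mem hg)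
  obtain ⟨a, d, h1⟩ := key _ (R1.trace_nn hw)
  obtain ⟨a', d', h2⟩ := key (nn PU e w * nn PU e w)
    (by simp [r.nn_mul he hw hw, Polar.trace_th, Polar.sing_B he])
  rw [← mul_one (1 : End F W), ← TS.K_mul, h1] at h2
  have h3 := τ.scal_or_scal_of_K (x := (2 : F) • a) (d := d) (a := a' - a * a) (b := d' - d * d) (by
    simp only [add_mul, mul_add, TS.K_mul, mul_one, one_mul] at h2
    simp only [map_smul, map_sub, LinearMap.smul_apply, LinearMap.sub_apply]
    linear_combination (norm := module) h2)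
  refine h.rigO r hR (Or.inl hF) he he0 hw hww hg (h3.symm.imp (fun h4 => ?_) fun h4 => ?_)
  · obtain ⟨c, rfl⟩ := h4.eq
    exact TS.InA.map_inv (g := g⁻¹) (τ'' := τ) ⟨a + c • 1, by simp [h1]⟩
  · obtain ⟨c, rfl⟩ := (h4.of_smul r.two).eq
    exact TS.InA.map_inv (g := g⁻¹) (τ'' := τ.flip) (τ.flip_inA.2 ⟨d + c • 1, by simp [h1, add_comm]⟩)

omit hR hF he he0 hw hww in
/-- Rigidity over fields with at least seven elements. -/
theorem same_or_comm_o_seven (hF : 7 ≤ Nat.card F) {g : V ≃ₗ[F] V} (hg : g ∈ X) :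
    τ.Same (τ.map g) ∨ τ.flip.Same (τ.map g) := by
  obtain ⟨t, ht0, ht⟩ := exists_pow_four_ne_one hF
  have hR := h.rp_of_tor r (r.torE_sq ht0) (fun e => ht (by field_simp at e; exact e.symm))
    fun e => ht (by rw [inv_eq_one] at e; linear_combination (t * t + 1) * e)
  refine h.same_or_comm_of_th r hR (by omega) (fun z hz f hf => ?_) hg
  by_cases hf0 : f = 0
  · simp [hf0]
  obtain ⟨e', a1, a2⟩ := Polar.exists_partner hf hf0
  obtain ⟨w, hw, -, hww⟩ := r.exists_aniso hf a1 a2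
  rw [← PU.trace_mul_th]
  exact hz _ fun d => h.δ_mem_line r hR hf hf0 hw hww (by omega)
    (by simp [TS.K_mul, R1.nn_mul_th hf hw, R1.th_mul_nn hf hw]) ⊥ (Or.inl hF)

omit hR hF he he0 hw hww in
/-- Rigidity for an elliptic quadric in dimension four over the field with five elements. -/
theorem same_or_comm_o_five (hk : finrank F U = 4) (hF : Nat.card F = 5) {g : V ≃ₗ[F] V}
    (hg : g ∈ X) : τ.Same (τ.map g) ∨ τ.flip.Same (τ.map g) := by
  have h5 : (5 : F) = 0 := by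
    have := Fintype.ofFinite F
    have := FiniteField.cast_card_eq_zero F
    rwa [← Nat.card_eq_fintype_card, hF] at this
  have h2 := r.two
  have hR := h.rp_of_tor r (r.torE_five hk hF)
    (fun e => h2 (by field_simp at e; linear_combination e + h5))
    fun e => h2 (by field_simp at e; linear_combination -e + h5)
  refine h.same_or_comm_of_th r hR hF.ge (fun z hz f hf => ?_) hg
  have k1 : ∀ w, PU.B w w ≠ 0 → PU.B (z w) w = 0 := fun w hw => by
    have hw0 : w ≠ 0 := fun e => hw (by simp [e])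
    have b1 := PU.finrank_perp (F ∙ w)
    rw [finrank_span_singleton hw0] at b1
    obtain ⟨e₁, b2, b3, b4⟩ := Polar.wild_three_of_σ r.o.σ (PU.perp (F ∙ w)) (by omega)
    obtain ⟨e₂, b5, b6, b7⟩ := Polar.exists_hyperbolic (U := F ∙ w) b4 (fun h => by
      obtain ⟨a, rfl⟩ := Submodule.mem_span_singleton.1 h
      have := b2 w (Submodule.mem_span_singleton_self w)
      simp [hw] at this
      simp [this] at b3) b2 1 one_ne_zero
    rw [Polar.perp_span_singleton] at b2 b5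
    obtain ⟨v, c1, c2, c3, c4⟩ := Slot.exists_aniso_pp r.o r.two hw0 (Or.inr ⟨hk.ge, hw⟩) b4 b6
      (by simp [b7]) b2 b5
    have key : ∀ e, PU.Val e 0 → e ≠ 0 → PU.B e w = 0 → PU.B v e = 0 → ∀ d u,
        τ.δ X (τ.K (PU.th w w) d) u ∈ LinearMap.range (τ.K (PU.th e e) 1) := fun e d1 d2 d3 d4 d u =>
      h.δ_mem_line r hR d1 d2 d4 c4 hF.ge
        (by simp [TS.K_mul, nn, mul_sub, sub_mul, Polar.th_mul_th, d3, c1, PU.B_symm d3, PU.B_symm c1])
        ((LinearMap.range (τ.K (PU.th e e) 1)).comap (LinearMap.applyₗ u)) (Or.inr fun z => ⟨_, rfl⟩)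
    rw [← PU.trace_mul_th]
    exact hz _ fun d => LinearMap.ext fun u => TS.eq_zero_of_mem_range_th (key e₁ b4 b3 b2 c2 d u)
      (key e₂ b6 (fun e => by simp [e] at b7) b5 c3 d u) (y := e₂) (PU.B_ne_symm (by simp [b7]))
      (Polar.sing_B b6)
  by_cases hf0 : f = 0
  · simp [hf0]
  obtain ⟨e', a1, a2⟩ := Polar.exists_partner hf hf0
  obtain ⟨w, b3, -, b4⟩ := r.exists_aniso hf a1 a2
  have b5 := k1 (w + f) (by simpa [b3, PU.B_symm b3, Polar.sing_B hf] using b4)
  have b6 := k1 (w - f) (by simpa [b3, PU.B_symm b3, Polar.sing_B hf] using b4)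
  simp only [map_add, map_sub, LinearMap.add_apply, LinearMap.sub_apply, k1 w b4] at b5 b6
  exact mul_left_cancel₀ h2 (by linear_combination b5 + b6)

omit hR hF he he0 hw hww in
/-- Rigidity for an elliptic quadric in dimension four. -/
theorem same_or_comm_o_minus (hk : finrank F U = 4) (hF : 5 ≤ Nat.card F) {g : V ≃ₗ[F] V}
    (hg : g ∈ X) : τ.Same (τ.map g) ∨ τ.flip.Same (τ.map g) := by
  by_cases h5 : Nat.card F = 5
  · exact h.same_or_comm_o_five r hk h5 hg
  refine h.same_or_comm_o_seven r ?_ hg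
  by_contra h6
  have := Fintype.ofFinite F
  have h7 := FiniteField.cast_card_eq_zero F
  rw [← Nat.card_eq_fintype_card, show Nat.card F = 6 by omega] at h7
  obtain ⟨p, hp, n, h8, h9⟩ := FiniteField.card' F
  rw [← Nat.card_eq_fintype_card, show Nat.card F = 6 by omega] at h9
  have h10 := (Nat.prime_dvd_prime_iff_eq Nat.prime_two h8).1
    (Nat.prime_two.dvd_of_dvd_pow (h9 ▸ (by norm_num : 2 ∣ 6)))
  have h11 := (Nat.prime_dvd_prime_iff_eq Nat.prime_three h8).1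
    (Nat.prime_three.dvd_of_dvd_pow (h9 ▸ (by norm_num : 3 ∣ 6)))
  omega

end Good

end Cfsg.Agent.Tens
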