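import Cfsg.Agent.Tens.OneO3
import Cfsg.Agent.Tens.One3
import Cfsg.Agent.Tens.Rigid5

/-!
The tensor product subgroup `O_3 ⊗ O_4^-` of `Ω_12^-`.
-/

set_option autoImplicit false
set_option linter.unusedSectionVars false
set_option linter.unusedSimpArgs false

namespace Cfsg.Agent.Tens.OneO

open Module Cfsg.Agent.H7 Cfsg.Agent.H7.Polar Cfsg.Agent.H1 Cfsg.Agent.Tens.Slot
  Cfsg.Agent.Tens.One
open scoped MatrixGroups Matrix

section abstract

variable {F U W V : Type*} [Field F] [AddCommGroup U] [Module F U] [AddCommGroup W]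
  [Module F W] [AddCommGroup V] [Module F V] [Finite F] [FiniteDimensional F U]
  [FiniteDimensional F W] [FiniteDimensional F V]
  {τ : TS F U W V} {PU : Polar F U} {PW : Polar F W} {PV : Polar F V}

theorem R1.toR1 (h : R1 PU) : Tens.R1 PU := ⟨h.o, h.two, h.three_le, h.not_w2⟩

theorem exists_E_notMem_o (h : Compat τ PU PW PV) (hU : R1 PU) (hW : R1 PW) (hV : IsO PV) :
    ∃ g ∈ PV.E, g ∉ τ.NN := by
  obtain ⟨e, he, he0⟩ := hU.exists_sing
  obtain ⟨x, hx, hx0⟩ := hW.exists_sing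
  obtain ⟨f, hf, hfe⟩ := exists_partner he he0
  obtain ⟨y, hy, hyx⟩ := exists_partner hx hx0
  refine ⟨_, eichE_mem_E (h.val_left e x he) (w := τ.tp e y) (by simp [h.B_tp, sing_B he])
    (h.val_left e y he), ?_⟩
  rintro ⟨a, d, had⟩
  have h1 : ∀ u z, PU.B (a u) f • d z = PU.B u f • z +
      PU.B u e • (PW.B z x • y - PW.B z y • x) := fun u z => by
    have := congrArg (τ.pB PU f) (LinearEquiv.congr_fun had (τ.tp u z))
    simp only [eichE_apply, hV.eich_eq, h.B_tp, TS.KE_apply, TS.K_tp, LinearEquiv.coe_coe, map_add,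
      map_sub, map_smul, TS.pB_tp, hU.o.comm e f, hfe] at this
    rw [← this]
    module
  have h2 : ∀ z, PU.B (a e) f • d z = z := fun z => by
    simpa [hU.o.comm e f, hfe, sing_B he] using h1 e z
  have h3 : ∀ z, PU.B (a f) f • z = PU.B (a e) f • (PW.B z x • y - PW.B z y • x) := fun z => by
    have := h1 f z
    simp only [sing_B hf, hfe, zero_smul, zero_add, one_smul] at this
    rw [← this, smul_comm, h2]
  have h4 := congrArg (fun z => PW.B z y) (h3 x)
  have h5 := congrArg (fun z => PW.B z x) (h3 y)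
  simp [sing_B hx, sing_B hy, hyx, hW.o.comm x y] at h4 h5
  have h6 : PU.B (a e) f = 0 := mul_left_cancel₀ hU.two (by linear_combination h4 - h5)
  exact hx0 (by rw [← h2 x, h6, zero_smul])

theorem maximal_o_four_three (h : Compat τ PU PW PV) (hU : R1 PU) (hW : R1 PW) (hV : IsO PV)
    (hk : finrank F U = 4) (hj : finrank F W = 3) (hF : 5 ≤ Nat.card F) :
    Geo.IsMaximalIn PV.E (τ.NN ⊓ PV.E) := by
  have := hU.nontrivial
  have := hW.nontrivial
  have hn : 7 ≤ finrank F V := by rw [τ.finrank_eq, hk, hj]; omega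
  exact maximal0 h (exists_E_notMem_o h hU hW hV)
    (fun g => h.KL_mem_E_of_o hV hn hU.o hU.two hU.exists_sing)
    (fun d hd => τ.flip_KL d ▸ h.flip.KL_mem_E_of_o hV hn hW.o hW.two hW.exists_sing hd)
    (fun _ h1 h3 h4 _ hg => Good.same_or_comm_o_minus
      ⟨h, h1, h3, h4, fun _ => (hU.o.sing_iff hU.two).2⟩ hU.toR1 hk hF hg)
    (fun g _ => τ.not_swap_of_lt (by omega) g) fun X S hR =>
      E_le_two S (τ' := τ.flip) ⟨h.flip, S.iso, fun d hd => τ.flip_KL d ▸ hR d hd⟩ hU hW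
        (fun b => ⟨b, rfl⟩) (fun d => ⟨d, (τ.flip_K _ _).symm⟩) hV

end abstract

variable {F : Type*} [Field F] [Fintype F] {ι : Type} [Fintype ι] [DecidableEq ι]

/-- `O_3 ⊗ O_4^-` in `Ω_12`. -/
theorem omega_o_tensor_three_four (hodd : Odd (Fintype.card F)) (h5 : 5 ≤ Fintype.card F)
    {Q : (ι → F) → F} (hQ : Geo.IsNondegenerateQuadraticForm Q) (e : ι ≃ Fin 3 × Fin 4)
    (P : GL ι F) {f₁ : (Fin 3 → F) → (Fin 3 → F) → F} {f₂ : (Fin 4 → F) → (Fin 4 → F) → F}
    (hf₁ : Geo.IsSymmetricForm f₁) (hf₂ : Geo.IsSymmetricForm f₂)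
    (hm₂ : ¬ Geo.IsPlusTypeOn (fun v => f₂ v v) ⊤)
    (hT : Geo.IsTensorFormStructure id (QuadraticMap.polar Q) f₁ f₂ e P) :
    Geo.IsMaximalIn (Geo.omegaGL Q) (Geo.tensorProductSubgroup 3 4 e P ⊓ Geo.omegaGL Q) := by
  have htwo := two_ne_zero_of_odd_card hodd
  rw [← Nat.card_eq_fintype_card] at h5
  obtain ⟨c, hc, hσ, h⟩ := exists_compat_std (symP hf₁ htwo) (symP hf₂ htwo) (oPolar hQ)
    (by omega) (by omega) rfl (fun _ => rfl) (mul_one _).symm e P hT
    fun u x => ((isO_oP hQ).sing_iff htwo).2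
  refine maximal_of_abs (mem_omegaGL_iff hQ (by rw [card_eq e]; omega)) e P ?_
  rw [← TS.flip_NN]
  exact maximal_o_four_three h.flip
    ⟨isO_symP hf₂ htwo, htwo, Or.inl ⟨by simp, fun hw => hm₂ (plus_of_W2 hf₂ htwo (by simp) hw)⟩⟩
    ⟨isO_scale hc hσ (isO_symP hf₁ htwo), htwo, Or.inr ⟨by simp, h5⟩⟩ (isO_oP hQ) (by simp)
    (by simp) h5

end Cfsg.Agent.Tens.OneO
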