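import Cfsg.Agent.Tens.OneO2
import Cfsg.Agent.H8.OType

/-!
Classes of products of reflections modulo the elementary group.
-/

set_option autoImplicit false
set_option linter.unusedSectionVars false
set_option linter.unusedSimpArgs false

namespace Cfsg.Agent.Tens.OneO

open Module Cfsg.Agent.H7 Cfsg.Agent.H7.Polar Cfsg.Agent.H1 Cfsg.Agent.Tens.Slot

variable {F U W V : Type*} [Field F] [AddCommGroup U] [Module F U] [AddCommGroup W] [Module F W]
  [AddCommGroup V] [Module F V] [Finite F] [FiniteDimensional F U] [FiniteDimensional F W]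
  [FiniteDimensional F V] {P : Polar F V}

section Refl

variable (h : IsO P) (h2 : (2 : F) ≠ 0)

open Classical in
/-- The reflection in an anisotropic vector. -/
noncomputable def rf (v : V) : P.Iso :=
  if hv : P.B v v = 0 then 1 else
    ⟨reflE ((h.val_iff h2).2 (by field_simp : P.B v v = 2 * (P.B v v / 2))) (div_ne_zero hv h2),
      reflE_mem_Iso _ _⟩

theorem rf_apply (v x : V) :
    (rf h h2 v : V ≃ₗ[F] V) x = x - (2 * P.B x v / P.B v v) • v := by
  by_cases hv : P.B v v = 0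
  · simp [rf, hv]
  · simp only [rf, dif_neg hv, reflE_apply, Polar.refl]
    congr 2
    field_simp

theorem rf_mul_self (v : V) : rf h h2 v * rf h h2 v = 1 :=
  Subtype.ext (LinearEquiv.ext fun x => by
    simp only [Subgroup.coe_mul, LinearEquiv.mul_apply, rf_apply, map_sub, map_smul,
      LinearMap.sub_apply, LinearMap.smul_apply, smul_eq_mul, Subgroup.coe_one,
      LinearEquiv.coe_one, id]
    by_cases hv : P.B v v = 0
    · simp [hv]
    · match_scalars <;> (field_simp; try ring))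

open Classical in
/-- The class of the reflections in the vectors of a given norm. -/
noncomputable def ab (c : F) : Abelianization P.Iso :=
  if hc : ∃ v, P.B v v = c then Abelianization.of (rf h h2 hc.choose) else 1

theorem of_rf {v : V} (hv : P.B v v ≠ 0) : Abelianization.of (rf h h2 v) = ab h h2 (P.B v v) := by
  have hc : ∃ w, P.B w w = P.B v v := ⟨v, rfl⟩
  rw [ab, dif_pos hc]
  have h1 := hc.choose_spec
  generalize hc.choose = w at h1
  obtain ⟨c, hc⟩ := P.val_ex v
  obtain ⟨t, ht, -, rfl⟩ := witt_vec (P := P) (U := ⊥) (v := w) (v' := v)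
    (by rintro (rfl : w = 0); exact hv (by simp [← h1])) (by rintro (rfl : v = 0); simp at hv)
    (by simp) ((h.val_iff h2).2 (h1.trans (h.self hc))) hc
  have : rf h h2 (t w) * ⟨t, ht⟩ = ⟨t, ht⟩ * rf h h2 w :=
    Subtype.ext (LinearEquiv.ext fun x => by simp [rf_apply, Iso.B ht])
  have := congrArg Abelianization.of this
  rwa [map_mul, map_mul, mul_comm, mul_right_inj] at this

theorem ab_mul_self (c : F) : ab h h2 c * ab h h2 c = 1 := by
  unfold ab
  split_ifs
  · rw [← map_mul, rf_mul_self, map_one]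
  · simp

/-- An involution is the product of the reflections in a basis of its negative eigenspace. -/
theorem of_orth {α : Type*} (s : Finset α) (v : α → V) (h0 : ∀ a ∈ s, P.B (v a) (v a) ≠ 0)
    (h1 : ∀ a ∈ s, ∀ b ∈ s, a ≠ b → P.B (v a) (v b) = 0) (g : P.Iso)
    (hg : ∀ a ∈ s, (g : V ≃ₗ[F] V) (v a) = -v a)
    (hg' : ∀ x, (∀ a ∈ s, P.B x (v a) = 0) → (g : V ≃ₗ[F] V) x = x) :
    Abelianization.of g = ∏ a ∈ s, ab h h2 (P.B (v a) (v a)) := by
  classical
  induction s using Finset.induction_on generalizing g with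
  | empty => rw [show g = 1 from Subtype.ext (LinearEquiv.ext fun x => hg' x (by simp))]; simp
  | insert j s hj ih =>
    have hj0 := h0 j (by simp)
    have hjs : ∀ a ∈ s, P.B (v a) (v j) = 0 := fun a ha =>
      h1 a (by simp [ha]) j (by simp) (ne_of_mem_of_not_mem ha hj)
    rw [Finset.prod_insert hj, ← of_rf h h2 hj0, ← ih (fun a ha => h0 a (by simp [ha]))
      (fun a ha b hb => h1 a (by simp [ha]) b (by simp [hb])) (rf h h2 (v j) * g) (fun a ha => by
        simp [rf_apply, hg a (by simp [ha]), hjs a ha]) fun x hx => ?_, ← map_mul, ← mul_assoc,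
      rf_mul_self, one_mul]
    have h3 := hg' (x - (P.B x (v j) / P.B (v j) (v j)) • v j) fun a ha => by
      rcases Finset.mem_insert.1 ha with rfl | ha
      · simp [hj0]
      · simp [hx a ha, P.B_symm (hjs a ha)]
    rw [map_sub, map_smul, hg j (by simp), sub_eq_iff_eq_add] at h3
    simp only [Subgroup.coe_mul, LinearEquiv.mul_apply, h3, rf_apply, map_add, map_sub, map_smul,
      map_neg, LinearMap.add_apply, LinearMap.sub_apply, LinearMap.smul_apply, LinearMap.neg_apply,
      smul_eq_mul]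
    match_scalars <;> (field_simp; try ring)

variable (hn : 7 ≤ finrank F V)
include hn

include h h2 in
theorem exists_norm (c : F) : ∃ v, P.B v v = c := by
  obtain ⟨e, he, h0⟩ := exists_sing_o h h2 (by omega)
  obtain ⟨f, -, hf⟩ := exists_partner he h0
  obtain ⟨a, ha⟩ := exists_val_add_sing he (y := f) (by simp [hf]) (c / 2)
  exact ⟨_, by rw [h.self ha]; field_simp⟩

theorem ab_congr {c c' : F} (hc : c ≠ 0) (hc' : c' ≠ 0) (hs : IsSquare c ↔ IsSquare c') :
    ab h h2 c = ab h h2 c' := by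
  obtain ⟨s, hs⟩ := (H8.isSquare_mul_iff hc hc').2 hs
  have hs0 : s ≠ 0 := fun e => mul_ne_zero hc hc' (by simp [hs, e])
  obtain ⟨v, rfl⟩ := exists_norm h h2 hn c
  have h1 : P.B ((s / P.B v v) • v) ((s / P.B v v) • v) = c' := by
    simp only [map_smul, LinearMap.smul_apply, h.smul_right, smul_eq_mul]
    field_simp
    linear_combination -hs
  rw [← h1, ← of_rf h h2 hc, ← of_rf h h2 (h1 ▸ hc')]
  congr 1
  refine Subtype.ext (LinearEquiv.ext fun x => ?_)
  simp only [rf_apply, map_smul, LinearMap.smul_apply, h.smul_right, smul_eq_mul]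
  match_scalars <;> (field_simp; try ring)

theorem ab_mul {c c' : F} (hc : c ≠ 0) (hc' : c' ≠ 0) :
    ab h h2 c * ab h h2 c' = ab h h2 1 * ab h h2 (c * c') := by
  have h1 := H8.isSquare_mul_iff hc hc'
  by_cases hs : IsSquare c
  · rw [ab_congr h h2 hn hc one_ne_zero (by simp [hs]),
      ab_congr h h2 hn hc' (mul_ne_zero hc hc') (by tauto)]
  by_cases hs' : IsSquare c'
  · rw [ab_congr h h2 hn hc' one_ne_zero (by simp [hs']),
      ab_congr h h2 hn hc (mul_ne_zero hc hc') (by tauto), mul_comm]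
  · rw [ab_congr h h2 hn hc hc' (by tauto), ab_mul_self,
      ab_congr h h2 hn (mul_ne_zero hc hc') one_ne_zero (by simpa using h1.2 (by tauto)),
      ab_mul_self]

theorem prod_ab {α : Type*} (s : Finset α) (c : α → F) (hc : ∀ a ∈ s, c a ≠ 0) :
    ∏ a ∈ s, ab h h2 (c a) = ab h h2 1 ^ (s.card + 1) * ab h h2 (∏ a ∈ s, c a) := by
  classical
  induction s using Finset.induction_on with
  | empty => simp [ab_mul_self]
  | insert j s hj ih =>
    rw [Finset.prod_insert hj, Finset.prod_insert hj, ih fun a ha => hc a (by simp [ha]),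
      mul_left_comm, ab_mul h h2 hn (hc j (by simp))
        (Finset.prod_ne_zero_iff.2 fun a ha => hc a (by simp [ha])),
      Finset.card_insert_of_notMem hj, ← mul_assoc, ← pow_succ]

theorem mem_E_of_ab {g : P.Iso} {n : ℕ} {c : F} (hn' : Odd n) (hc : c ≠ 0) (hs : IsSquare c)
    (hg : Abelianization.of g = ab h h2 1 ^ n * ab h h2 c) : (g : V ≃ₗ[F] V) ∈ P.E := by
  obtain ⟨m, rfl⟩ := hn'
  rw [ab_congr h h2 hn hc one_ne_zero (by simp [hs]), pow_succ, pow_mul, sq, mul_assoc,
    ab_mul_self, one_pow, one_mul] at hg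
  have h1 : g ∈ commutator P.Iso := Abelianization.ker_of P.Iso ▸ hg
  refine (Subgroup.commutator_le.2 fun a _ b _ => ?_ : commutator P.Iso ≤ P.E.subgroupOf P.Iso) h1
  exact comm_mem_E (wild_three_of_σ h.σ) hn a.2 b.2

end Refl

theorem exists_orth_basis {P : Polar F U} (h : IsO P) (h2 : (2 : F) ≠ 0) {n : ℕ}
    (hn : finrank F U = n) : ∃ u : Basis (Fin n) F U, (∀ a, P.B (u a) (u a) ≠ 0) ∧
      ∀ a b, a ≠ b → P.B (u a) (u b) = 0 := by
  subst hn
  have := invertibleOfNonzero h2
  obtain ⟨u, hu⟩ := LinearMap.BilinForm.exists_orthogonal_basis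
    (B := LinearMap.mk₂ F (fun x y => P.B x y) (by simp) (by simp) (by simp)
      (fun c x y => by simp [h.σ])) ⟨fun x y => h.comm x y⟩
  refine ⟨u, fun a e => u.ne_zero a (P.nondeg' fun y => ?_), fun a b hab => hu hab⟩
  rw [← u.sum_repr y, map_sum]
  refine Finset.sum_eq_zero fun b _ => ?_
  rw [h.smul_right]
  by_cases hab : a = b
  · rw [← hab, e, mul_zero]
  · exact mul_eq_zero_of_right _ (hu hab)

theorem eq_zero_of_basis {P : Polar F U} {α : Type*} (u : Basis α F U) {x : U}
    (hx : ∀ a, P.B x (u a) = 0) : x = 0 :=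
  P.nondeg x fun y => LinearMap.congr_fun (u.ext (f₁ := P.B.flip x) (f₂ := 0) fun a =>
    P.B_symm (hx a)) y

variable {PU : Polar F U} {PW : Polar F W} {PV : Polar F V} {τ : TS F U W V}

theorem of_KL_rf (cp : Compat τ PU PW PV) (hU : IsO PU) (hV : IsO PV) (h2 : (2 : F) ≠ 0)
    {α : Type*} [Fintype α] (w : α → W) (h0 : ∀ a, PW.B (w a) (w a) ≠ 0)
    (h1 : ∀ a b, a ≠ b → PW.B (w a) (w b) = 0) (hw : ∀ x, (∀ a, PW.B x (w a) = 0) → x = 0)
    {d : U} (hd : PU.B d d ≠ 0) (hg : τ.KL (rf hU h2 d) ∈ PV.Iso) :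
    Abelianization.of (⟨_, hg⟩ : PV.Iso) = ∏ a, ab hV h2 (PU.B d d * PW.B (w a) (w a)) := by
  have e1 : ((rf hU h2 d : U ≃ₗ[F] U) : End F U) = 1 - (2 / PU.B d d) • PU.th d d :=
    LinearMap.ext fun x => by
      simp only [LinearEquiv.coe_coe, rf_apply, LinearMap.sub_apply, End.one_apply,
        LinearMap.smul_apply, th_apply, smul_smul]
      congr 2
      ring
  simp only [← cp.B_tp]
  refine of_orth hV h2 _ (fun a => τ.tp d (w a)) (fun a _ => by simp [cp.B_tp, hd, h0])
    (fun a _ b _ hab => by simp [cp.B_tp, h1 a b hab]) _ (fun a _ => ?_) fun x hx => ?_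
  · simp only [TS.KL_apply, e1, TS.K_tp, LinearMap.sub_apply, End.one_apply, LinearMap.smul_apply,
      th_apply, map_sub, map_smul]
    match_scalars
    field_simp
    ring
  · have : τ.pB PU d x = 0 := hw _ fun a => by rw [← cp.B_right]; exact hx a (by simp)
    simp [e1, TS.K_th, this]

/-- A reflection of one factor is elementary if the other factor is a product of two spaces of
even dimension. -/
theorem KL_mem_E_of_even {U' W' : Type*} [AddCommGroup U'] [Module F U'] [AddCommGroup W']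
    [Module F W'] [FiniteDimensional F U'] [FiniteDimensional F W'] {PU' : Polar F U'}
    {PW' : Polar F W'} {τ' : TS F U' W' W} (cp : Compat τ PU PW PV) (cp' : Compat τ' PU' PW' PW)
    (hU : R1 PU) (hU' : IsO PU') (hW' : IsO PW') (hV : IsO PV) (hn : 7 ≤ finrank F V)
    (e1 : Even (finrank F U')) (e2 : Even (finrank F W')) {g : U ≃ₗ[F] U} (hg : g ∈ PU.Iso) :
    τ.KL g ∈ PV.E := by
  have h2 := hU.two
  refine Iso_le_of (X := PV.E.comap τ.KL)
    (fun g => cp.KL_mem_E_of_o hV hn hU.o h2 hU.exists_sing) (fun d c hc h0 => ?_) hg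
  have hd : PU.B d d ≠ 0 := by rw [hU.o.self hc]; exact mul_ne_zero h2 h0
  rw [show reflE hc h0 = rf hU.o h2 d from LinearEquiv.ext fun x => by
    rw [rf_apply, hU.o.self hc, reflE_apply, Polar.refl]; congr 2; field_simp]
  obtain ⟨u, a1, a2⟩ := exists_orth_basis hU' h2 rfl
  obtain ⟨w, b1, b2⟩ := exists_orth_basis hW' h2 rfl
  have hI := cp.KL_mem_Iso hU.exists_sing (rf hU.o h2 d).2
  have key := of_KL_rf cp hU.o hV h2 (fun p : Fin _ × Fin _ => τ'.tp (u p.1) (w p.2))
    (fun p => by simp [cp'.B_tp, a1, b1]) (fun p q hpq => by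
      rw [cp'.B_tp]
      by_cases h : p.1 = q.1
      · rw [b2 _ _ fun e => hpq (Prod.ext h e), mul_zero]
      · rw [a2 _ _ h, zero_mul])
    (fun x hx => τ'.eq_zero_of_pB PU' fun y => eq_zero_of_basis (P := PW') w fun b => by
      have := eq_zero_of_basis (P := PU') u (x := τ'.flip.pB PW' (w b) x) fun a => by
        rw [← cp'.flip.B_right]; exact hx (a, b)
      rw [← cp'.B_right, ← TS.flip_tp, cp'.flip.B_right, this]
      simp) hd hI
  rw [prod_ab hV h2 hn _ _ fun p _ => by simp [cp'.B_tp, a1, b1, hd]] at key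
  refine mem_E_of_ab hV h2 hn (g := ⟨_, hI⟩) ?_
    (Finset.prod_ne_zero_iff.2 fun p _ => by simp [cp'.B_tp, a1, b1, hd]) ?_ key
  · simpa using (e1.mul_right _).add_one
  · simp only [cp'.B_tp, Finset.prod_mul_distrib, Fintype.prod_prod_type, Finset.prod_const,
      Finset.card_univ, Fintype.card_fin, Finset.prod_pow, Fintype.card_prod]
    exact ((e1.mul_right _).isSquare_pow _).mul ((e2.isSquare_pow _).mul (e1.isSquare_pow _))

/-- The exchange of the factors of a tensor square, corrected by a reflection. -/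
theorem exists_swap_mem_E (cp : Compat τ PU PW PV) (hU : R1 PU) (hV : IsO PV) (ψ : U ≃ₗ[F] W)
    (hψ : ∀ x y, PW.B (ψ x) (ψ y) = PU.B x y) {s : V ≃ₗ[F] V} (hs : s ∈ PV.Iso)
    (hs' : ∀ x y, s (τ.tp x (ψ y)) = τ.tp y (ψ x)) :
    ∃ g : U ≃ₗ[F] U, s * τ.KL g ∈ PV.E := by
  have h2 := hU.two
  have hn : 7 ≤ finrank F V := by
    have := hU.three_le
    rw [τ.finrank_eq, ← ψ.finrank_eq]; nlinarith
  have key : ∀ n (u : Basis (Fin n) F U), (∀ a, PU.B (u a) (u a) ≠ 0) →
      (∀ a b, a ≠ b → PU.B (u a) (u b) = 0) → ∀ d, PU.B d d ≠ 0 →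
      Even ((Finset.univ.filter fun p : Fin n × Fin n => p.1 < p.2).card + n) →
      IsSquare ((∏ p ∈ Finset.univ.filter fun p : Fin n × Fin n => p.1 < p.2,
        2 * PU.B (u p.1) (u p.1) * PU.B (u p.2) (u p.2)) * ∏ a, PU.B d d * PU.B (u a) (u a)) →
      ∃ g : U ≃ₗ[F] U, s * τ.KL g ∈ PV.E := fun n u a1 a2 d hd b1 b2 => by
    have hI := cp.KL_mem_Iso hU.exists_sing (rf hU.o h2 d).2
    have k1 := of_KL_rf cp hU.o hV h2 (u.map ψ) (by simpa [hψ] using a1)
      (by simpa [hψ] using a2) (fun x => eq_zero_of_basis _) hd hI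
    simp only [Basis.map_apply, hψ] at k1
    have hB : ∀ p : Fin n × Fin n, p.1 < p.2 →
        PV.B (τ.tp (u p.1) (ψ (u p.2)) - τ.tp (u p.2) (ψ (u p.1)))
          (τ.tp (u p.1) (ψ (u p.2)) - τ.tp (u p.2) (ψ (u p.1))) =
          2 * PU.B (u p.1) (u p.1) * PU.B (u p.2) (u p.2) := fun p hp => by
      simp only [map_sub, LinearMap.sub_apply, cp.B_tp, hψ, a2 _ _ hp.ne, a2 _ _ hp.ne']
      ring
    have k2 := of_orth hV h2 (Finset.univ.filter fun p : Fin n × Fin n => p.1 < p.2)
      (fun p => τ.tp (u p.1) (ψ (u p.2)) - τ.tp (u p.2) (ψ (u p.1)))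
      (fun p hp => by rw [hB p (by simpa using hp)]; simp [h2, a1]) (fun p hp q hq hpq => by
        simp only [Finset.mem_filter, Finset.mem_univ, true_and] at hp hq
        have c1 : ∀ a b c d, a ≠ c ∨ b ≠ d → PU.B (u a) (u c) * PU.B (u b) (u d) = 0 :=
          fun a b c d h => h.elim (fun h => by rw [a2 _ _ h, zero_mul]) fun h => by
            rw [a2 _ _ h, mul_zero]
        have c2 : p.1 ≠ q.1 ∨ p.2 ≠ q.2 := by
          by_contra! e; exact hpq (Prod.ext e.1 e.2)
        simp only [map_sub, LinearMap.sub_apply, cp.B_tp, hψ]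
        rw [c1 _ _ _ _ c2, c1 _ _ _ _ c2.symm, c1 p.1 p.2 q.2 q.1 (by omega),
          c1 p.2 p.1 q.1 q.2 (by omega)]
        simp) ⟨s, hs⟩ (fun p _ => by simp [hs']) fun x hx => by
        have c1 : ∀ a b, PV.B (s x - x) (τ.tp (u a) (ψ (u b))) = 0 := fun a b => by
          rw [map_sub, LinearMap.sub_apply, ← hs' (u b) (u a), Iso.B hs, hs']
          rcases lt_trichotomy a b with h | rfl | h
          · have := hx (a, b) (by simpa using h)
            rw [map_sub] at this
            linear_combination -this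
          · simp
          · simpa using hx (b, a) (by simpa using h)
        refine sub_eq_zero.1 (τ.eq_zero_of_pB PU fun y =>
          eq_zero_of_basis (P := PW) (u.map ψ) fun b => ?_)
        have := eq_zero_of_basis (P := PU) u (x := τ.flip.pB PW (ψ (u b)) (s x - x)) fun a => by
          rw [← cp.flip.B_right]; exact c1 a b
        rw [← cp.B_right, ← TS.flip_tp, cp.flip.B_right]
        exact (congrArg (fun z => PU.B z y) this).trans (by simp)
    have c1 : ∀ a ∈ Finset.univ, PU.B d d * PU.B (u a) (u a) ≠ 0 := fun a _ => mul_ne_zero hd (a1 a)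
    have c2 : ∀ p ∈ Finset.univ.filter fun p : Fin n × Fin n => p.1 < p.2,
        2 * PU.B (u p.1) (u p.1) * PU.B (u p.2) (u p.2) ≠ 0 := fun p _ => by simp [h2, a1]
    rw [Finset.prod_congr rfl fun p hp => by rw [hB p (by simpa using hp)],
      prod_ab hV h2 hn _ _ c2] at k2
    rw [prod_ab hV h2 hn _ _ c1] at k1
    have c3 := Finset.prod_ne_zero_iff.2 c1
    have c4 := Finset.prod_ne_zero_iff.2 c2
    refine ⟨_, mem_E_of_ab hV h2 hn (g := ⟨s, hs⟩ * ⟨_, hI⟩) (b1.add_odd (by decide : Odd 3))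
      (mul_ne_zero c4 c3) b2 ?_⟩
    rw [map_mul, k1, k2, mul_mul_mul_comm, ab_mul hV h2 hn c4 c3, ← mul_assoc, ← pow_add,
      ← pow_succ, Finset.card_univ, Fintype.card_fin]
    congr 2
    ring
  rcases hU.dim with ⟨hk, -⟩ | ⟨hk, -⟩
  · obtain ⟨u, a1, a2⟩ := exists_orth_basis hU.o h2 hk
    refine key 4 u a1 a2 (u 0) (a1 0) (by decide) ⟨8 * (PU.B (u 0) (u 0) * PU.B (u 1) (u 1) *
      PU.B (u 2) (u 2) * PU.B (u 3) (u 3) * PU.B (u 0) (u 0)) ^ 2, ?_⟩
    simp [Finset.prod_filter, Fintype.prod_prod_type, Fin.prod_univ_four]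
    ring
  · obtain ⟨u, a1, a2⟩ := exists_orth_basis hU.o h2 hk
    obtain ⟨e, he, h0⟩ := hU.exists_sing
    obtain ⟨f, -, hf⟩ := exists_partner he h0
    obtain ⟨a, ha⟩ := exists_val_add_sing he (y := f) (by simp [hf])
      (PU.B (u 0) (u 0) * PU.B (u 1) (u 1) * PU.B (u 2) (u 2))
    refine key 3 u a1 a2 _ (by rw [hU.o.self ha]; simp [h2, a1]) (by decide)
      ⟨8 * (PU.B (u 0) (u 0) * PU.B (u 1) (u 1) * PU.B (u 2) (u 2)) ^ 3, ?_⟩
    rw [hU.o.self ha]
    simp [Finset.prod_filter, Fintype.prod_prod_type, Fin.prod_univ_three]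
    ring

end Cfsg.Agent.Tens.OneO
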