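import Cfsg.Agent.Tens.OneO4
import Cfsg.Agent.Tens.OneO6
import Cfsg.Agent.Tens.PowMat

/-!
Orthogonal tensor factors of Witt index one: step C for many slots.
-/

set_option autoImplicit false
set_option linter.unusedSectionVars false
set_option linter.unusedSimpArgs false

namespace Cfsg.Agent.Tens.OneO

open Module Cfsg.Agent.H7 Cfsg.Agent.H7.Polar Cfsg.Agent.H1 Cfsg.Agent.Tens.Slot
  Cfsg.Agent.Tens.One

variable {F U V : Type*} [Field F] [AddCommGroup U] [Module F U] [AddCommGroup V] [Module F V]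
  [Finite F] [FiniteDimensional F U] [FiniteDimensional F V]
  {PU : Polar F U} {PV : Polar F V} {X : Subgroup (V ≃ₗ[F] V)}

section One

variable {W : Type*} [AddCommGroup W] [Module F W] [FiniteDimensional F W] {τ : TS F U W V}
  {PW : Polar F W}

theorem R1.exists_line (h : R1 PU) {M : AddSubgroup (End F V)}
    (hL : ∀ g ∈ PU.E, InvL τ (M : Set (End F V)) g) {z : End F V} (hz : z ∈ M)
    (h0 : ∀ y, PU.Val y 0 → S τ PU z y y = 0) (hc : ¬ τ.flip.InA z) :
    ∃ z', z' ≠ 0 ∧ ∀ s : F, s • z' ∈ M := by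
  obtain ⟨x, w, ⟨hx, hw⟩, hS⟩ := exists_S_ne_o h.o h.two h.three_le hc
  have hx0 : x ≠ 0 := fun e => hS (by rw [e, S_zero_left])
  have hww : PU.B w w ≠ 0 := h.aniso hx hx0 hw fun e => by
    obtain ⟨a, rfl⟩ := Submodule.mem_span_singleton.1 e
    exact hS (by rw [S_smul_right, h0 x hx, smul_zero])
  obtain ⟨c, hc⟩ := PU.val_ex w
  refine ⟨-(τ.K (wg PU w x) 1 * z * τ.K (wg PU w x) 1 + τ.K (wg PU w x) 1 * z * τ.K (wg PU w x) 1) -
    PU.B w w • (τ.K (PU.th x x) 1 * z + z * τ.K (PU.th x x) 1), fun e => hS ?_, fun s => ?_⟩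
  · obtain ⟨f, -, hf⟩ := exists_partner hx hx0
    have h1 := S_skew h.o h.two h.hn h0 hx hw
    refine LinearMap.ext fun v => smul_right_injective W hww ?_
    have h2 := congrArg (τ.pB PU w)
      (LinearMap.congr_fun e (τ.tp (f - (PU.B f w / PU.B w w) • w) v))
    have h3 : τ.K (wg PU w x) 1 (τ.tp (f - (PU.B f w / PU.B w w) • w) v) = τ.tp w v := by
      simp [wg, hf, hw, hww, smul_smul]
    have h4 : τ.K (PU.th x x) 1 (τ.tp (f - (PU.B f w / PU.B w w) • w) v) = τ.tp x v := by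
      simp [hf, hw]
    simp only [LinearMap.sub_apply, LinearMap.neg_apply, LinearMap.add_apply, End.mul_apply, h3,
      LinearMap.smul_apply, h4] at h2
    simp only [wg, map_sub, LinearMap.sub_apply, TS.K_th, map_add, map_neg, map_smul, TS.pB_tp,
      PU.B_symm hw, End.one_apply, ← S_apply, h1, LinearMap.neg_apply, LinearMap.zero_apply,
      map_zero, zero_smul] at h2
    change PU.B w w • S τ PU z x w v = PU.B w w • (0 : W)
    linear_combination (norm := module) h2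
  · have := dd_mem' hL hx (w := s • w) (by simp [hw]) (h.o.val_smul s hc) (dd_mem' hL hx hw hc hz)
    rw [h.dd_two h0 _ _ hx (by simp [hw]) hw] at this
    convert this using 1
    simp only [wg, th_smul_left, th_smul_right, h.o.σ, ← smul_sub, map_smul, LinearMap.smul_apply,
      smul_mul_assoc, mul_smul_comm, h.o.smul_right]
    module

theorem exists_pure (S : Set0 τ PU PW PV X) (hU : R1 PU)
    (hI : finrank F U = 4 → ∀ g ∈ PU.Iso, τ.KL g ∈ X) {e y : U} (he : PU.Val e 0) (h0 : e ≠ 0)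
    (hy : PU.B y e = 0) (hyy : PU.B y y ≠ 0) {L : V →ₗ[F] W} (hL : τ.Lv PU X e L) :
    τ.Lev PU X e y ((PU.B y y)⁻¹ • L ∘ₗ τ.tp y) := by
  have hee := sing_B he
  refine (TS.lev_iff hy).2 ?_
  rcases hU.dim with ⟨hk, -⟩ | ⟨hk, -⟩
  · have h1 := lv_KE hL (rf hU.o hU.two y).2 (d := 1) (hI hk _ (rf hU.o hU.two y).2) one_ne_zero
      (by simp [rf_apply, PU.B_symm hy])
    refine (lv_smul S hU he h0 (hL.sub h1 hee) 2⁻¹).congr hee fun v _ => ?_
    have e1 : (((rf hU.o hU.two y : U ≃ₗ[F] U).symm : U ≃ₗ[F] U) : End F U) =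
        1 - (2 / PU.B y y) • PU.th y y := LinearMap.ext fun x => by
      have := congrArg (fun g : PU.Iso => (g : U ≃ₗ[F] U) x) (rf_mul_self hU.o hU.two y)
      rw [LinearEquiv.coe_coe, LinearEquiv.symm_apply_eq]
      refine this.symm.trans (congrArg (rf hU.o hU.two y : U ≃ₗ[F] U)
        (?_ : (rf hU.o hU.two y : U ≃ₗ[F] U) x = _))
      simp only [rf_apply, LinearMap.sub_apply, End.one_apply, LinearMap.smul_apply, th_apply,
        smul_smul]
      congr 2
      ring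
    have h2 := hU.two
    simp only [LinearMap.smul_apply, LinearMap.sub_apply, LinearMap.comp_apply, LinearEquiv.coe_coe,
      TS.KE_symm_apply, e1, show (((1 : W ≃ₗ[F] W).symm : W ≃ₗ[F] W) : End F W) = 1 from rfl,
      map_sub, map_smul, TS.K_one, End.one_apply, TS.K_th, LinearEquiv.coe_one, id]
    match_scalars <;> (field_simp; try ring)
  · have h1 := PU.finrank_perp (F ∙ e)
    rw [finrank_span_singleton h0, hk, perp_span_singleton] at h1
    have h3 : y ∉ F ∙ e := fun hw => by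
      obtain ⟨a, rfl⟩ := Submodule.mem_span_singleton.1 hw
      simp [hee] at hyy
    have h2 : (F ∙ e) ⊔ (F ∙ y) = PU.pp e := Submodule.eq_of_le_of_finrank_eq
      (by simp [hee, hy]) (by
        rw [Submodule.finrank_sup_span_singleton h3, finrank_span_singleton h0]; omega)
    refine hL.congr hee fun v hv => τ.perp_induction PU hv
      (p := fun v => L v = (((PU.B y y)⁻¹ • L ∘ₗ τ.tp y) ∘ₗ τ.pB PU y) v) (by simp)
      (fun z x hz => ?_) fun a b ha hb => by simp only [map_add, ha, hb]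
    obtain ⟨_, h4, _, h5, rfl⟩ := Submodule.mem_sup.1 (h2.ge hz)
    obtain ⟨a, rfl⟩ := Submodule.mem_span_singleton.1 h4
    obtain ⟨b, rfl⟩ := Submodule.mem_span_singleton.1 h5
    simp [hL.1, PU.B_symm hy, smul_smul, hyy, mul_comm b]

end One

variable {ι : Type*} {W : ι → Type*} [∀ i, AddCommGroup (W i)] [∀ i, Module F (W i)]
  [∀ i, FiniteDimensional F (W i)] {τ : ∀ i, TS F U (W i) V} {PW : ∀ i, Polar F (W i)}

variable (τ) in
/-- The cofactors of an endomorphism of one slot. -/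
def subA (M : AddSubgroup (End F V)) (j : ι) (J : Finset ι) (a : End F U) :
    AddSubgroup (End F V) :=
  (Cm τ J).toSubmodule.toAddSubgroup ⊓ M.comap (AddMonoidHom.mulLeft ((τ j).K a 1))

variable [Fintype ι] [DecidableEq ι] (h : Multi τ) (hU : R1 PU)
include h hU

theorem exists_line (cp : ∀ i, Compat (τ i) PU (PW i) PV) (hV : IsO PV) (hF : 5 ≤ Nat.card F)
    (J : Finset ι) {M : AddSubgroup (End F V)} (hM : ∀ c ∈ M, c ∈ Cm τ J)
    (hL : ∀ j ∈ J, ∀ g ∈ PU.E, InvL (τ j) (M : Set (End F V)) g)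
    (h4 : ∀ t : F, ∀ c ∈ M, t ^ 4 • c ∈ M) (hs : ∀ c ∈ M, PV.adj c = -c) {z : End F V}
    (hz : z ∈ M) (hz0 : z ≠ 0) : ∃ z', z' ≠ 0 ∧ ∀ s : F, s • z' ∈ M := by
  induction J using Finset.induction_on generalizing M z with
  | empty => exact absurd (eq_zero_of_skew h hU cp (hM z hz) hV (hs z hz)) hz0
  | insert j J hj ih =>
    have := hU.nontrivial
    have key : ∀ a, a ≠ 0 → PU.adj a = a → ∀ z ∈ subA τ M j J a, z ≠ 0 →
        ∃ z', z' ≠ 0 ∧ ∀ s : F, s • z' ∈ M := fun a ha ha' z hz hz0 => by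
      obtain ⟨z', h1, h2⟩ := ih (M := subA τ M j J a) (fun _ h => h.1) (fun l hl g hg c hc =>
        ⟨h.invL_Cm J l g c hc.1, by
          have := hL l (by simp [hl]) g hg _ hc.2
          change (τ j).K a 1 * _ ∈ M
          rwa [AddMonoidHom.coe_mulLeft, ← mul_assoc, h.comm l j (ne_of_mem_of_not_mem hl hj),
            mul_assoc, mul_assoc, ← mul_assoc ((τ l).K _ _)] at this⟩)
        (fun t c hc => ⟨Subalgebra.smul_mem _ hc.1 _, by simpa using h4 t _ hc.2⟩) (fun c hc => by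
          have h2 : PV.adj ((τ j).K a 1 * c) = -((τ j).K a 1 * c) := hs _ hc.2
          rw [adj_mul, adj_ρ cp, ha', ← adj_mem_Cm cp hc.1 j hj] at h2
          refine eq_neg_of_add_eq_zero_left (eq_zero_of_K_mul ha
            (inA_of_Cm hj (add_mem (adj_mem_Cm cp hc.1) hc.1)) ?_)
          rw [mul_add, h2, neg_add_cancel]) hz hz0
      exact ⟨(τ j).K a 1 * z', fun e => h1 (eq_zero_of_K_mul ha
        (inA_of_Cm hj (by simpa using (h2 1).1)) e), fun s => by simpa using (h2 s).2⟩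
    by_cases hc : (τ j).flip.InA z
    · exact key 1 one_ne_zero (by simp) z ⟨Cm_of_insert (hM z hz) hc, by simpa using hz⟩ hz0
    by_cases h0 : ∀ y, PU.Val y 0 → S (τ j) PU z y y = 0
    · exact hU.exists_line (hL j (by simp)) hz h0 hc
    push Not at h0
    obtain ⟨y, hy, hS⟩ := h0
    have hy0 : y ≠ 0 := fun e => hS (by rw [e, S_zero_left])
    obtain ⟨s, hs0, h1⟩ := hU.top_add hF (hL j (by simp)) h4 hy hy0 hz
    exact key (PU.th y y) (th_ne_zero hy0 hy0) (by simp [adj_th, hU.o.ε])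
      (s • (τ j).K 1 (S (τ j) PU z y y))
      ⟨Subalgebra.smul_mem _ (h.slice_mem_Cm (hM z hz) _ _) _, by simpa [TS.K_mul] using h1⟩
      (smul_ne_zero hs0 (K_ne_zero _ one_ne_zero hS))

variable (S : ∀ i, Set0 (τ i) PU (PW i) PV X) [∀ i, Nontrivial (W i)]
include S

theorem exists_ZZ_multi {i : ι} (hI : finrank F U = 4 → ∀ g ∈ PU.Iso, (τ i).KL g ∈ X)
    (hi : ¬ (τ i).Hpt PU X) : ∃ e, PU.Val e 0 ∧ e ≠ 0 ∧ ∃ ζ, ζ ≠ 0 ∧ Has X ((τ i).ZZ PU e ζ) := by
  have := hU.nontrivial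
  obtain ⟨e, he, h0, h1⟩ := exists_of_not_hpt (S i) hi
  refine ⟨e, he, h0, h1.elim id ?_⟩
  rintro ⟨L, y, hL, hy, hb⟩
  by_contra! hcon
  have hee := sing_B he
  have hyy : PU.B y y ≠ 0 := hU.aniso he h0 hy fun hm => by
    obtain ⟨a, rfl⟩ := Submodule.mem_span_singleton.1 hm
    exact hb ⟨0, fun x => by simp [hL.1]⟩
  have h2 : ∀ β β', (τ i).Lev PU X e y β → (τ i).Lev PU X e y β' →
      β' * (PW i).adj β = β * (PW i).adj β' := fun β β' a1 a2 => by
    by_contra a3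
    refine hcon _ ?_ (has_ZZ_comm (S i) he h0 hy hy a1 a2)
    rwa [hU.o.σ, hU.o.ε, one_mul, ← smul_sub, smul_ne_zero_iff, and_iff_right hyy, sub_ne_zero]
  have h3 : ∀ β, (τ i).Lev PU X e y β → (PW i).adj β = β := fun β a1 => by
    obtain ⟨s, hs⟩ := (S i).has_QE_one he hy
    simpa using h2 β 1 a1 (TS.Lev.of_has hs)
  let T : Set (End F V) := {c | ∃ β, (τ i).Lev PU X e y β ∧ (τ i).K 1 β = c}
  have hT : ∀ l, ∀ g ∈ PU.E, InvL (τ l) T g := by
    rintro l g hg _ ⟨β, a1, rfl⟩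
    by_cases hl : i = l
    · subst hl
      exact ⟨β, a1, by simp [TS.K_mul, coe_mul_symm]⟩
    obtain ⟨d, b1, b2, b3⟩ := h.exists_KE hl g
    refine ⟨(d : End F (W i)) * β * (d.symm : End F (W i)), (TS.lev_iff hy).2
      ((lv_KE ((TS.lev_iff hy).1 a1) PU.Iso.one_mem (b1 ▸ (S l).hL g hg) one_ne_zero
        (by simp)).congr hee fun v _ => ?_), by simp [b2, b3, TS.K_mul]⟩
    have := (τ i).pB_K_iso PU.Iso.one_mem (d.symm : End F (W i)) y v
    simp only [LinearEquiv.coe_one, id, LinearEquiv.coe_toLinearMap_one] at this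
    simp only [one_smul, LinearMap.comp_apply, LinearEquiv.coe_coe, End.mul_apply]
    exact congrArg (fun w => d (β w)) this
  obtain ⟨j, -, h4⟩ := h.exists_slot hU.kind (C := Algebra.adjoin F T) (fun l g hg c hc =>
    (Algebra.adjoin_le (S := (Algebra.adjoin F T).comap
      (((τ l).KL g).conjAlgEquiv F).toAlgHom) fun c hc => Algebra.subset_adjoin (hT l g hg c hc)) hc)
    Finset.univ ⟨_, Algebra.subset_adjoin ⟨_, exists_pure (S i) hU hI he h0 hy hyy hL, rfl⟩,
      fun l hl => by simp at hl,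
      fun e => hb (((τ i).scal_of_one_K e).of_smul (inv_ne_zero hyy))⟩
  obtain ⟨a, b, hab⟩ := exists_not_comm (F := F) (U := U) (by have := hU.three_le; omega)
  refine hab ((τ j).K_one_inj ?_)
  rw [K_one_mul, K_one_mul]
  refine Algebra.commute_of_mem_adjoin_of_forall_mem_commute (h4 b) fun x hx =>
    (Algebra.commute_of_mem_adjoin_of_forall_mem_commute (h4 a) fun x' hx' => ?_).symm
  obtain ⟨β, a1, rfl⟩ := hx
  obtain ⟨β', a2, rfl⟩ := hx'
  have := h2 β β' a1 a2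
  rw [h3 β a1, h3 β' a2] at this
  rw [Commute, SemiconjBy, ← one_K_mul, ← one_K_mul, this]

theorem DV_ne_bot (hV : IsO PV) {i : ι} {e : U} (he : PU.Val e 0) (h0 : e ≠ 0) {ζ : End F (W i)}
    (hζ0 : ζ ≠ 0) (hζ : Has X ((τ i).ZZ PU e ζ)) : DV X (τ i) hU ≠ ⊥ := by
  have := hU.nontrivial
  have hz : (τ i).K 1 ζ ∈ ZV (τ i) PU X he := ⟨ζ, hζ, rfl⟩
  have hz0 : (τ i).K 1 ζ ≠ 0 := K_ne_zero _ one_ne_zero hζ0
  obtain ⟨z, h1, h2⟩ : ∃ z, z ≠ 0 ∧ ∀ s : F, s • z ∈ ZV (τ i) PU X he := by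
    by_cases hF : 5 ≤ Nat.card F
    · refine exists_line h hU (fun i => (S i).cp) hV hF (Finset.univ.erase i) ?_ (fun j hj g hg =>
        invL_ZV he (fun b => (τ i).flip_inA.2
          (h.exists_K (Finset.ne_of_mem_erase hj).symm b)) ((S j).hL g hg)) ?_ ?_ hz hz0
      · rintro _ ⟨ζ, -, rfl⟩ l hl a
        obtain rfl : l = i := by simpa using hl
        exact (τ l).K_comm _ _
      · rintro t _ ⟨ζ, a1, rfl⟩
        exact ⟨_, has_ZZ_four (S i) hU he h0 a1 t, by simp⟩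
      · rintro _ ⟨ζ, a1, rfl⟩
        simp [(S i).cp.adj_K, adj_of_ZZ (S i) he h0 a1, hU.o.ε]
    · refine ⟨_, hz0, fun s => ?_⟩
      have := Fintype.ofFinite F
      have h3 : Fintype.card F = 3 := by
        have h4 := FiniteField.odd_card_of_char_ne_two (F := F) fun e => hU.two (by
          exact_mod_cast (ringChar.spec F 2).2 (by rw [e]))
        have h5 := Fintype.one_lt_card (α := F)
        rw [Nat.card_eq_fintype_card] at hF
        omega
      have h4 : s * ((s - 1) * (s + 1)) = 0 := by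
        have := FiniteField.pow_card s
        rw [h3] at this
        linear_combination this
      rcases mul_eq_zero.1 h4 with rfl | h4
      · simp
      rcases mul_eq_zero.1 h4 with h4 | h4
      · simpa [sub_eq_zero.1 h4] using hz
      · simpa [eq_neg_of_add_eq_zero_left h4] using hz
  obtain ⟨ξ, -, rfl⟩ : z ∈ ZV (τ i) PU X he := by simpa using h2 1
  refine (Submodule.ne_bot_iff _).2 ⟨_, ⟨ξ, mem_DD_of_line (S i) hU he h0 fun s => ?_, rfl⟩, h1⟩
  obtain ⟨ξ', a1, a2⟩ := h2 s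
  rwa [← one_K_inj (τ i) (a2.trans (map_smul _ _ _).symm)]

/-- **Step C** for many slots. -/
theorem E_le_multi (hV : IsO PV) (hc : Cyc τ X)
    (hP : ∀ i j, i ≠ j → ∀ g ∈ PU.Iso, ∃ a ∈ PU.Iso, (τ i).KL a * (τ j).KL g ∈ X) {i : ι}
    (hI : finrank F U = 4 → ∀ g ∈ PU.Iso, (τ i).KL g ∈ X) (hi : ¬ (τ i).Hpt PU X) : PV.E ≤ X := by
  obtain ⟨e, he, h0, ζ, h1, h2⟩ := exists_ZZ_multi h hU S hI hi
  exact E_le_of_DV S h hU hV hc hP (DV_ne_bot h hU S hV he h0 h1 h2)

end Cfsg.Agent.Tens.OneO
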