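import Cfsg.Agent.Tens.OneO5
import Cfsg.Agent.Tens.OneO7

/-!
Tensor powers of orthogonal spaces of Witt index one: step C and the transitivity on the slots.
-/

set_option autoImplicit false
set_option linter.unusedSectionVars false
set_option linter.unusedSimpArgs false

namespace Cfsg.Agent.Tens.OneO

open Module Cfsg.Agent.H7 Cfsg.Agent.H7.Polar Cfsg.Agent.H1 Cfsg.Agent.Tens.Slot
  Cfsg.Agent.Tens.One

variable {F : Type*} [Field F] {ι κ : Type} [Fintype ι] [DecidableEq ι] [Fintype κ]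
  [DecidableEq κ] {V : Type*} [AddCommGroup V] [Module F V] [Finite F] [FiniteDimensional F V]
  {Φ : Pw F ι κ ≃ₗ[F] V} {PU : Polar F (κ → F)} {PV : Polar F V} {X : Subgroup (V ≃ₗ[F] V)}

theorem exists_third (h : Fintype.card ι ≠ 2) (h2 : 2 ≤ Fintype.card ι) (i j : ι) :
    ∃ l, l ≠ i ∧ l ≠ j := by
  obtain ⟨l, -, hl⟩ := Finset.exists_mem_notMem_of_card_lt_card (s := {i, j}) (t := Finset.univ)
    (Finset.card_le_two.trans_lt (by rw [Finset.card_univ]; omega))
  exact ⟨l, by simpa using hl⟩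

theorem eq_of_two (h : Fintype.card ι = 2) {i j l : ι} (hij : j ≠ i) (hl : l ≠ i) : l = j := by
  by_contra hlj
  have := Finset.card_le_univ {l, j, i}
  rw [Finset.card_insert_of_notMem (by simp [hl, hlj]), Finset.card_pair hij] at this
  omega

variable (h : PX Φ PU PV X) (hU : R1 PU)
include h hU

theorem seven_le : 7 ≤ finrank F V := by
  have h1 := hU.three_le
  rw [finrank_fintype_fun_eq_card] at h1
  rw [← Φ.finrank_eq, finrank_Pw]
  exact le_trans (by norm_num) ((Nat.pow_le_pow_left h1 2).trans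
    (Nat.pow_le_pow_right (by omega) h.two))

theorem nonempty : Nonempty κ := Fintype.card_pos_iff.1 (by
  have := hU.three_le
  rw [finrank_fintype_fun_eq_card] at this
  omega)

theorem KL_mem_Iso (i : ι) {g : (κ → F) ≃ₗ[F] (κ → F)} (hg : g ∈ PU.Iso) :
    (τ1 Φ i).KL g ∈ PV.Iso := (h.pc.compat (Or.inl hU.two)).KL_mem_Iso hU.exists_sing hg

theorem same_mul {i j l : ι} {k : V ≃ₗ[F] V} (hk : (τ1 Φ j).Same ((τ1 Φ i).map k))
    (g : (κ → F) ≃ₗ[F] (κ → F)) : (τ1 Φ j).Same ((τ1 Φ i).map (k * (τ1 Φ l).KL g)) := by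
  have := hU.nontrivial
  have := nonempty h hU
  rw [TS.map_mul]
  exact fun a => hk.inA (((multi Φ).same_KL l i g).map k a)

/-- The group is transitive on the slots. -/
theorem PX.trans (hV : IsO PV) (i j : ι) : ∃ k ∈ X, (τ1 Φ j).Same ((τ1 Φ i).map k) := by
  by_cases hij : j = i
  · exact ⟨1, X.one_mem, hij ▸ TS.same_refl _⟩
  by_cases h2 : Fintype.card ι = 2
  swap
  · obtain ⟨l, h3, h4⟩ := exists_third h2 h.two i j
    obtain ⟨k, hk, h5, -⟩ := h.cyc i l j h3.symm (Ne.symm hij) h4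
    exact ⟨k, hk, fun a => ⟨a, h5 a⟩⟩
  have : Nonempty ι := ⟨i⟩
  let _ : Unique {l // l ≠ i} := ⟨⟨⟨j, hij⟩⟩, fun l => Subtype.ext (eq_of_two h2 hij l.2)⟩
  have hψ : ∀ y : κ → F, LinearEquiv.funCongrLeft F F (Equiv.funUnique {l // l ≠ i} κ) y =
      pv0 fun _ => y := fun y => funext fun b => by rw [pv0_apply, Fintype.prod_unique]; rfl
  obtain ⟨g, hg⟩ := exists_swap_mem_E (h.pc.compat (i := i) (Or.inl hU.two)) hU hV
    (LinearEquiv.funCongrLeft F F (Equiv.funUnique _ κ))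
    (fun x y => by rw [hψ, hψ]; exact (powPolar_B _ _ _).trans (Fintype.prod_unique _))
    (h.pc.perm_mem_Iso hU.exists_sing (Equiv.swap i j)) fun x y => by
      rw [hψ, hψ, tp_pv0, tp_pv0, perm_pv]
      congr 1
      ext1 l
      by_cases hl : l = i
      · simp [hl, hij]
      · simp [eq_of_two h2 hij hl, hij]
  exact ⟨_, h.wr _ hg _ fun l => same_mul h hU (same_perm Φ _ l) g,
    same_mul h hU (fun a => ⟨a, by rw [map_perm_K, Equiv.swap_apply_left]⟩) g⟩

omit h in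
/-- **Step C** for tensor powers of orthogonal spaces of Witt index one. -/
theorem stepC_o_one (hV : IsO PV) : StepC Φ PU PV := fun X h i hi => by
  have := hU.nontrivial
  have := nonempty h hU
  have S : ∀ i, Set0 (τ1 Φ i) PU (powPolar PU (Or.inl hU.two)) PV X := fun i =>
    ⟨h.pc.compat _, h.iso, h.hL i⟩
  by_cases h2 : Fintype.card ι = 2
  · obtain ⟨j, hj⟩ := Fintype.exists_ne_of_one_lt_card h.two i
    refine E_le_two (S i) (S j) hU hU (fun b => (τ1 Φ i).flip_inA.2 ((multi Φ).exists_K hj.symm b))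
      (fun d => (multi Φ).inA_of_comm fun l hl a => ?_) hV hi
    obtain rfl := eq_of_two h2 hj.symm hl
    exact TS.K_comm _ _ _
  refine E_le_multi (multi Φ) hU S hV h.cyc (fun i j hij g hg => ⟨g⁻¹, PU.Iso.inv_mem hg, ?_⟩)
    (fun hk g hg => ?_) hi
  · obtain ⟨l, h3, h4⟩ := exists_third h2 h.two i j
    obtain ⟨k, hk, h5, -⟩ := h.cyc j l i h4.symm hij.symm h3
    refine h.wr _ ?_ 1 fun m => same_mul h hU ((multi Φ).same_KL i m _) g
    have h6 : k * (τ1 Φ j).KL g⁻¹ * k⁻¹ = (τ1 Φ i).KL g⁻¹ := LinearEquiv.ext fun v =>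
      ((τ1 Φ j).map_K_apply' k _ _ v).symm.trans (LinearMap.congr_fun (h5 _) v)
    have := comm_mem_E (wild_three_of_σ hV.σ) (seven_le h hU) (h.iso hk)
      (KL_mem_Iso h hU j (PU.Iso.inv_mem hg))
    rwa [h6, ← map_inv, inv_inv] at this
  · obtain ⟨j, hj⟩ := Fintype.exists_ne_of_one_lt_card h.two i
    obtain ⟨l, h3, h4⟩ := exists_third h2 h.two i j
    refine h.wr _ (KL_mem_E_of_even (S i).cp ((pcompat_powPolar (Or.inl hU.two)).compat
      (i := ⟨j, hj⟩) (Or.inl hU.two)) hU hU.o (isO_powPolar _ hU.o.σ (by simp [hU.o.ε]) hU.two) hV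
      (seven_le h hU) (by rw [hk]; decide) ?_ hg) 1 fun m => (multi Φ).same_KL i m g
    rw [finrank_fintype_fun_eq_card] at hk
    rw [finrank_Pw, hk, Nat.even_pow]
    exact ⟨by decide, (Fintype.card_pos_iff.2 ⟨⟨⟨l, h3⟩, by simpa using h4⟩⟩).ne'⟩

omit h in
theorem rigP_o_one (hF : 7 ≤ Nat.card F ∨ (Fintype.card κ = 4 ∧ 5 ≤ Nat.card F)) :
    RigP Φ PU PV := fun _ h hH i g hg => by
  have := nonempty h hU
  have hG := h.good (Or.inl hU.two) (hH i) fun _ => (hU.o.sing_iff hU.two).2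
  rcases hF with hF | ⟨hk, hF⟩
  · exact hG.same_or_comm_o_seven hU.toR1 hF hg
  · exact hG.same_or_comm_o_minus hU.toR1 (by simpa using hk) hF hg

end Cfsg.Agent.Tens.OneO
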