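import Cfsg.Agent.Tens.PowC
import Cfsg.Agent.Tens.C4Fin

/-!
The model of tensor powers: pure tensors, the tensor structures attached to a slot or a set of
slots, pure operators, permutations of the slots, and forms.
-/

set_option autoImplicit false
set_option linter.unusedSectionVars false
set_option linter.unusedSimpArgs false

namespace Cfsg.Agent.Tens

open Module Cfsg.Agent.H7 Cfsg.Agent.H7.Polar Cfsg.Agent.H1
open scoped Matrix

variable {F : Type*} [Field F] {ι κ : Type} [Fintype ι] [DecidableEq ι] [Fintype κ]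
  [DecidableEq κ] {V : Type*} [AddCommGroup V] [Module F V]

/-- The standard tensor power of `κ → F`. -/
abbrev Pw (F : Type*) (ι κ : Type) : Type _ := (ι → κ) → F

/-- Pure tensors in the standard tensor power. -/
def pv0 : MultilinearMap F (fun _ : ι => κ → F) (Pw F ι κ) :=
  MultilinearMap.pi fun a =>
    (MultilinearMap.mkPiAlgebra F ι F).compLinearMap fun i => LinearMap.proj (a i)

theorem pv0_apply (xs : ι → κ → F) (a : ι → κ) : pv0 xs a = ∏ i, xs i (a i) := rfl

theorem pv0_single (a : ι → κ) :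
    pv0 (fun i => (Pi.single (a i) 1 : κ → F)) = Pi.single a 1 := by
  ext b
  simp only [pv0_apply, Pi.single_apply, Finset.prod_boole, Finset.mem_univ, true_imp_iff,
    funext_iff]

variable (Φ : Pw F ι κ ≃ₗ[F] V)

/-- Pure tensors. -/
def pv : MultilinearMap F (fun _ : ι => κ → F) V := Φ.toLinearMap.compMultilinearMap pv0

theorem pv_def (xs : ι → κ → F) : pv Φ xs = Φ (pv0 xs) := rfl

@[simp] theorem pv_refl (xs : ι → κ → F) : pv (LinearEquiv.refl F _) xs = pv0 xs := rfl

theorem pv_ext {M : Type*} [AddCommGroup M] [Module F M] {f g : V →ₗ[F] M}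
    (h : ∀ xs, f (pv Φ xs) = g (pv Φ xs)) : f = g :=
  ((Pi.basisFun F (ι → κ)).map Φ).ext fun a => by
    simpa [pv_def, pv0_single] using h fun i => Pi.single (a i) 1

@[elab_as_elim]
theorem pv_induction {p : V → Prop} (v : V) (h0 : p 0) (h : ∀ (c : F) xs, p (c • pv Φ xs))
    (hadd : ∀ v v', p v → p v' → p (v + v')) : p v := by
  rw [← ((Pi.basisFun F (ι → κ)).map Φ).sum_repr v]
  refine Finset.sum_induction _ p hadd h0 fun a _ => ?_
  simpa [pv_def, pv0_single] using h _ fun i => Pi.single (a i) 1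

@[elab_as_elim]
theorem pv_induction' [Nonempty ι] {p : V → Prop} (v : V) (h0 : p 0) (h : ∀ xs, p (pv Φ xs))
    (hadd : ∀ v v', p v → p v' → p (v + v')) : p v := by
  obtain ⟨i⟩ := ‹Nonempty ι›
  refine pv_induction Φ v h0 (fun c xs => ?_) hadd
  have := (pv Φ).map_update_smul xs i c (xs i)
  rw [Function.update_eq_self] at this
  exact this ▸ h _

theorem pv_ne_zero {xs : ι → κ → F} (h : ∀ i, xs i ≠ 0) : pv Φ xs ≠ 0 := by
  choose a ha using fun i => Function.ne_iff.1 (h i)
  intro e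
  have := congrFun (Φ.map_eq_zero_iff.1 e) a
  exact Finset.prod_ne_zero_iff.2 (fun i _ => ha i) this

theorem nontrivial_Pw [Nonempty κ] : Nontrivial (Pw F ι κ) := inferInstance

theorem finrank_Pw : finrank F (Pw F ι κ) = Fintype.card κ ^ Fintype.card ι := by simp

/-- The tensor structure attached to a slot. -/
noncomputable def τ1 (i : ι) : TS F (κ → F) (Pw F {j // j ≠ i} κ) V :=
  (stdTS (Equiv.funSplitAt i κ) 1).map Φ

/-- The tensor structure attached to a set of slots. -/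
noncomputable def τJ (J : ι → Prop) [DecidablePred J] :
    TS F (Pw F {i // J i} κ) (Pw F {i // ¬ J i} κ) V :=
  (stdTS (Equiv.piEquivPiSubtypeProd J fun _ => κ) 1).map Φ

theorem prod_split {M : Type*} [CommMonoid M] (i : ι) (f : ι → M) :
    ∏ j, f j = f i * ∏ j : {j // j ≠ i}, f j := by
  rw [Fintype.prod_eq_mul_prod_compl i, Finset.prod_subtype (p := fun j => j ≠ i) _ (by simp)]

theorem pv_eq_tp (i : ι) (xs : ι → κ → F) :
    pv Φ xs = (τ1 Φ i).tp (xs i) (pv0 fun j => xs j.1) := by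
  rw [τ1, TS.map_tp, stdTS_tp, pv_def]
  congr 1
  ext a
  simp [pv0_apply, prod_split i, Equiv.funSplitAt]

theorem tp_pv0 (i : ι) (u : κ → F) (ys : {j // j ≠ i} → κ → F) :
    (τ1 Φ i).tp u (pv0 ys) = pv Φ fun j => if h : j = i then u else ys ⟨j, h⟩ := by
  rw [pv_eq_tp Φ i]
  congr 2
  · simp
  · ext j; simp [j.2]

theorem pv_update_eq_tp (i : ι) (xs : ι → κ → F) (u : κ → F) :
    pv Φ (Function.update xs i u) = (τ1 Φ i).tp u (pv0 fun j => xs j.1) := by
  rw [pv_eq_tp Φ i]
  congr 2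
  · simp
  · ext j; simp [j.2]

theorem pv_eq_tpJ (J : ι → Prop) [DecidablePred J] (xs : ι → κ → F) :
    pv Φ xs = (τJ Φ J).tp (pv0 fun j => xs j.1) (pv0 fun j => xs j.1) := by
  rw [τJ, TS.map_tp, stdTS_tp, pv_def]
  congr 1
  ext a
  simp [pv0_apply, ← Fintype.prod_subtype_mul_prod_subtype J, Equiv.piEquivPiSubtypeProd]

theorem tpJ_pv0 (J : ι → Prop) [DecidablePred J] (xs : {i // J i} → κ → F)
    (ys : {i // ¬ J i} → κ → F) : (τJ Φ J).tp (pv0 xs) (pv0 ys) =
      pv Φ fun j => if h : J j then xs ⟨j, h⟩ else ys ⟨j, h⟩ := by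
  rw [pv_eq_tpJ Φ J]
  congr 3
  · ext j; simp [j.2]
  · ext j; simp [j.2]

theorem K_pv (i : ι) (a : End F (κ → F)) (xs : ι → κ → F) :
    (τ1 Φ i).K a 1 (pv Φ xs) = pv Φ (Function.update xs i (a (xs i))) := by
  rw [pv_update_eq_tp, pv_eq_tp Φ i, TS.K_tp, End.one_apply]

/-- Pure operators. -/
noncomputable def moL (as : ι → End F (κ → F)) : End F V :=
  ((Pi.basisFun F (ι → κ)).map Φ).constr F fun b => pv Φ fun i => as i (Pi.single (b i) 1)

theorem moL_pv (as : ι → End F (κ → F)) (xs : ι → κ → F) :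
    moL Φ as (pv Φ xs) = pv Φ fun i => as i (xs i) := by
  have : (moL Φ as).compMultilinearMap (pv Φ) = (pv Φ).compLinearMap as :=
    Module.Basis.ext_multilinear (fun _ => Pi.basisFun F κ) fun b => by
      have := ((Pi.basisFun F (ι → κ)).map Φ).constr_basis F
        (fun b => pv Φ fun i => as i (Pi.single (b i) 1)) b
      simpa [pv_def, pv0_single, moL] using this
  exact congrArg (fun f => f xs) this

/-- Pure operators. -/
noncomputable def mo : (ι → End F (κ → F)) →* End F V where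
  toFun := moL Φ
  map_one' := pv_ext Φ fun xs => by simp [moL_pv]
  map_mul' as bs := pv_ext Φ fun xs => by simp [moL_pv]

@[simp] theorem mo_pv (as : ι → End F (κ → F)) (xs : ι → κ → F) :
    mo Φ as (pv Φ xs) = pv Φ fun i => as i (xs i) := moL_pv Φ as xs

theorem mo_pv0 (as : ι → End F (κ → F)) (xs : ι → κ → F) :
    mo (LinearEquiv.refl F _) as (pv0 xs) = pv0 fun i => as i (xs i) := mo_pv _ as xs

theorem mo_mulSingle (i : ι) (a : End F (κ → F)) : mo Φ (Pi.mulSingle i a) = (τ1 Φ i).K a 1 :=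
  pv_ext Φ fun xs => by
    rw [mo_pv, K_pv]
    congr 1
    ext1 j
    by_cases h : j = i
    · subst h; simp
    · simp [h]

theorem K_mo (i : ι) (as : ι → End F (κ → F)) :
    (τ1 Φ i).K (as i) (mo (LinearEquiv.refl F _) fun j => as j.1) = mo Φ as :=
  pv_ext Φ fun xs => by rw [mo_pv, pv_eq_tp Φ i, pv_eq_tp Φ i, TS.K_tp, mo_pv0]

theorem KJ_mo (J : ι → Prop) [DecidablePred J] (as : ι → End F (κ → F)) :
    (τJ Φ J).K (mo (LinearEquiv.refl F _) fun j => as j.1)
      (mo (LinearEquiv.refl F _) fun j => as j.1) = mo Φ as :=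
  pv_ext Φ fun xs => by rw [mo_pv, pv_eq_tpJ Φ J, pv_eq_tpJ Φ J, TS.K_tp, mo_pv0, mo_pv0]

theorem K_one_K {i : ι} (j : {j // j ≠ i}) (a : End F (κ → F)) :
    (τ1 Φ i).K 1 ((τ1 (LinearEquiv.refl F _) j).K a 1) = (τ1 Φ j.1).K a 1 := by
  rw [← mo_mulSingle, ← mo_mulSingle, ← K_mo Φ i, Pi.mulSingle_eq_of_ne j.2.symm]
  congr 2
  ext1 l
  by_cases h : l = j
  · subst h; simp
  · rw [Pi.mulSingle_eq_of_ne h, Pi.mulSingle_eq_of_ne (Subtype.coe_ne_coe.2 h)]

theorem KJ_left (J : ι → Prop) [DecidablePred J] (j : {i // J i}) (a : End F (κ → F)) :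
    (τJ Φ J).K ((τ1 (LinearEquiv.refl F _) j).K a 1) 1 = (τ1 Φ j.1).K a 1 := by
  rw [← mo_mulSingle, ← mo_mulSingle, ← KJ_mo Φ J, ← map_one (mo (LinearEquiv.refl F _))]
  congr 3
  · ext1 l
    by_cases h : l = j
    · subst h; simp
    · rw [Pi.mulSingle_eq_of_ne h, Pi.mulSingle_eq_of_ne (Subtype.coe_ne_coe.2 h)]
  · ext1 l
    rw [Pi.mulSingle_eq_of_ne fun e : l.1 = j.1 => l.2 (e ▸ j.2), Pi.one_apply]

theorem KJ_right (J : ι → Prop) [DecidablePred J] (j : {i // ¬ J i}) (a : End F (κ → F)) :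
    (τJ Φ J).K 1 ((τ1 (LinearEquiv.refl F _) j).K a 1) = (τ1 Φ j.1).K a 1 := by
  rw [← mo_mulSingle, ← mo_mulSingle, ← KJ_mo Φ J, ← map_one (mo (LinearEquiv.refl F _))]
  congr 3
  · ext1 l
    rw [Pi.mulSingle_eq_of_ne fun e : l.1 = j.1 => j.2 (e ▸ l.2), Pi.one_apply]
  · ext1 l
    by_cases h : l = j
    · subst h; simp
    · rw [Pi.mulSingle_eq_of_ne h, Pi.mulSingle_eq_of_ne (Subtype.coe_ne_coe.2 h)]

theorem mo_mem {B : Submonoid (End F V)} {as : ι → End F (κ → F)}
    (h : ∀ i, (τ1 Φ i).K (as i) 1 ∈ B) : mo Φ as ∈ B := by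
  have key : ∀ s : Finset ι, mo Φ (fun i => if i ∈ s then as i else 1) ∈ B := fun s => by
    induction s using Finset.induction_on with
    | empty => simpa [show (fun _ : ι => (1 : End F (κ → F))) = 1 from rfl] using B.one_mem
    | insert j s hj ih =>
      have : (fun i => if i ∈ insert j s then as i else 1) =
          (fun i => if i ∈ s then as i else 1) * Pi.mulSingle j (as j) := by
        ext1 i
        by_cases h : i = j
        · subst h; simp [hj]
        · simp [h]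
      rw [this, map_mul, mo_mulSingle]
      exact B.mul_mem ih (h j)
  simpa using key Finset.univ

/-- The slots form a family of commuting tensor structures with trivial commutant. -/
theorem multi : Multi (τ1 Φ) where
  comm i j hij a b := by
    rw [← mo_mulSingle, ← mo_mulSingle, ← map_mul, ← map_mul]
    exact congrArg _ (Pi.mulSingle_commute (f := fun _ => End F (κ → F)) hij a b).eq
  scal c hc := by
    refine scal_of_comm fun d => ?_
    have h1 : ∀ as, mo Φ as * c = c * mo Φ as := fun as =>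
      (mo_mem Φ (B := Submonoid.centralizer {c}) (fun i => by
        simpa [Submonoid.mem_centralizer_iff] using (hc i _).symm) c rfl).symm
    let b := (Pi.basisFun F (ι → κ)).map Φ
    have h2 : ∀ x y, (b.coord y).smulRight (b x) =
        mo Φ fun i => (LinearMap.proj (y i) : (κ → F) →ₗ[F] F).smulRight (Pi.single (x i) 1) :=
      fun x y => pv_ext Φ fun xs => by
        simp only [mo_pv, LinearMap.smulRight_apply, MultilinearMap.map_smul_univ]
        simp [b, pv_def, pv0_single, pv0_apply]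
    have h3 : d = ∑ x, ∑ y, b.repr (d (b y)) x • (b.coord y).smulRight (b x) := b.ext fun z => by
      simp [LinearMap.sum_apply, Finsupp.single_apply]
    rw [h3]
    simp [Finset.sum_mul, Finset.mul_sum, h2, h1]

/-- Permutations of the slots. -/
noncomputable def perm : Equiv.Perm ι →* (V ≃ₗ[F] V) where
  toFun σ := Φ.symm.trans ((LinearEquiv.funCongrLeft F F (σ.symm.arrowCongr (Equiv.refl κ))).trans Φ)
  map_one' := LinearEquiv.ext fun v => Φ.apply_symm_apply v
  map_mul' σ σ' := LinearEquiv.ext fun v => by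
    simp only [LinearEquiv.trans_apply, LinearEquiv.mul_apply, LinearEquiv.symm_apply_apply]
    rfl

@[simp] theorem perm_pv (σ : Equiv.Perm ι) (xs : ι → κ → F) :
    perm Φ σ (pv Φ xs) = pv Φ fun i => xs (σ.symm i) := by
  change Φ (LinearEquiv.funCongrLeft F F _ (Φ.symm (Φ _))) = Φ _
  congr 1
  ext a
  rw [LinearEquiv.symm_apply_apply, pv0_apply, ← Equiv.prod_comp σ]
  simp [pv0_apply]

theorem map_perm_K (σ : Equiv.Perm ι) (i : ι) (a : End F (κ → F)) :
    ((τ1 Φ i).map (perm Φ σ)).K a 1 = (τ1 Φ (σ i)).K a 1 := by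
  refine pv_ext Φ fun xs => ?_
  have : pv Φ xs = perm Φ σ (pv Φ fun j => xs (σ j)) := by simp
  rw [K_pv, this, TS.map_K_apply, K_pv, perm_pv]
  congr 1
  ext1 j
  by_cases h : j = σ i
  · subst h; simp
  · have h' : σ.symm j ≠ i := fun e => h (by simp [← e])
    simp [h, h']

theorem same_perm (σ : Equiv.Perm ι) (i : ι) :
    (τ1 Φ (σ i)).Same ((τ1 Φ i).map (perm Φ σ)) := fun a => ⟨a, map_perm_K Φ σ i a⟩

theorem cyc_of {X : Subgroup (V ≃ₗ[F] V)}
    (h : ∀ σ σ' : Equiv.Perm ι, perm Φ (σ * σ' * σ⁻¹ * σ'⁻¹) ∈ X) : Cyc (τ1 Φ) X := by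
  intro i j l hij hil hjl
  refine ⟨_, h (Equiv.swap i l) (Equiv.swap i j), fun a => ?_, fun a => ?_⟩
  · rw [map_perm_K]
    exact congrArg (fun m => (τ1 Φ m).K a 1) (by simp [Equiv.swap_apply_of_ne_of_ne hij.symm hjl])
  · rw [map_perm_K]
    exact congrArg (fun m => (τ1 Φ m).K a 1)
      (by simp [Equiv.swap_apply_of_ne_of_ne hil.symm hjl.symm])

/-! ### Forms -/

section Forms

variable (PU : Polar F (κ → F))

variable (ι) in
/-- The tensor power of the form. -/
def powB : Pw F ι κ →ₗ[F] Pw F ι κ →ₛₗ[PU.σ] F :=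
  LinearMap.mk₂'ₛₗ (RingHom.id F) PU.σ
    (fun x y => ∑ a, ∑ b, x a * (∏ i, PU.B (Pi.single (a i) 1) (Pi.single (b i) 1)) * PU.σ (y b))
    (fun x x' y => by simp [add_mul, Finset.sum_add_distrib])
    (fun c x y => by simp [Finset.mul_sum, mul_assoc])
    (fun x y y' => by simp [mul_add, Finset.sum_add_distrib])
    (fun c x y => by simp [Finset.mul_sum, mul_left_comm])

theorem powB_apply (x y : Pw F ι κ) : powB ι PU x y =
    ∑ a, ∑ b, x a * (∏ i, PU.B (Pi.single (a i) 1) (Pi.single (b i) 1)) * PU.σ (y b) := rfl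

theorem powB_pv0 (xs ys : ι → κ → F) : powB ι PU (pv0 xs) (pv0 ys) = ∏ i, PU.B (xs i) (ys i) := by
  simp only [← formOfGram_gram PU (xs _), Geo.formOfGram, Geo.gramMatrix, Finset.prod_univ_sum,
    Fintype.piFinset_univ, powB_apply, pv0_apply, map_prod, Finset.prod_mul_distrib]

theorem ext₂_pv {σ : F →+* F} {V' : Type*} [AddCommGroup V'] [Module F V'] {ι' : Type}
    [Fintype ι'] [DecidableEq ι'] (Φ' : Pw F ι' κ ≃ₗ[F] V') {f g : V → V' → F}
    (f1 : ∀ x x' y, f (x + x') y = f x y + f x' y) (g1 : ∀ x x' y, g (x + x') y = g x y + g x' y)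
    (f2 : ∀ x y y', f x (y + y') = f x y + f x y') (g2 : ∀ x y y', g x (y + y') = g x y + g x y')
    (σ' : F →+* F)
    (f3 : ∀ (c d : F) x y, f (c • x) (d • y) = σ' c * σ d * f x y)
    (g3 : ∀ (c d : F) x y, g (c • x) (d • y) = σ' c * σ d * g x y)
    (h : ∀ xs ys, f (pv Φ xs) (pv Φ' ys) = g (pv Φ xs) (pv Φ' ys)) (x : V) (y : V') :
    f x y = g x y := by
  induction x using pv_induction Φ with
  | h0 => simpa using (f3 0 1 0 y).trans (by simpa using (g3 0 1 0 y).symm)
  | hadd a b ha hb => rw [f1, g1, ha, hb]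
  | h c xs =>
    induction y using pv_induction Φ' with
    | h0 => simpa using (f3 c 0 _ 0).trans (by simpa using (g3 c 0 (pv Φ xs) 0).symm)
    | hadd a b ha hb => rw [f2, g2, ha, hb]
    | h d ys => rw [f3, g3, h]

theorem powB_herm (x y : Pw F ι κ) :
    powB ι PU y x = PU.ε ^ Fintype.card ι * PU.σ (powB ι PU x y) := by
  refine ext₂_pv (LinearEquiv.refl F _) (LinearEquiv.refl F _) (σ := RingHom.id F)
    (f := fun x y => powB ι PU y x) (g := fun x y => PU.ε ^ Fintype.card ι * PU.σ (powB ι PU x y))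
    (by simp) (by simp [mul_add]) (by simp) (by simp [mul_add]) PU.σ
    (fun c d x y => by simp [LinearMap.map_smulₛₗ]; ring)
    (fun c d x y => by simp [LinearMap.map_smulₛₗ]; ring) (fun xs ys => ?_) x y
  simp only [pv_refl, powB_pv0, map_prod, PU.herm (xs _), Finset.prod_mul_distrib,
    Finset.prod_const, Finset.card_univ]

/-- The condition ensuring that the tensor power of the form is trace valued. -/
def TrV (ι : Type) : Prop :=
  (2 : F) ≠ 0 ∨ (∃ a, PU.σ a ≠ a) ∨ ((∀ x, PU.Val x 0) ∧ Nonempty ι)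

theorem pow_εε (n : ℕ) : PU.ε ^ n = 1 ∨ PU.ε ^ n = -1 := by
  rcases PU.εε with h | h
  · simp [h]
  · rw [h]; exact neg_one_pow_eq_or F n

theorem powB_val_ex (h : TrV PU ι) (x : Pw F ι κ) :
    ∃ c, powB ι PU x x = c + PU.ε ^ Fintype.card ι * PU.σ c := by
  have key : ∀ θ x, θ + PU.σ θ = 1 → ∃ c, powB ι PU x x = c + PU.ε ^ Fintype.card ι * PU.σ c :=
    fun θ x hθ => ⟨θ * powB ι PU x x, by
      rw [map_mul, mul_left_comm, ← powB_herm]
      linear_combination (-powB ι PU x x) * hθ⟩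
  rcases h with h | h | ⟨h, h'⟩
  · exact key 2⁻¹ x (by rw [map_inv₀, map_ofNat]; field_simp; ring)
  · obtain ⟨θ, hθ⟩ := exists_trace_one PU.σ PU.σσ h
    exact key θ x hθ
  · induction x using pv_induction' (LinearEquiv.refl F (Pw F ι κ)) with
    | h0 => exact ⟨0, by simp⟩
    | h xs =>
      obtain ⟨i⟩ := h'
      exact ⟨0, by
        rw [pv_refl, powB_pv0, Finset.prod_eq_zero (Finset.mem_univ i) (sing_B (h _))]; simp⟩
    | hadd a b ha hb =>
      obtain ⟨c, hc⟩ := ha
      obtain ⟨d, hd⟩ := hb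
      refine ⟨c + d + powB ι PU a b, ?_⟩
      simp only [map_add, LinearMap.add_apply, hc, hd, powB_herm PU a b]
      ring

variable [Finite F]

theorem powB_nondeg (y : Pw F ι κ) (h : ∀ x, powB ι PU x y = 0) : y = 0 := by
  ext b
  choose z hz using fun k : κ => PU.exists_B_eq (LinearMap.proj k)
  have key : ∀ y, powB ι PU y (pv0 fun i => z (b i)) = y b := fun y => by
    induction y using pv_induction (LinearEquiv.refl F (Pw F ι κ)) with
    | h0 => simp
    | h c xs => simp [powB_pv0, hz, pv0_apply]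
    | hadd a b ha hb => simp [ha, hb]
  rw [← key y, powB_herm, h]
  simp

/-- The tensor power of a polar space, with the maximal form parameter. -/
def powPolar (h : TrV PU ι) : Polar F (Pw F ι κ) where
  σ := PU.σ
  ε := PU.ε ^ Fintype.card ι
  B := powB ι PU
  Val x c := powB ι PU x x = c + PU.ε ^ Fintype.card ι * PU.σ c
  σσ := PU.σσ
  εε := pow_εε PU _
  herm := powB_herm PU
  nondeg := powB_nondeg PU
  val_ex := powB_val_ex PU h
  val_add {x y c d} hx hy := by
    simp only [map_add, LinearMap.add_apply, hx, hy, powB_herm PU x y]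
    ring
  val_smul {x c} a hx := by
    simp only [map_smul, LinearMap.smul_apply, LinearMap.map_smulₛₗ, hx, smul_eq_mul, map_mul,
      PU.σσ, RingHom.id_apply]
    ring
  val_self hx := hx
  val_min a := by
    have : PU.ε ^ Fintype.card ι * PU.ε ^ Fintype.card ι = 1 := by rw [← mul_pow]; simp
    simp only [map_zero, map_sub, map_mul, map_pow, σ_ε, PU.σσ]
    linear_combination a * this

variable {PU} (h : TrV PU ι)

@[simp] theorem powPolar_σ (a : F) : (powPolar PU h).σ a = PU.σ a := rfl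

theorem powPolar_ε : (powPolar PU h).ε = PU.ε ^ Fintype.card ι := rfl

theorem powPolar_B (xs ys : ι → κ → F) :
    (powPolar PU h).B (pv0 xs) (pv0 ys) = ∏ i, PU.B (xs i) (ys i) := powB_pv0 PU xs ys

theorem powPolar_val {x : Pw F ι κ} {c : F} : (powPolar PU h).Val x c ↔
    (powPolar PU h).B x x = c + (powPolar PU h).ε * (powPolar PU h).σ c := Iff.rfl

theorem powPolar_sing {x : Pw F ι κ} : (powPolar PU h).Val x 0 ↔ (powPolar PU h).B x x = 0 := by
  simp [powPolar_val]

theorem isUn_powPolar (hU : IsUn PU) : IsUn (powPolar PU h) :=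
  ⟨hU.σ, by rw [powPolar_ε, hU.ε, one_pow]⟩

theorem isO_powPolar (hσ : ∀ a, PU.σ a = a) (hε : PU.ε ^ Fintype.card ι = 1) (h2 : (2 : F) ≠ 0) :
    IsO (powPolar PU h) :=
  ⟨hσ, hε, fun c hc => by
    rw [powPolar_val, powPolar_ε, hε, powPolar_σ, hσ, map_zero] at hc
    exact mul_left_cancel₀ h2 (by linear_combination -hc)⟩

theorem isSp_powPolar (hσ : ∀ a, PU.σ a = a) (hε : PU.ε ^ Fintype.card ι = -1) (h2 : (2 : F) ≠ 0) :
    IsSp (powPolar PU h) :=
  ⟨hσ, hε, fun x c => by
    have := (powPolar PU h).herm x x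
    rw [powPolar_ε, hε, powPolar_σ, hσ] at this
    rw [powPolar_val, powPolar_ε, hε, powPolar_σ, hσ]
    exact mul_left_cancel₀ h2 (by linear_combination this)⟩

omit h in
/-- The form on `V` is the tensor power of the form on `κ → F`. -/
structure PCompat (PU : Polar F (κ → F)) (PV : Polar F V) : Prop where
  σ : ∀ a, PV.σ a = PU.σ a
  ε : PV.ε = PU.ε ^ Fintype.card ι
  B : ∀ xs ys, PV.B (pv Φ xs) (pv Φ ys) = ∏ i, PU.B (xs i) (ys i)
  val : ∀ xs i, PU.Val (xs i) 0 → PV.Val (pv Φ xs) 0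
  sing : (∀ u, PU.Val u 0) ∨ ∀ v, PV.B v v = 0 → PV.Val v 0

theorem pcompat_powPolar : PCompat (LinearEquiv.refl F (Pw F ι κ)) PU (powPolar PU h) where
  σ _ := rfl
  ε := rfl
  B := powPolar_B h
  val xs i hi := (powPolar_sing h).2 (by
    rw [pv_refl, powPolar_B]
    exact Finset.prod_eq_zero (Finset.mem_univ i) (sing_B hi))
  sing := Or.inr fun _ => (powPolar_sing h).2

omit h

namespace PCompat

variable {Φ} {PV : Polar F V} (hc : PCompat Φ PU PV)
include hc

theorem B_tp {i : ι} (h : TrV PU {j // j ≠ i}) (u : κ → F) (x : Pw F {j // j ≠ i} κ) (u' : κ → F)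
    (x' : Pw F {j // j ≠ i} κ) : PV.B ((τ1 Φ i).tp u x) ((τ1 Φ i).tp u' x') =
      PU.B u u' * (powPolar PU h).B x x' := by
  refine ext₂_pv (LinearEquiv.refl F _) (LinearEquiv.refl F _) (σ := PU.σ)
    (f := fun x x' => PV.B ((τ1 Φ i).tp u x) ((τ1 Φ i).tp u' x'))
    (g := fun x x' => PU.B u u' * (powPolar PU h).B x x')
    (by simp) (by simp [mul_add]) (by simp) (by simp [mul_add]) (RingHom.id F)
    (fun c d x y => by simp [hc.σ]; ring) (fun c d x y => by simp; ring) (fun xs ys => ?_) x x'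
  simp only [pv_refl, tp_pv0, hc.B, powPolar_B, prod_split i, dite_true]
  congr 1
  exact Finset.prod_congr rfl fun j _ => by simp [j.2]

theorem compat {i : ι} (h : TrV PU {j // j ≠ i}) : Compat (τ1 Φ i) PU (powPolar PU h) PV := by
  have hl : ∀ u x, PU.Val u 0 → PV.Val ((τ1 Φ i).tp u x) 0 := fun u x hu => by
    induction x using pv_induction (LinearEquiv.refl F (Pw F {j // j ≠ i} κ)) with
    | h0 => simpa using val_zero
    | h c xs =>
      rw [map_smul, pv_refl, tp_pv0]
      exact sing_smul (hc.val _ i (by simpa using hu)) c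
    | hadd a b ha hb =>
      rw [map_add]
      exact sing_add ha hb (by simp [hc.B_tp h, sing_B hu])
  refine ⟨fun _ => rfl, hc.σ, ?_, hc.B_tp h, hl, fun u x hx => ?_⟩
  · rw [hc.ε, powPolar_ε, ← pow_succ', Fintype.card_subtype_compl, Fintype.card_subtype_eq,
      Nat.sub_add_cancel (Fintype.card_pos_iff.2 ⟨i⟩)]
  · rcases hc.sing with h1 | h1
    · exact hl u x (h1 u)
    · exact h1 _ (by rw [hc.B_tp h, sing_B hx, mul_zero])

theorem compatJ (J : ι → Prop) [DecidablePred J] (h : TrV PU {i // J i})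
    (h' : TrV PU {i // ¬ J i}) (hs : ∀ v, PV.B v v = 0 → PV.Val v 0) :
    Compat (τJ Φ J) (powPolar PU h) (powPolar PU h') PV := by
  have hB : ∀ u x u' x', PV.B ((τJ Φ J).tp u x) ((τJ Φ J).tp u' x') =
      (powPolar PU h).B u u' * (powPolar PU h').B x x' := fun u x u' x' => by
    refine ext₂_pv (LinearEquiv.refl F _) (LinearEquiv.refl F _) (σ := PU.σ)
      (f := fun x x' => PV.B ((τJ Φ J).tp u x) ((τJ Φ J).tp u' x'))
      (g := fun x x' => (powPolar PU h).B u u' * (powPolar PU h').B x x')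
      (by simp) (by simp [mul_add]) (by simp) (by simp [mul_add]) (RingHom.id F)
      (fun c d x y => by simp [hc.σ]; ring) (fun c d x y => by simp; ring) (fun xs ys => ?_) x x'
    refine ext₂_pv (LinearEquiv.refl F _) (LinearEquiv.refl F _) (σ := PU.σ)
      (f := fun u u' => PV.B ((τJ Φ J).tp u (pv0 xs)) ((τJ Φ J).tp u' (pv0 ys)))
      (g := fun u u' => (powPolar PU h).B u u' * (powPolar PU h').B (pv0 xs) (pv0 ys))
      (by simp) (by simp [add_mul]) (by simp) (by simp [add_mul]) (RingHom.id F)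
      (fun c d x y => by simp [hc.σ]; ring) (fun c d x y => by simp; ring) (fun us vs => ?_) u u'
    simp only [pv_refl, tpJ_pv0, hc.B, powPolar_B, ← Fintype.prod_subtype_mul_prod_subtype J]
    congr 1
    · exact Finset.prod_congr rfl fun j _ => by simp [j.2]
    · exact Finset.prod_congr rfl fun j _ => by simp [j.2]
  refine ⟨fun _ => rfl, hc.σ, ?_, hB, fun u x hx => hs _ (by rw [hB, sing_B hx, zero_mul]),
    fun u x hx => hs _ (by rw [hB, sing_B hx, mul_zero])⟩
  rw [hc.ε, powPolar_ε, powPolar_ε, ← pow_add, Fintype.card_subtype_compl,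
    Nat.add_sub_cancel' (Fintype.card_subtype_le _)]

/-- An automorphism mapping pure tensors to pure tensors, preserving the form and singularity. -/
theorem mem_Iso_of [Nonempty ι] (hs : ∃ e, PU.Val e 0 ∧ e ≠ 0) {g : V ≃ₗ[F] V}
    (hB : ∀ xs ys, PV.B (g (pv Φ xs)) (g (pv Φ ys)) = ∏ i, PU.B (xs i) (ys i))
    (hv : ∀ xs i, PU.Val (xs i) 0 → PV.Val (g (pv Φ xs)) 0) : g ∈ PV.Iso := by
  have hB' : ∀ v v', PV.B (g v) (g v') = PV.B v v' :=
    ext₂_pv Φ Φ (σ := PV.σ) (by simp) (by simp) (by simp) (by simp) (RingHom.id F)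
      (fun c d x y => by simp; ring) (fun c d x y => by simp; ring) fun xs ys => by rw [hB, hc.B]
  have hadd : ∀ v v', (∃ c, PV.Val v c ∧ PV.Val (g v) c) → (∃ c, PV.Val v' c ∧ PV.Val (g v') c) →
      ∃ c, PV.Val (v + v') c ∧ PV.Val (g (v + v')) c := by
    rintro v v' ⟨c, h1, h2⟩ ⟨c', h1', h2'⟩
    exact ⟨_, PV.val_add h1 h1', by rw [map_add, ← hB']; exact PV.val_add h2 h2'⟩
  obtain ⟨e, he, h0⟩ := hs
  obtain ⟨i⟩ := ‹Nonempty ι›
  have : Nonempty ι := ⟨i⟩
  refine Polar.mem_Iso_of hB' fun v => ?_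
  induction v using pv_induction' Φ with
  | h0 => exact ⟨0, val_zero, by simpa using val_zero⟩
  | hadd a b ha hb => exact hadd _ _ ha hb
  | h xs =>
    have := sing_induction_top he h0 (p := fun y => ∃ c, PV.Val (pv Φ (Function.update xs i y)) c ∧
      PV.Val (g (pv Φ (Function.update xs i y))) c)
      (fun u hu => ⟨0, hc.val _ i (by simpa using hu), hv _ i (by simpa using hu)⟩)
      (fun u v hu hv => by simpa only [MultilinearMap.map_update_add] using hadd _ _ hu hv) (xs i)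
    simpa using this

theorem perm_mem_Iso [Nonempty ι] (hs : ∃ e, PU.Val e 0 ∧ e ≠ 0) (σ : Equiv.Perm ι) :
    perm Φ σ ∈ PV.Iso :=
  hc.mem_Iso_of hs (fun xs ys => by
    rw [perm_pv, perm_pv, hc.B]
    exact Equiv.prod_comp σ.symm fun i => PU.B (xs i) (ys i))
    fun xs i hi => by rw [perm_pv]; exact hc.val _ (σ i) (by simpa using hi)

theorem cyc [Nonempty ι] (hs : ∃ e, PU.Val e 0 ∧ e ≠ 0) {X : Subgroup (V ≃ₗ[F] V)}
    (hX : ∀ σ : Equiv.Perm ι, perm Φ σ ∈ PV.E → perm Φ σ ∈ X)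
    (hE : ∀ g ∈ PV.Iso, ∀ k ∈ PV.Iso, g * k * g⁻¹ * k⁻¹ ∈ PV.E) : Cyc (τ1 Φ) X :=
  cyc_of Φ fun σ σ' => hX _ (by
    simpa only [map_mul, map_inv] using hE _ (hc.perm_mem_Iso hs σ) _ (hc.perm_mem_Iso hs σ'))

end PCompat

end Forms

end Cfsg.Agent.Tens
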