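import Cfsg.Agent.Tens.SlotO
import Cfsg.Agent.Tens.Level3

/-!
Tensor powers, abstractly: a family of commuting tensor structures.  The multi-slot argument and
step C for factors of Witt index at least two.
-/

set_option autoImplicit false
set_option linter.unusedSectionVars false
set_option linter.unusedSimpArgs false

namespace Cfsg.Agent.Tens

open Module Cfsg.Agent.H7 Cfsg.Agent.H7.Polar Cfsg.Agent.H1

variable {F U V : Type*} [Field F] [AddCommGroup U] [Module F U] [AddCommGroup V] [Module F V]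

namespace TS

variable {W : Type*} [AddCommGroup W] [Module F W] (τ : TS F U W V)

/-- The first factor as an algebra homomorphism. -/
def KA : End F U →ₐ[F] End F V where
  toFun a := τ.K a 1
  map_one' := τ.K_one
  map_mul' a b := by rw [K_mul, mul_one]
  map_zero' := by simp
  map_add' a b := by simp
  commutes' c := by simp [Algebra.algebraMap_eq_smul_one]

@[simp] theorem KA_apply (a : End F U) : τ.KA a = τ.K a 1 := rfl

theorem K_eq_mul (a : End F U) (d : End F W) : τ.K a d = τ.K a 1 * τ.K 1 d := by simp [K_mul]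

theorem K_comm (a : End F U) (d : End F W) : τ.K a 1 * τ.K 1 d = τ.K 1 d * τ.K a 1 := by
  simp [K_mul]

theorem sl_mul_left (φ : Dual F U) (u : U) (c : End F V) (d : End F W) :
    τ.sl φ u (τ.K 1 d * c) = d * τ.sl φ u c := by
  ext x
  simp only [sl_apply, End.mul_apply, pr_K]
  rfl

theorem sl_mul_right (φ : Dual F U) (u : U) (c : End F V) (d : End F W) :
    τ.sl φ u (c * τ.K 1 d) = τ.sl φ u c * d := by
  ext x
  simp

theorem scal_of_one_K [Nontrivial U] {d : End F W} (h : Scal (τ.K 1 d)) : Scal d := by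
  obtain ⟨s, hs⟩ := h.eq
  refine ⟨s, fun x => LinearMap.congr_fun (τ.flip.K_one_inj (a := d) (a' := s • 1) ?_) x⟩
  simp [hs]

end TS

namespace Slot

variable [Finite F] [FiniteDimensional F U]

/-- The polar spaces for which the slot lemma is available. -/
def Kind (P : Polar F U) : Prop :=
  ((∀ x, P.Val x 0) ∧ 1 ≤ finrank F U ∧ (3 ≤ finrank F U ∨ 2 < Nat.card F)) ∨
  ((∃ a, P.σ a ≠ a) ∧ P.ε = 1 ∧ (3 ≤ finrank F U ∨ (2 ≤ finrank F U ∧ 4 < Nat.card F))) ∨
  (IsO P ∧ (2 : F) ≠ 0 ∧ 3 ≤ finrank F U ∧ (finrank F U = 3 → 5 ≤ Nat.card F) ∧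
    (finrank F U = 4 → ¬ P.W2))

variable {P : Polar F U}

theorem Kind.slot (h : Kind P) {W : Type*} [AddCommGroup W] [Module F W] [FiniteDimensional F W]
    {τ : TS F U W V} {C : Subalgebra F (End F V)}
    (hL : ∀ g ∈ P.E, InvL τ (C : Set (End F V)) g) (habs : AbsIrr τ (C : Set (End F V)))
    (hc : ∃ c ∈ C, ¬ τ.flip.InA c) : ∃ d, d ≠ 0 ∧ ∀ a, τ.K a d ∈ C := by
  rcases h with ⟨h1, -, h2⟩ | ⟨h1, h2, h3⟩ | ⟨h1, h2, h3, h4, h5⟩
  · exact slot_sp hL habs.irr hc h1 h2
  · exact slot_su hL habs.irr hc h1 h2 h3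
  · exact slot_o h1 h2 hL habs h3 h4 (fun k hw => (h5 k hw).elim) hc

theorem Kind.eq_top (h : Kind P) {C : Subalgebra F (End F U)}
    (hL : ∀ g ∈ P.E, ∀ c ∈ C, (g : End F U) * c * (g.symm : End F U) ∈ C)
    (hc : ∃ c ∈ C, ¬ Scal c) : C = ⊤ :=
  triv_eq_top (h.slot (fun g hg => triv_invL (hL g hg)) (triv_absIrr _)
    (hc.imp fun _ h => ⟨h.1, triv_not_inA h.2⟩))

theorem Kind.span_E (h : Kind P) : Submodule.span F {a : End F U | ∃ g ∈ P.E, a = g} = ⊤ := by
  rcases h with ⟨h1, h2, h3⟩ | ⟨h1, h2, h3⟩ | ⟨h1, h2, h3, h4, -⟩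
  · exact span_E_sp h1 h2 h3
  · exact span_E_su h1 h2 h3
  · exact span_E_o h1 h2 h3 h4

theorem Kind.nontrivial (h : Kind P) : Nontrivial U :=
  Module.nontrivial_of_finrank_pos (R := F) (by rcases h with h | h | h <;> omega)

end Slot

open Slot

variable {ι : Type*} {W : ι → Type*} [∀ i, AddCommGroup (W i)] [∀ i, Module F (W i)]

/-- A family of commuting tensor structures whose first factors have trivial commutant. -/
structure Multi (τ : ∀ i, TS F U (W i) V) : Prop where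
  comm : ∀ i j, i ≠ j → ∀ a b, (τ i).K a 1 * (τ j).K b 1 = (τ j).K b 1 * (τ i).K a 1
  scal : ∀ c : End F V, (∀ j a, (τ j).K a 1 * c = c * (τ j).K a 1) → Scal c

/-- The endomorphisms commuting with all slots outside `J`. -/
def Cm (τ : ∀ i, TS F U (W i) V) (J : Finset ι) : Subalgebra F (End F V) where
  carrier := {c | ∀ l, l ∉ J → ∀ a, (τ l).K a 1 * c = c * (τ l).K a 1}
  mul_mem' {c c'} h h' l hl a := by rw [← mul_assoc, h l hl, mul_assoc, h' l hl, mul_assoc]
  add_mem' {c c'} h h' l hl a := by rw [mul_add, add_mul, h l hl, h' l hl]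
  algebraMap_mem' s l _ a := (Algebra.commutes s _).symm

theorem mem_Cm {τ : ∀ i, TS F U (W i) V} {J : Finset ι} {c : End F V} :
    c ∈ Cm τ J ↔ ∀ l, l ∉ J → ∀ a, (τ l).K a 1 * c = c * (τ l).K a 1 := Iff.rfl

namespace Multi

variable [FiniteDimensional F U] [∀ i, FiniteDimensional F (W i)] {τ : ∀ i, TS F U (W i) V}
  (h : Multi τ)
include h

theorem exists_K {i j : ι} (hij : i ≠ j) (a : End F U) : ∃ d, (τ j).K a 1 = (τ i).K 1 d :=
  (τ i).flip_inA.1 ((τ i).flip.inA_of_comm fun b => by simpa using h.comm i j hij b a)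

theorem exists_KE [Nontrivial U] {i j : ι} (hij : i ≠ j) (g : U ≃ₗ[F] U) :
    ∃ d, (τ j).KL g = (τ i).KE 1 d ∧ (τ j).K g 1 = (τ i).K 1 d ∧
      (τ j).K g.symm 1 = (τ i).K 1 d.symm := by
  obtain ⟨d, hd⟩ := h.exists_K hij g
  obtain ⟨d', hd'⟩ := h.exists_K hij g.symm
  have h1 : d * d' = 1 := (τ i).flip.K_one_inj (by
    simp only [TS.flip_K]
    rw [← one_mul (1 : End F U), ← TS.K_mul, ← hd, ← hd', TS.K_mul, mul_one, one_mul,
      show (g : End F U) * (g.symm : End F U) = 1 from LinearMap.ext fun u => by simp, TS.K_one,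
      TS.K_one])
  have h2 : d' * d = 1 := (τ i).flip.K_one_inj (by
    simp only [TS.flip_K]
    rw [← one_mul (1 : End F U), ← TS.K_mul, ← hd, ← hd', TS.K_mul, mul_one, one_mul,
      show (g.symm : End F U) * (g : End F U) = 1 from LinearMap.ext fun u => by simp, TS.K_one,
      TS.K_one])
  exact ⟨LinearEquiv.ofLinearMap d d' h1 h2, LinearEquiv.toLinearMap_injective hd, hd, hd'⟩

theorem K_mem_Cm {J : Finset ι} {j : ι} (hj : j ∈ J) (a : End F U) : (τ j).K a 1 ∈ Cm τ J :=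
  fun l hl b => h.comm l j (fun e => hl (e ▸ hj)) b a

theorem slice_mem_Cm [DecidableEq ι] {J : Finset ι} {j : ι} {c : End F V}
    (hc : c ∈ Cm τ (insert j J)) (φ : Dual F U) (u : U) :
    (τ j).K 1 ((τ j).sl φ u c) ∈ Cm τ J := fun l hl a => by
  by_cases hlj : l = j
  · subst hlj; exact (τ l).K_comm _ _
  obtain ⟨d, hd⟩ := h.exists_K (Ne.symm hlj) a
  have := hc l (by simp [hl, hlj]) a
  rw [hd] at this ⊢
  rw [TS.K_mul, TS.K_mul, ← TS.sl_mul_left, ← TS.sl_mul_right, this]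

/-- Induction over the slots. -/
theorem induction {p : End F V → Prop} (h0 : ∀ c, Scal c → p c) (J : Finset ι)
    (step : ∀ j ∈ J, ∀ c, (∀ φ u, p ((τ j).K 1 ((τ j).sl φ u c))) → p c) {c : End F V}
    (hc : c ∈ Cm τ J) : p c := by
  classical
  induction J using Finset.induction_on generalizing c with
  | empty => exact h0 c (h.scal c fun j a => hc j (by simp) a)
  | insert j J _ ih =>
    exact step j (by simp) c fun φ u =>
      ih (fun l hl => step l (by simp [hl])) (h.slice_mem_Cm hc φ u)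

theorem mem_of_Cm {J : Finset ι} {B : Subalgebra F (End F V)}
    (hB : ∀ j ∈ J, ∀ a, (τ j).K a 1 ∈ B) {c : End F V} (hc : c ∈ Cm τ J) : c ∈ B := by
  refine h.induction (p := fun c => c ∈ B) (fun c hc => ?_) J (fun j hj c hc => ?_) hc
  · obtain ⟨s, rfl⟩ := hc.eq
    exact B.smul_mem B.one_mem s
  · rw [← (τ j).sum_K_sl (finBasis F U) c]
    refine B.sum_mem fun _ _ => B.sum_mem fun _ _ => ?_
    rw [TS.K_eq_mul]
    exact B.mul_mem (hB j hj _) (hc _ _)

variable [Fintype ι]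

/-- The other slots generate the second factor. -/
theorem gen {i : ι} {B : Subalgebra F (End F V)} (hB : ∀ j, j ≠ i → ∀ a, (τ j).K a 1 ∈ B)
    (d : End F (W i)) : (τ i).K 1 d ∈ B := by
  classical
  refine h.mem_of_Cm (J := Finset.univ.erase i) (fun j hj => hB j (by simpa using hj))
    fun l hl a => ?_
  obtain rfl : l = i := by simpa using hl
  exact (τ l).K_comm _ _

theorem inA_of_comm {i : ι} {c : End F V}
    (hc : ∀ j, j ≠ i → ∀ a, (τ j).K a 1 * c = c * (τ j).K a 1) : (τ i).InA c :=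
  (τ i).inA_of_comm fun d => by
    have := h.gen (B := Subalgebra.centralizer F {c}) (fun j hj a => by
      simpa [Subalgebra.mem_centralizer_iff] using (hc j hj a).symm) d
    exact (this c rfl).symm

theorem absIrr [Nontrivial U] {G : Set (U ≃ₗ[F] U)}
    (hG : Submodule.span F {a : End F U | ∃ g ∈ G, a = g} = ⊤) {M : Set (End F V)} {j : ι}
    (hM : ∀ l, l ≠ j → ∀ g ∈ G, InvL (τ l) M g) : AbsIrr (τ j) M := by
  let A : Subalgebra F (End F (W j)) :=
    (Submodule.span F {a : End F (W j) | ∃ d : W j ≃ₗ[F] W j, InvR (τ j) M d ∧ a = d}).toSubalgebra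
      (Submodule.subset_span ⟨1, fun c hc => by
        rw [show (((1 : W j ≃ₗ[F] W j).symm : W j ≃ₗ[F] W j) : End F (W j)) = 1 from rfl,
          show ((1 : W j ≃ₗ[F] W j) : End F (W j)) = 1 from rfl]
        simpa using hc, rfl⟩) fun x y hx hy => by
      have := Submodule.mul_mem_mul hx hy
      rw [Submodule.span_mul_span] at this
      refine Submodule.span_mono ?_ this
      rintro _ ⟨_, ⟨g, hg, rfl⟩, _, ⟨g', hg', rfl⟩, rfl⟩
      refine ⟨g * g', fun c hc => ?_, rfl⟩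
      convert hg _ (hg' c hc) using 1
      ext v
      simp only [End.mul_apply, TS.K_K, one_mul]
      rfl
  refine eq_top_iff.2 fun d _ => ?_
  obtain ⟨d', h1, h2⟩ := h.gen (B := A.map (τ j).flip.KA) (i := j) (fun l hl a => by
    have ha : a ∈ Submodule.span F {a : End F U | ∃ g ∈ G, a = g} := hG ▸ trivial
    induction ha using Submodule.span_induction with
    | mem x hx =>
      obtain ⟨g, hg, rfl⟩ := hx
      obtain ⟨d, -, k1, k2⟩ := h.exists_KE (Ne.symm hl) g
      exact ⟨d, Submodule.subset_span ⟨d, fun c hc => by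
        rw [← k1, ← k2]; exact hM l hl g hg c hc, rfl⟩, by simp [k1]⟩
    | zero => simp
    | add x y _ _ hx hy => simpa using Subalgebra.add_mem _ hx hy
    | smul a x _ hx => simpa using Subalgebra.smul_mem _ hx a) d
  rw [← (τ j).flip.K_one_inj (a := d') (a' := d) (by simpa using h2)]
  exact h1

theorem invL_Cm (J : Finset ι) (l : ι) (g : U ≃ₗ[F] U) :
    InvL (τ l) (Cm τ J : Set (End F V)) g := fun c hc => by
  by_cases hl : l ∈ J
  · exact (Cm τ J).mul_mem ((Cm τ J).mul_mem (h.K_mem_Cm hl _) hc) (h.K_mem_Cm hl _)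
  · rw [hc l hl, mul_assoc, TS.K_mul,
      show (g : End F U) * (g.symm : End F U) = 1 from LinearMap.ext fun u => by simp]
    simpa using hc

/-- **Multi-slot lemma**, for an abstract slot lemma. -/
theorem exists_slot_of [Nontrivial U] {G : Set (U ≃ₗ[F] U)}
    (hG : Submodule.span F {a : End F U | ∃ g ∈ G, a = g} = ⊤)
    (hslot : ∀ j (C : Subalgebra F (End F V)), (∀ g ∈ G, InvL (τ j) (C : Set (End F V)) g) →
      AbsIrr (τ j) (C : Set (End F V)) → (∃ c ∈ C, ¬ (τ j).flip.InA c) →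
      ∃ d, d ≠ 0 ∧ ∀ a, (τ j).K a d ∈ C)
    {C : Subalgebra F (End F V)} (hL : ∀ l, ∀ g ∈ G, InvL (τ l) (C : Set (End F V)) g)
    (J : Finset ι) (hc : ∃ c ∈ C, c ∈ Cm τ J ∧ ¬ Scal c) : ∃ j ∈ J, ∀ a, (τ j).K a 1 ∈ C := by
  classical
  induction J using Finset.strongInduction with
  | H J ih =>
  by_cases h1 : ∃ j ∈ J, ∃ c ∈ C, c ∈ Cm τ (J.erase j) ∧ ¬ Scal c
  · obtain ⟨j, hj, h1⟩ := h1
    obtain ⟨l, hl, h2⟩ := ih _ (Finset.erase_ssubset hj) h1
    exact ⟨l, Finset.mem_of_mem_erase hl, h2⟩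
  push Not at h1
  obtain ⟨c, hcC, hcJ, hc⟩ := hc
  obtain ⟨j, hj⟩ : J.Nonempty := by
    rw [Finset.nonempty_iff_ne_empty]
    rintro rfl
    exact hc (h.scal c fun j a => hcJ j (by simp) a)
  have key : ∀ c ∈ Cm τ J, (τ j).flip.InA c → c ∈ Cm τ (J.erase j) := fun c hc hA l hl a => by
    by_cases hlj : l = j
    · subst hlj
      obtain ⟨d, rfl⟩ := (τ l).flip_inA.1 hA
      exact (τ l).K_comm _ _
    · exact hc l (by simpa [hlj] using hl) a
  have hL' : ∀ l, ∀ g ∈ G, InvL (τ l) ((C ⊓ Cm τ J : Subalgebra F _) : Set (End F V)) g :=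
    fun l g hg c hc => ⟨hL l g hg c hc.1, h.invL_Cm J l g c hc.2⟩
  obtain ⟨d, hd0, hd⟩ := hslot j (C ⊓ Cm τ J) (hL' j) (h.absIrr hG fun l _ => hL' l)
    ⟨c, ⟨hcC, hcJ⟩, fun e => hc (h1 j hj c hcC (key c hcJ e))⟩
  obtain ⟨s, rfl⟩ := ((τ j).scal_of_one_K
    (h1 j hj _ (hd 1).1 (key _ (hd 1).2 ((τ j).flip_inA.2 ⟨d, rfl⟩)))).eq
  have hs : s ≠ 0 := fun e => hd0 (by simp [e])
  exact ⟨j, hj, fun a => by simpa [smul_smul, hs] using (hd (s⁻¹ • a)).1⟩

variable [Finite F] {PU : Polar F U}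

/-- **Multi-slot lemma**: an invariant subalgebra which is not scalar contains a whole slot. -/
theorem exists_slot (hk : Kind PU) {C : Subalgebra F (End F V)}
    (hL : ∀ l, ∀ g ∈ PU.E, InvL (τ l) (C : Set (End F V)) g)
    (J : Finset ι) (hc : ∃ c ∈ C, c ∈ Cm τ J ∧ ¬ Scal c) : ∃ j ∈ J, ∀ a, (τ j).K a 1 ∈ C :=
  have := hk.nontrivial
  h.exists_slot_of (G := PU.E) hk.span_E (fun _ _ h1 h2 h3 => hk.slot h1 h2 h3) hL J hc

end Multi

/-- The permutations of the slots needed: three-cycles. -/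
def Cyc (τ : ∀ i, TS F U (W i) V) (X : Subgroup (V ≃ₗ[F] V)) : Prop :=
  ∀ i j l, i ≠ j → i ≠ l → j ≠ l → ∃ k ∈ X, (∀ a, ((τ i).map k).K a 1 = (τ l).K a 1) ∧
    ∀ a, ((τ j).map k).K a 1 = (τ i).K a 1

section StepC

variable [Finite F] [FiniteDimensional F U] [∀ i, FiniteDimensional F (W i)]
  {τ : ∀ i, TS F U (W i) V} {PU : Polar F U} {PW : ∀ i, Polar F (W i)} {PV : Polar F V}
  {X : Subgroup (V ≃ₗ[F] V)}

variable (τ PU) in
/-- The elementary map of slot `i` with a coefficient acting on slot `j`. -/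
noncomputable def ET (i j : ι) (e f : U) (a : End F U) : End F V :=
  1 + (τ i).K (PU.th e f) 1 * (τ j).K a 1 - PU.ε • ((τ i).K (PU.th f e) 1 * (τ j).K (PU.adj a) 1)

variable (τ PU X) in
/-- All coefficients acting on slot `j` occur for slot `i`. -/
def RR (i j : ι) : Prop :=
  ∀ e f, PU.Val e 0 → PU.Val f 0 → PU.B f e = 0 → ∀ a, Has X (ET τ PU i j e f a)

theorem RR.conj {i j i' j' : ι} (h : RR τ PU X i j) {k : V ≃ₗ[F] V} (hk : k ∈ X)
    (hi : ∀ a, ((τ i).map k).K a 1 = (τ i').K a 1) (hj : ∀ a, ((τ j).map k).K a 1 = (τ j').K a 1) :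
    RR τ PU X i' j' := fun e f he hf hfe a =>
  (h e f he hf hfe a).conj hk fun v => by simp [ET, ← hi, ← hj, TS.map_K_apply]

theorem not_scal_th_sub {e f : U} (he : PU.Val e 0) (hfe : PU.B f e = 0) (h0 : e ≠ 0)
    (hf : PU.Val f 0) (h1 : f ∉ F ∙ e) : ¬ Scal (PU.th e f - PU.th f e) := by
  rintro ⟨s, hs⟩
  obtain ⟨u, -, h2, h3⟩ := exists_partner_perp hf hfe h1
  have h4 := hs u
  simp only [LinearMap.sub_apply, th_apply, h2, h3, one_smul, zero_smul, sub_zero] at h4
  have h5 := congrArg (fun y => PU.B y f) h4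
  simp only [map_smul, LinearMap.smul_apply, h3, PU.B_symm hfe, smul_eq_mul, mul_one] at h5
  exact h0 (by rw [h4, ← h5, zero_smul])

variable (S : ∀ i, Setup (τ i) PU (PW i) PV X)
include S

theorem adj_eq_of_K {i j : ι} {a : End F U} {b : End F (W i)} (hb : (τ j).K a 1 = (τ i).K 1 b) :
    (τ j).K (PU.adj a) 1 = (τ i).K 1 ((PW i).adj b) := by
  have := (τ i).finiteDimensional
  have h1 := (S j).cp.adj_K a 1
  rw [hb, (S i).cp.adj_K] at h1
  simpa using h1.symm

theorem EE_eq_ET {i j : ι} {a : End F U} {b : End F (W i)} (hb : (τ j).K a 1 = (τ i).K 1 b)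
    (e f : U) : (τ i).EE PU (PW i) e f b = ET τ PU i j e f a := by
  rw [ET, adj_eq_of_K S hb, hb, ← TS.K_eq_mul, ← TS.K_eq_mul, TS.EE]

/-- The multiplier algebra of slot `i` inside `End V`. -/
def MV (i : ι) : Subalgebra F (End F V) := (S i).MM.map (τ i).flip.KA

theorem mem_MV {i : ι} {c : End F V} : c ∈ MV S i ↔ ∃ b ∈ (S i).MM, (τ i).K 1 b = c := by
  simp [MV]

theorem rr_of_MV {i j : ι} (h : ∀ a, (τ j).K a 1 ∈ MV S i) : RR τ PU X i j :=
  fun e f he hf hfe a => by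
    obtain ⟨b, hb, h1⟩ := (mem_MV S).1 (h a)
    rw [← EE_eq_ET S h1.symm]
    exact (S i).mem_CC_of_MM hb e f he hf hfe

variable (h : Multi τ)
include h

theorem invL_MV (i l : ι) (g : U ≃ₗ[F] U) (hg : g ∈ PU.E) :
    InvL (τ l) (MV S i : Set (End F V)) g := fun c hc => by
  have := (S i).nontrivial_U
  obtain ⟨b, hb, rfl⟩ := (mem_MV S).1 hc
  refine (mem_MV S).2 ?_
  by_cases hl : i = l
  · subst hl
    refine ⟨b, hb, ?_⟩
    simp only [TS.K_mul, mul_one, one_mul]
    rw [show (g : End F U) * (g.symm : End F U) = 1 from LinearMap.ext fun u => by simp]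
  · obtain ⟨d, h1, h2, h3⟩ := h.exists_KE hl g
    exact ⟨_, (S i).conj_mem_MM PU.Iso.one_mem (h1 ▸ (S l).hL g hg) hb, by
      simp [h2, h3, TS.K_mul]⟩

theorem MV_of_rr (hk : Kind PU) (hr : PU.Reg) {i j : ι} (hij : i ≠ j) (hR : RR τ PU X i j)
    (a : End F U) : (τ i).K a 1 ∈ MV S j := by
  have key : (MV S j).comap (τ i).KA = ⊤ := by
    refine hk.eq_top (fun g hg c hc => ?_) ?_
    · simpa [TS.K_mul] using invL_MV S h j i g hg _ hc
    obtain ⟨e, f, he, hf, hfe, h0, h1⟩ := (S i).w2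
    refine ⟨_, ?_, not_scal_th_sub he hfe h0 hf h1⟩
    obtain ⟨b, hb⟩ := h.exists_K hij.symm (PU.th e f)
    have h2 : b ∈ (S j).CC := fun x y hx hy hyx => by
      rw [EE_eq_ET S hb]
      convert hR e f he hf hfe (PU.th x y) using 2
      simp only [ET, adj_th, map_smul, LinearMap.smul_apply, mul_smul_comm, h.comm i j hij]
    have h3 := (S j).mem_MM_of_DD hr ((S j).mem_DD_of_CC (S j).one_mem_CC h2 1)
    refine (mem_MV S).2 ⟨_, h3, ?_⟩
    simp [← hb, ← adj_eq_of_K S hb, adj_th, smul_smul]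
  exact (key ▸ Algebra.mem_top : a ∈ (MV S j).comap (τ i).KA)

variable [Fintype ι]

/-- If the multiplier algebra of one slot is not scalar then it is everything. -/
theorem MM_eq_top (hk : Kind PU) (hr : PU.Reg) (hc : Cyc τ X) {i : ι}
    (hb : ∃ b ∈ (S i).MM, ¬ Scal b) : (S i).MM = ⊤ := by
  classical
  have := hk.nontrivial
  obtain ⟨b, hb, hb'⟩ := hb
  obtain ⟨j, hj, h1⟩ := h.exists_slot hk (C := MV S i) (invL_MV S h i) (Finset.univ.erase i)
    ⟨_, (mem_MV S).2 ⟨b, hb, rfl⟩, fun l hl a => by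
      obtain rfl : l = i := by simpa using hl
      exact (τ l).K_comm _ _, fun e => hb' ((τ i).scal_of_one_K e)⟩
  have hji : j ≠ i := by simpa using hj
  refine eq_top_iff.2 fun d _ => ?_
  obtain ⟨d', h2, h3⟩ := (mem_MV S).1 (h.gen (B := MV S i) (i := i) (fun l hl => by
    by_cases hlj : l = j
    · exact hlj ▸ h1
    obtain ⟨k, hk', h2, h3⟩ := hc i j l hji.symm (Ne.symm hl) (Ne.symm hlj)
    exact MV_of_rr S h hk hr hl ((rr_of_MV S h1).conj hk' h2 h3)) d)
  rwa [← (τ i).flip.K_one_inj (a := d') (a' := d) (by simpa using h3)]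

/-- An endomorphism all of whose diagonal slices vanish is self-adjoint (symplectic slots). -/
theorem adj_eq_of_diag (hsp : ∀ x, PU.Val x 0) (i : ι) {c : End F V}
    (hc : ∀ l u, (τ l).K (PU.th u u) 1 * c * (τ l).K (PU.th u u) 1 = 0) :
    haveI := (τ i).finiteDimensional
    PV.adj c = c := by
  have := (τ i).finiteDimensional
  have := (S i).nontrivial_U
  obtain ⟨e, he⟩ := exists_ne (0 : U)
  have hε : PU.ε = -1 := by
    have := lam_σ (lam_of_sp hsp he 1)
    rw [map_one] at this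
    linear_combination this
  have hσ : ∀ a, PU.σ a = a := fun a => by rw [lam_σ (lam_of_sp hsp he a), hε]; ring
  refine h.induction (p := fun c => (∀ l u, (τ l).K (PU.th u u) 1 * c * (τ l).K (PU.th u u) 1 = 0) →
    PV.adj c = c) (fun c hc _ => ?_) Finset.univ (fun j _ c ih hc => ?_)
    (fun l hl => by simp at hl) hc
  · obtain ⟨s, rfl⟩ := hc.eq
    simp [(S i).cp.σV, hσ]
  have h1 : ∀ u, Slot.S (τ j) PU c u u = 0 := fun u => by
    by_cases hu : u = 0
    · ext x; simp [S_apply, hu]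
    by_contra h1
    refine K_ne_zero (τ j) (a := PU.th u u) (fun e => ?_) h1 (by rw [← θ_mul_mul, hc])
    obtain ⟨y, hy⟩ := PU.exists_B_ne hu
    simpa [hu, PU.B_ne_symm hy] using LinearMap.congr_fun e y
  have h2 : ∀ x y, Slot.S (τ j) PU c y x = -Slot.S (τ j) PU c x y := fun x y => by
    have := h1 (x + y)
    rw [S_add_left, S_add_right, S_add_right, h1, h1, zero_add, add_zero] at this
    exact eq_neg_of_add_eq_zero_right this
  have h3 : ∀ x y, (PW j).adj (Slot.S (τ j) PU c x y) = Slot.S (τ j) PU c x y := fun x y => by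
    have := ih (PU.B.flip y) x fun l u => by
      by_cases hl : j = l
      · subst hl
        simp [TS.K_mul, th_mul_th, sing_B (hsp u)]
      · obtain ⟨d, hd⟩ := h.exists_K hl (PU.th u u)
        have := hc l u
        rw [hd] at this ⊢
        rw [TS.K_mul, TS.K_mul, ← TS.sl_mul_left, ← TS.sl_mul_right, this]
        simp
    rw [(S j).cp.adj_K, adj_one] at this
    exact (τ j).flip.K_one_inj (by simpa [Slot.S] using this)
  refine PV.adj_eq_of fun z v => ?_
  induction z using (τ j).induction with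
  | h0 => simp
  | hadd a b ha hb => simp [ha, hb]
  | h x w =>
    induction v using (τ j).induction with
    | h0 => simp
    | hadd a b ha hb => simp only [map_add, ha, hb]
    | h y w' =>
      rw [PV.herm (c _), (S j).cp.B_right, (S j).cp.B_right, ← S_apply, ← S_apply, h2 x y,
        ← h3 x y, (PW j).adj_B, h3, (PW j).herm ((Slot.S (τ j) PU c x y) w') w, (S j).cp.εV, hε]
      simp [(S j).cp.σV, (S j).cp.σW]

/-- Symplectic slots in odd characteristic: the multiplier algebra is not scalar. -/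
theorem exists_not_scal_MM_sp (hsp : ∀ x, PU.Val x 0) (h2 : (2 : F) ≠ 0) {i : ι}
    (hb : ∃ b ∈ (S i).CC, ¬ Scal b) : ∃ b ∈ (S i).MM, ¬ Scal b := by
  have := (τ i).finiteDimensional
  have := (S i).nontrivial_U
  have h4 := (S i).w2.four_le
  obtain ⟨e, he⟩ := exists_ne (0 : U)
  have hε : PU.ε = -1 := by
    have := lam_σ (lam_of_sp hsp he 1)
    rw [map_one] at this
    linear_combination this
  have hσ : ∀ a, PU.σ a = a := fun a => by rw [lam_σ (lam_of_sp hsp he a), hε]; ring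
  have hr : PU.Reg := Or.inr ⟨1, by rw [hε, hσ]; intro e; exact h2 (by linear_combination e)⟩
  have hk : Kind PU := Or.inl ⟨hsp, by omega, Or.inl (by omega)⟩
  by_contra! hcon
  have hD : ∀ b ∈ (S i).CC, ∀ b' ∈ (S i).CC,
      Scal (b' * (PW i).adj b + b * (PW i).adj b') := fun b hb b' hb' => by
    simpa [hε] using hcon _ ((S i).mem_MM_of_DD hr ((S i).mem_DD_of_CC hb hb' 1))
  let N : Submodule F (End F V) :=
    { carrier := {c | PV.adj c = -c ∧ ∃ b ∈ (S i).CC, (τ i).K 1 b = c}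
      zero_mem' := ⟨by simp, 0, Submodule.zero_mem _, by simp⟩
      add_mem' := by
        rintro _ _ ⟨h1, b, hb, rfl⟩ ⟨h1', b', hb', rfl⟩
        exact ⟨by rw [adj_add, h1, h1', neg_add], b + b', Submodule.add_mem _ hb hb', by simp⟩
      smul_mem' := by
        rintro s _ ⟨h1, b, hb, rfl⟩
        exact ⟨by rw [adj_smul, h1, (S i).cp.σV, hσ, smul_neg], s • b, Submodule.smul_mem _ s hb,
          by simp⟩ }
  have hL : ∀ l, ∀ g ∈ PU.E, InvL (τ l) (N : Set (End F V)) g := by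
    rintro l g hg _ ⟨h1, b, hb, rfl⟩
    refine ⟨?_, ?_⟩
    · rw [adj_mul, adj_mul, h1, (S l).cp.adj_K, (S l).cp.adj_K, adj_of_iso (E_le_Iso hg),
        adj_of_iso (g := g.symm) (PU.Iso.inv_mem (E_le_Iso hg))]
      simp [mul_assoc]
    by_cases hl : i = l
    · subst hl
      refine ⟨b, hb, ?_⟩
      simp only [TS.K_mul, mul_one, one_mul]
      rw [show (g : End F U) * (g.symm : End F U) = 1 from LinearMap.ext fun u => by simp]
    · obtain ⟨d, h1, h2, h3⟩ := h.exists_KE hl g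
      exact ⟨_, (S i).conj_mem_CC PU.Iso.one_mem (h1 ▸ (S l).hL g hg) hb, by
        simp [h2, h3, TS.K_mul]⟩
  have hN : ∀ c ∈ N, ∀ c' ∈ N, Scal (c' * c + c * c') := by
    rintro _ ⟨h1, b, hb, rfl⟩ _ ⟨h1', b', hb', rfl⟩
    obtain ⟨s, hs⟩ := (hD b hb b' hb').eq
    have := congrArg ((τ i).K 1) hs
    rw [(S i).cp.adj_K, adj_one] at h1 h1'
    rw [map_add, ← one_mul (1 : End F U), ← TS.K_mul, ← TS.K_mul, h1, h1', one_mul] at this
    refine ⟨-s, fun v => ?_⟩
    have := LinearMap.congr_fun this v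
    simp only [LinearMap.add_apply, End.mul_apply, LinearMap.neg_apply, map_neg, map_smul,
      TS.K_one, LinearMap.smul_apply, End.one_apply] at this ⊢
    rw [neg_smul, ← this]; abel
  have hZ : ∀ c ∈ N, ∀ l u, (τ l).K (PU.th u u) 1 * c * (τ l).K (PU.th u u) 1 = 0 := by
    intro c hc l u
    rw [θ_mul_mul]
    by_contra h0
    have hu : u ≠ 0 := fun e => h0 (by simp [e])
    have hα : Slot.S (τ l) PU c u u ≠ 0 := fun e => h0 (by simp [e])
    have h1 := top_lam (hL l) (lam_of_sp hsp he 1) (lam_of_sp hsp he (-1)) one_ne_zero (by simp)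
      (fun e => h2 (by linear_combination e)) (hsp u) hc
    obtain ⟨d, k1, k2⟩ := (h.absIrr (G := PU.E) hk.span_E fun l' _ => hL l').irr.exists_conj hα hα
    obtain ⟨u', hu'⟩ := PU.exists_B_ne hu
    have h3 := k1.K_mem (top_move (hL l) (both_of_lam ⟨1, one_ne_zero, lam_of_sp hsp he 1⟩) (hsp u)
      hu h1 (hsp u'))
    obtain ⟨s, hs⟩ := hN _ h3 _ h1
    obtain ⟨y, -, k3, k4, k5⟩ := (S i).w2.exists_sing_perp₂ (hsp u) hu'
    obtain ⟨w, hw⟩ : ∃ w, (Slot.S (τ l) PU c u u * ((d : End F (W l)) * Slot.S (τ l) PU c u u *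
      (d.symm : End F (W l)))) w ≠ 0 := by
      by_contra! e; exact k2 (LinearMap.ext e)
    have hw0 : w ≠ 0 := fun e => hw (by simp [e])
    have k6 := hs ((τ l).tp y w)
    simp only [LinearMap.add_apply, End.mul_apply, TS.K_tp, th_apply, k3, k4, zero_smul, map_zero,
      LinearMap.zero_apply, add_zero] at k6
    have k7 : s = 0 := (smul_eq_zero.1 k6.symm).resolve_right ((τ l).tp_ne_zero k5 hw0)
    have k8 := hs ((τ l).tp u w)
    simp only [LinearMap.add_apply, End.mul_apply, TS.K_tp, th_apply, sing_B (hsp u), zero_smul,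
      map_zero, LinearMap.zero_apply, add_zero, k7, map_smul, LinearMap.smul_apply] at k8
    exact smul_ne_zero hu' (smul_ne_zero (PU.B_ne_symm hu') ((τ l).tp_ne_zero hu hw)) k8
  obtain ⟨b, hb, hb'⟩ := hb
  have h5 : (τ i).K 1 (b - (PW i).adj b) ∈ N :=
    ⟨by simp [(S i).cp.adj_K], _, Submodule.sub_mem _ hb ((S i).adj_mem_CC hb), rfl⟩
  have h6 := adj_eq_of_diag S h hsp i (hZ _ h5)
  rw [h5.1] at h6
  have h7 : b - (PW i).adj b = 0 := (τ i).flip.K_one_inj (by
    simp only [TS.flip_K, map_zero]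
    exact (smul_eq_zero.1 (show (2 : F) • (τ i).K 1 (b - (PW i).adj b) = 0 by
      rw [two_smul]; nth_rw 1 [← h6]; exact neg_add_cancel _)).resolve_left h2)
  have h8 := hD _ (S i).one_mem_CC b hb
  rw [adj_one, mul_one, one_mul, ← sub_eq_zero.1 h7, ← two_smul F] at h8
  exact hb' (h8.of_smul h2)

theorem E_le_of_not_scal_MM (hk : Kind PU) (hr : PU.Reg) (hc : Cyc τ X)
    (hΛ : ∀ c, PV.Val 0 c → ∃ a, c = a - PV.ε * PV.σ a) {i : ι}
    (hb : ∃ b ∈ (S i).MM, ¬ Scal b) : PV.E ≤ X := by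
  have := (τ i).finiteDimensional
  have : Nontrivial (W i) := by
    by_contra! hW
    obtain ⟨b, -, hb⟩ := hb
    exact hb ⟨0, fun _ => Subsingleton.elim _ _⟩
  exact (S i).E_le_of_MM (MM_eq_top S h hk hr hc hb) hΛ

/-- **Step C** for tensor powers, ring case. -/
theorem E_le_of_not_hpt_rng (hk : Kind PU) (hr : PU.Rng) (hc : Cyc τ X)
    (hΛ : ∀ c, PV.Val 0 c → ∃ a, c = a - PV.ε * PV.σ a) {i : ι} (hi : ¬ (τ i).Hpt PU X) :
    PV.E ≤ X :=
  E_le_of_not_scal_MM S h hk hr.reg hc hΛ ((S i).exists_not_scal_MM hr hi)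

/-- **Step C** for tensor powers, symplectic slots (dimension at least four in odd
characteristic, at least six in general). -/
theorem E_le_of_not_hpt_sp (hsp : ∀ x, PU.Val x 0) (h2 : (2 : F) ≠ 0 ∨ 5 ≤ finrank F U)
    (hc : Cyc τ X) (hΛ : ∀ c, PV.Val 0 c → ∃ a, c = a - PV.ε * PV.σ a) {i : ι}
    (hi : ¬ (τ i).Hpt PU X) : PV.E ≤ X := by
  have h4 := (S i).w2.four_le
  have hk : Kind PU := Or.inl ⟨hsp, by omega, Or.inl (by omega)⟩
  rcases h2 with h2 | h5
  · have := hk.nontrivial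
    obtain ⟨e, he⟩ := exists_ne (0 : U)
    have hr : PU.Reg := Or.inr ⟨1, fun e' => h2 (by
      have := lam_σ (lam_of_sp hsp he 1)
      rw [map_one] at this e'
      linear_combination e' + this)⟩
    exact E_le_of_not_scal_MM S h hk hr hc hΛ
      (exists_not_scal_MM_sp S h hsp h2 ((S i).exists_not_scal hr hi))
  · exact E_le_of_not_hpt_rng S h hk (Or.inl h5) hc hΛ hi

/-- **Step C** for tensor powers, unitary slots. -/
theorem E_le_of_not_hpt_su (hσ : ∃ a, PU.σ a ≠ a) (hε : PU.ε = 1)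
    (hc : Cyc τ X) (hΛ : ∀ c, PV.Val 0 c → ∃ a, c = a - PV.ε * PV.σ a) {i : ι}
    (hi : ¬ (τ i).Hpt PU X) : PV.E ≤ X :=
  have h4 := (S i).w2.four_le
  E_le_of_not_hpt_rng S h (Or.inr (Or.inl ⟨hσ, hε, Or.inl (by omega)⟩)) (Or.inr hσ) hc hΛ hi

/-- **Step C** for tensor powers, orthogonal slots of dimension at least five. -/
theorem E_le_of_not_hpt_o (hO : IsO PU) (h2 : (2 : F) ≠ 0) (h5 : 5 ≤ finrank F U)
    (hc : Cyc τ X) (hΛ : ∀ c, PV.Val 0 c → ∃ a, c = a - PV.ε * PV.σ a) {i : ι}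
    (hi : ¬ (τ i).Hpt PU X) : PV.E ≤ X :=
  E_le_of_not_hpt_rng S h (Or.inr (Or.inr ⟨hO, h2, by omega, by omega, by omega⟩)) (Or.inl h5)
    hc hΛ hi

end StepC

end Cfsg.Agent.Tens
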