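import Cfsg.Agent.Tens.PowMat
import Cfsg.Agent.H5.SLProper

/-!
Tensor wreath subgroups of the special linear group.
-/

set_option autoImplicit false
set_option linter.unusedSectionVars false
set_option linter.unusedSimpArgs false

namespace Cfsg.Agent.Tens

open Module Cfsg.Agent.H7
open scoped Matrix MatrixGroups

variable {F U W V : Type*} [Field F] [AddCommGroup U] [Module F U] [AddCommGroup W] [Module F W]
  [AddCommGroup V] [Module F V]

theorem has_comm {X : Subgroup (V ≃ₗ[F] V)} {a b : End F V} (ha : Has X (1 + a : End F V))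
    (hb : Has X (1 + b : End F V)) (haa : a * a = 0) (hbb : b * b = 0) (hba : b * a = 0) :
    Has X (1 + a * b : End F V) := by
  have h1 : ∀ x, a (a x) = 0 := LinearMap.congr_fun haa
  have h2 : ∀ x, b (b x) = 0 := LinearMap.congr_fun hbb
  have h3 : ∀ x, b (a x) = 0 := LinearMap.congr_fun hba
  have ha' : Has X (1 - a : End F V) := ha.inv fun x => by simp [h1]
  have hb' : Has X (1 - b : End F V) := hb.inv fun x => by simp [h2]
  exact (ha.comp (hb.comp (ha'.comp hb'))).congr fun x => by simp [h1, h2, h3]; abel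

/-- The rank one map `x ↦ φ x • e`. -/
abbrev rt (e : U) (φ : Dual F U) : End F U := φ.smulRight e

theorem rt_mul (e e' : U) (φ φ' : Dual F U) : rt e φ * rt e' φ' = φ e' • rt e φ' :=
  LinearMap.ext fun x => by simp [smul_smul, mul_comm]

theorem rt_sq {e : U} {φ : Dual F U} (h : φ e = 0) : rt e φ * rt e φ = 0 := by simp [rt_mul, h]

theorem exists_vec {φ φ' : Dual F U} (h0 : φ' ≠ 0) (h : φ ∉ F ∙ φ') : ∃ x, φ x = 1 ∧ φ' x = 0 := by
  obtain ⟨y, hy⟩ : ∃ y, φ' y ≠ 0 := by by_contra! h; exact h0 (LinearMap.ext h)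
  by_contra! hc
  refine h (Submodule.mem_span_singleton.2 ⟨φ y / φ' y, LinearMap.ext fun x => ?_⟩)
  by_contra hx
  have h1 : φ (x - (φ' x / φ' y) • y) ≠ 0 := fun e => hx (by
    simp only [map_sub, map_smul, smul_eq_mul, LinearMap.smul_apply] at e ⊢
    field_simp at e ⊢
    linear_combination -e)
  exact hc ((φ (x - (φ' x / φ' y) • y))⁻¹ • (x - (φ' x / φ' y) • y))
    (by rw [map_smul, smul_eq_mul, inv_mul_cancel₀ h1]) (by simp [hy])

variable [FiniteDimensional F U]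

theorem exists_ker_notMem (hk : 3 ≤ finrank F U) (φ : Dual F U) (e : U) :
    ∃ x, φ x = 0 ∧ x ∉ F ∙ e := by
  obtain ⟨x, hx, hx'⟩ := exists_notMem_of_finrank_lt (U := F ∙ e) (W := ⊤ ⊓ LinearMap.ker φ) (by
    have := finrank_inf_ker_ge ⊤ φ
    have := finrank_span_singleton_le (F := F) e
    rw [finrank_top] at *; omega)
  exact ⟨x, hx.2, hx'⟩

theorem exists_dual_pair (hk : 3 ≤ finrank F U) (e e' : U) :
    ∃ ψ : Dual F U, ψ ≠ 0 ∧ ψ e = 0 ∧ ψ e' = 0 := by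
  obtain ⟨x, -, hx⟩ := exists_notMem_of_finrank_lt (U := (F ∙ e) ⊔ F ∙ e') (W := ⊤) (by
    have := finrank_span_pair_le (F := F) e e'
    rw [finrank_top]; omega)
  obtain ⟨ψ, h1, h2⟩ := exists_dual_one hx
  exact ⟨ψ, fun h => by simp [h] at h1,
    h2 _ (Submodule.mem_sup_left (Submodule.mem_span_singleton_self _)),
    h2 _ (Submodule.mem_sup_right (Submodule.mem_span_singleton_self _))⟩

theorem exists_vec_pair (hk : 3 ≤ finrank F U) (φ ψ : Dual F U) :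
    ∃ u : U, u ≠ 0 ∧ φ u = 0 ∧ ψ u = 0 := by
  obtain ⟨x, hx, hx'⟩ := exists_notMem_of_finrank_lt (U := ⊥)
    (W := ⊤ ⊓ LinearMap.ker φ ⊓ LinearMap.ker ψ) (by
      have := finrank_inf_ker_ge ⊤ φ
      have := finrank_inf_ker_ge (⊤ ⊓ LinearMap.ker φ) ψ
      rw [finrank_top, finrank_bot] at *; omega)
  exact ⟨x, by simpa using hx', hx.1.2, hx.2⟩

/-- Connectedness of the set of flags. -/
theorem flag_spread (hk : 3 ≤ finrank F U) {p : U → Dual F U → Prop}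
    (hL : ∀ e φ e' (φ' : Dual F U), e ≠ 0 → φ ≠ 0 → φ e = 0 → φ e' = 0 → φ' e = 1 → φ' e' = 0 →
      p e φ → p e' φ)
    (hR : ∀ e φ e' (φ' : Dual F U), e ≠ 0 → φ ≠ 0 → φ e = 0 → φ' e = 0 → φ e' = 1 → φ' e' = 0 →
      p e φ → p e φ')
    {e : U} {φ : Dual F U} (he : e ≠ 0) (hφ : φ ≠ 0) (h : φ e = 0) (hp : p e φ)
    {e' : U} {φ' : Dual F U} (he' : e' ≠ 0) (hφ' : φ' ≠ 0) (h' : φ' e' = 0) : p e' φ' := by
  have L : ∀ e φ e', e ≠ 0 → φ ≠ 0 → φ e = 0 → φ e' = 0 → e' ≠ 0 → p e φ → p e' φ := by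
    intro e φ e' he hφ h h' he' hp
    by_cases h1 : e ∈ F ∙ e'
    · obtain ⟨x, h2, h3⟩ := exists_ker_notMem hk φ e'
      obtain ⟨ψ, h4, h5⟩ := exists_dual_one₂ h3
      obtain ⟨ψ', h6, h7⟩ := exists_dual_one₂ (F := F) (u := x) (u' := e) fun h6 => by
        obtain ⟨a, rfl⟩ := Submodule.mem_span_singleton.1 h6
        exact h3 ((Submodule.smul_mem_iff _ fun e => he (by simp [e])).1 h1)
      exact hL _ _ _ _ (fun e => by simp [e] at h4) hφ h2 h' h4 h5 (hL _ _ _ _ he hφ h h2 h6 h7 hp)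
    · obtain ⟨ψ, h4, h5⟩ := exists_dual_one₂ h1
      exact hL _ _ _ _ he hφ h h' h4 h5 hp
  have R : ∀ e φ φ', e ≠ 0 → φ ≠ 0 → φ e = 0 → φ' e = 0 → φ' ≠ 0 → p e φ → p e φ' := by
    intro e φ φ' he hφ h h' hφ' hp
    by_cases h1 : φ ∈ F ∙ φ'
    · obtain ⟨x, h2, h3⟩ := exists_ker_notMem hk φ' e
      obtain ⟨ψ, h4, h5⟩ := exists_dual_one₂ h3
      have h6 : ψ ≠ 0 := fun e => by simp [e] at h4
      obtain ⟨y, h7, h8⟩ := exists_vec h6 (φ := φ) fun h7 => by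
        obtain ⟨a, rfl⟩ := Submodule.mem_span_singleton.1 h1
        obtain ⟨b, hb⟩ := Submodule.mem_span_singleton.1 h7
        have := LinearMap.congr_fun hb x
        simp only [LinearMap.smul_apply, h4, h2, smul_eq_mul, mul_one, mul_zero] at this
        exact hφ (by rw [← hb, this, zero_smul])
      exact hR _ _ _ _ he h6 h5 h' h4 h2 (hR _ _ _ _ he hφ h h5 h7 h8 hp)
    · obtain ⟨x, h4, h5⟩ := exists_vec hφ' h1
      exact hR _ _ _ _ he hφ h h' h4 h5 hp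
  obtain ⟨ψ, h1, h2, h3⟩ := exists_dual_pair hk e e'
  exact R _ _ _ he' h1 h3 h' hφ' (L _ _ _ he h1 h2 h3 he' (R _ _ _ he hφ h h2 h1 hp))

theorem unip_rt_mem {e : U} {φ : Dual F U} (h : φ e = 0) (t : F) : unip (rt_sq h) t ∈ SLV F U := by
  convert transvection_mem_SLV (φ := t • φ) (v := e) (by simp [h]) using 1
  exact LinearEquiv.ext fun x => by simp [unip_apply, LinearMap.transvection.apply, smul_smul]

theorem rt_induction {M : Submodule F (End F U)} (h : ∀ e φ, rt e φ ∈ M) (a : End F U) : a ∈ M := by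
  have : a = ∑ i, rt (a (finBasis F U i)) ((finBasis F U).coord i) := by
    ext x
    conv_lhs => rw [← (finBasis F U).sum_repr x, map_sum]
    simp
  rw [this]
  exact M.sum_mem fun i _ => h _ _

theorem exists_flags (hk : 3 ≤ finrank F U) (e : U) (φ' : Dual F U) :
    ∃ (e' : U) (φ : Dual F U), φ e = 0 ∧ φ' e' = 0 ∧ φ e' = 1 := by
  obtain ⟨x, h1, h2⟩ := exists_ker_notMem hk φ' e
  obtain ⟨ψ, h3, h4⟩ := exists_dual_one₂ h2
  exact ⟨x, ψ, h4, h1, h3⟩

theorem eq_top_of_rt (hk : 3 ≤ finrank F U) {C : Subalgebra F (End F U)}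
    (h : ∀ e (φ : Dual F U), φ e = 0 → rt e φ ∈ C) : C = ⊤ :=
  eq_top_iff.2 fun a _ => rt_induction (M := Subalgebra.toSubmodule C) (fun e φ' => by
    obtain ⟨e', φ, h1, h2, h3⟩ := exists_flags hk e φ'
    simpa [rt_mul, h3] using C.mul_mem (h e φ h1) (h e' φ' h2)) a

theorem span_SLV (hk : 3 ≤ finrank F U) :
    Submodule.span F {a : End F U | ∃ g ∈ SLV F U, a = g} = ⊤ := by
  let C : Subalgebra F (End F U) :=
    (Submodule.span F {a : End F U | ∃ g ∈ SLV F U, a = g}).toSubalgebra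
      (Submodule.subset_span ⟨1, (SLV F U).one_mem, rfl⟩) fun x y hx hy => by
        have := Submodule.mul_mem_mul hx hy
        rw [Submodule.span_mul_span] at this
        refine Submodule.span_mono ?_ this
        rintro _ ⟨_, ⟨g, hg, rfl⟩, _, ⟨g', hg', rfl⟩, rfl⟩
        exact ⟨g * g', (SLV F U).mul_mem hg hg', rfl⟩
  have : C = ⊤ := eq_top_of_rt hk fun e φ h => by
    simpa using C.sub_mem (Submodule.subset_span ⟨_, unip_rt_mem h 1, rfl⟩) C.one_mem
  exact eq_top_iff.2 fun a _ => (this ▸ Algebra.mem_top : a ∈ C)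

theorem scal_of_comm_rt {z : End F U}
    (h : ∀ e (φ : Dual F U), φ e = 0 → rt e φ * z = z * rt e φ) : Scal z := by
  refine scal_of_dual fun φ u hu => ?_
  by_cases h0 : u = 0
  · simp [h0]
  have := LinearMap.congr_fun (h u φ hu) u
  simp only [End.mul_apply, LinearMap.smulRight_apply, hu, zero_smul, map_zero] at this
  exact (smul_eq_zero.1 this).resolve_right h0

namespace TS

variable (τ : TS F U W V)

theorem K_rt_mul_mul (c : End F V) (a x : U) (φ ψ : Dual F U) (α β : End F W) :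
    τ.K (rt a φ) α * c * τ.K (rt x ψ) β = τ.K (rt a ψ) (α * τ.sl φ x c * β) := by
  ext v
  simp only [End.mul_apply, K_smulRight, sl_apply]

variable [Finite F] (X : Subgroup (V ≃ₗ[F] V))

/-- The elements of `X` in the unipotent radicals attached to the points and hyperplanes of the
first factor act on the first factor only. -/
def HptSL : Prop :=
  (∀ e, e ≠ 0 → ∀ c ∈ X, (∀ x, c (τ.tp e x) = τ.tp e x) → (∀ v, ∃ x, c v = v + τ.tp e x) →
    τ.InA c) ∧
  ∀ φ : Dual F U, φ ≠ 0 → ∀ c ∈ X, (∀ v, τ.pr φ v = 0 → c v = v) →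
    (∀ v, τ.pr φ (c v) = τ.pr φ v) → τ.InA c

variable {τ X}

theorem HptSL.map (h : τ.HptSL X) {g : V ≃ₗ[F] V} (hg : g ∈ X) : (τ.map g).HptSL X := by
  refine ⟨fun e he c hc h1 h2 => map_inA.2 (h.1 e he (g⁻¹ * c * g)
    (X.mul_mem (X.mul_mem (X.inv_mem hg) hc) hg) (fun x => conj_apply_eq.2 (h1 x)) fun v => ?_),
    fun φ hφ c hc h1 h2 => map_inA.2 (h.2 φ hφ (g⁻¹ * c * g)
    (X.mul_mem (X.mul_mem (X.inv_mem hg) hc) hg)
    (fun v hv => conj_apply_eq.2 (h1 _ (by rwa [map_pr_apply]))) fun v => ?_)⟩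
  · obtain ⟨x, hx⟩ := h2 (g v)
    exact ⟨x, conj_apply_eq.2 (by rw [hx, map_add, map_tp])⟩
  · rw [← τ.map_pr_apply g, ← τ.map_pr_apply g φ v, ← h2 (g v)]
    congr 1
    exact g.apply_symm_apply _

variable (hk : 3 ≤ finrank F U) (hL : ∀ g ∈ SLV F U, τ.KL g ∈ X)

include hL in
theorem has_rt {e : U} {φ : Dual F U} (h : φ e = 0) : Has X (1 + τ.K (rt e φ) 1 : End F V) :=
  ⟨_, hL _ (unip_rt_mem h 1), fun v => by simp⟩

/-- The coefficients of the root elements. -/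
def CL : Subalgebra F (End F W) where
  carrier := {b | ∀ e (φ : Dual F U), φ e = 0 → Has X (1 + τ.K (rt e φ) b : End F V)}
  mul_mem' {b b'} h h' e φ' hφ := by
    obtain ⟨e', φ, h1, h2, h3⟩ := exists_flags hk e φ'
    simpa [K_mul, rt_mul, h3] using has_comm (h e φ h1) (h' e' φ' h2) (by simp [K_mul, rt_sq h1])
      (by simp [K_mul, rt_sq h2]) (by simp [K_mul, rt_mul, hφ])
  add_mem' {b b'} h h' e φ hφ := ((h e φ hφ).comp (h' e φ hφ)).congr fun v => by
    simp [K_K, rt_sq hφ]; abel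
  algebraMap_mem' s e φ hφ := (has_rt hL (φ := s • φ) (e := e) (by simp [hφ])).congr fun v => by
    simp [K_smulRight, Algebra.algebraMap_eq_smul_one]

theorem mem_CL {b : End F W} : b ∈ CL hk hL ↔
    ∀ e (φ : Dual F U), φ e = 0 → Has X (1 + τ.K (rt e φ) b : End F V) := Iff.rfl

theorem mem_CL_of {b : End F W} {e : U} {φ : Dual F U} (he : e ≠ 0) (hφ : φ ≠ 0) (h : φ e = 0)
    (hb : Has X (1 + τ.K (rt e φ) b : End F V)) : b ∈ CL hk hL := fun e' φ' h' => by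
  by_cases he' : e' = 0
  · exact Has.id.congr fun v => by simp [he', K_smulRight]
  by_cases hφ' : φ' = 0
  · exact Has.id.congr fun v => by simp [hφ', K_smulRight]
  refine flag_spread hk (p := fun e φ => Has X (1 + τ.K (rt e φ) b : End F V))
    (fun e φ e' φ' _ _ h1 h2 h3 h4 h5 => ?_) (fun e φ e' φ' _ _ h1 h2 h3 h4 h5 => ?_)
    he hφ h hb he' hφ' h'
  · simpa [K_mul, rt_mul, h3] using has_comm (has_rt hL h4) h5 (by simp [K_mul, rt_sq h4])
      (by simp [K_mul, rt_sq h1]) (by simp [K_mul, rt_mul, h2])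
  · simpa [K_mul, rt_mul, h3] using has_comm h5 (has_rt hL h4) (by simp [K_mul, rt_sq h1])
      (by simp [K_mul, rt_sq h4]) (by simp [K_mul, rt_mul, h2])

theorem conj_mem_CL {d : W ≃ₗ[F] W} (hd : τ.KE 1 d ∈ X) {b : End F W} (hb : b ∈ CL hk hL) :
    (d : End F W) * b * (d.symm : End F W) ∈ CL hk hL := fun e φ h =>
  (hb e φ h).conj hd fun v => by
    simp [K_smulRight, pr_K]

theorem hptSL_of_scal (h : ∀ b ∈ CL hk hL, Scal b) : τ.HptSL X := by
  constructor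
  · intro e he c hc h1 h2
    obtain ⟨φ₀, hφ₀⟩ := exists_dual_one' (F := F) he
    have h3 : ∀ v, c v - v = τ.tp e (τ.pr φ₀ (c v - v)) := fun v => by
      obtain ⟨x, hx⟩ := h2 v
      simp [hx, hφ₀]
    refine τ.inA_of_sl fun φ u => ?_
    obtain ⟨ψ, k1, k2, k3⟩ := exists_dual_pair hk e u
    have k4 := has_comm (a := c.toLinearMap - 1) ((Has.of_mem hc).congr fun v => by simp)
      (has_rt hL k3) (LinearMap.ext fun v => by
        change c (c v - v) - (c v - v) = 0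
        rw [h3 v, h1, sub_self]) (by simp [K_mul, rt_sq k3]) (LinearMap.ext fun v => by
        change τ.K _ _ (c v - v) = 0
        rw [h3]; simp [k2])
    obtain ⟨s, hs⟩ := h (τ.sl φ₀ u (c.toLinearMap - 1)) (mem_CL_of hk hL he k1 k2
      (k4.congr fun v => by
        simp only [LinearMap.add_apply, End.one_apply, End.mul_apply, K_smulRight, sl_apply,
          LinearMap.sub_apply, LinearEquiv.coe_coe]
        rw [← h3]))
    refine ⟨φ u + φ e * s, fun x => ?_⟩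
    have h4 := congrArg (τ.pr φ) (h3 (τ.tp u x))
    have h5 : τ.pr φ₀ (c (τ.tp u x) - τ.tp u x) = s • x := hs x
    rw [h5, map_sub, sub_eq_iff_eq_add'] at h4
    simpa [add_smul, smul_smul, mul_comm] using h4
  · intro φ hφ c hc h1 h2
    obtain ⟨y, hy⟩ : ∃ y, φ y = 1 := by
      obtain ⟨y, hy⟩ : ∃ y, φ y ≠ 0 := by by_contra! h; exact hφ (LinearMap.ext h)
      exact ⟨(φ y)⁻¹ • y, by simp [hy]⟩
    have h3 : ∀ v, c v - v = c (τ.tp y (τ.pr φ v)) - τ.tp y (τ.pr φ v) := fun v => by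
      have := h1 (v - τ.tp y (τ.pr φ v)) (by simp [hy])
      rw [map_sub] at this
      exact sub_eq_sub_iff_sub_eq_sub.1 this
    refine τ.inA_of_sl fun ψ u => ?_
    obtain ⟨e, k1, k2, k3⟩ := exists_vec_pair hk φ ψ
    have k4 := has_comm (b := c.toLinearMap - 1) (has_rt hL k3)
      ((Has.of_mem hc).congr fun v => by simp) (by simp [K_mul, rt_sq k3])
      (LinearMap.ext fun v => by
        change c (c v - v) - (c v - v) = 0
        rw [h1 _ (by rw [map_sub, h2, sub_self]), sub_self]) (LinearMap.ext fun v => by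
        change c (τ.K _ _ v) - τ.K _ _ v = 0
        rw [h1 _ (by simp [K_smulRight, k2]), sub_self])
    obtain ⟨s, hs⟩ := h (τ.sl ψ y (c.toLinearMap - 1)) (mem_CL_of hk hL k1 hφ k2
      (k4.congr fun v => by
        simp only [LinearMap.add_apply, End.one_apply, End.mul_apply, K_smulRight, sl_apply,
          LinearMap.sub_apply, LinearEquiv.coe_coe]
        rw [← h3]))
    refine ⟨ψ u + φ u * s, fun x => ?_⟩
    have h4 := congrArg (τ.pr ψ) (h3 (τ.tp u x))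
    have h5 : ∀ x, τ.pr ψ (c (τ.tp y x) - τ.tp y x) = s • x := hs
    rw [h5, map_sub, sub_eq_iff_eq_add'] at h4
    simpa [add_smul, smul_smul, mul_comm] using h4

theorem SLV_le_of_CL [FiniteDimensional F W] (h : CL hk hL = ⊤) : SLV F V ≤ X := by
  have := τ.finiteDimensional
  have h1 : ∀ e (φ : Dual F U), φ e = 0 → ∀ b, Has X (1 + τ.K (rt e φ) b : End F V) :=
    fun e φ hφ b => (h ▸ Algebra.mem_top : b ∈ CL hk hL) e φ hφ
  refine SLV_le_of_fullSub (eq_top_iff.2 fun v _ => ?_)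
  induction v using τ.induction with
  | h0 => exact Submodule.zero_mem _
  | hadd a b ha hb => exact Submodule.add_mem _ (ha trivial) (hb trivial)
  | h e x =>
    by_cases he : e = 0
    · simp [he]
    by_cases hx : x = 0
    · simp [hx]
    obtain ⟨φ₀, hφ₀⟩ := exists_dual_one' (F := F) he
    obtain ⟨ψ₀, hψ₀⟩ := exists_dual_one' (F := F) hx
    intro f hf
    have h2 : ∀ (φ : Dual F U) (ψ : Dual F W), φ e = 0 → TV X (ψ ∘ₗ τ.pr φ) (τ.tp e x) :=
      fun φ ψ hφ => (h1 e φ hφ (rt x ψ)).congr fun v => by simp [K_smulRight]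
    have h3 : TV X ((f ∘ₗ τ.tp e) ∘ₗ τ.pr φ₀) (τ.tp e x) := by
      obtain ⟨e', φ, k1, k2, k3⟩ := exists_flags hk e φ₀
      refine (has_comm (h1 e φ k1 (rt x ψ₀)) (h1 e' φ₀ k2 (rt x (f ∘ₗ τ.tp e)))
        (by simp [K_mul, rt_sq k1]) (by simp [K_mul, rt_sq k2])
        (by simp [K_mul, rt_mul, hf])).congr fun v => ?_
      simp [K_smulRight, k3, hψ₀]
    let b := finBasis F U
    have h4 : ∀ s : Finset (Fin (finrank F U)),
        TV X (∑ i ∈ s, (f ∘ₗ τ.tp (b i)) ∘ₗ τ.pr (b.coord i - b.coord i e • φ₀)) (τ.tp e x) ∧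
        (∑ i ∈ s, (f ∘ₗ τ.tp (b i)) ∘ₗ τ.pr (b.coord i - b.coord i e • φ₀)) (τ.tp e x) = 0 := by
      intro s
      refine Finset.sum_induction _ (fun g : Dual F V => TV X g (τ.tp e x) ∧ g (τ.tp e x) = 0)
        (fun a c ha hc => ⟨ha.1.add_left hc.1 ha.2, by simp [ha.2, hc.2]⟩)
        ⟨TV.zero_left _, rfl⟩ fun i _ => ⟨h2 _ _ (by simp [hφ₀]), by simp [hφ₀]⟩
    convert (h4 Finset.univ).1.add_left h3 (h4 Finset.univ).2 using 1
    refine τ.ext fun u y => ?_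
    have h5 : u = ∑ i, (b.repr u i - b.repr e i * φ₀ u) • b i + φ₀ u • e := by
      simp only [sub_smul, Finset.sum_sub_distrib, b.sum_repr, mul_comm _ (φ₀ u), mul_smul,
        ← Finset.smul_sum, sub_add_cancel]
    conv_lhs => rw [h5]
    simp [sub_mul, mul_assoc]

/-- The slot lemma for the special linear group. -/
theorem slot_sl [FiniteDimensional F W] (hk : 3 ≤ finrank F U) {C : Subalgebra F (End F V)}
    (hL : ∀ g ∈ SLV F U, Slot.InvL τ (C : Set (End F V)) g)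
    (hirr : Slot.Irr τ (C : Set (End F V))) (hc : ∃ c ∈ C, ¬ τ.flip.InA c) :
    ∃ d, d ≠ 0 ∧ ∀ a, τ.K a d ∈ C := by
  obtain ⟨c, hcC, hc⟩ := hc
  have hdd : ∀ e (φ : Dual F U), φ e = 0 → ∀ z ∈ C,
      Slot.dd (τ.K (rt e φ) 1) (-τ.K (rt e φ) 1) z ∈ C := fun e φ h z hz => by
    refine C.sub_mem ?_ hz
    simpa [sub_eq_add_neg] using hL _ (unip_rt_mem h 1) z hz
  have htwo : ∀ e e' (φ φ' : Dual F U), φ e = 0 → φ e' = 0 → φ' e = 0 → φ' e' = 0 →
      τ.K (rt e φ') (τ.sl φ e' c) + τ.K (rt e' φ) (τ.sl φ' e c) ∈ C := by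
    intro e e' φ φ' h1 h2 h3 h4
    have := C.neg_mem (hdd e φ h1 _ (hdd e' φ' h4 c hcC))
    rw [Slot.dd_dd] at this
    simpa [K_mul, rt_mul, h2, h3, K_rt_mul_mul, add_comm] using this
  obtain ⟨φ, u, hu, hα⟩ : ∃ (φ : Dual F U) (u : U), φ u = 0 ∧ τ.sl φ u c ≠ 0 := by
    by_contra! h
    exact hc (τ.flip.inA_of_sl fun ψ x => scal_of_dual fun φ u hu => by
      have := congrArg ψ (LinearMap.congr_fun (h φ u hu) x)
      simpa [pr_flip_pr] using this)
  obtain ⟨u', φ', h1, h2, h3⟩ := exists_flags hk u φ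
  obtain ⟨d, k1, k2⟩ := hirr.exists_conj hα hα
  have h4 := C.mul_mem (htwo u u φ φ' hu hu h1 h1) (k1 _ (htwo u u' φ φ hu h2 hu h2))
  simp only [mul_add, add_mul, K_mul, rt_mul, hu, h1, h2, h3, one_mul, mul_one, zero_smul,
    one_smul, map_zero, LinearMap.zero_apply, zero_add, add_zero] at h4
  obtain ⟨γ, hγ, h5⟩ : ∃ γ, γ ≠ 0 ∧ τ.K (rt u φ) γ ∈ C := ⟨_, k2, h4⟩
  have h6 : ∀ e (ψ : Dual F U), ψ e = 0 → τ.K (rt e ψ) γ ∈ C := fun e ψ h => by
    by_cases he : e = 0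
    · simp [he]
    by_cases hψ : ψ = 0
    · simp [hψ]
    refine flag_spread hk (p := fun e φ => τ.K (rt e φ) γ ∈ C)
      (fun e φ e' φ' _ _ h1 h2 h3 h4 h5 => ?_) (fun e φ e' φ' _ _ h1 h2 h3 h4 h5 => ?_)
      (fun e => hα (by ext; simp [e])) (fun e => hα (by ext; simp [e])) hu h5 he hψ h
    · simpa [Slot.dd_eq, K_mul, rt_mul, h2, h3, h4] using hdd e' φ' h4 _ h5
    · simpa [Slot.dd_eq, K_mul, rt_mul, h2, h3, h4] using hdd e' φ' h4 _ h5
  obtain ⟨d', k3, k4⟩ := hirr.exists_conj hγ hγ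
  refine ⟨_, k4, rt_induction (M := (Subalgebra.toSubmodule C).comap (τ.K.flip _)) fun e ψ => ?_⟩
  obtain ⟨e', φ', h7, h8, h9⟩ := exists_flags hk e ψ
  simpa [K_mul, rt_mul, h9] using C.mul_mem (h6 e φ' h7) (k3.K_mem (h6 e' ψ h8))

/-! ### Rigidity -/

variable [FiniteDimensional F W] [Nontrivial W]

include hk hL in
theorem same_of_rt {τ' : TS F U W V} (h' : τ'.HptSL X) {e : U} {φ : Dual F U} (he : e ≠ 0)
    (hφ : φ ≠ 0) (h : φ e = 0) (hA : τ'.InA (τ.K (rt e φ) 1)) : τ'.Same τ := by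
  have := τ.finiteDimensional
  have key : ∀ e (φ : Dual F U), e ≠ 0 → φ ≠ 0 → τ'.InA (τ.K (rt e φ) 1) →
      ∃ (f : U) (ψ : Dual F U), f ≠ 0 ∧ ψ ≠ 0 ∧
        LinearMap.range (τ'.tp f) = LinearMap.range (τ.tp e) ∧
        ∀ v, τ'.pr ψ v = 0 ↔ τ.pr φ v = 0 := by
    rintro e φ he hφ ⟨n, hn⟩
    obtain ⟨x₀, hx₀⟩ := exists_ne (0 : W)
    obtain ⟨u, hu⟩ : ∃ u, n u ≠ 0 := by
      by_contra! h0
      obtain ⟨y, hy⟩ : ∃ y, φ y ≠ 0 := by by_contra! h; exact hφ (LinearMap.ext h)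
      have := LinearMap.congr_fun hn (τ.tp y x₀)
      rw [show n = 0 from LinearMap.ext h0] at this
      simp [hy, τ.tp_ne_zero he hx₀] at this
    have h1 : LinearMap.range (τ'.tp (n u)) = LinearMap.range (τ.tp e) := by
      refine Submodule.eq_of_le_of_finrank_eq ?_ ?_
      · rintro _ ⟨x, rfl⟩
        exact ⟨τ.pr φ (τ'.tp u x), by
          simpa [K_smulRight] using LinearMap.congr_fun hn (τ'.tp u x)⟩
      · rw [LinearMap.finrank_range_of_inj (τ'.tp_inj hu),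
          LinearMap.finrank_range_of_inj (τ.tp_inj he)]
    obtain ⟨χ, hχ⟩ := exists_dual_one' (F := F) hu
    have h2 : ∀ v, τ.tp e (τ.pr φ v) = τ'.tp (n u) (τ'.pr (χ ∘ₗ n) v) := fun v => by
      obtain ⟨x, hx⟩ : τ.tp e (τ.pr φ v) ∈ LinearMap.range (τ'.tp (n u)) := h1 ▸ ⟨_, rfl⟩
      have h3 := congrArg (τ'.pr χ) (LinearMap.congr_fun hn v)
      rw [K_smulRight, End.one_apply, ← hx, pr_tp, hχ, one_smul, pr_K, End.one_apply] at h3
      rw [← hx, h3]
    refine ⟨n u, χ ∘ₗ n, hu, fun e => by simpa [hχ] using LinearMap.congr_fun e u, h1,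
      fun v => ⟨fun h => τ.tp_eq_zero he (by rw [h2, h, map_zero]),
        fun h => τ'.tp_eq_zero hu (by rw [← h2, h, map_zero])⟩⟩
  have conv : ∀ e (φ : Dual F U) (h : φ e = 0), τ'.InA (τ.KL (unip (rt_sq h) 1)) →
      τ'.InA (τ.K (rt e φ) 1) := fun e φ h h1 => by simpa using h1.sub inA_one
  refine same_of_cent (R := {n | ∃ (e : U) (φ : Dual F U), φ e = 0 ∧ n = rt e φ})
    (fun z hz => scal_of_comm_rt fun e φ h => hz _ ⟨e, φ, h, rfl⟩) ?_
  rintro _ ⟨e', φ', h1, rfl⟩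
  by_cases he' : e' = 0
  · exact ⟨0, by simp [he']⟩
  by_cases hφ' : φ' = 0
  · exact ⟨0, by simp [hφ']⟩
  refine flag_spread hk (p := fun e φ => τ'.InA (τ.K (rt e φ) 1))
    (fun e φ e' _ k1 k2 _ k3 _ _ k4 => ?_) (fun e φ _ φ' k1 k2 _ k3 _ _ k4 => ?_)
    he hφ h hA he' hφ' h1
  · obtain ⟨f, ψ, -, a2, -, a4⟩ := key e φ k1 k2 k4
    refine conv _ _ k3 (h'.2 ψ a2 _ (hL _ (unip_rt_mem k3 1))
      (fun v hv => by simp [K_smulRight, (a4 v).1 hv]) fun v => ?_)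
    have := (a4 (τ.tp e' (τ.pr φ v))).2 (by simp [k3])
    simp [K_smulRight, this]
  · obtain ⟨f, ψ, a1, -, a3, -⟩ := key e φ k1 k2 k4
    refine conv _ _ k3 (h'.1 f a1 _ (hL _ (unip_rt_mem k3 1)) (fun x => ?_) fun v => ?_)
    · obtain ⟨y, hy⟩ : τ'.tp f x ∈ LinearMap.range (τ.tp e) := a3 ▸ ⟨_, rfl⟩
      simp [← hy, k3]
    · obtain ⟨y, hy⟩ : τ.tp e (τ.pr φ' v) ∈ LinearMap.range (τ'.tp f) := a3 ▸ ⟨_, rfl⟩
      exact ⟨y, by simp [K_smulRight, hy]⟩

include hk hL in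
theorem root_rt (hH : τ.HptSL X) {e : U} {φ : Dual F U} (he : e ≠ 0) (hφ : φ ≠ 0) (h : φ e = 0) :
    τ.Root X (rt_sq h) ⊤ :=
  root_of_rigid (R := {n | ∃ (e : U) (φ : Dual F U), e ≠ 0 ∧ φ ≠ 0 ∧ φ e = 0 ∧ n = rt e φ})
    (by rintro _ ⟨e, φ, -, -, h, rfl⟩; exact rt_sq h)
    (by rintro _ ⟨e, φ, -, -, h, rfl⟩ t -; exact hL _ (unip_rt_mem h t))
    (fun z hz => scal_of_comm_rt fun e φ h => by
      by_cases he : e = 0
      · simp [he]
      by_cases hφ : φ = 0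
      · simp [hφ]
      exact hz _ ⟨e, φ, he, hφ, h, rfl⟩)
    (Or.inr ⟨hk, by
      rintro _ ⟨e, φ, -, -, -, rfl⟩
      exact ⟨e, fun x => Submodule.smul_mem _ _ (Submodule.mem_span_singleton_self e)⟩⟩)
    (by
      rintro _ ⟨e, φ, he, hφ, h, rfl⟩ g hg hA
      exact same_of_rt hk hL (hH.map hg) he hφ h hA) ⟨e, φ, he, hφ, h, rfl⟩

include hk hL in
/-- Rigidity, given the vanishing of the averaging operator on root elements. -/
theorem same_or_comm_sl_of (hH : τ.HptSL X)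
    (hδ : ∀ u (ψ : Dual F U), u ≠ 0 → ψ ≠ 0 → ψ u = 0 → ∀ d, τ.δ X (τ.K (rt u ψ) d) = 0)
    {g : V ≃ₗ[F] V} (hg : g ∈ X) : τ.Same (τ.map g) ∨ τ.flip.Same (τ.map g) := by
  have : Nontrivial U := Module.nontrivial_of_finrank_pos (R := F) (by omega)
  obtain ⟨e, he⟩ := exists_ne (0 : U)
  obtain ⟨φ, hφ, h, -⟩ := exists_dual_pair hk e e
  refine (root_rt hk hL hH he hφ h).same_or_comm' top_ne_bot (Or.inr ⟨hk, e,
    fun x => Submodule.smul_mem _ _ (Submodule.mem_span_singleton_self e)⟩)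
    (fun z hz => scal_of_dual fun ψ u hu => ?_) hg
  by_cases hu0 : u = 0
  · simp [hu0]
  by_cases hψ : ψ = 0
  · simp [hψ]
  have := hz _ (hδ u ψ hu0 hψ hu)
  rwa [show z * rt u ψ = rt (z u) ψ from LinearMap.ext fun x => by simp,
    LinearMap.trace_smulRight] at this

omit [Nontrivial W] [FiniteDimensional F W] in
theorem eq_zero_of_mem_range_rt {e e' : U} {φ φ' : Dual F U} {v : V} (h : e ∉ F ∙ e')
    (h1 : v ∈ LinearMap.range (τ.K (rt e φ) 1)) (h2 : v ∈ LinearMap.range (τ.K (rt e' φ') 1)) :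
    v = 0 := by
  obtain ⟨a, ha⟩ := h1
  obtain ⟨b, hb⟩ := h2
  obtain ⟨χ, h3, h4⟩ := exists_dual_one₂ h
  have := congrArg (τ.pr χ) (ha.trans hb.symm)
  simp only [K_smulRight, pr_tp, h3, h4, one_smul, zero_smul] at this
  rw [← ha, K_smulRight, this, map_zero]

include hk hL in
theorem same_or_comm_sl (hH : τ.HptSL X) (hq : 4 ≤ finrank F U ∨ 2 < Nat.card F)
    {g : V ≃ₗ[F] V} (hg : g ∈ X) : τ.Same (τ.map g) ∨ τ.flip.Same (τ.map g) := by
  refine same_or_comm_sl_of hk hL hH (fun u ψ hu hψ h d => ?_) hg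
  by_cases h2 : (2 : F) ≠ 0
  · obtain ⟨e, h3, h4⟩ := exists_ker_notMem hk ψ u
    exact LinearMap.ext fun v => eq_zero_of_mem_range_rt h4
      ((root_rt hk hL hH (fun e => h4 (by simp [e])) hψ h3).δ_apply_mem' top_ne_bot h2
        (by simp [rt_mul, h, h3]) d v)
      ((root_rt hk hL hH hu hψ h).δ_apply_mem' top_ne_bot h2 rfl d v)
  rcases hq with hq | hq
  · refine τ.ext fun y w => ?_
    obtain ⟨φ, h3, h4, h5⟩ := exists_dual_pair hk u y
    obtain ⟨e', h6, h7, h8⟩ := exists_vec_pair hk φ ψ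
    obtain ⟨e, he, he'⟩ := exists_notMem_of_finrank_lt (U := F ∙ e')
      (W := ⊤ ⊓ LinearMap.ker φ ⊓ LinearMap.ker ψ) (by
        have := finrank_inf_ker_ge ⊤ φ
        have := finrank_inf_ker_ge (⊤ ⊓ LinearMap.ker φ) ψ
        have := finrank_span_singleton_le (F := F) e'
        rw [finrank_top] at *; omega)
    have h9 : φ e = 0 := he.1.2
    have h10 : ψ e = 0 := he.2
    exact eq_zero_of_mem_range_rt he'
      ((root_rt hk hL hH (fun e => he' (by simp [e])) h3 h9).δ_apply_mem top_ne_bot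
        (by simp [rt_mul, h4, h10]) d (by simp [h5]) w)
      ((root_rt hk hL hH h6 h3 h7).δ_apply_mem top_ne_bot (by simp [rt_mul, h4, h8]) d
        (by simp [h5]) w)
  · obtain ⟨l, h3, h4⟩ := Slot.exists_ne_zero_one hq
    refine (root_rt hk hL hH hu hψ h).δ_eq_zero top_ne_bot h3 (fun e => h4 ?_)
      (fun _ _ => trivial) rfl d
    have h5 : (l - 1) ^ 2 = 0 := by linear_combination e + (1 - l) * not_not.1 h2
    exact (sub_eq_zero.1 (pow_eq_zero_iff two_ne_zero |>.1 h5)).symm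

end TS

section Multi

variable [Finite F] {ι : Type*} [Fintype ι] {W : ι → Type*} [∀ i, AddCommGroup (W i)]
  [∀ i, Module F (W i)] [∀ i, FiniteDimensional F (W i)] {τ : ∀ i, TS F U (W i) V}
  {X : Subgroup (V ≃ₗ[F] V)}

/-- **Step C** for the special linear group. -/
theorem Multi.SLV_le_of_not_hptSL (h : Multi τ) (hk : 3 ≤ finrank F U)
    (hL : ∀ i, ∀ g ∈ SLV F U, (τ i).KL g ∈ X) (hc : Cyc τ X) {i : ι} (hi : ¬ (τ i).HptSL X) :
    SLV F V ≤ X := by
  classical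
  have : Nontrivial U := Module.nontrivial_of_finrank_pos (R := F) (by omega)
  let M : ι → Subalgebra F (End F V) := fun i => (TS.CL hk (hL i)).map (τ i).flip.KA
  have hM : ∀ i c, c ∈ M i ↔ ∃ b ∈ TS.CL hk (hL i), (τ i).K 1 b = c := fun i c => by simp [M]
  have hinv : ∀ i l, ∀ g ∈ SLV F U, Slot.InvL (τ l) (M i : Set (End F V)) g := by
    intro i l g hg c hc
    obtain ⟨b, hb, rfl⟩ := (hM i c).1 hc
    refine (hM i _).2 ?_
    by_cases hl : i = l
    · subst hl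
      refine ⟨b, hb, ?_⟩
      simp only [TS.K_mul, mul_one, one_mul]
      rw [show (g : End F U) * (g.symm : End F U) = 1 from LinearMap.ext fun u => by simp]
    · obtain ⟨d, h1, h2, h3⟩ := h.exists_KE hl g
      exact ⟨_, TS.conj_mem_CL hk (hL i) (h1 ▸ hL l g hg) hb, by simp [h2, h3, TS.K_mul]⟩
  obtain ⟨b, hb, hb'⟩ : ∃ b ∈ TS.CL hk (hL i), ¬ Scal b := by
    by_contra! h1
    exact hi (TS.hptSL_of_scal hk (hL i) h1)
  obtain ⟨j, hj, h1⟩ := h.exists_slot_of (G := SLV F U) (span_SLV hk)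
    (fun j C h1 h2 h3 => TS.slot_sl hk h1 h2.irr h3) (C := M i) (hinv i) (Finset.univ.erase i)
    ⟨_, (hM i _).2 ⟨b, hb, rfl⟩, fun l hl a => by
      obtain rfl : l = i := by simpa using hl
      exact (τ l).K_comm _ _, fun e => hb' ((τ i).scal_of_one_K e)⟩
  have hji : j ≠ i := by simpa using hj
  refine TS.SLV_le_of_CL hk (hL i) (eq_top_iff.2 fun d _ => ?_)
  obtain ⟨d', h2, h3⟩ := (hM i _).1 (h.gen (B := M i) (i := i) (fun l hl => by
    by_cases hlj : l = j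
    · exact hlj ▸ h1
    obtain ⟨k, hk', h2, h3⟩ := hc i j l hji.symm (Ne.symm hl) (Ne.symm hlj)
    have key : (M i).comap (τ l).KA = ⊤ := eq_top_of_rt hk fun e φ hφ => by
      obtain ⟨b, hb⟩ := h.exists_K (Ne.symm hl) (rt e φ)
      refine (hM i _).2 ⟨b, fun x ψ hψ => ?_, hb.symm⟩
      obtain ⟨b', k1, k2⟩ := (hM i _).1 (h1 (rt x ψ))
      refine (k1 e φ hφ).conj hk' fun v => ?_
      rw [TS.K_eq_mul, ← hb, h.comm i l (Ne.symm hl), TS.K_eq_mul (τ i) _ b', k2]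
      simp [← h2, ← h3, TS.map_K_apply]
    exact fun a => (key ▸ Algebra.mem_top : a ∈ (M i).comap (τ l).KA)) d)
  rwa [← (τ i).flip.K_one_inj (a := d') (a' := d) (by simpa using h3)]

end Multi

section Matrix

variable [Fintype F] {ι : Type} [Fintype ι] [DecidableEq ι] {k t : ℕ}

/-- `GL_k ≀ S_t` in `SL`, given rigidity in the case `(k, q) = (3, 2)`. -/
theorem sl_wreath_maximal_of (hk : 3 ≤ k) (ht : 2 ≤ t) (e : ι ≃ (Fin t → Fin k)) (P : GL ι F)
    (hR : k = 3 → Nat.card F = 2 → ∀ X ≤ SLV F (ι → F), Wr (τ1 (frame e P)) (SLV F (ι → F)) X →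
      (∀ i, ∀ g ∈ SLV F (Fin k → F), (τ1 (frame e P) i).KL g ∈ X) → Cyc (τ1 (frame e P)) X →
      (∀ i, (τ1 (frame e P) i).HptSL X) → ∀ i, ∀ g ∈ X,
      (τ1 (frame e P) i).Same ((τ1 (frame e P) i).map g) ∨
        (τ1 (frame e P) i).flip.Same ((τ1 (frame e P) i).map g)) :
    Geo.IsMaximalIn (Geo.specialLinear ι F)
      (Geo.tensorWreathSubgroup k t e P ⊓ Geo.specialLinear ι F) := by
  have : Nonempty (Fin k) := ⟨⟨0, by omega⟩⟩
  have hk' : 3 ≤ finrank F (Fin k → F) := by simpa using hk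
  refine wreath_maximal_of e P mem_specialLinear_iff (by omega) ht
    (H5.SL.not_le_tensorWreathSubgroup (by omega) ht e P) (fun σ σ' => ?_) fun X hX hW hC => ?_
  · simp only [SLV, MonoidHom.mem_ker, map_mul, map_inv]
    rw [mul_comm (LinearEquiv.det (perm _ σ)), mul_inv_cancel_right, mul_inv_cancel]
  have hL : ∀ i, ∀ g ∈ SLV F (Fin k → F), (τ1 (frame e P) i).KL g ∈ X := fun i g hg =>
    hW _ (mem_SLV.2 (by rw [TS.coe_KL, TS.det_K, mem_SLV.1 hg]; simp)) 1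
      fun j => (multi _).same_KL i j g
  by_cases H : ∀ i, (τ1 (frame e P) i).HptSL X
  · right
    by_cases hq : 4 ≤ finrank F (Fin k → F) ∨ 2 < Nat.card F
    · exact fun i g hg => TS.same_or_comm_sl hk' (hL i) (H i) hq hg
    · have h1 : 1 < Nat.card F := Finite.one_lt_card
      rw [finrank_fintype_fun_eq_card, Fintype.card_fin] at hq
      exact hR (by omega) (by omega) X hX hW hL hC H
  · obtain ⟨i, hi⟩ := not_forall.1 H
    exact Or.inl ((multi _).SLV_le_of_not_hptSL hk' hL hC hi)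

end Matrix

end Cfsg.Agent.Tens
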