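import Cfsg.Agent.Tens.Avg

/-!
Quadratic elements normalising a tensor structure.
-/

set_option autoImplicit false
set_option linter.unusedSectionVars false

namespace Cfsg.Agent.Tens

open Module Cfsg.Agent.H7

section General

variable {F M : Type*} [Field F] [AddCommGroup M] [Module F M]

theorem eq_zero_of_sq_eigen {n : End F M} (hn : n * n = 0) {u : M} (h : n u ∈ F ∙ u) : n u = 0 := by
  obtain ⟨c, hc⟩ := Submodule.mem_span_singleton.1 h
  have h1 : n (n u) = 0 := LinearMap.congr_fun hn u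
  rw [← hc, map_smul, ← hc, smul_eq_zero] at h1
  rcases h1 with h1 | h1
  · rw [← hc, h1, zero_smul]
  · rw [← hc, h1]

theorem exists_sq_eq [Finite F] (h2 : (2 : F) = 0) (c : F) : ∃ s : F, s * s = c := by
  refine (Finite.injective_iff_surjective (f := fun s : F => s * s)).1 (fun a b h => ?_) c
  have : (a - b) * (a - b) = 0 := by
    simp only at h
    linear_combination h + (b * b - a * b) * h2
  exact sub_eq_zero.1 (mul_self_eq_zero.1 this)

theorem sq_add_smul {R : Type*} [Ring R] [Algebra F R] (h2 : (2 : F) = 0) (y : R) (s : F) :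
    (y + s • 1) * (y + s • 1) = y * y - (s * s) • 1 := by
  have : s + s = 0 := by rw [← two_mul, h2, zero_mul]
  have h8 : s * s = -(s * s) := by linear_combination s * this
  simp only [add_mul, mul_add, smul_mul_assoc, mul_smul_comm, one_mul, mul_one, smul_smul,
    smul_add]
  rw [add_assoc, ← add_assoc (s • y), ← add_smul, this, zero_smul, zero_add, sub_eq_add_neg,
    ← neg_smul, ← h8]

theorem exists_trace_mul [FiniteDimensional F M] (Φ : Dual F (End F M)) :
    ∃ z : End F M, ∀ x, Φ x = LinearMap.trace F M (z * x) := by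
  let L : End F M →ₗ[F] Dual F (End F M) := (LinearMap.mul F (End F M)).compr₂ (LinearMap.trace F M)
  have hinj : Function.Injective L := (injective_iff_map_eq_zero _).2 fun z hz =>
    LinearMap.ext fun v => eq_zero_of_forall_dual (F := F) fun φ => by
      have : LinearMap.trace F M (z * φ.smulRight v) = 0 := LinearMap.congr_fun hz _
      rwa [show z * φ.smulRight v = φ.smulRight (z v) from LinearMap.ext fun _ => by simp,
        LinearMap.trace_smulRight] at this
  obtain ⟨z, hz⟩ := (LinearMap.injective_iff_surjective_of_finrank_eq_finrank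
    Subspace.dual_finrank_eq.symm).1 hinj Φ
  exact ⟨z, fun x => by rw [← hz]; rfl⟩

theorem map_eq_zero_of_trace [FiniteDimensional F M] {N : Type*} [AddCommGroup N] [Module F N]
    {L : End F M →ₗ[F] N}
    (h : ∀ z : End F M, (∀ x, L x = 0 → LinearMap.trace F M (z * x) = 0) → Scal z)
    {x : End F M} (hx : LinearMap.trace F M x = 0) : L x = 0 :=
  eq_zero_of_forall_dual (F := F) fun φ => by
    obtain ⟨z, hz⟩ := exists_trace_mul (φ ∘ₗ L)
    obtain ⟨c, rfl⟩ := (h z fun y hy => by rw [← hz]; simp [hy]).eq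
    simpa [hx] using hz x

end General

namespace TS

variable {F U W V : Type*} [Field F] [AddCommGroup U] [Module F U] [AddCommGroup W] [Module F W]
  [AddCommGroup V] [Module F V] (τ : TS F U W V) [FiniteDimensional F U] [FiniteDimensional F W]

theorem lt_rank_add (hk : 3 ≤ finrank F U) {n₁ : End F U} {n₂ : End F W} (h1 : n₁ * n₁ = 0)
    (h2 : n₂ * n₂ = 0) (h1' : n₁ ≠ 0) (h2' : n₂ ≠ 0) :
    finrank F W < finrank F (LinearMap.range (τ.K n₁ 1 + τ.K 1 n₂)) := by
  have := τ.finiteDimensional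
  obtain ⟨u, hu⟩ := DFunLike.ne_iff.1 h1'
  obtain ⟨w₀, hw₀⟩ := DFunLike.ne_iff.1 h2'
  obtain ⟨x, -, hx⟩ := exists_notMem_of_finrank_lt (U := (F ∙ u) ⊔ F ∙ n₁ u) (W := ⊤) (by
    have := finrank_span_pair_le (F := F) u (n₁ u)
    rw [finrank_top]; omega)
  obtain ⟨φ₁, a1, a2⟩ := exists_dual_one hx
  have a3 := a2 u (Submodule.mem_sup_left (Submodule.mem_span_singleton_self _))
  have a4 := a2 _ (Submodule.mem_sup_right (Submodule.mem_span_singleton_self _))
  obtain ⟨φ₂, a5, a6⟩ := exists_dual_one₂ fun h => hu (eq_zero_of_sq_eigen h1 h)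
  let L : W × F →ₗ[F] V := (τ.tp u).coprod (LinearMap.toSpanSingleton F V (τ.tp x w₀))
  have hinj : Function.Injective ((τ.K n₁ 1 + τ.K 1 n₂) ∘ₗ L) :=
    (injective_iff_map_eq_zero _).2 fun ⟨w, c⟩ h => by
      have h3 := congrArg (τ.pr φ₁) h
      simp [L, a1, a3, a4] at h3
      have h4 : c = 0 := by
        by_contra hc
        refine hw₀ (eq_zero_of_sq_eigen h2 (Submodule.mem_span_singleton.2 ⟨-φ₁ (n₁ x), ?_⟩))
        refine smul_right_injective W hc ?_
        simp only [neg_smul, smul_neg]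
        exact neg_eq_of_add_eq_zero_right h3
      subst h4
      have h5 := congrArg (τ.pr φ₂) h
      simp [L, a5, a6] at h5
      simp [h5]
  have h3 := LinearMap.finrank_range_of_inj hinj
  have h4 := Submodule.finrank_mono (LinearMap.range_comp_le_range L (τ.K n₁ 1 + τ.K 1 n₂))
  rw [finrank_prod, finrank_self] at h3
  omega

omit [FiniteDimensional F U] [FiniteDimensional F W] in
theorem flip_sl_K (ψ : Dual F W) (w : W) (a : End F U) (d : End F W) :
    τ.flip.sl ψ w (τ.K a d) = ψ (d w) • a := by rw [← τ.flip_K, sl_K]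

omit [FiniteDimensional F U] [FiniteDimensional F W] in
theorem one_K_inj [Nontrivial U] {d d' : End F W} (h : τ.K 1 d = τ.K 1 d') : d = d' :=
  τ.flip.K_one_inj (by simpa using h)

variable [Finite F]

theorem scal_or_scal_of_add {x : End F U} {d : End F W}
    (h : (τ.K x 1 + τ.K 1 d) * (τ.K x 1 + τ.K 1 d) = 0)
    (hr : (2 : F) ≠ 0 ∨ (3 ≤ finrank F U ∧
      finrank F (LinearMap.range (τ.K x 1 + τ.K 1 d)) ≤ finrank F W)) : Scal x ∨ Scal d := by
  by_contra! hcon
  obtain ⟨φ, u, h1, h2⟩ := exists_dual_of_not_scal hcon.1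
  obtain ⟨ψ, w, h3, h4⟩ := exists_dual_of_not_scal hcon.2
  simp only [add_mul, mul_add, K_mul, mul_one, one_mul] at h
  by_cases h2' : (2 : F) = 0
  · obtain ⟨hk, hr⟩ := hr.resolve_left (not_not.2 h2')
    have : Nontrivial U := nontrivial_of_finrank_pos (R := F) (by omega)
    have hw : d w ≠ 0 := fun e => by simp [e] at h4
    have h5 : τ.K (x * x) 1 + τ.K 1 (d * d) = 0 := by
      rw [← h]
      have : τ.K x d + τ.K x d = 0 := by rw [← two_smul F, h2', zero_smul]
      linear_combination (norm := abel) -this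
    obtain ⟨s, hs⟩ := exists_sq_eq h2' (-ψ (d (d (d w))))
    have h6 : x * x = (s * s) • 1 := by
      have := congrArg (τ.flip.sl ψ (d w)) h5
      rw [map_add, flip_sl_K, flip_sl_K] at this
      rw [hs, neg_smul]
      simpa [h4, add_eq_zero_iff_eq_neg] using this
    have h8 : d * d = (s * s) • 1 := τ.one_K_inj (by
      have h9 : s * s + s * s = 0 := by rw [← two_mul, h2', zero_mul]
      rw [h6] at h5
      rw [eq_neg_of_add_eq_zero_right h5]
      simp only [map_smul, LinearMap.smul_apply]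
      rw [← neg_smul, ← eq_neg_of_add_eq_zero_left h9])
    have h9 := τ.lt_rank_add hk (n₁ := x + s • 1) (n₂ := d + s • 1) (by rw [sq_add_smul h2', h6, sub_self])
      (by rw [sq_add_smul h2', h8, sub_self])
      (fun e => hcon.1 (by rw [eq_neg_of_add_eq_zero_left e]; exact (scal_smul_one s).neg))
      (fun e => hcon.2 (by rw [eq_neg_of_add_eq_zero_left e]; exact (scal_smul_one s).neg))
    rw [show τ.K (x + s • 1) 1 + τ.K 1 (d + s • 1) = τ.K x 1 + τ.K 1 d by
      have : s • (1 : End F V) + s • 1 = 0 := by rw [← add_smul, ← two_mul, h2']; simp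
      simp only [map_add, map_smul, LinearMap.add_apply, LinearMap.smul_apply, K_one]
      linear_combination (norm := abel) this] at h9
    omega
  · have := congrArg (τ.sl φ u) h
    simp only [map_add, sl_K, End.one_apply, h1, h2, zero_smul, one_smul, add_zero, map_zero] at this
    refine hcon.2 (Scal.of_smul h2' ?_)
    rw [two_smul, show d + d = -(φ ((x * x) u) • 1) by linear_combination (norm := abel) this]
    exact (scal_smul_one _).neg

theorem scal_or_scal_of_KE {a : U ≃ₗ[F] U} {d : W ≃ₗ[F] W}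
    (h : (τ.K a d - 1) * (τ.K a d - 1) = 0)
    (hr : (2 : F) ≠ 0 ∨ (3 ≤ finrank F U ∧
      finrank F (LinearMap.range (τ.K a d - 1)) ≤ finrank F W)) :
    Scal (a : End F U) ∨ Scal (d : End F W) := by
  have := τ.finiteDimensional
  by_contra! hcon
  obtain ⟨φ, u, h1, h2⟩ := exists_dual_of_not_scal hcon.1
  obtain ⟨ψ, w, h3, h4⟩ := exists_dual_of_not_scal hcon.2
  simp only [sub_mul, mul_sub, K_mul, mul_one, one_mul] at h
  by_cases h2' : (2 : F) = 0
  · obtain ⟨hk, hr⟩ := hr.resolve_left (not_not.2 h2')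
    have h5 : τ.K (a * a) (d * d) = τ.K 1 1 := by
      have : τ.K a d - 1 + (τ.K a d - 1) = 0 := by rw [← two_smul F, h2', zero_smul]
      rw [K_one]
      linear_combination (norm := abel) h + this
    have h6 := congrArg (τ.sl φ (a u)) h5
    have h7 := congrArg (τ.flip.sl ψ (d w)) h5
    simp only [sl_K, flip_sl_K, End.one_apply] at h6 h7
    rw [show φ (a u) = 1 from h2, one_smul] at h6
    rw [show ψ (d w) = 1 from h4, one_smul] at h7
    obtain ⟨s, hs⟩ := exists_sq_eq h2' (φ (((a : End F U) * a) (a u)))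
    obtain ⟨t, ht⟩ := exists_sq_eq h2' (ψ (((d : End F W) * d) (d w)))
    rw [← hs] at h6
    rw [← ht] at h7
    have h8 : s * t = 1 := by
      have h9 := congrArg (τ.sl φ (a u)) (congrArg (fun z => (t * t) • (s * s) • z) h5)
      have h10 : (t * t) • (s * s) • τ.K (a * a) (d * d) = τ.K 1 1 := by
        rw [← h6, ← h7]; simp [smul_comm (s * s)]
      simp only [h10, map_smul, sl_K, End.one_apply, show φ (a u) = 1 from h2, one_smul,
        smul_smul] at h9
      have h11 := congrArg ψ (LinearMap.congr_fun h9 (d w))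
      simp only [End.one_apply, show ψ (d w) = 1 from h4, LinearMap.smul_apply, map_smul,
        smul_eq_mul] at h11
      have : (s * t - 1) * (s * t - 1) = 0 := by linear_combination -h11 + (1 - s * t) * h2'
      exact sub_eq_zero.1 (mul_self_eq_zero.1 this)
    have h9 : τ.K (t • a) 1 + τ.K 1 (s • d) = (τ.K a d - 1) * τ.K 1 (s • d) := by
      have h10 : s • ((d : End F W) * d) = t • 1 := by
        rw [← h6, smul_smul, show t * (s * s) = s by linear_combination s * h8]
      have h11 : τ.K 1 (s • d) + τ.K 1 (s • (d : End F W)) = 0 := by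
        rw [← two_smul F, h2', zero_smul]
      rw [sub_mul, K_mul, mul_smul_comm, h10, one_mul, mul_one]
      simp only [map_smul, LinearMap.smul_apply] at h11 ⊢
      linear_combination (norm := abel) h11
    have hs0 : s ≠ 0 := left_ne_zero_of_mul_eq_one h8
    have ht0 : t ≠ 0 := right_ne_zero_of_mul_eq_one h8
    refine (τ.scal_or_scal_of_add (x := t • a) (d := s • d) ?_ (Or.inr ⟨hk, ?_⟩)).elim
      (fun h => hcon.1 (h.of_smul ht0)) fun h => hcon.2 (h.of_smul hs0)
    · simp only [add_mul, mul_add, K_mul, mul_one, one_mul, smul_mul_smul_comm, h6, h7, K_one]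
      have h10 : ∀ z : End F V, z + z = 0 := fun z => by rw [← two_smul F, h2', zero_smul]
      linear_combination (norm := abel) h10 1 + h10 (τ.K (t • (a : End F U)) (s • (d : End F W)))
    · rw [h9]
      exact (Submodule.finrank_mono (LinearMap.range_comp_le_range _ _)).trans hr
  · have h5 := congrArg (τ.sl φ u) h
    rw [← τ.K_one] at h5
    simp only [map_sub, sl_K, End.one_apply, h1, h2, zero_smul, one_smul, sub_zero, map_zero] at h5
    refine hcon.2 ⟨2 / φ (((a : End F U) * a) u), fun x => ?_⟩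
    have h6 : ∀ x, φ (((a : End F U) * a) u) • d x = (2 : F) • x := fun x => d.injective (by
      have := LinearMap.congr_fun h5 x
      simp only [LinearMap.sub_apply, LinearMap.smul_apply, End.mul_apply, LinearEquiv.coe_coe,
        LinearMap.zero_apply] at this
      simp only [map_smul, two_smul, map_add, End.mul_apply, LinearEquiv.coe_coe]
      linear_combination (norm := abel) this)
    have h7 : φ (((a : End F U) * a) u) ≠ 0 := fun e => by
      have := congrArg ψ (h6 (d w))
      rw [e] at this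
      simp [show ψ (d w) = 1 from h4] at this
      exact h2' this.symm
    refine smul_right_injective W h7 ?_
    simp only [LinearEquiv.coe_coe, h6, smul_smul]
    rw [mul_div_cancel₀ _ h7]

omit [Finite F] in
theorem rank_K_le {n : End F U} (hn : ∃ u, ∀ x, n x ∈ F ∙ u) :
    finrank F (LinearMap.range (τ.K n 1)) ≤ finrank F W := by
  have := τ.finiteDimensional
  obtain ⟨u, hu⟩ := hn
  refine (Submodule.finrank_mono (t := LinearMap.range (τ.tp u)) ?_).trans
    (LinearMap.finrank_range_le _)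
  rintro _ ⟨v, rfl⟩
  induction v using τ.induction with
  | h0 => simp
  | h y x =>
    obtain ⟨c, hc⟩ := Submodule.mem_span_singleton.1 (hu y)
    exact ⟨c • x, by simp [← hc]⟩
  | hadd a b ha hb => rw [map_add]; exact Submodule.add_mem _ ha hb

variable {τ}

/-- A root element normalising a tensor structure lies in one of the two factors. -/
theorem inA_or_flip [Nontrivial W] {τ' : TS F U W V} {n : End F U} (hn : n * n = 0) {t : F}
    (ht : t ≠ 0) (hr : (2 : F) ≠ 0 ∨ (3 ≤ finrank F U ∧ ∃ u, ∀ x, n x ∈ F ∙ u))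
    (h : τ'.Same (τ'.map (τ.KL (unip hn t)))) : τ'.InA (τ.K n 1) ∨ τ'.flip.InA (τ.K n 1) := by
  have := τ.finiteDimensional
  obtain ⟨a, d, e⟩ := τ'.exists_eq_KE h
  have e1 : τ'.K a d - 1 = t • τ.K n 1 := by
    rw [← coe_KE, ← e]; simp
  refine (τ'.scal_or_scal_of_KE (a := a) (d := d) (by simp [e1, K_mul, hn])
    (hr.imp_right fun h => ⟨h.1, ?_⟩)).symm.imp (fun h => ?_) fun h => ?_
  · rw [e1, LinearMap.range_smul _ _ ht]
    exact τ.rank_K_le h.2
  · obtain ⟨c, hc⟩ := h.eq
    refine InA.of_smul ht (e1 ▸ InA.sub ⟨c • a, by simp [hc]⟩ inA_one)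
  · obtain ⟨c, hc⟩ := h.eq
    refine InA.of_smul ht (e1 ▸ InA.sub ⟨c • d, by simp [hc]⟩ inA_one)

omit [Finite F] in
theorem same_of_cent {U' W' : Type*} [AddCommGroup U'] [Module F U'] [AddCommGroup W']
    [Module F W'] [FiniteDimensional F U'] {τ' : TS F U' W' V} {R : Set (End F U)}
    (hR : ∀ z : End F U, (∀ n ∈ R, n * z = z * n) → Scal z) (h : ∀ n ∈ R, τ'.InA (τ.K n 1)) :
    τ'.Same τ := fun a => τ'.inA_of_comm fun d => by
  have h1 : τ.flip.InA (τ'.K 1 d) := τ.flip.inA_of_sl fun ψ w => hR _ fun n hn =>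
    LinearMap.ext fun u => by
      have := congrArg (τ.flip.pr ψ) (LinearMap.congr_fun ((h n hn).comm d) (τ.tp u w))
      simp only [End.mul_apply, K_tp, End.one_apply] at this
      rw [← τ.flip_K, pr_K] at this
      exact this.symm
  have := h1.comm a
  rw [flip_K] at this
  exact this.symm

variable {X : Subgroup (V ≃ₗ[F] V)}

theorem root_of_rigid [Nontrivial W] {R : Set (End F U)} (hsq : ∀ n ∈ R, n * n = 0)
    {A : AddSubgroup F} (hmem : ∀ n (hn : n ∈ R), ∀ t ∈ A, τ.KL (unip (hsq n hn) t) ∈ X)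
    (hR : ∀ z : End F U, (∀ n ∈ R, n * z = z * n) → Scal z)
    (hr : (2 : F) ≠ 0 ∨ (3 ≤ finrank F U ∧ ∀ n ∈ R, ∃ u, ∀ x, n x ∈ F ∙ u))
    (hrig : ∀ n ∈ R, ∀ g ∈ X, (τ.map g).InA (τ.K n 1) → (τ.map g).Same τ)
    {n : End F U} (hn : n ∈ R) : τ.Root X (hsq n hn) A where
  mem := hmem n hn
  rig t ht ht0 g hg h := by
    have hsymm : ∀ g : V ≃ₗ[F] V, (τ.map g).Same τ → τ.Same (τ.map g) := fun g h => by
      have := Same.symm_map (τ := τ.map g) (g := g⁻¹) (by rwa [← map_mul, inv_mul_cancel])
      rwa [← map_mul, inv_mul_cancel] at this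
    rcases inA_or_flip (hsq n hn) ht0 (hr.imp_right fun h => ⟨h.1, h.2 n hn⟩) h with h1 | h1
    · exact Or.inl (hsymm g (hrig n hn g hg h1))
    by_cases h2 : ∃ n' ∈ R, τ.InA ((τ.map g).K n' 1)
    · obtain ⟨n', hn', h2⟩ := h2
      have h3 := h2.map g⁻¹
      rw [← map_K, ← map_mul, inv_mul_cancel, map_one] at h3
      have := (hrig n' hn' _ (X.inv_mem hg) h3).map g
      rw [← map_mul, mul_inv_cancel] at this
      exact Or.inl this
    refine Or.inr (same_of_cent hR fun n' hn' => ?_)
    refine (inA_or_flip (τ := τ.map g) (hsq n' hn') ht0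
      (hr.imp_right fun h => ⟨h.1, h.2 n' hn'⟩) (hsymm _ (hrig n hn _ ?_ ?_))).resolve_left
      fun h3 => h2 ⟨n', hn', h3⟩
    · convert X.mul_mem (X.mul_mem hg (hmem n' hn' t ht)) (X.inv_mem hg) using 1
      exact LinearEquiv.ext fun v => τ.map_K_apply' g _ _ v
    · rw [map_inA]
      have h3 := h1.comm (unip (hsq n' hn') t)
      rw [flip_K] at h3
      rw [coe_KL, mul_assoc, ← h3, ← mul_assoc, ← coe_KL,
        show ((((τ.map g).KL (unip (hsq n' hn') t)).symm : End F V)) *
          ((τ.map g).KL (unip (hsq n' hn') t) : End F V) = 1 from LinearMap.ext fun x => by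
            simp only [End.mul_apply, LinearEquiv.coe_coe, LinearEquiv.symm_apply_apply,
              End.one_apply], one_mul]
      exact τ.inA_K n

theorem Root.same_or_comm' [Nontrivial W] {n : End F U} {hn : n * n = 0} {A : AddSubgroup F}
    (h : τ.Root X hn A) (hA : A ≠ ⊥)
    (hr : (2 : F) ≠ 0 ∨ (3 ≤ finrank F U ∧ ∃ u, ∀ x, n x ∈ F ∙ u))
    (hK : ∀ z : End F U, (∀ x, (∀ d, τ.δ X (τ.K x d) = 0) → LinearMap.trace F U (z * x) = 0) →
      Scal z) {g : V ≃ₗ[F] V} (hg : g ∈ X) : τ.Same (τ.map g) ∨ τ.flip.Same (τ.map g) := by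
  refine h.same_or_comm hA (LinearMap.isNilpotent_trace_of_isNilpotent ?_).eq_zero (fun x d hx => ?_)
    (fun g _ x d e => τ.scal_or_scal_of_add (by rw [← e, K_mul, hn]; simp)
      (hr.imp_right fun h => ⟨h.1, e ▸ (τ.map g).rank_K_le h.2⟩)) hg
  · exact ⟨2, by rw [sq, hn]⟩
  · have := map_eq_zero_of_trace (L := τ.K.compr₂ (τ.δ X)) (fun z hz => hK z fun x hx =>
      hz x (LinearMap.ext hx)) hx
    exact LinearMap.congr_fun this d

end TS

end Cfsg.Agent.Tens
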