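import Cfsg.Agent.Tens.Form

/-!
Polar spaces of Witt index at least two.
-/

set_option autoImplicit false
set_option linter.unusedSectionVars false

namespace Cfsg.Agent.H7.Polar

open Module Cfsg.Agent.Tens

variable {F V : Type*} [Field F] [AddCommGroup V] [Module F V] (P : Polar F V)

/-- The Witt index is at least two. -/
def W2 : Prop := ∃ e f : V, P.Val e 0 ∧ P.Val f 0 ∧ P.B f e = 0 ∧ e ≠ 0 ∧ f ∉ F ∙ e

variable {P}

theorem sing_add {e f : V} (he : P.Val e 0) (hf : P.Val f 0) (h : P.B e f = 0) :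
    P.Val (e + f) 0 := val_congr (val_add_orth he hf h) (add_zero 0)

variable [Finite F] [FiniteDimensional F V]

theorem exists_partner {e : V} (he : P.Val e 0) (h0 : e ≠ 0) :
    ∃ e', P.Val e' 0 ∧ P.B e' e = 1 := by
  obtain ⟨f, -, h1, h2⟩ := exists_hyperbolic (U := ⊥) he (by simpa using h0)
    (by simp [perp_bot]) P.ε P.ε_ne_zero
  exact ⟨f, h1, by rw [P.herm e f, h2]; simp⟩

/-- A partner of `f` orthogonal to `e`, for a totally singular pair `e`, `f`. -/
theorem exists_partner_perp {e f : V} (hf : P.Val f 0) (hfe : P.B f e = 0) (h : f ∉ F ∙ e) :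
    ∃ f', P.Val f' 0 ∧ P.B f' e = 0 ∧ P.B f' f = 1 := by
  obtain ⟨g, h0, h1, h2⟩ := exists_hyperbolic (U := F ∙ e) hf h
    (by rwa [perp_span_singleton]) P.ε P.ε_ne_zero
  rw [perp_span_singleton] at h0
  exact ⟨g, h1, h0, by rw [P.herm f g, h2]; simp⟩

/-- In a subspace `M`, the singular vectors span as soon as some singular vector of `M` is not in
the radical of `M`. -/
theorem sing_induction {M : Submodule F V} {f f' : V} (hf : P.Val f 0) (hf' : P.Val f' 0)
    (hfM : f ∈ M) (hf'M : f' ∈ M) (hff' : P.B f' f ≠ 0) {p : V → Prop}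
    (h : ∀ u ∈ M, P.Val u 0 → p u) (hadd : ∀ u v, p u → p v → p (u + v)) {y : V} (hy : y ∈ M) :
    p y := by
  have key : ∀ y ∈ M, P.B y f ≠ 0 → p y := fun y hy h1 => by
    obtain ⟨a, ha⟩ := exists_val_add_sing hf h1 0
    have := hadd _ _ (h _ (M.add_mem hy (M.smul_mem a hfM)) ha)
      (h _ (M.smul_mem (-a) hfM) (sing_smul hf (-a)))
    simpa using this
  by_cases h1 : P.B y f = 0
  · have := hadd _ _ (key (y + f') (M.add_mem hy hf'M) (by simpa [h1] using hff'))
      (h _ (M.neg_mem hf'M) (val_neg hf'))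
    simpa using this
  · exact key y hy h1

theorem sing_induction_top {e : V} (he : P.Val e 0) (h0 : e ≠ 0) {p : V → Prop}
    (h : ∀ u, P.Val u 0 → p u) (hadd : ∀ u v, p u → p v → p (u + v)) (y : V) : p y := by
  obtain ⟨e', h1, h2⟩ := exists_partner he h0
  exact sing_induction (M := ⊤) he h1 trivial trivial (by simp [h2]) (fun u _ => h u) hadd trivial

theorem exists_sing_B_ne {e : V} (he : P.Val e 0) (h0 : e ≠ 0) {z : V} (hz : z ≠ 0) :
    ∃ u, P.Val u 0 ∧ P.B z u ≠ 0 := by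
  by_contra! h
  exact hz (P.nondeg' (sing_induction_top he h0 h fun u v hu hv => by simp [hu, hv]))

omit [Finite F] [FiniteDimensional F V] in
theorem eigen_eq_of_add {z : End F V} {u v : V} (hu : u ≠ 0) (hv : v ∉ F ∙ u) {a c d : F}
    (ha : a ≠ 0) (hc : z u = c • u) (hd : z v = d • v) (h : z (v + a • u) ∈ F ∙ (v + a • u)) :
    d = c := by
  obtain ⟨k, hk⟩ := Submodule.mem_span_singleton.1 h
  rw [map_add, map_smul, hc, hd] at hk
  obtain ⟨φ, h1, h2⟩ := exists_dual_one₂ hv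
  have h3 := congrArg φ hk
  simp [h1, h2] at h3
  subst h3
  rw [smul_add, add_right_inj, smul_comm] at hk
  exact smul_left_injective F hu (smul_right_injective V ha hk)

omit [Finite F] [FiniteDimensional F V] in
theorem notMem_span_of_B_ne {u v : V} (hu : P.B u u = 0) (h : P.B v u ≠ 0) : v ∉ F ∙ u := by
  intro hv
  obtain ⟨c, rfl⟩ := Submodule.mem_span_singleton.1 hv
  simp [hu] at h

omit [Finite F] [FiniteDimensional F V] in
theorem exists_sing_add_of_lam (hΛ : ∃ c, c ≠ 0 ∧ P.Val 0 c) {u v : V} (hu : P.Val u 0)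
    (hv : P.Val v 0) (h : P.B v u ≠ 0) : ∃ a : F, a ≠ 0 ∧ P.Val (v + a • u) 0 := by
  obtain ⟨k, hk0, hk⟩ := hΛ
  refine ⟨P.σ (k / P.B v u), by simp [hk0, h], ?_⟩
  exact val_congr (val_sub_lam (val_add_sing hv hu (P.σ (k / P.B v u))) hk) (by simp [h])

/-- If all singular vectors are eigenvectors then the map is scalar (symplectic and unitary
case). -/
theorem scal_of_sing_eigen_lam (hΛ : ∃ c, c ≠ 0 ∧ P.Val 0 c) {e : V} (he : P.Val e 0) (h0 : e ≠ 0)
    {z : End F V} (h : ∀ u, P.Val u 0 → z u ∈ F ∙ u) : Scal z := by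
  have key : ∀ u v, P.Val u 0 → P.Val v 0 → P.B v u ≠ 0 → ∀ c : F, z u = c • u → z v = c • v := by
    intro u v hu hv huv c hc
    obtain ⟨d, hd⟩ := Submodule.mem_span_singleton.1 (h v hv)
    obtain ⟨a, ha, ha'⟩ := exists_sing_add_of_lam hΛ hu hv huv
    rw [← hd, eigen_eq_of_add (fun e => huv (by simp [e])) (notMem_span_of_B_ne (sing_B hu) huv) ha
      hc hd.symm (h _ ha')]
  obtain ⟨c, hc⟩ := Submodule.mem_span_singleton.1 (h e he)
  refine ⟨c, sing_induction_top he h0 (fun u hu => ?_) fun u v hu hv => by simp [hu, hv]⟩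
  by_cases hu0 : u = 0
  · simp [hu0]
  by_cases h1 : P.B e u = 0
  · obtain ⟨y, hy, h2, h3⟩ := exists_sing_not_perp he h0 hu0 h1
    exact key y u hy hu (P.B_ne_symm h3) c (key e y he hy h2 c hc.symm)
  · exact key e u he hu (P.B_ne_symm h1) c hc.symm

namespace W2

variable (h : P.W2)
include h

omit [Finite F] [FiniteDimensional F V] in
theorem exists_sing : ∃ e, P.Val e 0 ∧ e ≠ 0 := by
  obtain ⟨e, f, he, -, -, h0, -⟩ := h
  exact ⟨e, he, h0⟩

omit [Finite F] [FiniteDimensional F V] in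
theorem exists_perp {u : V} (h0 : u ≠ 0) : ∃ f, P.Val f 0 ∧ P.B f u = 0 ∧ f ∉ F ∙ u ∨
    ¬ P.Val u 0 := by
  obtain ⟨e, f, he, hf, hfe, he0, hfe'⟩ := h
  have hef := P.B_symm hfe
  obtain ⟨g, hg, hgu, hg0, hge, hgf⟩ :
      ∃ g, P.Val g 0 ∧ P.B g u = 0 ∧ g ≠ 0 ∧ P.B e g = 0 ∧ P.B f g = 0 := by
    by_cases h1 : P.B e u = 0
    · exact ⟨e, he, h1, he0, sing_B he, hfe⟩
    · refine ⟨f + (-(P.B f u / P.B e u)) • e, sing_add hf (sing_smul he _) (by simp [hfe]),
        by simp [h1], fun h2 => hfe' ?_, by simp [hef, sing_B he], by simp [hfe, sing_B hf]⟩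
      rw [eq_neg_of_add_eq_zero_left h2]
      exact Submodule.neg_mem _ (Submodule.smul_mem _ _ (Submodule.mem_span_singleton_self e))
  by_cases h2 : g ∈ F ∙ u
  · obtain ⟨c, rfl⟩ := Submodule.mem_span_singleton.1 h2
    have hc : c ≠ 0 := fun e => hg0 (by simp [e])
    by_cases h3 : e ∈ F ∙ u
    · refine ⟨f, Or.inl ⟨hf, by simpa [hc] using hgf, fun h4 => hfe' ?_⟩⟩
      obtain ⟨a, rfl⟩ := Submodule.mem_span_singleton.1 h3
      obtain ⟨b, rfl⟩ := Submodule.mem_span_singleton.1 h4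
      have ha : a ≠ 0 := fun e => he0 (by simp [e])
      exact Submodule.mem_span_singleton.2 ⟨b / a, by simp [smul_smul, ha]⟩
    · exact ⟨e, Or.inl ⟨he, by simpa [hc] using hge, h3⟩⟩
  · exact ⟨g, Or.inl ⟨hg, hgu, h2⟩⟩

omit [Finite F] [FiniteDimensional F V] in
theorem exists_sing_perp {u : V} (hu : P.Val u 0) (h0 : u ≠ 0) :
    ∃ f, P.Val f 0 ∧ P.B f u = 0 ∧ f ∉ F ∙ u := by
  obtain ⟨f, hf⟩ := h.exists_perp h0
  exact ⟨f, hf.resolve_right (not_not.2 hu)⟩

omit [Finite F] [FiniteDimensional F V] in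
/-- A singular vector orthogonal to a hyperbolic pair. -/
theorem exists_sing_perp₂ {u v : V} (hu : P.Val u 0) (huv : P.B u v ≠ 0) :
    ∃ f, P.Val f 0 ∧ P.B f u = 0 ∧ P.B f v = 0 ∧ f ≠ 0 := by
  obtain ⟨g, hg, hgu, hg'⟩ := h.exists_sing_perp hu (fun e => huv (by simp [e]))
  refine ⟨g + (-(P.B g v / P.B u v)) • u, sing_add hg (sing_smul hu _) (by simp [hgu]),
    by simp [hgu, sing_B hu], by simp [huv], fun h2 => hg' ?_⟩
  rw [eq_neg_of_add_eq_zero_left h2]
  exact Submodule.neg_mem _ (Submodule.smul_mem _ _ (Submodule.mem_span_singleton_self u))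

omit [Finite F] [FiniteDimensional F V] in
/-- The collinearity graph is connected. -/
theorem connected {p : V → Prop}
    (hp : ∀ e f, P.Val e 0 → P.Val f 0 → e ≠ 0 → f ≠ 0 → P.B f e = 0 → p e → p f)
    {e f : V} (he : P.Val e 0) (hf : P.Val f 0) (he0 : e ≠ 0) (hf0 : f ≠ 0) (h1 : p e) : p f := by
  by_cases h2 : P.B e f = 0
  · exact hp e f he hf he0 hf0 (P.B_symm h2) h1
  · obtain ⟨g, hg, h3, h4, h5⟩ := h.exists_sing_perp₂ he h2
    exact hp g f hg hf h5 hf0 (P.B_symm h4) (hp e g he hg he0 h5 h3 h1)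

/-- The orthogonal complement of a singular vector is spanned by singular vectors. -/
theorem perp_induction {e : V} (he : P.Val e 0) (h0 : e ≠ 0) {p : V → Prop}
    (hp : ∀ u, P.B u e = 0 → P.Val u 0 → p u) (hadd : ∀ u v, p u → p v → p (u + v)) {y : V}
    (hy : P.B y e = 0) : p y := by
  obtain ⟨f, hf, hfe, hfe'⟩ := h.exists_sing_perp he h0
  obtain ⟨f', h1, h2, h3⟩ := exists_partner_perp hf hfe hfe'
  exact sing_induction (M := P.pp e) hf h1 hfe h2 (by simp [h3]) hp hadd hy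

theorem four_le : 4 ≤ finrank F V := by
  obtain ⟨e, f, he, hf, hfe, h0, hfe'⟩ := h
  have h1 : (F ∙ e) ⊔ (F ∙ f) ≤ P.perp ((F ∙ e) ⊔ F ∙ f) := by
    rw [perp_sup, perp_span_singleton, perp_span_singleton]
    simp [hfe, P.B_symm hfe, sing_B he, sing_B hf]
  have h2 := Submodule.finrank_mono h1
  have h3 := P.finrank_perp ((F ∙ e) ⊔ F ∙ f)
  rw [Submodule.finrank_sup_span_singleton hfe', finrank_span_singleton h0] at h2 h3
  omega

theorem scal_of_sing_eigen {z : End F V} (hz : ∀ u, P.Val u 0 → z u ∈ F ∙ u) : Scal z := by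
  obtain ⟨e, he, h0⟩ := h.exists_sing
  obtain ⟨c, hc⟩ := Submodule.mem_span_singleton.1 (hz e he)
  refine ⟨c, sing_induction_top he h0 (fun u hu => ?_) fun u v hu hv => by simp [hu, hv]⟩
  by_cases hu0 : u = 0
  · simp [hu0]
  refine h.connected (p := fun u => z u = c • u) (fun u v hu hv hu0 hv0 huv h1 => ?_) he hu h0 hu0
    hc.symm
  by_cases h2 : v ∈ F ∙ u
  · obtain ⟨a, rfl⟩ := Submodule.mem_span_singleton.1 h2
    rw [map_smul, h1, smul_comm]
  · obtain ⟨d, hd⟩ := Submodule.mem_span_singleton.1 (hz v hv)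
    rw [← hd, eigen_eq_of_add hu0 h2 one_ne_zero h1 hd.symm
      (hz _ (sing_add hv (sing_smul hu 1) (by simp [huv])))]

/-- A map which is orthogonal to all rank one maps of totally singular pairs is scalar. -/
theorem scal_of_sing {z : End F V}
    (hz : ∀ u v, P.Val u 0 → P.Val v 0 → P.B v u = 0 → P.B (z u) v = 0) : Scal z := by
  refine h.scal_of_sing_eigen fun u hu => ?_
  by_cases h0 : u = 0
  · simp [h0]
  rw [← perp_perp (P := P) (F ∙ u), perp_span_singleton]
  intro y hy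
  exact h.perp_induction hu h0 (p := fun y => P.B (z u) y = 0) (fun v h1 h2 => hz u v hu h2 h1)
    (fun a b ha hb => by simp [ha, hb]) hy

end W2

theorem Wild.w2 {d : ℕ} (hw : P.Wild d) (hn : d + 2 ≤ finrank F V) : P.W2 := by
  obtain ⟨e, -, h0, he⟩ := hw ⊤ (by rw [finrank_top]; omega)
  obtain ⟨f, h1, h2, h3⟩ := hw.exists_notMem (⊤ ⊓ P.pp e) (F ∙ e) (by
    have := finrank_inf_pp_ge (P := P) ⊤ e
    rw [finrank_top] at this
    rw [finrank_span_singleton h0]; omega)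
  exact ⟨e, f, he, h3, h1.2, h0, h2⟩

end Cfsg.Agent.H7.Polar
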