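import Cfsg.Agent.Tens.RK
import Cfsg.Agent.Tens.W2

/-!
Rigidity of tensor structures whose first factor has Witt index at least two.
-/

set_option autoImplicit false
set_option linter.unusedSectionVars false

namespace Cfsg.Agent.Tens

open Module Cfsg.Agent.H7

variable {F U W V : Type*} [Field F] [AddCommGroup U] [Module F U] [AddCommGroup W] [Module F W]
  [AddCommGroup V] [Module F V] [Finite F] [FiniteDimensional F U] [FiniteDimensional F W]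

theorem inv_mul_apply_eq {g c : V ≃ₗ[F] V} {v w : V} : (g⁻¹ * c) v = w ↔ c v = g w :=
  g.symm_apply_eq

theorem conj_apply_eq {g c : V ≃ₗ[F] V} {v w : V} : (g⁻¹ * c * g) v = w ↔ c (g v) = g w :=
  g.symm_apply_eq

namespace TS

variable (τ : TS F U W V) {PU : Polar F U}

theorem KL_eichE {e w : U} {c : F} (he : PU.Val e 0) (hw : PU.B w e = 0) (hc : PU.Val w c) (v : V) :
    τ.KL (Polar.eichE he hw hc) v = v + τ.tp w (τ.pB PU e v) -
      τ.tp e (PU.ε • τ.pB PU w v + PU.σ c • τ.pB PU e v) := by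
  induction v using τ.induction with
  | h0 => simp
  | h y x =>
    simp only [KL_tp, Polar.eichE_apply, Polar.eich, pB_tp, map_add, map_sub, map_smul,
      LinearMap.add_apply, LinearMap.sub_apply, LinearMap.smul_apply]
    module
  | hadd a b ha hb => simp only [map_add, ha, hb, smul_add]; abel

theorem coe_KL_eich {e w : U} {c : F} (he : PU.Val e 0) (hw : PU.B w e = 0) (hc : PU.Val w c) :
    (τ.KL (Polar.eichE he hw hc) : End F V) =
      1 + τ.K (PU.th w e - PU.ε • PU.th e w - PU.σ c • PU.th e e) 1 := by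
  rw [coe_KL, show (Polar.eichE he hw hc : End F U) = PU.eichL e w c from rfl, Polar.eichL_eq]
  simp only [map_add, map_sub, LinearMap.add_apply, LinearMap.sub_apply, K_one]
  abel

variable {τ}

theorem InQ.apply {e : U} {c : V ≃ₗ[F] V} (h : τ.InQ PU e c) {v : V} (hv : τ.pB PU e v = 0) :
    ∃ x', c v = v + τ.tp e x' :=
  τ.perp_induction PU hv (p := fun v => ∃ x', c v = v + τ.tp e x') ⟨0, by simp⟩
    (fun y x hy => h.2 y hy x) fun v v' ⟨a, ha⟩ ⟨b, hb⟩ =>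
      ⟨a + b, by simp only [map_add, ha, hb]; abel⟩

theorem inQ_of {e : U} {c : V ≃ₗ[F] V} (h1 : ∀ x, c (τ.tp e x) = τ.tp e x)
    (h2 : ∀ v, τ.pB PU e v = 0 → ∃ x', c v = v + τ.tp e x') : τ.InQ PU e c :=
  ⟨h1, fun y hy x => h2 _ (by simp [hy])⟩

theorem inQ_eich {e w : U} {c : F} (he : PU.Val e 0) (hw : PU.B w e = 0) (hc : PU.Val w c) :
    τ.InQ PU e (τ.KL (Polar.eichE he hw hc)) :=
  inQ_of (fun x => by simp [Polar.eich_fix c (Polar.sing_B he) (PU.B_symm hw)])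
    fun v hv => ⟨-(PU.ε • τ.pB PU w v), by simp [KL_eichE, hv, sub_eq_add_neg, -KL_apply]⟩

theorem exists_range_eq [Nontrivial W] {τ' : TS F U W V} {e e' : U} (he : e ≠ 0) (he' : e' ≠ 0)
    (h : τ'.InA (τ.K (PU.th e e') 1)) :
    ∃ f, f ≠ 0 ∧ LinearMap.range (τ.tp e) = LinearMap.range (τ'.tp f) := by
  have := τ.finiteDimensional
  obtain ⟨n, hn⟩ := h
  obtain ⟨u, hu⟩ : ∃ u, n u ≠ 0 := by
    by_contra! h0
    obtain ⟨y, hy⟩ := PU.exists_B_ne he'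
    obtain ⟨x, hx⟩ := exists_ne (0 : W)
    have := LinearMap.congr_fun hn (τ.tp y x)
    rw [show n = 0 from LinearMap.ext h0] at this
    simp [PU.B_ne_symm hy, τ.tp_ne_zero he hx] at this
  refine ⟨n u, hu, (Submodule.eq_of_le_of_finrank_eq ?_ ?_).symm⟩
  · rintro _ ⟨x, rfl⟩
    exact ⟨τ.pB PU e' (τ'.tp u x), by simpa [K_th] using LinearMap.congr_fun hn (τ'.tp u x)⟩
  · rw [LinearMap.finrank_range_of_inj (τ'.tp_inj hu), LinearMap.finrank_range_of_inj (τ.tp_inj he)]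

variable (τ) in
theorem finrank_sup_range {e v : U} (he : e ≠ 0) (hv : v ∉ F ∙ e) :
    finrank F ↥(LinearMap.range (τ.tp e) ⊔ LinearMap.range (τ.tp v)) = 2 * finrank F W := by
  rw [← LinearMap.range_coprod, LinearMap.finrank_range_of_inj, finrank_prod, two_mul]
  refine (injective_iff_map_eq_zero _).2 fun ⟨x, y⟩ h => ?_
  obtain ⟨φ, h1, h2⟩ := exists_dual_one₂ hv
  have h3 : y = 0 := by simpa [h1, h2] using congrArg (τ.pr φ) h
  subst h3
  simpa using τ.tp_eq_zero he (by simpa using h)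

theorem exists_sup_range_eq [Nontrivial W] {τ' : TS F U W V} {e v : U} (he : e ≠ 0)
    (hv : v ∉ F ∙ e) {a : End F U} (ha : ∀ y, a y ∈ (F ∙ e) ⊔ F ∙ v) (hae : ∃ y, a y = e)
    (hav : ∃ y, a y = v) (h : τ'.InA (τ.K a 1)) :
    ∃ f f', f ≠ 0 ∧ f' ∉ F ∙ f ∧ LinearMap.range (τ.tp e) ⊔ LinearMap.range (τ.tp v) =
      LinearMap.range (τ'.tp f) ⊔ LinearMap.range (τ'.tp f') := by
  have := τ.finiteDimensional
  obtain ⟨n, hn⟩ := h
  have h1 : LinearMap.range (τ.K a 1) = LinearMap.range (τ.tp e) ⊔ LinearMap.range (τ.tp v) := by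
    refine le_antisymm ?_ (sup_le ?_ ?_)
    · rintro _ ⟨z, rfl⟩
      induction z using τ.induction with
      | h0 => simp
      | h y x =>
        obtain ⟨_, h2, _, h3, h4⟩ := Submodule.mem_sup.1 (ha y)
        obtain ⟨b, rfl⟩ := Submodule.mem_span_singleton.1 h2
        obtain ⟨c, rfl⟩ := Submodule.mem_span_singleton.1 h3
        exact Submodule.mem_sup.2 ⟨_, ⟨b • x, rfl⟩, _, ⟨c • x, rfl⟩, by simp [← h4]⟩
      | hadd a b ha hb => rw [map_add]; exact Submodule.add_mem _ ha hb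
    · rintro _ ⟨x, rfl⟩
      obtain ⟨y, rfl⟩ := hae
      exact ⟨τ.tp y x, by simp⟩
    · rintro _ ⟨x, rfl⟩
      obtain ⟨y, rfl⟩ := hav
      exact ⟨τ.tp y x, by simp⟩
  have h2 := τ.finrank_sup_range he hv
  have h3 : 0 < finrank F W := finrank_pos
  have h4 : ∀ f, ∃ u, n u ∉ F ∙ f := fun f => by
    by_contra! h5
    have := τ'.rank_K_le ⟨f, h5⟩
    rw [← hn, h1] at this
    omega
  obtain ⟨u, hu⟩ := h4 0
  obtain ⟨u', hu'⟩ := h4 (n u)
  have hu0 : n u ≠ 0 := by simpa using hu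
  refine ⟨n u, n u', hu0, hu', (Submodule.eq_of_le_of_finrank_eq ?_ ?_).symm⟩
  · rw [← h1, hn]
    refine sup_le ?_ ?_ <;> rintro _ ⟨x, rfl⟩
    · exact ⟨τ'.tp u x, by simp⟩
    · exact ⟨τ'.tp u' x, by simp⟩
  · rw [h2, τ'.finrank_sup_range hu0 hu']

end TS

/-- The standing assumptions of the rigidity theorem. -/
structure Good (τ : TS F U W V) (PU : Polar F U) (PW : Polar F W) (PV : Polar F V)
    (X : Subgroup (V ≃ₗ[F] V)) : Prop where
  compat : Compat τ PU PW PV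
  iso : X ≤ PV.Iso
  left : ∀ g ∈ PU.E, τ.KL g ∈ X
  hpt : τ.Hpt PU X
  val : ∀ u, PU.B u u = 0 → PU.Val u 0

theorem Compat.B_eq_zero [Nontrivial W] {τ : TS F U W V} {PU : Polar F U} {PW : Polar F W}
    {PV : Polar F V} (h : Compat τ PU PW PV) {u u' : U}
    (h0 : ∀ x x', PV.B (τ.tp u x) (τ.tp u' x') = 0) : PU.B u u' = 0 := by
  obtain ⟨x, hx⟩ := exists_ne (0 : W)
  obtain ⟨y, hy⟩ := PW.exists_B_ne hx
  simpa [h.B_tp, hy] using h0 x y

theorem Compat.pB_eq_zero_of_le {τ τ' : TS F U W V} {PU : Polar F U} {PW : Polar F W}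
    {PV : Polar F V} (h : Compat τ PU PW PV) (h' : Compat τ' PU PW PV) {e f f' y : U}
    (hle : LinearMap.range (τ.tp e) ≤ LinearMap.range (τ'.tp f) ⊔ LinearMap.range (τ'.tp f'))
    (h1 : PU.B y f = 0) (h2 : PU.B y f' = 0) (x : W) : τ.pB PU e (τ'.tp y x) = 0 :=
  h.pB_eq_zero fun z => by
    obtain ⟨_, ⟨a, rfl⟩, _, ⟨b, rfl⟩, h3⟩ := Submodule.mem_sup.1 (hle ⟨z, rfl⟩)
    rw [← h3]
    simp [h'.B_tp, h1, h2]

theorem Compat.inQ_of_range_eq {τ τ' : TS F U W V} {PU : Polar F U} {PW : Polar F W}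
    {PV : Polar F V} (h : Compat τ PU PW PV) (h' : Compat τ' PU PW PV) {e f : U}
    (hef : LinearMap.range (τ.tp e) = LinearMap.range (τ'.tp f)) {c : V ≃ₗ[F] V}
    (hc : τ.InQ PU e c) : τ'.InQ PU f c := by
  refine ⟨fun x => ?_, fun y hy x => ?_⟩
  · obtain ⟨z, hz⟩ : τ'.tp f x ∈ LinearMap.range (τ.tp e) := hef ▸ ⟨x, rfl⟩
    rw [← hz, hc.1]
  · obtain ⟨z, hz⟩ := hc.apply (h.pB_eq_zero_of_le h' (hef.le.trans le_sup_left) hy hy x)
    obtain ⟨z', hz'⟩ : τ.tp e z ∈ LinearMap.range (τ'.tp f) := hef ▸ ⟨z, rfl⟩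
    exact ⟨z', by rw [hz, hz']⟩

namespace Good

variable {τ : TS F U W V} {PU : Polar F U} {PW : Polar F W} {PV : Polar F V}
  {X : Subgroup (V ≃ₗ[F] V)} (h : Good τ PU PW PV X)
include h

theorem map {g : V ≃ₗ[F] V} (hg : g ∈ X) : Good (τ.map g) PU PW PV X where
  compat := h.compat.map (h.iso hg)
  iso := h.iso
  left k hk := by
    convert X.mul_mem (X.mul_mem hg (h.left k hk)) (X.inv_mem hg) using 1
    exact LinearEquiv.ext fun v => τ.map_K_apply' g _ _ v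
  hpt e he he0 c hc hQ := TS.map_inA.2 (h.hpt e he he0 (g⁻¹ * c * g)
    (X.mul_mem (X.mul_mem (X.inv_mem hg) hc) hg)
    ⟨fun x => g.symm_apply_eq.2 (hQ.1 x), fun y hy x => by
      obtain ⟨x', hx'⟩ := hQ.2 y hy x
      exact ⟨x', g.symm_apply_eq.2 (by rw [map_add]; exact hx')⟩⟩)
  val := h.val

/-- An element fixing `e ⊗ W` pointwise acts on the first factor of `e^⊥ / e ⊗ W`. -/
theorem scal_of_fix {e : U} (he : PU.Val e 0) (he0 : e ≠ 0) {c : V ≃ₗ[F] V} (hc : c ∈ X)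
    (hce : ∀ x, c (τ.tp e x) = τ.tp e x) {y u : U} (hy : PU.B y e = 0) (hu : PU.B u e = 0) :
    ∃ s : F, ∀ x, τ.pB PU y (c (τ.tp u x)) = s • x := by
  obtain ⟨κ, hκ⟩ := PU.val_ex y
  have h1 : ∀ v, τ.pB PU e v = 0 → (c⁻¹ * τ.KL (Polar.eichE he hy hκ) * c) v =
      v + τ.tp e (-(PU.ε • τ.pB PU y (c v))) := fun v hv => conj_apply_eq.2 (by
    rw [TS.KL_eichE, h.compat.pB_apply (h.iso hc) hce, hv, map_add c, hce]
    simp [sub_eq_add_neg])
  obtain ⟨a, ha⟩ := h.hpt e he he0 (c⁻¹ * τ.KL (Polar.eichE he hy hκ) * c)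
    (X.mul_mem (X.mul_mem (X.inv_mem hc) (h.left _ (Polar.eichE_mem_E _ _ _))) hc)
    (TS.inQ_of (fun x => conj_apply_eq.2 (by rw [hce, (TS.inQ_eich he hy hκ).1]))
      fun v hv => ⟨_, h1 v hv⟩)
  obtain ⟨φ, hφ⟩ := exists_dual_one' (F := F) he0
  refine ⟨PU.ε * (φ u - φ (a u)), fun x => ?_⟩
  have h2 := congrArg (τ.pr φ) ((h1 (τ.tp u x) (by simp [hu])).symm.trans
    (LinearMap.congr_fun ha (τ.tp u x)))
  simp only [map_add, TS.pr_tp, hφ, one_smul, TS.K_tp, End.one_apply] at h2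
  rw [mul_smul, sub_smul, ← h2]
  simp [smul_smul]

variable [Nontrivial W]

/-- The elements of the unipotent radical attached to a totally singular line act on the first
factor only. -/
theorem inA_of_line {e v : U} (he : PU.Val e 0) (hv : PU.Val v 0) (hve : PU.B v e = 0) (he0 : e ≠ 0)
    (hv0 : v ∉ F ∙ e) {c : V ≃ₗ[F] V} (hc : c ∈ X) (hce : ∀ x, c (τ.tp e x) = τ.tp e x)
    (hcv : ∀ x, c (τ.tp v x) = τ.tp v x)
    (hcy : ∀ y, PU.B y e = 0 → PU.B y v = 0 → ∀ x, c (τ.tp y x) - τ.tp y x ∈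
      LinearMap.range (τ.tp e) ⊔ LinearMap.range (τ.tp v)) : τ.InA c := by
  obtain ⟨v', h1, h2, h3⟩ := Polar.exists_partner_perp hv hve hv0
  obtain ⟨x₀, hx₀⟩ := exists_ne (0 : W)
  obtain ⟨ψ, hψ⟩ := exists_dual_one' (F := F) hx₀
  obtain ⟨u, hu⟩ : ∃ u, ∀ x, ∃ x', c (τ.tp v' x) = τ.tp u x + τ.tp e x' := by
    refine ⟨τ.flip.pr ψ (c (τ.tp v' x₀)), fun x => ?_⟩
    obtain ⟨x', hx'⟩ := τ.exists_eq_tp_of_pB PU (e := e)
      (v := c (τ.tp v' x) - τ.tp (τ.flip.pr ψ (c (τ.tp v' x₀))) x) fun y hy => by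
        obtain ⟨s, hs⟩ := h.scal_of_fix he he0 hc hce (PU.B_symm hy) h2
        have := τ.pr_flip_pr (PU.B.flip y) ψ (c (τ.tp v' x₀))
        rw [map_sub, hs, TS.pB_tp, sub_eq_zero]
        congr 1
        refine Eq.trans ?_ this.symm
        change s = ψ (τ.pB PU y _)
        rw [hs]; simp [hψ]
    exact ⟨x', by rw [← hx']; abel⟩
  have hI := h.iso hc
  have h4 : PU.B u e = 0 := by
    obtain ⟨x', hx'⟩ := hu x₀
    have := h.compat.pB_apply hI hce (τ.tp v' x₀)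
    simpa [hx', h2, Polar.sing_B he, hx₀] using this
  have h5 : PU.B u v = 1 := by
    obtain ⟨x', hx'⟩ := hu x₀
    have := h.compat.pB_apply hI hcv (τ.tp v' x₀)
    simp only [hx', h3, PU.B_symm hve, map_add, TS.pB_tp, zero_smul, add_zero] at this
    exact smul_left_injective F hx₀ this
  have h6 : PU.Val u 0 := h.val u (h.compat.B_eq_zero fun x y => by
    obtain ⟨x', hx'⟩ := hu x
    obtain ⟨y', hy'⟩ := hu y
    have := Polar.Iso.B hI (τ.tp v' x) (τ.tp v' y)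
    simpa [hx', hy', h.compat.B_tp, h4, PU.B_symm h4, Polar.sing_B he, Polar.sing_B h1] using this)
  have h7 : PU.B (u - v') v = 0 := by simp [h3, h5]
  have h8 := Polar.val_conj (Polar.val_neg (Polar.val_neg
    (Polar.val_diff (d := u - v') h1 (by simpa using h6))))
  rw [neg_neg] at h8
  let η := Polar.eichE hv h7 h8
  have hη : η ∈ PU.E := Polar.eichE_mem_E _ _ _
  have η1 : η v' = u := by simp [η, Polar.eich, h3, ← mul_assoc, ← mul_add]
  have η2 : η e = e := Polar.eich_fix _ (PU.B_symm hve) (by simp [PU.B_symm h4, PU.B_symm h2])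
  have hc' : (τ.KL η)⁻¹ * c ∈ X := X.mul_mem (X.inv_mem (h.left η hη)) hc
  have hI' := h.iso hc'
  have c1 : ∀ x, ((τ.KL η)⁻¹ * c) (τ.tp e x) = τ.tp e x := fun x =>
    inv_mul_apply_eq.2 (by rw [hce, TS.KL_tp, η2])
  have c2 : ∀ x, ∃ x', ((τ.KL η)⁻¹ * c) (τ.tp v' x) = τ.tp v' x + τ.tp e x' := fun x => by
    obtain ⟨x', hx'⟩ := hu x
    exact ⟨x', inv_mul_apply_eq.2 (by rw [hx', map_add, TS.KL_tp, TS.KL_tp, η1, η2])⟩
  have c3 : ∀ y, PU.B y e = 0 → PU.B y v = 0 → ∀ x, ∃ x',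
      ((τ.KL η)⁻¹ * c) (τ.tp y x) = τ.tp y x + τ.tp e x' := fun y hy1 hy2 x => by
    obtain ⟨a, b, hab⟩ : ∃ a b, ((τ.KL η)⁻¹ * c) (τ.tp y x) = τ.tp y x + τ.tp e a + τ.tp v b := by
      obtain ⟨_, ⟨a, rfl⟩, _, ⟨b, rfl⟩, h9⟩ := Submodule.mem_sup.1 (hcy y hy1 hy2 x)
      refine ⟨a, b + (PU.ε * PU.B y (u - v')) • x, inv_mul_apply_eq.2 ?_⟩
      rw [eq_add_of_sub_eq h9.symm, map_add, map_add, TS.KL_tp, TS.KL_tp, TS.KL_tp, η2,
        show η v = v from Polar.eich_fix _ (Polar.sing_B hv) (PU.B_symm h7)]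
      simp only [η, Polar.eichE_apply, Polar.eich, hy2, zero_smul, add_zero, mul_zero, map_sub,
        map_add, map_smul, LinearMap.sub_apply, LinearMap.smul_apply]
      module
    have h9 : b = 0 := PW.nondeg' fun z => by
      obtain ⟨z', hz'⟩ := c2 z
      have := Polar.Iso.B hI' (τ.tp y x) (τ.tp v' z)
      rw [hab, hz'] at this
      simpa [h.compat.B_tp, hy1, hve, PU.B_symm h2, Polar.sing_B he, PU.herm v' v, h3] using this
    exact ⟨a, by simp [hab, h9]⟩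
  have h9 := h.hpt e he he0 _ hc' ⟨c1, fun y hy x => by
    obtain ⟨a, ha⟩ := c2 (PU.B y v • x)
    obtain ⟨b, hb⟩ := c3 (y - PU.B y v • v') (by simp [hy, h2]) (by simp [h3]) x
    refine ⟨a + b, ?_⟩
    rw [show τ.tp y x = τ.tp v' (PU.B y v • x) + τ.tp (y - PU.B y v • v') x by simp, map_add, ha,
      hb, map_add]
    abel⟩
  have := (τ.inA_K η).mul h9
  rwa [← TS.coe_KL, ← LinearEquiv.coe_toLinearMap_mul, mul_inv_cancel_left] at this

variable {τ' : TS F U W V} (h' : Good τ' PU PW PV X)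
include h'

theorem inA_eich_of_th {e : U} (he : PU.Val e 0) (he0 : e ≠ 0) (h1 : τ'.InA (τ.K (PU.th e e) 1))
    {c : V ≃ₗ[F] V} (hc : c ∈ X) (hQ : τ.InQ PU e c) : τ'.InA c := by
  obtain ⟨f, hf0, hf⟩ := TS.exists_range_eq he0 he0 h1
  refine h'.hpt f (h'.val f (h'.compat.B_eq_zero fun x y => ?_)) hf0 c hc
    (h.compat.inQ_of_range_eq h'.compat hf hQ)
  obtain ⟨a, ha⟩ : τ'.tp f x ∈ LinearMap.range (τ.tp e) := hf ▸ ⟨x, rfl⟩
  obtain ⟨b, hb⟩ : τ'.tp f y ∈ LinearMap.range (τ.tp e) := hf ▸ ⟨y, rfl⟩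
  simp [← ha, ← hb, h.compat.B_tp, Polar.sing_B he]

theorem inA_th_of_line {e v : U} (he : PU.Val e 0) (hv : PU.Val v 0) (hve : PU.B v e = 0)
    (he0 : e ≠ 0) (hv0 : v ∉ F ∙ e)
    (hty : (∃ c, c ≠ 0 ∧ PU.Val 0 c) ∨ ∃ w, PU.B w e = 0 ∧ PU.B w v = 0 ∧ PU.B w w ≠ 0)
    (h1 : τ'.InA (τ.K (PU.th v e - PU.ε • PU.th e v) 1)) : τ'.InA (τ.K (PU.th v v) 1) := by
  obtain ⟨v', a1, a2, a3⟩ := Polar.exists_partner_perp hv hve hv0
  have hev : e ∉ F ∙ v := by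
    simpa using notMem_sup_span_swap (F := F) (U := ⊥) (v := e) (z := v) (by simpa using he0)
      (by simpa using hv0)
  obtain ⟨e', a4, a5, a6⟩ := Polar.exists_partner_perp he (PU.B_symm hve) hev
  obtain ⟨f, f', b1, b2, b3⟩ := TS.exists_sup_range_eq he0 hv0 (fun y => Submodule.sub_mem _
    (Submodule.mem_sup_right (Submodule.smul_mem _ _ (Submodule.mem_span_singleton_self v)))
    (Submodule.mem_sup_left (Submodule.smul_mem _ _
      (Submodule.smul_mem _ _ (Submodule.mem_span_singleton_self e)))))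
    ⟨-PU.ε • v', by simp [a2, a3, smul_smul]⟩ ⟨e', by simp [a5, a6]⟩ h1
  have hB : ∀ z ∈ LinearMap.range (τ.tp e) ⊔ LinearMap.range (τ.tp v),
      ∀ z' ∈ LinearMap.range (τ.tp e) ⊔ LinearMap.range (τ.tp v), PV.B z z' = 0 := by
    intro z hz z' hz'
    obtain ⟨_, ⟨a, rfl⟩, _, ⟨b, rfl⟩, rfl⟩ := Submodule.mem_sup.1 hz
    obtain ⟨_, ⟨a', rfl⟩, _, ⟨b', rfl⟩, rfl⟩ := Submodule.mem_sup.1 hz'
    simp [h.compat.B_tp, hve, PU.B_symm hve, Polar.sing_B he, Polar.sing_B hv]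
  rw [b3] at hB
  have m1 : ∀ x, τ'.tp f x ∈ LinearMap.range (τ'.tp f) ⊔ LinearMap.range (τ'.tp f') := fun x =>
    Submodule.mem_sup_left ⟨x, rfl⟩
  have m2 : ∀ x, τ'.tp f' x ∈ LinearMap.range (τ'.tp f) ⊔ LinearMap.range (τ'.tp f') := fun x =>
    Submodule.mem_sup_right ⟨x, rfl⟩
  have key : ∀ w κ, PU.B w e = 0 → PU.B w v = 0 → PU.Val w κ →
      τ'.InA (τ.K (PU.th w v - PU.ε • PU.th v w - PU.σ κ • PU.th v v) 1) := by
    intro w κ hw1 hw2 hκ
    have hfix : ∀ z ∈ LinearMap.range (τ'.tp f) ⊔ LinearMap.range (τ'.tp f'),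
        τ.KL (Polar.eichE hv hw2 hκ) z = z := by
      intro z hz
      obtain ⟨_, ⟨a, rfl⟩, _, ⟨b, rfl⟩, rfl⟩ := Submodule.mem_sup.1 (b3 ▸ hz)
      simp [Polar.eich_fix κ (PU.B_symm hve) (PU.B_symm hw1),
        Polar.eich_fix κ (Polar.sing_B hv) (PU.B_symm hw2)]
    have := h'.inA_of_line (h'.val f (h'.compat.B_eq_zero fun x y => hB _ (m1 x) _ (m1 y)))
      (h'.val f' (h'.compat.B_eq_zero fun x y => hB _ (m2 x) _ (m2 y)))
      (h'.compat.B_eq_zero fun x y => hB _ (m2 x) _ (m1 y)) b1 b2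
      (h.left _ (Polar.eichE_mem_E hv hw2 hκ)) (fun x => hfix _ (m1 x)) (fun x => hfix _ (m2 x))
      fun y hy1 hy2 x => by
        rw [TS.KL_eichE, h.compat.pB_eq_zero_of_le h'.compat (le_sup_right.trans b3.le) hy1 hy2, ← b3]
        refine Submodule.mem_sup_right ⟨-(PU.ε • τ.pB PU w (τ'.tp y x)), by simp⟩
    rw [TS.coe_KL_eich] at this
    simpa using this.sub TS.inA_one
  rcases hty with ⟨c, hc0, hc⟩ | ⟨w, hw1, hw2, hw3⟩
  · refine TS.InA.of_smul (s := -PU.σ c) (by simpa using hc0) ?_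
    simpa using key 0 c (by simp) (by simp) hc
  · obtain ⟨κ, hκ⟩ := PU.val_ex w
    have := (key w κ hw1 hw2 hκ).mul (key w κ hw1 hw2 hκ)
    refine TS.InA.of_smul (s := -(PU.ε * PU.B w w)) (by simpa using hw3) ?_
    convert this using 1
    simp [TS.K_mul, mul_sub, sub_mul, Polar.th_mul_th, hw2, PU.B_symm hw2, Polar.sing_B hv,
      smul_smul]

theorem same_of_th (hw : PU.W2) (hty : (∃ c, c ≠ 0 ∧ PU.Val 0 c) ∨ ∀ e v, PU.Val e 0 → PU.Val v 0 →
      PU.B v e = 0 → ∃ w, PU.B w e = 0 ∧ PU.B w v = 0 ∧ PU.B w w ≠ 0)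
    {e : U} (he : PU.Val e 0) (he0 : e ≠ 0) (h1 : τ'.InA (τ.K (PU.th e e) 1)) : τ'.Same τ := by
  refine TS.same_of_cent (R := {n | ∃ f, PU.Val f 0 ∧ n = PU.th f f}) (fun z hz => ?_) ?_
  · refine hw.scal_of_sing_eigen fun u hu => ?_
    by_cases hu0 : u = 0
    · simp [hu0]
    obtain ⟨u', -, h2⟩ := Polar.exists_partner hu hu0
    have := LinearMap.congr_fun (hz _ ⟨u, hu, rfl⟩) u'
    exact Submodule.mem_span_singleton.2 ⟨_, by simpa [h2] using this⟩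
  · rintro _ ⟨f, hf, rfl⟩
    by_cases hf0 : f = 0
    · exact ⟨0, by simp [hf0]⟩
    refine hw.connected (p := fun f => τ'.InA (τ.K (PU.th f f) 1))
      (fun e v he hv he0 _ hve h1 => ?_) he hf he0 hf0 h1
    by_cases hv0 : v ∈ F ∙ e
    · obtain ⟨a, rfl⟩ := Submodule.mem_span_singleton.1 hv0
      simpa [Polar.th_smul_left, Polar.th_smul_right] using (h1.smul a).smul (PU.σ a)
    refine h.inA_th_of_line h' he hv hve he0 hv0 (hty.imp_right fun h => h e v he hv hve) ?_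
    have := h.inA_eich_of_th h' he he0 h1 (h.left _ (Polar.eichE_mem_E he hve hv))
      (TS.inQ_eich he hve hv)
    rw [TS.coe_KL_eich] at this
    simpa using this.sub TS.inA_one

end Good

end Cfsg.Agent.Tens
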