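import Cfsg.Agent.Tens.Rigid3

/-!
Orthogonal tensor factors of Witt index one: root groups normalising a tensor structure.
-/

set_option autoImplicit false
set_option linter.unusedSectionVars false

namespace Cfsg.Agent.Tens

open Module Cfsg.Agent.H7

theorem coeff_mem {F M : Type*} [Field F] [Finite F] [AddCommGroup M] [Module F M]
    (N : Submodule F M) (hF : 5 ≤ Nat.card F) {c₀ c₁ c₂ c₃ c₄ : M}
    (h : ∀ t : F, c₀ + t • c₁ + t ^ 2 • c₂ + t ^ 3 • c₃ + t ^ 4 • c₄ ∈ N) :
    c₁ ∈ N ∧ c₂ ∈ N ∧ c₃ ∈ N ∧ c₄ ∈ N := by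
  have := Fintype.ofFinite F
  have key : ∀ φ : Dual F M, (∀ x ∈ N, φ x = 0) → φ c₁ = 0 ∧ φ c₂ = 0 ∧ φ c₃ = 0 ∧ φ c₄ = 0 := by
    intro φ h2
    open Polynomial in
    have key : (C (φ c₀) + C (φ c₁) * X + C (φ c₂) * X ^ 2 + C (φ c₃) * X ^ 3 + C (φ c₄) * X ^ 4 :
        F[X]) = 0 := by
      refine Polynomial.eq_zero_of_natDegree_lt_card_of_eval_eq_zero' _ Finset.univ
        (fun t _ => ?_) ?_
      · have := h2 _ (h t)
        simp only [map_add, map_smul, smul_eq_mul] at this
        simp only [eval_add, eval_mul, eval_C, eval_X, eval_pow]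
        linear_combination this
      · rw [Finset.card_univ, ← Nat.card_eq_fintype_card]
        refine lt_of_le_of_lt (b := 4) ?_ (by omega)
        compute_degree
    refine ⟨?_, ?_, ?_, ?_⟩
    · simpa [Polynomial.coeff_X, Polynomial.coeff_X_pow] using congrArg (fun p => p.coeff 1) key
    · simpa [Polynomial.coeff_X, Polynomial.coeff_X_pow] using congrArg (fun p => p.coeff 2) key
    · simpa [Polynomial.coeff_X, Polynomial.coeff_X_pow] using congrArg (fun p => p.coeff 3) key
    · simpa [Polynomial.coeff_X, Polynomial.coeff_X_pow] using congrArg (fun p => p.coeff 4) key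
  refine ⟨?_, ?_, ?_, ?_⟩ <;> by_contra hc <;> obtain ⟨φ, h1, h2⟩ := exists_dual_one hc <;>
    simp [key φ h2] at h1

theorem cube_sub_one {F R : Type*} [Field F] [Ring R] [Algebra F R] (h3 : (3 : F) = 0) (y : R) :
    (y - 1) * (y - 1) * (y - 1) = y * y * y - 1 := by
  have : (3 : F) • (y - y * y) = 0 := by simp [h3]
  simp only [sub_mul, mul_sub, one_mul, mul_one]
  linear_combination (norm := module) this

variable {F U W V : Type*} [Field F] [AddCommGroup U] [Module F U] [AddCommGroup W] [Module F W]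
  [AddCommGroup V] [Module F V] [Finite F] [FiniteDimensional F U] [FiniteDimensional F W]

/-- An orthogonal space of Witt index one in odd characteristic. -/
structure R1 (P : Polar F U) : Prop where
  o : H1.IsO P
  two : (2 : F) ≠ 0
  dim : 3 ≤ finrank F U
  w2 : ¬ P.W2

/-- The nilpotent skew map attached to an Eichler transformation. -/
def nn (P : Polar F U) (e w : U) : End F U := P.th w e - P.th e w

namespace R1

variable {P : Polar F U} (h : R1 P)
include h

theorem mem_span {e w : U} (he : P.Val e 0) (he0 : e ≠ 0) (hw : P.B w e = 0) (hww : P.B w w = 0) :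
    w ∈ F ∙ e := by
  by_contra hc
  exact h.w2 ⟨e, w, he, (h.o.sing_iff h.two).2 hww, hw, he0, hc⟩

theorem exists_sing : ∃ e, P.Val e 0 ∧ e ≠ 0 := by
  obtain ⟨e, -, h0, he⟩ := Polar.wild_three_of_σ h.o.σ ⊤ (by rw [finrank_top]; exact h.dim)
  exact ⟨e, he, h0⟩

theorem nontrivial : Nontrivial U := nontrivial_of_finrank_pos (R := F) (by have := h.dim; omega)

theorem exists_aniso {e e' : U} (he : P.Val e 0) (he' : P.Val e' 0) (h1 : P.B e' e = 1) :
    ∃ w, P.B w e = 0 ∧ P.B w e' = 0 ∧ P.B w w ≠ 0 := by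
  obtain ⟨w, a1, a2, a3⟩ := Slot.exists_aniso_top h.o h.two h.dim he' he (by simp [h1])
  exact ⟨w, a2, a1, a3⟩

theorem eq_zero_of_scal {x : End F U} (hx : P.adj x = -x) (hs : Scal x) : x = 0 := by
  obtain ⟨c, rfl⟩ := hs.eq
  rw [Polar.adj_smul, Polar.adj_one, h.o.σ, eq_neg_iff_add_eq_zero, ← two_smul F] at hx
  exact (smul_eq_zero.1 hx).resolve_left h.two

theorem B_skew {x : End F U} (hx : P.adj x = -x) (u v : U) : P.B (x u) v = -P.B u (x v) := by
  rw [← P.B_adj, hx]; simp

theorem eq_zero_of_skew {x : End F U} (hx : P.adj x = -x) {a : F} (hs : Scal (x * x + a • x)) :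
    x = 0 := by
  obtain ⟨c, hc⟩ := hs.eq
  have h1 := congrArg P.adj hc
  rw [Polar.adj_add, Polar.adj_mul, Polar.adj_smul, Polar.adj_smul, Polar.adj_one, hx, h.o.σ, h.o.σ,
    neg_mul_neg] at h1
  have h2 : x * x = c • 1 := smul_right_injective _ h.two (by
    simp only [two_smul]; linear_combination (norm := module) hc + h1)
  refine h.eq_zero_of_scal hx (Slot.scal_of_sing_eigen_o h.o h.two h.dim fun u hu => ?_)
  by_cases hu0 : u = 0
  · simp [hu0]
  refine h.mem_span hu hu0 (mul_left_cancel₀ h.two ?_) ?_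
  · linear_combination h.B_skew hx u u + h.o.comm (x u) u
  · rw [h.B_skew hx, show x (x u) = c • u from LinearMap.congr_fun h2 u]
    simp [Polar.sing_B hu]

theorem adj_nn (e w : U) : P.adj (nn P e w) = -nn P e w := by simp [nn, Polar.adj_th, h.o.ε]

theorem adj_th (e : U) : P.adj (P.th e e) = P.th e e := by simp [Polar.adj_th, h.o.ε]

theorem val_half (w : U) : P.Val w (P.B w w / 2) :=
  (h.o.val_iff h.two).2 (by field_simp [h.two])

variable {e w w' : U}

/-- The root element. -/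
def eta (he : P.Val e 0) (hw : P.B w e = 0) : U ≃ₗ[F] U := Polar.eichE he hw (h.val_half w)

theorem eta_mem (he : P.Val e 0) (hw : P.B w e = 0) : h.eta he hw ∈ P.E :=
  Polar.eichE_mem_E _ _ _

theorem eta_apply (he : P.Val e 0) (hw : P.B w e = 0) (x : U) :
    h.eta he hw x = x + P.B x e • w - (P.B x w + P.B w w / 2 * P.B x e) • e := h.o.eich_eq _ _ _ _

theorem coe_eta (he : P.Val e 0) (hw : P.B w e = 0) :
    (h.eta he hw : End F U) = 1 + nn P e w - (P.B w w / 2) • P.th e e :=
  LinearMap.ext fun x => by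
    simp only [LinearEquiv.coe_coe, eta_apply, nn, LinearMap.add_apply, LinearMap.sub_apply,
      End.one_apply, Polar.th_apply, LinearMap.smul_apply]
    module

theorem eta_add (he : P.Val e 0) (hw : P.B w e = 0) (hw' : P.B w' e = 0)
    (h1 : P.B (w + w') e = 0) : h.eta he h1 = h.eta he hw * h.eta he hw' :=
  LinearEquiv.ext fun x => by
    refine Eq.trans ?_ (Polar.eich_comp _ _ (Polar.sing_B he) hw hw' x).symm
    refine congrArg (fun c => P.eich e (w + w') c x) ?_
    simp only [map_add, LinearMap.add_apply, h.o.comm w' w]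
    field_simp [h.two]
    ring

theorem eta_congr (he : P.Val e 0) (hw : P.B w e = 0) (hw' : P.B w' e = 0) (h1 : w = w') :
    h.eta he hw = h.eta he hw' := by subst h1; rfl

theorem eta_zero (he : P.Val e 0) (hw : P.B 0 e = 0) : h.eta he hw = 1 :=
  LinearEquiv.ext fun x => by simp [eta_apply]

theorem eta_inv (he : P.Val e 0) (hw : P.B w e = 0) (h1 : P.B (-w) e = 0) :
    (h.eta he hw)⁻¹ = h.eta he h1 :=
  inv_eq_of_mul_eq_one_right (by
    rw [← h.eta_add he hw h1 (by simp), h.eta_congr he _ (w' := 0) (by simp) (by simp), eta_zero])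

theorem coe_eta_symm (he : P.Val e 0) (hw : P.B w e = 0) :
    ((h.eta he hw).symm : End F U) = 1 - nn P e w - (P.B w w / 2) • P.th e e := by
  rw [show (h.eta he hw).symm = h.eta he (w := -w) (by simp [hw]) from h.eta_inv he hw _, coe_eta]
  refine LinearMap.ext fun x => ?_
  simp only [nn, LinearMap.add_apply, LinearMap.sub_apply, End.one_apply, Polar.th_apply,
    LinearMap.smul_apply, map_neg, LinearMap.neg_apply]
  module

theorem nn_smul (t : F) : nn P e (t • w) = t • nn P e w := by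
  simp [nn, Polar.th_smul_left, Polar.th_smul_right, h.o.σ, smul_sub]

omit h in
theorem nn_add : nn P e (w + w') = nn P e w + nn P e w' := by
  simp only [nn, Polar.th_add_left, Polar.th_add_right]; abel

theorem nn_mul (he : P.Val e 0) (hw : P.B w e = 0) (hw' : P.B w' e = 0) :
    nn P e w * nn P e w' = -P.B w w' • P.th e e := by
  simp [nn, mul_sub, sub_mul, Polar.th_mul_th, Polar.sing_B he, hw', P.B_symm hw, h.o.comm w' w]

omit h in
theorem nn_mul_th (he : P.Val e 0) (hw : P.B w e = 0) : nn P e w * P.th e e = 0 := by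
  simp [nn, sub_mul, Polar.th_mul_th, Polar.sing_B he, P.B_symm hw]

omit h in
theorem th_mul_nn (he : P.Val e 0) (hw : P.B w e = 0) : P.th e e * nn P e w = 0 := by
  simp [nn, mul_sub, Polar.th_mul_th, Polar.sing_B he, hw]

omit h in
theorem trace_nn (hw : P.B w e = 0) : LinearMap.trace F U (nn P e w) = 0 := by
  simp [nn, Polar.trace_th, hw, P.B_symm hw]

theorem scal_of_comm_nn {z : End F U} (hz : ∀ e w, P.Val e 0 → e ≠ 0 → P.B w e = 0 → P.B w w ≠ 0 →
    nn P e w * z = z * nn P e w) : Scal z :=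
  Slot.scal_of_sing_eigen_o h.o h.two h.dim fun u hu => Polar.eigen_of_comm_th hu fun hu0 => by
    obtain ⟨u', a1, a2⟩ := Polar.exists_partner hu hu0
    obtain ⟨w, a3, -, a4⟩ := h.exists_aniso hu a1 a2
    have h1 := hz u w hu hu0 a3 a4
    refine smul_right_injective _ (neg_ne_zero.2 a4) ?_
    simp only
    rw [← smul_mul_assoc, ← mul_smul_comm, ← h.nn_mul hu a3 a3, mul_assoc, h1, ← mul_assoc, h1,
      mul_assoc]

theorem adj_eq_of_nn {z : End F U} (hz : ∀ e w, P.Val e 0 → e ≠ 0 → P.B w e = 0 → P.B w w ≠ 0 →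
    LinearMap.trace F U (z * nn P e w) = 0) : P.adj z = z := by
  refine (sub_eq_zero.1 (h.eq_zero_of_scal (x := P.adj z - z) (by simp)
    (Slot.scal_of_sing_eigen_o h.o h.two h.dim fun u hu => ?_)))
  by_cases hu0 : u = 0
  · simp [hu0]
  refine Slot.mem_span_of_B (P := P) fun w hw => ?_
  by_cases hww : P.B w w = 0
  · obtain ⟨a, rfl⟩ := Submodule.mem_span_singleton.1 (h.mem_span hu hu0 hw hww)
    simp [Polar.adj_B, h.o.comm u (z u)]
  · have := hz u w hu hu0 hw hww
    simp only [nn, mul_sub, map_sub, Polar.trace_mul_th] at this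
    simp only [LinearMap.sub_apply, map_sub, Polar.adj_B, h.o.comm u (z w)]
    exact this

/-- Conjugation by the elements of a root subgroup. -/
theorem conj_eta (τ : TS F U W V) (he : P.Val e 0) (hw : P.B w e = 0) (t : F)
    (ht : P.B (t • w) e = 0) (z : End F V) : (τ.KL (h.eta he ht)).conj z =
      z + t • (τ.K (nn P e w) 1 * z - z * τ.K (nn P e w) 1) +
      t ^ 2 • (-((P.B w w / 2) • (τ.K (P.th e e) 1 * z + z * τ.K (P.th e e) 1)) -
        τ.K (nn P e w) 1 * z * τ.K (nn P e w) 1) +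
      t ^ 3 • ((P.B w w / 2) • (τ.K (P.th e e) 1 * z * τ.K (nn P e w) 1 -
        τ.K (nn P e w) 1 * z * τ.K (P.th e e) 1)) +
      t ^ 4 • ((P.B w w / 2) ^ 2 • (τ.K (P.th e e) 1 * z * τ.K (P.th e e) 1)) := by
  change τ.K (h.eta he ht) 1 * z * τ.K (h.eta he ht).symm 1 = _
  rw [coe_eta, coe_eta_symm, h.nn_smul]
  simp only [map_add, map_sub, map_smul, LinearMap.add_apply, LinearMap.sub_apply,
    LinearMap.smul_apply, TS.K_one, h.o.smul_right, smul_eq_mul, mul_add, add_mul, mul_sub, sub_mul,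
    one_mul, mul_one, smul_mul_assoc, mul_smul_comm]
  module

end R1

namespace TS

variable (τ : TS F U W V)

/-- The first factor as a submodule. -/
def A : Submodule F (End F V) := LinearMap.range (τ.K.flip 1)

theorem mem_A {c : End F V} : c ∈ τ.A ↔ τ.InA c := exists_congr fun _ => eq_comm

theorem exists_eq_add_of_comm {z : End F V} (h : ∀ a, τ.InA (z * τ.K a 1 - τ.K a 1 * z)) :
    ∃ x d, z = τ.K x 1 + τ.K 1 d := by
  rcases subsingleton_or_nontrivial U with hU | hU
  · exact ⟨0, 0, τ.ext fun u x => by simp [Subsingleton.elim u 0]⟩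
  obtain ⟨u₀, hu₀⟩ := exists_ne (0 : U)
  obtain ⟨φ₀, hφ₀⟩ := exists_dual_one' (F := F) hu₀
  obtain ⟨x, hx⟩ := τ.inA_of_sl (c := z - τ.K 1 (τ.sl φ₀ u₀ z)) fun φ u => by
    obtain ⟨s, hs⟩ := ((h (φ.smulRight u₀)).scal_sl φ₀ u).neg
    refine ⟨s, fun y => ?_⟩
    rw [← hs, map_sub, sl_K]
    simp [K_smulRight, hφ₀]
  exact ⟨x, _, by rw [← hx, sub_add_cancel]⟩

theorem scal_or_scal_of_K {x a : End F U} {d b : End F W} (h : τ.K x d = τ.K a 1 + τ.K 1 b) :
    Scal x ∨ Scal d := by
  by_contra! hcon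
  obtain ⟨φ, u, h1, h2⟩ := exists_dual_of_not_scal hcon.1
  have := congrArg (τ.sl φ u) h
  simp only [map_add, sl_K, End.one_apply, h1, h2, zero_smul, one_smul, add_zero] at this
  exact hcon.2 (this ▸ scal_smul_one _)

theorem lt_rank_four (hk : finrank F U = 4) {n : End F U} (h3 : n * n * n = 0) (h2 : n * n ≠ 0)
    {d₁ d₂ : End F W} (h1 : Function.Injective d₁) (h0 : d₂ ≠ 0) :
    2 * finrank F W < finrank F (LinearMap.range (τ.K n d₁ + τ.K 1 d₂)) := by
  have := τ.finiteDimensional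
  obtain ⟨u, hu⟩ : ∃ u, n (n u) ≠ 0 := DFunLike.ne_iff.1 h2
  obtain ⟨w₀, hw₀⟩ : ∃ w, d₂ w ≠ 0 := DFunLike.ne_iff.1 h0
  have h4 : ∀ u, n (n (n u)) = 0 := LinearMap.congr_fun h3
  obtain ⟨x, -, hx⟩ := exists_notMem_of_finrank_lt (U := ((F ∙ u) ⊔ F ∙ n u) ⊔ F ∙ n (n u))
    (W := ⊤) (by
      have := finrank_span_pair_le (F := F) u (n u)
      have := finrank_span_singleton_le (F := F) (n (n u))
      have := Submodule.finrank_add_le_finrank_add_finrank ((F ∙ u) ⊔ F ∙ n u) (F ∙ n (n u))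
      rw [finrank_top]; omega)
  obtain ⟨φ, a1, a2⟩ := exists_dual_one hx
  have a3 := a2 u (Submodule.mem_sup_left (Submodule.mem_sup_left
    (Submodule.mem_span_singleton_self _)))
  have a4 := a2 _ (Submodule.mem_sup_left (Submodule.mem_sup_right
    (Submodule.mem_span_singleton_self _)))
  have a5 := a2 _ (Submodule.mem_sup_right (Submodule.mem_span_singleton_self _))
  obtain ⟨ψ, b1⟩ := exists_dual_one' (F := F) hu
  have hsp : ∀ y, y - φ y • x ∈ ((F ∙ u) ⊔ F ∙ n u) ⊔ F ∙ n (n u) := fun y => by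
    have e1 : n u ∉ F ∙ n (n u) := fun e => by
      obtain ⟨c, hc⟩ := Submodule.mem_span_singleton.1 e
      exact hu (by rw [← hc, map_smul, h4, smul_zero])
    have e2 : u ∉ (F ∙ n (n u)) ⊔ F ∙ n u := fun e => by
      obtain ⟨_, e3, c, hc⟩ := mem_sup_span_singleton.1 e
      obtain ⟨b, rfl⟩ := Submodule.mem_span_singleton.1 e3
      exact hu (by rw [hc]; simp [h4])
    have e3 : ((F ∙ u) ⊔ F ∙ n u) ⊔ (F ∙ n (n u)) = LinearMap.ker φ :=
      Submodule.eq_of_le_of_finrank_eq (fun y hy => a2 y hy) (by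
        have := Dual.finrank_ker_add_one_of_ne_zero (f := φ) (fun e => by simp [e] at a1)
        rw [show ((F ∙ u) ⊔ F ∙ n u) ⊔ (F ∙ n (n u)) = ((F ∙ n (n u)) ⊔ F ∙ n u) ⊔ F ∙ u by ac_rfl,
          Submodule.finrank_sup_span_singleton e2, Submodule.finrank_sup_span_singleton e1,
          finrank_span_singleton hu]
        omega)
    rw [e3]
    simp [a1]
  have a6 : φ (n x) = 0 := by
    have e1 : ∀ y, φ (n y) = φ y * φ (n x) := fun y => by
      obtain ⟨_, e3, c, hc⟩ := mem_sup_span_singleton.1 (hsp y)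
      obtain ⟨_, e4, b, rfl⟩ := mem_sup_span_singleton.1 e3
      obtain ⟨a, rfl⟩ := Submodule.mem_span_singleton.1 e4
      have := congrArg (fun y => φ (n y)) hc
      simpa [a4, a5, h4, sub_eq_zero] using this
    have e2 := congrArg φ (h4 x)
    rw [e1, e1, map_zero] at e2
    simpa using e2
  let L : (W × W) × F →ₗ[F] V :=
    ((τ.tp u).coprod (τ.tp (n u))).coprod (LinearMap.toSpanSingleton F V (τ.tp x w₀))
  have hinj : Function.Injective ((τ.K n d₁ + τ.K 1 d₂) ∘ₗ L) :=
    (injective_iff_map_eq_zero _).2 fun ⟨⟨w, w'⟩, c⟩ h => by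
      have h5 := congrArg (τ.pr φ) h
      simp [L, a1, a3, a4, a5, a6, hw₀] at h5
      subst h5
      have h6 := congrArg (τ.pr (ψ ∘ₗ n ∘ₗ n)) h
      have h7 := congrArg (τ.pr (ψ ∘ₗ n)) h
      have h8 := congrArg (τ.pr ψ) h
      simp [L, b1, h4] at h6 h7 h8
      rw [h6, smul_zero, zero_add] at h7 h8
      have h9 : d₁ w' = 0 := by
        rw [eq_neg_of_add_eq_zero_left h7] at h8
        simpa using h8
      obtain rfl := (map_eq_zero_iff _ h1).1 h9
      simpa [map_eq_zero_iff _ h1] using h7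
  have h5 := LinearMap.finrank_range_of_inj hinj
  have h6 := Submodule.finrank_mono (LinearMap.range_comp_le_range L (τ.K n d₁ + τ.K 1 d₂))
  rw [finrank_prod, finrank_prod, finrank_self] at h5
  omega

theorem rank_K_le_two {a : End F U} {e v : U} (ha : ∀ y, a y ∈ (F ∙ e) ⊔ F ∙ v) :
    finrank F (LinearMap.range (τ.K a 1)) ≤ 2 * finrank F W := by
  have := τ.finiteDimensional
  refine (Submodule.finrank_mono (t := LinearMap.range ((τ.tp e).coprod (τ.tp v))) ?_).trans
    ((LinearMap.finrank_range_le _).trans (by rw [finrank_prod, two_mul]))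
  rintro _ ⟨z, rfl⟩
  induction z using τ.induction with
  | h0 => simp
  | h y x =>
    obtain ⟨_, h2, c, h4⟩ := mem_sup_span_singleton.1 (ha y)
    obtain ⟨b, rfl⟩ := Submodule.mem_span_singleton.1 h2
    exact ⟨(b • x, c • x), by simp [h4]⟩
  | hadd a b ha hb => rw [map_add]; exact Submodule.add_mem _ ha hb

include τ in
theorem finrank_eq_of [Nontrivial U] {W' : Type*} [AddCommGroup W'] [Module F W']
    [FiniteDimensional F W'] (τ' : TS F U W' V) : finrank F W = finrank F W' :=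
  Nat.eq_of_mul_eq_mul_left finrank_pos (τ.finrank_eq.symm.trans τ'.finrank_eq)

end TS

namespace R1

variable {W' : Type*} [AddCommGroup W'] [Module F W'] [FiniteDimensional F W'] {PU : Polar F U}
  {PW : Polar F W} {PW' : Polar F W'} {PV : Polar F V} {τ : TS F U W V} {τ' : TS F U W' V}
  (h : R1 PU) [FiniteDimensional F V]
include h

theorem exists_skew_add (cp : Compat τ PU PW PV) {z : End F V} (hz : PV.adj z = -z)
    (h1 : ∃ x d, z = τ.K x 1 + τ.K 1 d) : ∃ x d, PU.adj x = -x ∧ z = τ.K x 1 + τ.K 1 d := by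
  obtain ⟨x, d, rfl⟩ := h1
  refine ⟨(2⁻¹ : F) • (x - PU.adj x), (2⁻¹ : F) • (d - PW.adj d), by
    rw [Polar.adj_smul, h.o.σ, ← smul_neg]; simp, smul_right_injective _ h.two ?_⟩
  rw [Polar.adj_add, cp.adj_K, cp.adj_K, Polar.adj_one, Polar.adj_one] at hz
  simp only [map_smul, map_sub, LinearMap.smul_apply, LinearMap.sub_apply, smul_add, smul_smul,
    mul_inv_cancel₀ h.two]
  linear_combination (norm := module) hz

theorem adj_K_nn (cp : Compat τ PU PW PV) (e w : U) :
    PV.adj (τ.K (nn PU e w) 1) = -τ.K (nn PU e w) 1 := by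
  simp [cp.adj_K, h.adj_nn]

theorem inA_or_flip_of_add [Nontrivial W] {x : End F U} {d : End F W} (hx : PU.adj x = -x)
    {z : End F V} (hz : z = τ.K x 1 + τ.K 1 d) (h3 : z * z * z = 0)
    (hr : (3 : F) ≠ 0 ∨ (finrank F U = 4 ∧ finrank F (LinearMap.range z) ≤ 2 * finrank F W)) :
    τ.InA z ∨ τ.flip.InA z := by
  by_cases hd : Scal d
  · obtain ⟨c, rfl⟩ := hd.eq
    exact Or.inl ⟨x + c • 1, by simp [hz]⟩
  suffices x = 0 from Or.inr (τ.flip_inA.2 ⟨d, by simp [hz, this]⟩)
  obtain ⟨ψ, w, h1, h2⟩ := exists_dual_of_not_scal hd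
  have h4 : τ.K (x * x * x) 1 + (3 : F) • τ.K (x * x) d + (3 : F) • τ.K x (d * d) +
      τ.K 1 (d * d * d) = 0 := by
    rw [← h3, hz]
    simp only [add_mul, mul_add, TS.K_mul, mul_one, one_mul]
    module
  by_cases h5 : (3 : F) = 0
  · obtain ⟨h6, h7⟩ := hr.resolve_left (not_not.2 h5)
    by_contra h0
    have h8 := congrArg (τ.flip.sl ψ (d w)) h4
    simp only [h5, zero_smul, add_zero, map_add, TS.flip_sl_K, End.one_apply, h2, one_smul,
      map_zero] at h8
    have h9 : x * x * x = 0 := h.eq_zero_of_scal (by simp [Polar.adj_mul, hx, mul_assoc])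
      (eq_neg_of_add_eq_zero_left h8 ▸ (scal_smul_one _).neg)
    have := τ.lt_rank_four h6 h9 (fun e => h0 (h.eq_zero_of_skew hx (a := 0)
      (by simpa [e] using scal_zero))) (d₁ := 1) (d₂ := d) Function.injective_id
      (fun e => hd (e ▸ scal_zero))
    rw [← hz] at this
    omega
  · have h8 := congrArg (τ.flip.sl ψ w) h4
    simp only [map_add, map_smul, TS.flip_sl_K, End.one_apply, h1, h2, one_smul, zero_smul, zero_add,
      map_zero] at h8
    refine h.eq_zero_of_skew hx (a := ψ ((d * d) w)) (Scal.of_smul h5 ?_)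
    rw [smul_add, eq_neg_of_add_eq_zero_left h8]
    exact (scal_smul_one _).neg

variable {e w : U}

theorem inA_or_flip_five (cp : Compat τ PU PW PV) (cp' : Compat τ' PU PW' PV)
    (hF : 5 ≤ Nat.card F) (he : PU.Val e 0) (hw : PU.B w e = 0)
    (hη : ∀ t : F, τ.Same (τ.map (τ'.KL (h.eta he (w := t • w) (by simp [hw]))))) :
    τ.InA (τ'.K (nn PU e w) 1) ∨ τ.flip.InA (τ'.K (nn PU e w) 1) := by
  have key := fun a => coeff_mem τ.A hF fun t => by
    have := τ.mem_A.2 (hη t a)
    rwa [TS.map_K_conj, h.conj_eta τ' he hw] at this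
  obtain ⟨x, d, hx, h1⟩ := h.exists_skew_add cp (h.adj_K_nn cp' e w)
    (τ.exists_eq_add_of_comm fun a => τ.mem_A.1 (key a).1)
  by_cases hd : Scal d
  · obtain ⟨c, rfl⟩ := hd.eq
    exact Or.inl ⟨x + c • 1, by simp [h1]⟩
  suffices x = 0 from Or.inr (τ.flip_inA.2 ⟨d, by simp [h1, this]⟩)
  obtain ⟨ψ, v, h2, h3⟩ := exists_dual_of_not_scal hd
  refine h.eq_zero_of_skew hx (a := ψ ((d * d) v)) (scal_of_comm fun a => ?_)
  obtain ⟨b, hb⟩ := (τ.mem_A.1 (key a).2.2.1).smul 2
  have h4 : τ'.K (nn PU e w) 1 * τ'.K (nn PU e w) 1 = -(PU.B w w • τ'.K (PU.th e e) 1) := by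
    simp [TS.K_mul, h.nn_mul he hw hw]
  rw [smul_smul, mul_div_cancel₀ _ h.two, smul_sub, ← smul_mul_assoc, ← smul_mul_assoc,
    ← mul_smul_comm, ← neg_neg (PU.B w w • _), ← h4, h1] at hb
  have h5 := congrArg (τ.flip.sl ψ v) hb
  simp only [neg_mul, mul_neg, add_mul, mul_add, TS.K_mul, mul_one, one_mul, map_sub, map_add,
    map_neg, TS.flip_sl_K, End.one_apply, h2, h3, zero_smul, one_smul] at h5
  simp only [mul_add, add_mul, mul_smul_comm, smul_mul_assoc, ← mul_assoc]
  linear_combination (norm := module) h5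

theorem inA_or_flip_three [Nontrivial W] (cp : Compat τ PU PW PV) (cp' : Compat τ' PU PW' PV)
    (hF : Nat.card F = 3) (hk : finrank F U = 4) (he : PU.Val e 0) (hw : PU.B w e = 0)
    (hη : τ.Same (τ.map (τ'.KL (h.eta he hw)))) :
    τ.InA (τ'.K (nn PU e w) 1) ∨ τ.flip.InA (τ'.K (nn PU e w) 1) := by
  have := h.nontrivial
  have := Fintype.ofFinite F
  have hc : ∀ c : F, c * c * c = c := fun c => by
    have := FiniteField.pow_card c
    rw [← Nat.card_eq_fintype_card, hF] at this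
    linear_combination this
  have h3 : (3 : F) = 0 := mul_left_cancel₀ h.two (by linear_combination hc 2)
  obtain ⟨a, d, h1⟩ := τ.exists_eq_KE hη
  set η := τ'.KL (h.eta he hw) with hηd
  have h2 : (η : End F V) = 1 + τ'.K (nn PU e w - (PU.B w w / 2) • PU.th e e) 1 := by
    simp [η, h.coe_eta, add_sub_assoc]
  have h5 : (η : End F V) * η * η = 1 := by
    rw [← sub_eq_zero, ← cube_sub_one h3, h2]
    simp [TS.K_mul, mul_sub, sub_mul, h.nn_mul he hw hw, th_mul_nn he hw, nn_mul_th he hw,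
      Polar.th_sq he]
  have h6 : (2 : F) • τ'.K (nn PU e w) 1 = η - η * η := by
    rw [h2]
    simp only [TS.K_mul, mul_sub, sub_mul, h.nn_mul he hw hw, th_mul_nn he hw, nn_mul_th he hw,
      Polar.th_sq he, add_mul, mul_add, one_mul, mul_one, map_sub, map_smul, LinearMap.sub_apply,
      LinearMap.smul_apply, smul_mul_assoc, mul_smul_comm, map_zero, LinearMap.zero_apply]
    match_scalars
    · linear_combination h3
    · ring
    · field_simp [h.two]
      linear_combination -PU.B w w * h3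
  suffices τ.InA η ∨ τ.flip.InA η from
    this.imp (fun h7 => .of_smul h.two (h6 ▸ h7.sub (h7.mul h7)))
      fun h7 => .of_smul h.two (h6 ▸ h7.sub (h7.mul h7))
  obtain ⟨x, hx⟩ := exists_ne (0 : W)
  obtain ⟨y, hy⟩ := PW.exists_B_ne hx
  have h7 : (η : End F V) = τ.K a d := by rw [h1]; rfl
  obtain ⟨a', d', h8, h9, h10⟩ : ∃ (a' : End F U) (d' : End F W), (η : End F V) = τ.K a' d' ∧
      a' * a' * a' = 1 ∧ Function.Injective d' := by
    obtain ⟨ψ, hψ⟩ := exists_dual_one' (F := F) (v := d (d (d x))) (by simpa using hx)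
    have h8 := congrArg (τ.flip.sl ψ x) h5
    rw [h7, ← τ.K_one] at h8
    simp only [TS.K_mul, TS.flip_sl_K, End.mul_apply, LinearEquiv.coe_coe, hψ, one_smul,
      End.one_apply] at h8
    have h9 : ψ x ≠ 0 := fun e => by
      obtain ⟨u, hu⟩ := exists_ne (0 : U)
      simpa [e, hu] using LinearMap.congr_fun h8 u
    have h10 : ψ x * ψ x = 1 := mul_right_cancel₀ h9 (by rw [hc, one_mul])
    refine ⟨ψ x • a, ψ x • d, by simp [h7, smul_smul, h10], ?_, fun s t e => ?_⟩
    · simp only [smul_mul_assoc, mul_smul_comm, h8, smul_smul, h10, one_mul, one_smul]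
    · simpa [h9] using e
  have h11 : ∀ u v x y, PU.B (a' u) (a' v) * PW.B (d' x) (d' y) = PU.B u v * PW.B x y :=
    fun u v x y => by
      have := cp'.B_K (a := h.eta he hw) (a' := (h.eta he hw).symm) (d := 1) (d' := 1) (fun y z => by
        rw [← Polar.Iso.B (Polar.E_le_Iso (h.eta_mem he hw)) y]; simp) (fun _ _ => rfl)
        (τ.tp u x) (η (τ.tp v y))
      rw [show τ'.K (h.eta he hw).symm 1 (η (τ.tp v y)) = τ.tp v y from η.symm_apply_apply _]
        at this
      change PV.B ((η : End F V) _) ((η : End F V) _) = _ at this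
      simpa [h8, cp.B_tp] using this
  obtain ⟨u₀, hu₀⟩ := exists_ne (0 : U)
  obtain ⟨v₀, hv₀⟩ := PU.exists_B_ne hu₀
  have h12 : PW.B (d' x) (d' y) ≠ 0 := fun e => by simpa [e, hv₀, hy] using h11 u₀ v₀ x y
  have h13 : ∀ u v, PU.B (a' u) (a' v) = (PW.B x y / PW.B (d' x) (d' y)) * PU.B u v := fun u v => by
    field_simp
    linear_combination h11 u v x y
  generalize PW.B x y / PW.B (d' x) (d' y) = μ at h13
  obtain rfl : μ = 1 := by
    have := h13 (a' (a' u₀)) (a' (a' v₀))
    have h14 : ∀ u, a' (a' (a' u)) = u := LinearMap.congr_fun h9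
    rw [h14, h14, h13, h13, ← mul_assoc, ← mul_assoc, hc] at this
    exact (mul_right_cancel₀ hv₀ (this.symm.trans (one_mul _).symm))
  by_cases h14 : (a' - 1) * (a' - 1) = 0
  · have h15 : a' - 1 = 0 := h.eq_zero_of_skew (a := 0) (PU.adj_eq_of fun u v => by
      have h16 := h13 (u - (a' - 1) u) v
      rw [show a' (u - (a' - 1) u) = u by
        have := LinearMap.congr_fun h14 u
        simp only [End.mul_apply, LinearMap.sub_apply, End.one_apply, map_sub,
          LinearMap.zero_apply] at this ⊢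
        linear_combination (norm := abel) -this] at h16
      simp only [LinearMap.neg_apply, LinearMap.sub_apply, End.one_apply, map_sub, map_neg] at h16 ⊢
      linear_combination -h16) (by simpa [h14] using scal_zero)
    exact Or.inr (τ.flip_inA.2 ⟨d', by rw [h8, sub_eq_zero.1 h15]⟩)
  · by_cases h15 : d' - 1 = 0
    · exact Or.inl ⟨a', by rw [h8, sub_eq_zero.1 h15]⟩
    have h16 := τ.lt_rank_four hk (by rw [cube_sub_one h3, h9, sub_self]) h14 h10 h15
    rw [show τ.K (a' - 1) d' + τ.K 1 (d' - 1) = η - 1 by simp [h8], h2, add_sub_cancel_left,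
      τ.finrank_eq_of τ'] at h16
    exact absurd (τ'.rank_K_le_two (e := e) (v := w) fun y => mem_sup_span_singleton.2
      ⟨_, Submodule.mem_span_singleton.2 ⟨-PU.B y w - PU.B w w / 2 * PU.B y e, rfl⟩, PU.B y e, by
        simp only [nn, LinearMap.sub_apply, Polar.th_apply, LinearMap.smul_apply]; module⟩)
      (not_le.2 h16)

theorem inA_or_flip [Nontrivial W] (cp : Compat τ PU PW PV) (cp' : Compat τ' PU PW' PV)
    (hF : 5 ≤ Nat.card F ∨ (Nat.card F = 3 ∧ finrank F U = 4)) (he : PU.Val e 0)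
    (hw : PU.B w e = 0)
    (hη : ∀ t : F, τ.Same (τ.map (τ'.KL (h.eta he (w := t • w) (by simp [hw]))))) :
    τ.InA (τ'.K (nn PU e w) 1) ∨ τ.flip.InA (τ'.K (nn PU e w) 1) :=
  hF.elim (fun hF => h.inA_or_flip_five cp cp' hF he hw hη) fun hF =>
    h.inA_or_flip_three cp cp' hF.1 hF.2 he hw (h.eta_congr he _ hw (one_smul F w) ▸ hη 1)

end R1

end Cfsg.Agent.Tens
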