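import Cfsg.Agent.Tens.Rigid5
import Cfsg.Agent.Tens.PowC

/-!
Rigidity for orthogonal tensor factors of Witt index one over small fields: preparations.
-/

set_option autoImplicit false
set_option linter.unusedSectionVars false

namespace Cfsg.Agent.Tens

open Module Cfsg.Agent.H7 Slot

theorem exists_avg {F M G : Type*} [Field F] [AddCommGroup M] [Module F M] [Group G] [Finite G]
    {p : ℕ} [Fact p.Prime] [CharP F p] (P : Sylow p G) (ρ : G →* End F M) {v : M}
    (hv : ∀ x ∈ P, ρ x v = v) (C : Submodule F M) (hC : ∀ g, ρ g v - v ∈ C) :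
    ∃ v', (∀ g, ρ g v' = v') ∧ v' - v ∈ C := by
  have := Fintype.ofFinite (G ⧸ (P : Subgroup G))
  have h0 : (Fintype.card (G ⧸ (P : Subgroup G)) : F) ≠ 0 := by
    rw [Ne, CharP.cast_eq_zero_iff F p, ← Nat.card_eq_fintype_card]
    exact P.not_dvd_index
  refine ⟨(Fintype.card (G ⧸ (P : Subgroup G)) : F)⁻¹ • ∑ q : G ⧸ (P : Subgroup G), ρ q.out v,
    fun g => ?_, ?_⟩
  · rw [map_smul, map_sum]
    congr 1
    refine Fintype.sum_equiv (MulAction.toPerm g) _ _ fun q => ?_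
    obtain ⟨x, hx⟩ := QuotientGroup.mk_out_eq_mul (P : Subgroup G) (g * q.out)
    have : (QuotientGroup.mk (g * q.out) : G ⧸ (P : Subgroup G)) = g • q := by
      conv_rhs => rw [← q.out_eq']
      rfl
    rw [MulAction.toPerm_apply, ← this, hx, map_mul, map_mul, End.mul_apply, End.mul_apply, hv x x.2]
  · have := C.smul_mem (Fintype.card (G ⧸ (P : Subgroup G)) : F)⁻¹
      (C.sum_mem (t := Finset.univ) fun (q : G ⧸ (P : Subgroup G)) _ => hC q.out)
    rwa [Finset.sum_sub_distrib, Finset.sum_const, Finset.card_univ, smul_sub,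
      ← Nat.cast_smul_eq_nsmul F, smul_smul, inv_mul_cancel₀ h0, one_smul] at this

variable {F U W W' V : Type*} [Field F] [AddCommGroup U] [Module F U] [AddCommGroup W] [Module F W]
  [AddCommGroup W'] [Module F W'] [AddCommGroup V] [Module F V] [Finite F] [FiniteDimensional F U]
  [FiniteDimensional F W] [FiniteDimensional F W'] {τ : TS F U W V} {τ' : TS F U W' V}
  {PU : Polar F U} {PW : Polar F W} {PW' : Polar F W'} {PV : Polar F V} {X : Subgroup (V ≃ₗ[F] V)}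

theorem Compat.pB_eq_zero_of_le' (h : Compat τ PU PW PV) (h' : Compat τ' PU PW' PV) {e f y : U}
    (hle : LinearMap.range (τ.tp e) ≤ LinearMap.range (τ'.tp f)) (h1 : PU.B y f = 0) (x : W') :
    τ.pB PU e (τ'.tp y x) = 0 :=
  h.pB_eq_zero fun z => by
    obtain ⟨a, h3⟩ := hle ⟨z, rfl⟩
    rw [← h3]
    simp [h'.B_tp, h1]

theorem Compat.inQ_of_range_eq' (h : Compat τ PU PW PV) (h' : Compat τ' PU PW' PV) {e f : U}
    (hef : LinearMap.range (τ.tp e) = LinearMap.range (τ'.tp f)) {c : V ≃ₗ[F] V}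
    (hc : τ.InQ PU e c) : τ'.InQ PU f c := by
  refine ⟨fun x => ?_, fun y hy x => ?_⟩
  · obtain ⟨z, hz⟩ : τ'.tp f x ∈ LinearMap.range (τ.tp e) := hef ▸ ⟨x, rfl⟩
    rw [← hz, hc.1]
  · obtain ⟨z, hz⟩ := hc.apply (h.pB_eq_zero_of_le' h' hef.le hy x)
    obtain ⟨z', hz'⟩ : τ.tp e z ∈ LinearMap.range (τ'.tp f) := hef ▸ ⟨z, rfl⟩
    exact ⟨z', by rw [hz, hz']⟩

theorem TS.exists_range_eq' [Nontrivial W] {e e' : U} (he : e ≠ 0) (he' : e' ≠ 0)
    (h : τ'.InA (τ.K (PU.th e e') 1)) :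
    ∃ f, f ≠ 0 ∧ LinearMap.range (τ.tp e) = LinearMap.range (τ'.tp f) := by
  have := τ.finiteDimensional
  have : Nontrivial U := ⟨e, 0, he⟩
  obtain ⟨n, hn⟩ := h
  obtain ⟨u, hu⟩ : ∃ u, n u ≠ 0 := by
    by_contra! h0
    obtain ⟨y, hy⟩ := PU.exists_B_ne he'
    obtain ⟨x, hx⟩ := exists_ne (0 : W)
    have := LinearMap.congr_fun hn (τ.tp y x)
    rw [show n = 0 from LinearMap.ext h0] at this
    simp [PU.B_ne_symm hy, τ.tp_ne_zero he hx] at this
  refine ⟨n u, hu, (Submodule.eq_of_le_of_finrank_eq ?_ ?_).symm⟩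
  · rintro _ ⟨x, rfl⟩
    exact ⟨τ.pB PU e' (τ'.tp u x), by simpa [TS.K_th] using LinearMap.congr_fun hn (τ'.tp u x)⟩
  · rw [LinearMap.finrank_range_of_inj (τ'.tp_inj hu), LinearMap.finrank_range_of_inj (τ.tp_inj he),
      τ.finrank_eq_of τ']

theorem TS.range_map (g : V ≃ₗ[F] V) (e : U) :
    LinearMap.range ((τ.map g).tp e) = (LinearMap.range (τ.tp e)).map (g : V →ₗ[F] V) :=
  LinearMap.range_comp (τ.tp e) (g : V →ₗ[F] V)

theorem TS.range_K_th {e e' : U} (he' : e' ≠ 0) :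
    LinearMap.range (τ.K (PU.th e e') 1) = LinearMap.range (τ.tp e) := by
  refine le_antisymm (fun v hv => (TS.mem_range_K_th hv).imp fun _ => Eq.symm) ?_
  rintro _ ⟨x, rfl⟩
  obtain ⟨y, hy⟩ := PU.exists_B_ne he'
  exact ⟨τ.tp ((PU.B y e')⁻¹ • y) x, by simp [smul_smul, PU.B_ne_symm hy]⟩

theorem TS.map_range_of_comm {e : U} (he : e ≠ 0) {g : V ≃ₗ[F] V}
    (h : (g : End F V) * τ.K (PU.th e e) 1 = τ.K (PU.th e e) 1 * g) :
    (LinearMap.range (τ.tp e)).map (g : V →ₗ[F] V) = LinearMap.range (τ.tp e) := by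
  rw [← TS.range_K_th (PU := PU) he, ← LinearMap.range_comp]
  exact (congrArg LinearMap.range h).trans (LinearMap.range_comp_of_range_eq_top _ g.range)

theorem TS.map_KL (g : V ≃ₗ[F] V) (k : U ≃ₗ[F] U) : (τ.map g).KL k = g * τ.KL k * g⁻¹ :=
  LinearEquiv.ext fun v => τ.map_K_apply' g _ _ v

namespace R1

variable (r : R1 PU) {e e' : U} (he : PU.Val e 0)

/-- The root subgroup attached to a singular point. -/
def Rt (τ : TS F U W V) : Subgroup (V ≃ₗ[F] V) where
  carrier := {c | ∃ w, ∃ hw : PU.B w e = 0, c = τ.KL (r.eta he hw)}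
  mul_mem' := by
    rintro _ _ ⟨w, hw, rfl⟩ ⟨w', hw', rfl⟩
    exact ⟨w + w', by simp [hw, hw'], by rw [r.eta_add he hw hw', map_mul]⟩
  one_mem' := ⟨0, by simp, by rw [r.eta_zero, map_one]⟩
  inv_mem' := by
    rintro _ ⟨w, hw, rfl⟩
    exact ⟨-w, by simp [hw], by rw [← r.eta_inv he hw, map_inv]⟩

theorem mem_Rt {w : U} (hw : PU.B w e = 0) : τ.KL (r.eta he hw) ∈ r.Rt he τ := ⟨w, hw, rfl⟩

theorem Rt_comm {a b : V ≃ₗ[F] V} (ha : a ∈ r.Rt he τ) (hb : b ∈ r.Rt he τ) : a * b = b * a := by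
  obtain ⟨w, hw, rfl⟩ := ha
  obtain ⟨w', hw', rfl⟩ := hb
  rw [← map_mul, ← map_mul, ← r.eta_add he hw hw' (by simp [hw, hw']),
    ← r.eta_add he hw' hw (by simp [hw, hw']), r.eta_congr he _ _ (add_comm w w')]

theorem eta_nsmul {w : U} (hw : PU.B w e = 0) (n : ℕ) :
    r.eta he (w := (n : F) • w) (by simp [hw]) = r.eta he hw ^ n := by
  induction n with
  | zero => rw [r.eta_congr he _ (w' := 0) (by simp) (by simp), r.eta_zero, pow_zero]
  | succ n ih =>
    rw [pow_succ, ← ih, ← r.eta_add he _ hw (by simp [hw])]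
    exact r.eta_congr he _ _ (by simp [add_smul])

theorem Rt_pow {p : ℕ} [CharP F p] {a : V ≃ₗ[F] V} (ha : a ∈ r.Rt he τ) : a ^ p = 1 := by
  obtain ⟨w, hw, rfl⟩ := ha
  rw [← map_pow, ← r.eta_nsmul, r.eta_congr he _ (w' := 0) (by simp) (by simp), r.eta_zero, map_one]

theorem two_K_nn {w : U} (hw : PU.B w e = 0) : (2 : F) • τ.K (nn PU e w) 1 =
    (τ.KL (r.eta he hw) : End F V) - ((τ.KL (r.eta he hw))⁻¹ : V ≃ₗ[F] V) := by
  change _ = τ.K (r.eta he hw) 1 - τ.K (r.eta he hw).symm 1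
  simp only [r.coe_eta, r.coe_eta_symm, map_add, map_sub, LinearMap.add_apply, LinearMap.sub_apply]
  module

theorem comm_nn_of_comm {y : End F V} (hy : ∀ c ∈ r.Rt he τ, (c : End F V) * y = y * c) {w : U}
    (hw : PU.B w e = 0) : τ.K (nn PU e w) 1 * y = y * τ.K (nn PU e w) 1 :=
  smul_right_injective _ r.two (by
    simp only
    rw [← smul_mul_assoc, ← mul_smul_comm, r.two_K_nn he hw, sub_mul, mul_sub,
      hy _ (r.mem_Rt he hw), hy _ ((r.Rt he τ).inv_mem (r.mem_Rt he hw))])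

theorem comm_th_of_comm' (he0 : e ≠ 0) {y : End F V}
    (hy : ∀ c ∈ r.Rt he τ, (c : End F V) * y = y * c) :
    τ.K (PU.th e e) 1 * y = y * τ.K (PU.th e e) 1 := by
  obtain ⟨e', a1, a2⟩ := Polar.exists_partner he he0
  obtain ⟨w, hw, -, hww⟩ := r.exists_aniso he a1 a2
  exact r.comm_th_of_comm τ he hw hww (r.comm_nn_of_comm he hy hw)

variable (he' : PU.Val e' 0) (h1 : PU.B e' e = 1) {k : U ≃ₗ[F] U} (hk : k ∈ PU.Iso) {s : F}
  (k1 : k e = s • e) (k2 : k e' = s • e') (k3 : ∀ z, PU.B z e = 0 → PU.B z e' = 0 → k z = -s • z)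
include r he he' h1 hk k1 k2

theorem sq_eq_one : s * s = 1 := by
  simpa [k1, k2, r.o.σ, h1] using Polar.Iso.B hk e' e

include k3

theorem tor_mul_eta {w : U} (hw : PU.B w e = 0) :
    k * r.eta he hw = (r.eta he hw)⁻¹ * k := by
  have hs := r.sq_eq_one he he' h1 hk k1 k2
  obtain ⟨z, b1, b2, b3⟩ := Polar.eq_add_of_pair he he' h1 w
  rw [r.eta_inv he hw (by simp [hw])]
  refine LinearEquiv.ext fun x => ?_
  change k (PU.eich _ _ _ _) = PU.eich _ _ _ _
  rw [← Polar.eich_conj hk, k1, Polar.eich_smul, r.o.σ, hs, one_mul]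
  rw [hw, zero_smul, add_zero] at b3
  generalize PU.ε * PU.B w e' = a at b3
  have : s • k w = -w + (2 * a) • e := by
    rw [b3, map_add, map_smul, k1, k3 z b1 b2]
    simp only [smul_add, smul_smul]
    rw [mul_neg, hs, mul_left_comm, hs]
    module
  rw [this, r.o.eich_add_smul]
  simp

theorem adj_eq_of_comm {a : End F U} (ha : (k : End F U) * a = a * k)
    (hn : ∀ w, PU.B w e = 0 → nn PU e w * a = a * nn PU e w) : PU.adj a = a := by
  have hs := r.sq_eq_one he he' h1 hk k1 k2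
  have h2 : PU.B e e' = 1 := by rw [r.o.comm, h1]
  have a1 : ∀ w, PU.B w e = 0 → PU.B w e' = 0 → PU.B (a e') w = 0 := fun w hw hw' => by
    have := Polar.Iso.B hk (a e') w
    rw [show k (a e') = a (k e') from LinearMap.congr_fun ha e', k2, k3 w hw hw'] at this
    simp only [map_smul, LinearMap.smul_apply, r.o.smul_right, smul_eq_mul] at this
    exact mul_left_cancel₀ r.two (by linear_combination -this - PU.B (a e') w * hs)
  have a2 : ∀ w, PU.B w e = 0 → PU.B w e' = 0 → a w = PU.B (a e') e • w := fun w hw hw' => by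
    simpa [nn, h1, PU.B_symm hw', a1 w hw hw'] using (LinearMap.congr_fun (hn w hw) e').symm
  have a3 : a e = PU.B (a e') e • e := by
    obtain ⟨w, b1, b2, b3⟩ := r.exists_aniso he he' h1
    have := LinearMap.congr_fun (hn w b1) w
    simp only [nn, End.mul_apply, a2 w b1 b2, map_smul, LinearMap.sub_apply, Polar.th_apply, b1,
      zero_smul, zero_sub, map_neg, smul_neg, neg_inj] at this
    exact smul_right_injective U b3 (this.symm.trans (smul_comm _ _ _))
  refine PU.adj_eq_of fun x y => ?_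
  obtain ⟨z, b1, b2, b3⟩ := Polar.eq_add_of_pair he he' h1 x
  obtain ⟨z', c1, c2, c3⟩ := Polar.eq_add_of_pair he he' h1 y
  generalize PU.ε * PU.B x e' = c at b3
  generalize PU.ε * PU.B y e' = c' at c3
  generalize PU.B x e = b at b3
  generalize PU.B y e = b' at c3
  subst b3 c3
  simp only [map_add, map_smul, a2 z b1 b2, a2 z' c1 c2, a3, LinearMap.add_apply,
    LinearMap.smul_apply, r.o.smul_right, smul_eq_mul, b1, b2, PU.B_symm c1, PU.B_symm c2,
    a1 z' c1 c2, PU.B_symm (a1 z b1 b2), h1, h2, Polar.sing_B he, r.o.comm e (a e'),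
    r.o.comm e' (a e')]
  ring

end R1

namespace Good

variable (h : Good τ PU PW PV X) [Nontrivial W] (r : R1 PU) {e e' : U} (he : PU.Val e 0)
  (he0 : e ≠ 0)
include h

theorem Rt_le : r.Rt he τ ≤ X := by
  rintro _ ⟨w, hw, rfl⟩
  exact h.left _ (r.eta_mem _ _)

include he0

theorem mem_Rt_of_inQ {c : V ≃ₗ[F] V} (hc : c ∈ X) (hQ : τ.InQ PU e c) : c ∈ r.Rt he τ := by
  obtain ⟨a, ha⟩ := h.hpt e he he0 c hc hQ
  have ha' : ∀ u x, c (τ.tp u x) = τ.tp (a u) x := fun u x => by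
    simpa using LinearMap.congr_fun ha (τ.tp u x)
  obtain ⟨x, hx⟩ := exists_ne (0 : W)
  obtain ⟨x', hx'⟩ := PW.exists_B_ne hx
  have a1 : ∀ u v, PU.B (a u) (a v) = PU.B u v := fun u v => mul_right_cancel₀ hx' (by
    rw [← h.compat.B_tp, ← ha', ← ha', Polar.Iso.B (h.iso hc), h.compat.B_tp])
  have a2 : a e = e := τ.flip.tp_inj hx ((ha' e x).symm.trans (hQ.1 x))
  obtain ⟨e', b1, b2⟩ := Polar.exists_partner he he0
  have a3 : PU.B (a e' - e') e = 0 := by
    have := a1 e' e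
    rw [a2] at this
    simp [this]
  have a4 : ∀ y, PU.B y e = 0 → a y = y - PU.B y (a e' - e') • e := fun y hy => by
    obtain ⟨y', hy'⟩ := hQ.2 y hy x
    obtain ⟨ψ, hψ⟩ := exists_dual_one' (F := F) hx
    have h2 := congrArg (τ.flip.pr ψ) ((ha' y x).symm.trans hy')
    simp only [map_add, TS.flip_pr_tp, hψ, one_smul] at h2
    have h3 := a1 y e'
    have h4 := a1 e e'
    rw [h2] at h3 ⊢
    rw [a2, r.o.comm e e', b2] at h4
    simp only [map_add, map_smul, LinearMap.add_apply, LinearMap.smul_apply, h4, smul_eq_mul] at h3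
    rw [map_sub, ← h3]
    module
  refine ⟨a e' - e', a3, LinearEquiv.toLinearMap_injective (ha.trans ?_)⟩
  rw [TS.coe_KL]
  congr 2
  refine LinearMap.ext fun y => ?_
  have h5 := a4 (y - PU.B y e • e') (by simp [b2])
  have h6 := a1 e' e'
  rw [map_sub, map_smul, sub_eq_iff_eq_add] at h5
  rw [h5, LinearEquiv.coe_coe, r.eta_apply]
  simp only [map_sub, map_smul, LinearMap.sub_apply, LinearMap.smul_apply, h6, Polar.sing_B b1,
    r.o.comm (a e') e', smul_eq_mul]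
  match_scalars
  · ring
  · ring
  · field_simp [r.two]
    ring
  · ring

variable (h' : Good τ' PU PW' PV X) (hM : LinearMap.range (τ'.tp e) = LinearMap.range (τ.tp e))
include h' hM

theorem Rt_le_of_range_eq : r.Rt he τ' ≤ r.Rt he τ := by
  rintro _ ⟨w, hw, rfl⟩
  exact h.mem_Rt_of_inQ r he he0 (h'.left _ (r.eta_mem _ _))
    (h'.compat.inQ_of_range_eq' h.compat hM (TS.inQ_eich he hw _))

omit he0 in
theorem exists_conj_tor (he' : PU.Val e' 0) (h1 : PU.B e' e = 1) {k : U ≃ₗ[F] U} (hk : k ∈ PU.E)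
    {s : F} (k1 : k e = s • e) (k2 : k e' = s • e')
    (k3 : ∀ z, PU.B z e = 0 → PU.B z e' = 0 → k z = -s • z) :
    ∃ ρ ∈ r.Rt he τ, τ'.KL k * ρ = ρ * τ.KL k := by
  have hs := r.sq_eq_one he he' h1 (Polar.E_le_Iso hk) k1 k2
  obtain ⟨w, hw, h2⟩ := h.mem_Rt_of_inQ r he (fun e => by simp [e] at h1)
    (X.mul_mem (X.inv_mem (h.left k hk)) (h'.left k hk))
    ⟨fun x => inv_mul_apply_eq.2 (by
      obtain ⟨z, hz⟩ : τ.tp e x ∈ LinearMap.range (τ'.tp e) := hM ▸ ⟨x, rfl⟩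
      rw [TS.KL_tp, k1, map_smul, LinearMap.smul_apply, ← hz, TS.KL_tp, k1]; simp), fun y hy x => by
      obtain ⟨x₁, h3⟩ := τ'.KL_apply_of_perp he he' h1 k1 k3
        (h'.compat.pB_eq_zero_of_le' h.compat hM.le hy x)
      obtain ⟨x₂, h4⟩ := τ.KL_apply_of_perp he he' h1 k1 k3 (v := τ.tp y x) (by simp [hy])
      obtain ⟨x₃, h5⟩ : τ'.tp e x₁ ∈ LinearMap.range (τ.tp e) := hM ▸ ⟨x₁, rfl⟩
      refine ⟨s • (x₃ - x₂), inv_mul_apply_eq.2 ?_⟩
      rw [h3, map_add, h4, TS.KL_tp, k1, ← h5]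
      simp [smul_smul, hs]⟩
  have hv : PU.B (-(2⁻¹ : F) • w) e = 0 := by simp [hw]
  refine ⟨_, r.mem_Rt he hv, ?_⟩
  rw [inv_mul_eq_iff_eq_mul.1 h2, ← map_mul, ← map_mul, ← map_mul, mul_assoc,
    ← r.eta_add he hw hv (by simp [hw]), r.tor_mul_eta he he' h1 (Polar.E_le_Iso hk) k1 k2 k3,
    r.eta_inv he _ (by simp [hw])]
  congr 2
  refine r.eta_congr he _ _ ?_
  match_scalars
  field_simp [r.two]
  ring

end Good

variable (τ PU) in
/-- The endomorphisms which are symmetric in the first factor. -/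
def symS : Submodule F (End F V) where
  carrier := {c | ∀ u v, S τ PU c u v = S τ PU c v u}
  add_mem' h1 h2 u v := by simp only [S, map_add] at *; rw [h1, h2]
  zero_mem' u v := by simp [S]
  smul_mem' a c h1 u v := by simp only [S, map_smul] at *; rw [h1]

theorem mul_mul_mem_symS {c : End F V} (hc : c ∈ symS τ PU) (d d' : End F W) :
    τ.K 1 d * c * τ.K 1 d' ∈ symS τ PU := fun u v => by rw [S_conj, S_conj, hc u v]

theorem K_mem_symS (r : R1 PU) {a : End F U} (ha : PU.adj a = a) (d : End F W) :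
    τ.K a d ∈ symS τ PU := fun u v => by
  simp only [S, TS.sl_K, LinearMap.flip_apply]
  rw [← PU.B_adj a u v, ha, r.o.comm]

theorem mem_symS_of_adj (r : R1 PU) {c : End F V}
    (h : ∀ ψ x, PU.adj (τ.flip.sl ψ x c) = τ.flip.sl ψ x c) : c ∈ symS τ PU := fun u v =>
  LinearMap.ext fun x => sub_eq_zero.1 (eq_zero_of_forall_dual (F := F) fun ψ => by
    rw [map_sub, ← B_flip_sl, ← B_flip_sl, ← PU.B_adj _ u v, h, r.o.comm, sub_self])

theorem R1.mem_symS_of_comm (r : R1 PU) {e e' : U} (he : PU.Val e 0) (he' : PU.Val e' 0)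
    (h1 : PU.B e' e = 1) {k : U ≃ₗ[F] U} (hk : k ∈ PU.Iso) {s : F} (k1 : k e = s • e)
    (k2 : k e' = s • e') (k3 : ∀ z, PU.B z e = 0 → PU.B z e' = 0 → k z = -s • z) {c : End F V}
    (hc : (τ.KL k : End F V) * c = c * τ.KL k) (hR : ∀ y ∈ r.Rt he τ, (y : End F V) * c = c * y) :
    c ∈ symS τ PU := by
  have key : ∀ ψ x a, τ.K a 1 * c = c * τ.K a 1 → a * τ.flip.sl ψ x c = τ.flip.sl ψ x c * a :=
    fun ψ x a ha => by rw [← TS.sl_mul_left, ← TS.sl_mul_right, TS.flip_K, ha]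
  exact mem_symS_of_adj r fun ψ x => r.adj_eq_of_comm he he' h1 hk k1 k2 k3 (key ψ x _ hc)
    fun w hw => key ψ x _ (r.comm_nn_of_comm he hR hw)

theorem R1.exists_skew_symS (r : R1 PU) [Nontrivial W] [FiniteDimensional F V] {z : End F V}
    (hz : ∀ a d, PU.adj a = -a → LinearMap.trace F W d = 0 →
      LinearMap.trace F V (z * τ.K a d) = 0) : ∃ a, PU.adj a = -a ∧ z - τ.K a 1 ∈ symS τ PU := by
  obtain ⟨x₀, hx₀⟩ := exists_ne (0 : W)
  obtain ⟨ψ₀, hψ₀⟩ := exists_dual_one' (F := F) hx₀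
  refine ⟨(2⁻¹ : F) • (τ.flip.sl ψ₀ x₀ z - PU.adj (τ.flip.sl ψ₀ x₀ z)), by
    rw [Polar.adj_smul, r.o.σ, ← smul_neg]; simp, fun u v => ?_⟩
  obtain ⟨c, hc⟩ : Scal (S τ PU z u v - S τ PU z v u) := scal_of_dual fun ψ x hx => by
    have := hz (PU.th u v - PU.th v u) (ψ.smulRight x) (by simp [Polar.adj_th, r.o.ε])
      (by simp [LinearMap.trace_smulRight, hx])
    rw [map_sub, LinearMap.sub_apply, mul_sub, map_sub] at this
    simp only [Polar.th, TS.trace_mul_K] at this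
    simpa [S] using this
  have h1 := congrArg ψ₀ (hc x₀)
  rw [LinearMap.sub_apply, map_sub, ← B_flip_sl, ← B_flip_sl, map_smul, hψ₀] at h1
  refine LinearMap.ext fun x => ?_
  have h2 := hc x
  simp only [S, map_sub, TS.sl_K, LinearMap.sub_apply, LinearMap.smul_apply, LinearMap.flip_apply,
    map_smul, End.one_apply, Polar.adj_B, r.o.comm u (τ.flip.sl ψ₀ x₀ z v),
    r.o.comm v (τ.flip.sl ψ₀ x₀ z u)] at h2 ⊢
  rw [sub_eq_iff_eq_add.1 h2, ← mul_one c, ← smul_eq_mul c, ← h1]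
  match_scalars
  · field_simp [r.two]
    ring
  · ring

theorem TS.one_K_sl (φ : Dual F U) (u : U) (c : End F V) : τ.K 1 (τ.sl φ u c) =
    ∑ i, τ.K (φ.smulRight (finBasis F U i)) 1 * c *
      τ.K (((finBasis F U).coord i).smulRight u) 1 :=
  τ.ext fun y x => by
    conv_lhs => rw [← (finBasis F U).sum_repr y, map_sum, LinearMap.sum_apply, map_sum]
    simp [TS.K_smulRight]

variable {ι : Type*} [Fintype ι] {Z : ι → Type*} [∀ i, AddCommGroup (Z i)] [∀ i, Module F (Z i)]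
  [∀ i, FiniteDimensional F (Z i)] {σ : ∀ i, TS F U (Z i) V} {PZ : ∀ i, Polar F (Z i)}

theorem Multi.adj_eq_of_symS (h : Multi σ) (r : R1 PU) [FiniteDimensional F V]
    (cp : ∀ i, Compat (σ i) PU (PZ i) PV) (hV : ∀ a, PV.σ a = a) {c : End F V}
    (hc : ∀ i, c ∈ symS (σ i) PU) : PV.adj c = c := by
  have := r.nontrivial
  refine h.induction (p := fun c => (∀ i, c ∈ symS (σ i) PU) → PV.adj c = c) (fun c hc _ => ?_)
    Finset.univ (fun j _ c ih hc => ?_) (fun l hl => by simp at hl) hc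
  · obtain ⟨s, rfl⟩ := hc.eq
    simp [hV]
  have h1 : ∀ u v, (PZ j).adj (S (σ j) PU c u v) = S (σ j) PU c u v := fun u v =>
    (σ j).one_K_inj (by
      have := ih (PU.B.flip v) u fun i => by
        by_cases hij : i = j
        · subst hij
          exact K_mem_symS r PU.adj_one _
        rw [TS.one_K_sl]
        refine Submodule.sum_mem _ fun b _ => ?_
        obtain ⟨d, hd⟩ := h.exists_K hij (LinearMap.smulRight (PU.B.flip v) (finBasis F U b))
        obtain ⟨d', hd'⟩ := h.exists_K hij (((finBasis F U).coord b).smulRight u)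
        rw [hd, hd']
        exact mul_mul_mem_symS (hc i) d d'
      rwa [(cp j).adj_K, Polar.adj_one] at this)
  refine PV.adj_eq_of fun z x => ?_
  induction z using (σ j).induction with
  | h0 => simp
  | hadd a b ha hb => simp [ha, hb]
  | h u y =>
    induction x using (σ j).induction with
    | h0 => simp
    | hadd a b ha hb => simp only [map_add, ha, hb]
    | h v x =>
      rw [PV.herm (c _), (cp j).B_right, (cp j).B_right, ← S_apply, ← S_apply, hc j v u,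
        ← (PZ j).B_adj _ x y, h1, (PZ j).herm _ x, hV, (cp j).εV, r.o.ε, one_mul, ← mul_assoc,
        Polar.ε_mul_ε, one_mul, (cp j).σW, r.o.σ]

end Cfsg.Agent.Tens
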