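import Cfsg.Agent.Tens.Rigid6

/-!
Rigidity for tensor powers of orthogonal spaces of Witt index one over small fields: weak closure
of the root subgroups in a Sylow subgroup.
-/

set_option autoImplicit false
set_option linter.unusedSectionVars false

namespace Cfsg.Agent.Tens

open Module Cfsg.Agent.H7 Slot

theorem charP_card {F : Type*} [Field F] [Finite F] (hp : (Nat.card F).Prime) :
    CharP F (Nat.card F) := by
  have := Fintype.ofFinite F
  rw [CharP.charP_iff_prime_eq_zero hp, Nat.card_eq_fintype_card]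
  exact FiniteField.cast_card_eq_zero F

theorem exists_natCast {F : Type*} [Field F] [Finite F] (hp : (Nat.card F).Prime) (t : F) :
    ∃ n : ℕ, (n : F) = t := by
  have := charP_card hp
  have : Fact (Nat.card F).Prime := ⟨hp⟩
  obtain ⟨a, rfl⟩ := ((ZMod.castHom (dvd_refl _) F).injective.bijective_of_nat_card_le
    (by simp)).2 t
  exact ⟨a.val, by simp⟩

theorem sub_one_pow_eq_zero {F R : Type*} [Field F] [Ring R] [Algebra F R] {p : ℕ} [Fact p.Prime]
    [CharP F p] {T : R} (h : T ^ p = 1) : (T - 1) ^ p = 0 := by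
  rcases subsingleton_or_nontrivial R with hR | hR
  · exact Subsingleton.elim _ _
  have : CharP R p := charP_of_injective_algebraMap' F p
  rw [sub_pow_char_of_commute _ (Commute.one_right T), h, one_pow, sub_self]

variable {F U W V : Type*} [Field F] [AddCommGroup U] [Module F U] [AddCommGroup W] [Module F W]
  [AddCommGroup V] [Module F V] [Finite F] [FiniteDimensional F U] [FiniteDimensional F W]
  {τ : TS F U W V} {PU : Polar F U} {PW : Polar F W} {PV : Polar F V} {X : Subgroup (V ≃ₗ[F] V)}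

/-- The image of a subspace. -/
def mp (g : V ≃ₗ[F] V) (M : Submodule F V) : Submodule F V := M.map (g : V →ₗ[F] V)

theorem mp_mul (g g' : V ≃ₗ[F] V) (M : Submodule F V) : mp (g * g') M = mp g (mp g' M) :=
  Submodule.map_comp _ _ _

@[simp] theorem mp_one (M : Submodule F V) : mp 1 M = M := Submodule.map_id _

theorem mem_mp {g : V ≃ₗ[F] V} {M : Submodule F V} {v : V} : v ∈ mp g M ↔ g⁻¹ v ∈ M :=
  Submodule.mem_map_equiv M

theorem mp_inv_eq {g : V ≃ₗ[F] V} {M N : Submodule F V} (h : mp g M = N) : mp g⁻¹ N = M := by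
  rw [← h, ← mp_mul, inv_mul_cancel, mp_one]

theorem conj_apply_mul (x : V ≃ₗ[F] V) (a b : End F V) : x.conj (a * b) = x.conj a * x.conj b :=
  LinearMap.ext fun v => by simp [LinearEquiv.conj_apply]

theorem Good.comm_Rt_of_fix (h : Good τ PU PW PV X) [Nontrivial W] (r : R1 PU) {e : U}
    (he : PU.Val e 0) (he0 : e ≠ 0) {p : ℕ} [Fact p.Prime] [CharP F p] {x : V ≃ₗ[F] V} (hx : x ∈ X)
    (hp : x ^ p = 1) (hM : mp x (LinearMap.range (τ.tp e)) = LinearMap.range (τ.tp e))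
    {c : V ≃ₗ[F] V} (hc : c ∈ r.Rt he τ) : x * c = c * x := by
  let T : End F (End F V) := x.conj.toLinearMap
  have hT : (T - 1) ^ p = 0 := sub_one_pow_eq_zero (F := F) (by
    have : ∀ n : ℕ, T ^ n = (x ^ n).conj.toLinearMap := fun n => by
      induction n with
      | zero => rfl
      | succ n ih => rw [pow_succ, pow_succ, ih]; rfl
    rw [this, hp]; rfl)
  have h1 : ∀ w, PU.B w e = 0 → ∃ w', PU.B w' e = 0 ∧ T (τ.K (nn PU e w) 1) = τ.K (nn PU e w') 1 :=
    fun w hw => by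
      obtain ⟨w', hw', h2⟩ := h.Rt_le_of_range_eq r he he0 (h.map hx)
        ((TS.range_map x e).trans hM) (r.mem_Rt he hw)
      refine ⟨w', hw', smul_right_injective _ r.two ?_⟩
      simp only
      rw [r.two_K_nn he hw', ← h2, ← r.two_K_nn he hw, TS.map_K_conj]
      rfl
  have h2 : ∀ w w', PU.B w e = 0 → PU.B w' e = 0 → τ.K (nn PU e w) 1 * τ.K (nn PU e w') 1 =
      -PU.B w w' • τ.K (PU.th e e) 1 := fun w w' hw hw' => by simp [TS.K_mul, r.nn_mul he hw hw']
  obtain ⟨e', a1, a2⟩ := Polar.exists_partner he he0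
  obtain ⟨x₀, hx₀⟩ := exists_ne (0 : W)
  have hθ : τ.K (PU.th e e) 1 ≠ 0 := fun h0 => by
    simpa [a2, τ.tp_ne_zero he0 hx₀] using LinearMap.congr_fun h0 (τ.tp e' x₀)
  have h3 : T (τ.K (PU.th e e) 1) = τ.K (PU.th e e) 1 := by
    obtain ⟨w, hw, -, hww⟩ := r.exists_aniso he a1 a2
    obtain ⟨w', hw', h3⟩ := h1 w hw
    have h4 : (T - 1) (τ.K (PU.th e e) 1) = (PU.B w' w' / PU.B w w - 1) • τ.K (PU.th e e) 1 := by
      have h5 := conj_apply_mul x (τ.K (nn PU e w) 1) (τ.K (nn PU e w) 1)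
      change T _ = T _ * T _ at h5
      rw [h3, h2 w w hw hw, h2 w' w' hw' hw', map_smul] at h5
      rw [LinearMap.sub_apply, sub_smul, one_smul, End.one_apply, sub_left_inj]
      refine smul_right_injective _ (neg_ne_zero.2 hww) ?_
      simp only [h5, smul_smul]
      congr 1
      field_simp
    generalize PU.B w' w' / PU.B w w - 1 = c at h4
    have h5 : ∀ j : ℕ, ((T - 1) ^ j) (τ.K (PU.th e e) 1) = c ^ j • τ.K (PU.th e e) 1 := fun j => by
      induction j with
      | zero => simp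
      | succ j ih => rw [pow_succ', End.mul_apply, ih, map_smul, h4, smul_smul, pow_succ]
    have h6 := h5 p
    rw [hT, LinearMap.zero_apply, eq_comm, smul_eq_zero] at h6
    rw [pow_eq_zero_iff (Fact.out : p.Prime).ne_zero |>.1 (h6.resolve_right hθ), zero_smul] at h4
    exact sub_eq_zero.1 h4
  let N : Submodule F (End F V) :=
    { carrier := {n | ∃ w, PU.B w e = 0 ∧ n = τ.K (nn PU e w) 1}
      add_mem' := by
        rintro _ _ ⟨w, hw, rfl⟩ ⟨w', hw', rfl⟩
        exact ⟨w + w', by simp [hw, hw'], by simp [R1.nn_add]⟩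
      zero_mem' := ⟨0, by simp, by simp [nn]⟩
      smul_mem' := by
        rintro a _ ⟨w, hw, rfl⟩
        exact ⟨a • w, by simp [hw], by simp [r.nn_smul]⟩ }
  have h4 : ∀ n ∈ N, (T - 1) n ∈ N := by
    rintro _ ⟨w, hw, rfl⟩
    exact N.sub_mem (h1 w hw) ⟨w, hw, rfl⟩
  have h5 : ∀ n ∈ N, (T - 1) ((T - 1) n) = 0 → (T - 1) n = 0 := fun n hn h6 => by
    obtain ⟨v, hv, h7⟩ := h4 n hn
    obtain ⟨w, hw, rfl⟩ := hn
    have h8 : T (τ.K (nn PU e v) 1) = τ.K (nn PU e v) 1 := by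
      rw [h7] at h6; exact sub_eq_zero.1 h6
    have h9 := conj_apply_mul x (τ.K (nn PU e w) 1) (τ.K (nn PU e v) 1)
    change T _ = T _ * T _ at h9
    rw [h8, h2 w v hw hv, map_smul, h3, ← h2 w v hw hv, ← sub_eq_zero, ← sub_mul, ← neg_sub] at h9
    change -((T - 1) _) * _ = 0 at h9
    rw [h7, neg_mul, h2 v v hv hv, neg_eq_zero, smul_eq_zero, neg_eq_zero] at h9
    obtain ⟨a, rfl⟩ := Submodule.mem_span_singleton.1 (r.mem_span he he0 hv (h9.resolve_right hθ))
    rw [h7, r.nn_smul]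
    simp [nn]
  have h6 : ∀ j : ℕ, ∀ n ∈ N, ((T - 1) ^ j) n = 0 → (T - 1) n = 0 := fun j => by
    induction j with
    | zero => intro n _ h0; simp [show n = 0 from h0]
    | succ j ih => exact fun n hn h0 => h5 n hn (ih _ (h4 n hn) (by rwa [pow_succ] at h0))
  obtain ⟨w, hw, rfl⟩ := hc
  have h7 := r.conj_eta_of_comm τ he hw (y := x) ?_ ?_
  · refine LinearEquiv.ext fun v => ?_
    have := LinearMap.congr_fun h7 (τ.KL (r.eta he hw) v)
    rw [LinearEquiv.conj_apply_apply, LinearEquiv.symm_apply_apply] at this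
    exact this.symm
  · have := sub_eq_zero.1 (h6 p _ ⟨w, hw, rfl⟩ (by simp [hT]))
    exact LinearMap.ext fun v => by simpa [T] using (LinearMap.congr_fun this (x v)).symm
  · exact LinearMap.ext fun v => by simpa [T] using (LinearMap.congr_fun h3 (x v)).symm

theorem R1.exists_pm (r : R1 PU) (hs : Nat.card F = 5 ∨ (Nat.card F = 3 ∧ finrank F U = 4)) {e : U}
    (he : PU.Val e 0) (he0 : e ≠ 0) (H : Submodule F U) (heH : e ∈ H) {w : U} (hw : PU.B w e = 0)
    (hwH : w ∉ H) : ∃ v, PU.B v e = 0 ∧ PU.B v v ≠ 0 ∧ w + v ∉ H ∧ w - v ∉ H := by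
  have h1 : ∀ v, PU.B v e = 0 → PU.B v v = 0 → ∃ a : F, a • e = v := fun v a b =>
    Submodule.mem_span_singleton.1 (r.mem_span he he0 a b)
  rcases hs with hs | ⟨hs, hk⟩
  · have h5 : (5 : F) = 0 := by
      have := charP_card (F := F) (hs ▸ Nat.prime_five)
      exact_mod_cast hs ▸ CharP.cast_eq_zero F (Nat.card F)
    refine ⟨w + w, by simp [hw], fun h => hwH ?_, fun h => hwH ?_, fun h => hwH ?_⟩
    · obtain ⟨a, ha⟩ := h1 _ (by simp [hw]) h
      exact (H.smul_mem_iff r.two).1 (by rw [two_smul, ← ha]; exact H.smul_mem _ heH)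
    · convert H.add_mem h h using 1
      linear_combination (norm := module) -(h5 • w)
    · simpa using h
  obtain ⟨v, hv, hv0⟩ := exists_notMem_of_finrank_lt (U := (F ∙ e) ⊔ F ∙ w) (W := ⊤ ⊓ PU.pp e) (by
    have := Polar.finrank_inf_pp_ge (P := PU) ⊤ e
    have := finrank_span_pair_le (F := F) e w
    rw [finrank_top] at *
    omega)
  have h2 : ∀ c : F, PU.B (v + c • w) (v + c • w) ≠ 0 := fun c h => by
    obtain ⟨a, ha⟩ := h1 _ (by simp [hw, show PU.B v e = 0 from hv.2]) h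
    exact hv0 (mem_sup_span_singleton.2 ⟨_, Submodule.mem_span_singleton.2 ⟨a, rfl⟩, -c, by
      rw [ha]; module⟩)
  have h3 : ∀ c : F, v + c • w ∈ H → ∃ v, PU.B v e = 0 ∧ PU.B v v ≠ 0 ∧ w + v ∉ H ∧ w - v ∉ H :=
    fun c h => ⟨_, by simp [hw, show PU.B v e = 0 from hv.2], h2 c,
      fun h' => hwH (by simpa using H.sub_mem h' h), fun h' => hwH (by simpa using H.add_mem h' h)⟩
  by_cases h4 : w + v ∈ H
  · exact h3 1 (by rwa [one_smul, add_comm])
  by_cases h5 : w - v ∈ H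
  · exact h3 (-1) (by simpa [sub_eq_add_neg] using H.neg_mem h5)
  exact ⟨v, hv.2, by simpa using h2 0, h4, h5⟩

variable {ι : Type*} [Fintype ι] {Z : ι → Type*} [∀ i, AddCommGroup (Z i)] [∀ i, Module F (Z i)]
  [∀ i, FiniteDimensional F (Z i)] [∀ i, Nontrivial (Z i)] {σ : ∀ i, TS F U (Z i) V}
  {PZ : ∀ i, Polar F (Z i)}

theorem Multi.K_mem_range (h : Multi σ) {i k : ι} (hik : k ≠ i) (a : End F U) {e : U} {v : V}
    (hv : v ∈ LinearMap.range ((σ k).tp e)) : (σ i).K a 1 v ∈ LinearMap.range ((σ k).tp e) := by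
  obtain ⟨d, hd⟩ := h.exists_K hik a
  obtain ⟨x, rfl⟩ := hv
  exact ⟨d x, by simp [hd]⟩

theorem Multi.exists_notMem (h : Multi σ) (hk : 2 ≤ finrank F U) {e : U} (he : e ≠ 0) (i : ι) :
    ∃ v, (∀ k, k ≠ i → v ∈ LinearMap.range ((σ k).tp e)) ∧ v ∉ LinearMap.range ((σ i).tp e) := by
  classical
  obtain ⟨v, h0, hv⟩ : ∃ v, v ≠ 0 ∧ ∀ k ∈ Finset.univ, v ∈ LinearMap.range ((σ k).tp e) := by
    induction (Finset.univ : Finset ι) using Finset.induction_on with
    | empty => exact ⟨_, (σ i).tp_ne_zero he (exists_ne (0 : Z i)).choose_spec, by simp⟩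
    | insert j J hj ih =>
      obtain ⟨v, h0, hv⟩ := ih
      obtain ⟨φ, hφ⟩ : ∃ φ, (σ j).pr φ v ≠ 0 := by
        by_contra! hc
        exact h0 ((σ j).eq_zero_of_pr hc)
      refine ⟨(σ j).K (φ.smulRight e) 1 v, by
        rw [TS.K_smulRight]; exact (σ j).tp_ne_zero he hφ, fun k hk => ?_⟩
      by_cases hkj : k = j
      · subst hkj
        exact ⟨_, (TS.K_smulRight _ _ _ _ _).symm⟩
      · exact h.K_mem_range hkj _ (hv k (by simpa [hkj] using hk))
  obtain ⟨x, rfl⟩ := hv i (Finset.mem_univ i)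
  obtain ⟨u, -, hu⟩ := exists_notMem_of_finrank_lt (U := F ∙ e) (W := ⊤)
    (by rw [finrank_top, finrank_span_singleton he]; omega)
  obtain ⟨φ, h1, h2⟩ := exists_dual_one₂ hu
  obtain ⟨ψ, h3⟩ := exists_dual_one' (F := F) he
  refine ⟨_, fun k hk => h.K_mem_range hk (ψ.smulRight u) (hv k (Finset.mem_univ k)), ?_⟩
  rintro ⟨y, hy⟩
  have := congrArg ((σ i).pr φ) hy
  simp [h1, h2, h3] at this
  simp [← this] at h0

theorem Multi.eq_of_range_eq (h : Multi σ) (hk : 2 ≤ finrank F U) {e : U} (he : e ≠ 0) {i k : ι}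
    (h1 : LinearMap.range ((σ k).tp e) = LinearMap.range ((σ i).tp e)) : k = i := by
  by_contra h2
  obtain ⟨v, h3, h4⟩ := h.exists_notMem hk he i
  exact h4 (h1 ▸ h3 k h2)

theorem Multi.fix_of_perm (h : Multi σ) (r : R1 PU)
    (hs : Nat.card F = 5 ∨ (Nat.card F = 3 ∧ finrank F U = 4)) {e : U} (he : PU.Val e 0)
    (he0 : e ≠ 0) (hp : ∀ c ∈ r.Rt he τ, ∀ k, ∃ l,
      mp c (LinearMap.range ((σ k).tp e)) = LinearMap.range ((σ l).tp e))
    {c : V ≃ₗ[F] V} (hc : c ∈ r.Rt he τ) (i : ι) :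
    mp c (LinearMap.range ((σ i).tp e)) = LinearMap.range ((σ i).tp e) := by
  set M := fun k => LinearMap.range ((σ k).tp e) with hM
  change mp c (M i) = M i
  have h1 : ∀ {a b} (ha : PU.B a e = 0) (hb : PU.B b e = 0) hab, τ.KL (r.eta he (w := a + b) hab) =
    τ.KL (r.eta he ha) * τ.KL (r.eta he hb) := fun ha hb hab => by rw [r.eta_add he ha hb, map_mul]
  have h2 : ∀ hw, mp (τ.KL (r.eta he (w := 0) hw)) (M i) = M i := fun hw => by
    rw [r.eta_zero, map_one, mp_one]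
  let H : Submodule F U :=
    { carrier := {w | ∃ hw : PU.B w e = 0, mp (τ.KL (r.eta he hw)) (M i) = M i}
      add_mem' := fun ⟨ha, a⟩ ⟨hb, b⟩ => ⟨by simp [ha, hb], by rw [h1 ha hb, mp_mul, b, a]⟩
      zero_mem' := ⟨by simp, h2 _⟩
      smul_mem' := fun t w ⟨hw, a⟩ => by
        obtain ⟨n, rfl⟩ := exists_natCast (by
          rcases hs with hs | hs <;> simp [hs, Nat.prime_five, Nat.prime_three]) t
        refine ⟨by simp [hw], ?_⟩
        rw [r.eta_nsmul he hw, map_pow]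
        induction n with
        | zero => simp
        | succ n ih => rw [pow_succ, mp_mul, a, ih] }
  obtain ⟨w, hw, rfl⟩ := hc
  by_contra h3
  have hwH : w ∉ H := fun ⟨_, a⟩ => h3 a
  obtain ⟨v, hv, hvv, a1, a2⟩ := r.exists_pm hs he he0 H ⟨Polar.sing_B he, by
    rw [show r.eta he (Polar.sing_B he) = 1 from LinearEquiv.ext fun x => by
      simp [r.eta_apply, Polar.sing_B he], map_one, mp_one]⟩ hw hwH
  obtain ⟨j, hj⟩ := hp _ ((r.Rt he τ).inv_mem (r.mem_Rt he hw)) i
  obtain ⟨x, b1, b2⟩ := h.exists_notMem (by have := r.dim; omega) he0 j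
  have key : ∀ u (hu : PU.B u e = 0), w - u ∉ H → τ.KL (r.eta he hu) x ∈ M i := fun u hu h4 => by
    obtain ⟨l, hl⟩ := hp _ ((r.Rt he τ).inv_mem (r.mem_Rt he hu)) i
    have h5 := b1 l fun e => h4 ⟨by simp [hw, hu], by
      subst e
      simp only [sub_eq_add_neg]
      rw [h1 hw (by simp [hu]), mp_mul, ← r.eta_inv he hu, map_inv, hl.trans hj.symm, ← mp_mul,
        mul_inv_cancel, mp_one]⟩
    rwa [← hl, mem_mp, inv_inv] at h5
  have h4 : ∀ u (hu : PU.B u e = 0), τ.KL (r.eta he hu) x +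
      τ.KL (r.eta he (w := -u) (by simp [hu])) x - (2 : F) • x =
      -PU.B u u • τ.K (PU.th e e) 1 x := fun u hu => by
    rw [← r.eta_inv he hu]
    change τ.K (r.eta he hu) 1 x + τ.K (r.eta he hu).symm 1 x - _ = _
    simp only [r.coe_eta, r.coe_eta_symm, map_add, map_sub, map_smul, LinearMap.add_apply,
      LinearMap.sub_apply, LinearMap.smul_apply, TS.K_one, End.one_apply]
    match_scalars
    · ring
    · ring
    · field_simp [r.two]; ring
  have c0 := key 0 (by simp) (by rwa [sub_zero])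
  rw [r.eta_zero, map_one, LinearEquiv.coe_one, id] at c0
  have c1 := key v hv a2
  have c2 := key (-v) (by simp [hv]) (by rwa [sub_neg_eq_add])
  have c3 := key (-w) (by simp [hw]) (by
    rwa [sub_neg_eq_add, ← two_smul F, H.smul_mem_iff r.two])
  refine b2 ?_
  rw [← hj, mem_mp, inv_inv, ← (M i).smul_mem_iff hvv]
  convert (M i).sub_mem ((M i).smul_mem (PU.B w w) ((M i).sub_mem ((M i).add_mem c1 c2)
    ((M i).smul_mem 2 c0))) ((M i).smul_mem (PU.B v v) ((M i).sub_mem c3 ((M i).smul_mem 2 c0)))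
    using 1
  rw [h4 v hv]
  linear_combination (norm := module) PU.B v v • h4 w hw

end Cfsg.Agent.Tens
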