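import Cfsg.Agent.Tens.W2
import Cfsg.Agent.H7.Types

/-!
The slot lemma, general part: subalgebras of `End (U ⊗ W)` invariant under the elementary group
of `U`.  Symplectic and unitary cases.
-/

set_option autoImplicit false
set_option linter.unusedSectionVars false
set_option linter.unusedSimpArgs false

namespace Cfsg.Agent.Tens.Slot

open Module Cfsg.Agent.H7 Cfsg.Agent.H7.Polar

section Ring

variable {F A : Type*} [Field F] [Ring A] [Algebra F A]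

/-- The difference operator of a conjugation. -/
def dd (l r c : A) : A := (1 + l) * c * (1 + r) - c

theorem dd_eq (l r c : A) : dd l r c = l * c + c * r + l * c * r := by
  simp only [dd]; noncomm_ring

theorem dd_dd (l₁ r₁ l₂ r₂ c : A) : dd l₁ r₁ (dd l₂ r₂ c) =
    l₁ * c * r₂ + l₂ * c * r₁ + (l₁ * l₂) * (c + c * r₂ + c * r₁) +
      (c + l₂ * c + l₁ * c) * (r₂ * r₁) + (l₁ * l₂) * c * (r₂ * r₁) := by
  simp only [dd]; noncomm_ring

theorem dd_four {l₁ r₁ l₂ r₂ l₃ r₃ l₄ r₄ θ : A} {a₁₂ a₁₃ a₁₄ a₂₃ a₂₄ a₃₄ b₂₁ b₃₁ b₄₁ b₃₂ b₄₂ b₄₃ : F}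
    (h12 : l₁ * l₂ = a₁₂ • θ) (h13 : l₁ * l₃ = a₁₃ • θ) (h14 : l₁ * l₄ = a₁₄ • θ)
    (h23 : l₂ * l₃ = a₂₃ • θ) (h24 : l₂ * l₄ = a₂₄ • θ) (h34 : l₃ * l₄ = a₃₄ • θ)
    (k21 : r₂ * r₁ = b₂₁ • θ) (k31 : r₃ * r₁ = b₃₁ • θ) (k41 : r₄ * r₁ = b₄₁ • θ)
    (k32 : r₃ * r₂ = b₃₂ • θ) (k42 : r₄ * r₂ = b₄₂ • θ) (k43 : r₄ * r₃ = b₄₃ • θ)
    (m1 : l₁ * θ = 0) (m2 : l₂ * θ = 0) (m3 : θ * l₃ = 0) (m4 : θ * l₄ = 0)
    (n1 : θ * r₁ = 0) (n2 : θ * r₂ = 0) (n3 : r₃ * θ = 0) (n4 : r₄ * θ = 0) (hθ : θ * θ = 0)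
    (c : A) :
    dd l₁ r₁ (dd l₂ r₂ (dd l₃ r₃ (dd l₄ r₄ c))) =
      (a₁₂ * b₄₃ + a₁₃ * b₄₂ + a₁₄ * b₃₂ + a₂₃ * b₄₁ + a₂₄ * b₃₁ + a₃₄ * b₂₁) • (θ * c * θ) := by
  have e : ∀ {x y z : A} {s : F}, x * y = s • z → ∀ t, x * (y * t) = s • (z * t) :=
    fun h t => by rw [← mul_assoc, h, smul_mul_assoc]
  have e0 : ∀ {x y : A}, x * y = 0 → ∀ t, x * (y * t) = 0 :=
    fun h t => by rw [← mul_assoc, h, zero_mul]
  rw [dd_dd l₃ r₃ l₄ r₄, h34, k43, dd_dd, h12, k21]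
  simp only [mul_add, add_mul, mul_assoc, smul_mul_assoc, mul_smul_comm, e h13, e h14, e h23,
    e h24, k31, k41, k32, k42, e0 m1, e0 m2, e0 m3, e0 m4, n1, n2, n3, n4, e0 hθ, hθ,
    mul_zero, zero_mul, smul_zero, add_zero, zero_add, smul_add]
  module

theorem mem_of_poly [Finite F] {M : Type*} [AddCommGroup M] [Module F M] (N : Submodule F M)
    (hF : 5 ≤ Nat.card F) {c₁ c₂ c₃ c₄ : M}
    (h : ∀ t : F, t • c₁ + t ^ 2 • c₂ + t ^ 3 • c₃ + t ^ 4 • c₄ ∈ N) : c₄ ∈ N := by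
  by_contra hc
  obtain ⟨φ, h1, h2⟩ := exists_dual_one hc
  have := Fintype.ofFinite F
  open Polynomial in
  have key : (C (φ c₁) * X + C (φ c₂) * X ^ 2 + C (φ c₃) * X ^ 3 + X ^ 4 : F[X]) = 0 := by
    refine Polynomial.eq_zero_of_natDegree_lt_card_of_eval_eq_zero' _ Finset.univ
      (fun t _ => ?_) ?_
    · have := h2 _ (h t)
      simp only [map_add, map_smul, smul_eq_mul, h1] at this
      simp only [eval_add, eval_mul, eval_C, eval_X, eval_pow]
      linear_combination this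
    · rw [Finset.card_univ, ← Nat.card_eq_fintype_card]
      refine lt_of_le_of_lt (b := 4) ?_ (by omega)
      compute_degree
  have := congrArg (fun p => Polynomial.coeff p 4) key
  simp [Polynomial.coeff_X, Polynomial.coeff_X_pow] at this

end Ring

variable {F U W V : Type*} [Field F] [AddCommGroup U] [Module F U] [AddCommGroup W] [Module F W]
  [AddCommGroup V] [Module F V] (τ : TS F U W V) (P : Polar F U)

/-- The slice `B (c x) y`. -/
def S (c : End F V) (x y : U) : End F W := τ.sl (P.B.flip y) x c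

theorem S_apply (c : End F V) (x y : U) (v : W) : S τ P c x y v = τ.pB P y (c (τ.tp x v)) := rfl

theorem S_add_left (c : End F V) (x x' y : U) :
    S τ P c (x + x') y = S τ P c x y + S τ P c x' y := by
  ext v; simp [S_apply]

theorem S_add_right (c : End F V) (x y y' : U) :
    S τ P c x (y + y') = S τ P c x y + S τ P c x y' := by
  ext v; simp [S_apply, TS.pB_add]

theorem S_smul_left (c : End F V) (a : F) (x y : U) :
    S τ P c (a • x) y = a • S τ P c x y := by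
  ext v; simp [S_apply]

theorem S_smul_right (c : End F V) (a : F) (x y : U) :
    S τ P c x (a • y) = P.σ a • S τ P c x y := by
  ext v; simp [S_apply, TS.pB_smul]

theorem S_conj (c : End F V) (d d' : End F W) (x y : U) :
    S τ P (τ.K 1 d * c * τ.K 1 d') x y = d * S τ P c x y * d' := by
  ext v
  simp only [S_apply, End.mul_apply, TS.K_tp, End.one_apply, TS.pB, TS.pr_K]
  rfl

theorem K_th_mul_mul (c : End F V) (a y x b : U) (α β : End F W) :
    τ.K (P.th a y) α * c * τ.K (P.th x b) β = τ.K (P.th a b) (α * S τ P c x y * β) := by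
  ext v
  simp only [End.mul_apply, TS.K_th, S_apply]

theorem B_flip_sl (c : End F V) (ψ : Dual F W) (x₀ : W) (u v : U) :
    P.B (τ.flip.sl ψ x₀ c u) v = ψ (S τ P c u v x₀) := by
  rw [S_apply, TS.pB, ← TS.pr_flip_pr]
  rfl

theorem K_ne_zero {a : End F U} {d : End F W} (ha : a ≠ 0) (hd : d ≠ 0) : τ.K a d ≠ 0 := by
  obtain ⟨u, hu⟩ : ∃ u, a u ≠ 0 := by by_contra! h; exact ha (LinearMap.ext h)
  obtain ⟨x, hx⟩ : ∃ x, d x ≠ 0 := by by_contra! h; exact hd (LinearMap.ext h)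
  intro h
  exact τ.tp_ne_zero hu hx (by simpa using LinearMap.congr_fun h (τ.tp u x))

/-- Invariance of a set of endomorphisms under conjugation by `g ⊗ 1`. -/
def InvL (M : Set (End F V)) (g : U ≃ₗ[F] U) : Prop :=
  ∀ c ∈ M, τ.K (g : End F U) 1 * c * τ.K (g.symm : End F U) 1 ∈ M

/-- Invariance of a set of endomorphisms under conjugation by `1 ⊗ d`. -/
def InvR (M : Set (End F V)) (d : W ≃ₗ[F] W) : Prop :=
  ∀ c ∈ M, τ.K 1 (d : End F W) * c * τ.K 1 (d.symm : End F W) ∈ M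

/-- The irreducibility hypothesis on the second factor. -/
def Irr (M : Set (End F V)) : Prop :=
  ∀ α β : End F W, α ≠ 0 → β ≠ 0 → ∃ d : W ≃ₗ[F] W, InvR τ M d ∧ α * (d : End F W) * β ≠ 0

/-- The absolute irreducibility hypothesis on the second factor. -/
def AbsIrr (M : Set (End F V)) : Prop :=
  Submodule.span F {a : End F W | ∃ d : W ≃ₗ[F] W, InvR τ M d ∧ a = d} = ⊤

variable {τ P}

theorem InvL.mul {M : Set (End F V)} {g g' : U ≃ₗ[F] U} (h : InvL τ M g) (h' : InvL τ M g') :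
    InvL τ M (g * g') := fun c hc => by
  convert h _ (h' c hc) using 1
  ext v
  simp only [End.mul_apply, TS.K_K, one_mul]
  rfl

theorem AbsIrr.induction {M : Set (End F V)} (h : AbsIrr τ M) {N : Type*} [AddCommGroup N]
    [Module F N] (f : End F W →ₗ[F] N) (hf : ∀ d : W ≃ₗ[F] W, InvR τ M d → f d = 0) (a : End F W) :
    f a = 0 := by
  have : Submodule.span F {a : End F W | ∃ d : W ≃ₗ[F] W, InvR τ M d ∧ a = d} ≤ LinearMap.ker f :=
    Submodule.span_le.2 (by rintro _ ⟨d, hd, rfl⟩; exact hf d hd)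
  exact this (h ▸ Submodule.mem_top)

theorem AbsIrr.irr {M : Set (End F V)} (h : AbsIrr τ M) : Irr τ M := fun α β hα hβ => by
  by_contra! hcon
  obtain ⟨u, hu⟩ : ∃ u, α u ≠ 0 := by by_contra! h; exact hα (LinearMap.ext h)
  obtain ⟨x, hx⟩ : ∃ x, β x ≠ 0 := by by_contra! h; exact hβ (LinearMap.ext h)
  obtain ⟨φ, hφ⟩ := exists_dual_one' (F := F) hx
  have := h.induction ((LinearMap.mulRight F β) ∘ₗ (LinearMap.mulLeft F α)) hcon (φ.smulRight u)
  exact hu (by simpa [hφ] using LinearMap.congr_fun this x)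

theorem Irr.exists_conj {M : Set (End F V)} (h : Irr τ M) {α β : End F W} (hα : α ≠ 0)
    (hβ : β ≠ 0) : ∃ d : W ≃ₗ[F] W, InvR τ M d ∧
      α * ((d : End F W) * β * (d.symm : End F W)) ≠ 0 := by
  obtain ⟨d, h1, h2⟩ := h α β hα hβ
  refine ⟨d, h1, fun e => h2 (LinearMap.ext fun x => ?_)⟩
  simpa using LinearMap.congr_fun e (d x)

theorem InvR.K_mem {M : Set (End F V)} {d : W ≃ₗ[F] W} (h : InvR τ M d) {a : End F U}
    {β : End F W} (hβ : τ.K a β ∈ M) :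
    τ.K a ((d : End F W) * β * (d.symm : End F W)) ∈ M := by
  simpa [TS.K_mul] using h _ hβ

theorem conj_th {g : U ≃ₗ[F] U} (hg : g ∈ P.Iso) (u v : U) :
    (g : End F U) * P.th u v * (g.symm : End F U) = P.th (g u) (g v) := by
  ext x
  simp [← Iso.B hg (g.symm x)]

theorem InvL.K_th_mem {M : Set (End F V)} {g : U ≃ₗ[F] U} (h : InvL τ M g) (hg : g ∈ P.Iso)
    {u v : U} {β : End F W} (hβ : τ.K (P.th u v) β ∈ M) : τ.K (P.th (g u) (g v)) β ∈ M := by
  simpa [TS.K_mul, conj_th hg] using h _ hβ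

variable (τ P) in
/-- The nilpotent part of an Eichler transformation. -/
def el (u w : U) (c : F) : End F V :=
  τ.K (P.th w u - P.ε • P.th u w) 1 - P.σ c • τ.K (P.th u u) 1

variable (τ P) in
/-- The nilpotent part of the inverse of an Eichler transformation. -/
def er (u w : U) (c : F) : End F V :=
  -τ.K (P.th w u - P.ε • P.th u w) 1 - (P.ε * c) • τ.K (P.th u u) 1

theorem dd_mem {M : Submodule F (End F V)} (hL : ∀ g ∈ P.E, InvL τ (M : Set (End F V)) g)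
    {u w : U} {c : F} (hu : P.Val u 0) (hw : P.B w u = 0) (hc : P.Val w c) {z : End F V}
    (hz : z ∈ M) : dd (el τ P u w c) (er τ P u w c) z ∈ M := by
  refine M.sub_mem ?_ hz
  have h := hL _ (eichE_mem_E hu hw hc) z hz
  suffices h' : 1 + el τ P u w c = τ.K (eichE hu hw hc : End F U) 1 ∧
      1 + er τ P u w c = τ.K ((eichE hu hw hc).symm : End F U) 1 by rw [h'.1, h'.2]; exact h
  constructor
  · rw [show ((eichE hu hw hc : U ≃ₗ[F] U) : End F U) = P.eichL u w c from rfl, eichL_eq]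
    simp only [el, map_add, map_sub, map_smul, LinearMap.add_apply, LinearMap.sub_apply,
      LinearMap.smul_apply, TS.K_one]
    abel
  · rw [show (((eichE hu hw hc).symm : U ≃ₗ[F] U) : End F U) = P.eichL u (-w) (P.ε * P.σ c) from rfl,
      eichL_eq, show P.th (-w) u = -P.th w u from by ext; simp,
      show P.th u (-w) = -P.th u w from by ext; simp]
    simp only [er, map_add, map_sub, map_smul, map_neg, LinearMap.add_apply, LinearMap.sub_apply,
      LinearMap.smul_apply, LinearMap.neg_apply, TS.K_one, map_mul, σ_ε, σσ]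
    module

section
variable {u w w' : U} (c c' : F) (hu : P.B u u = 0) (hw : P.B w u = 0) (hw' : P.B w' u = 0)
include hu hw

theorem n_mul_θ : (P.th w u - P.ε • P.th u w) * P.th u u = 0 := by
  simp [sub_mul, th_mul_th, hu, P.B_symm hw]

theorem θ_mul_n : P.th u u * (P.th w u - P.ε • P.th u w) = 0 := by
  simp [mul_sub, th_mul_th, hu, hw]

omit hw in
theorem θ_mul_θ : τ.K (P.th u u) 1 * τ.K (P.th u u) 1 = 0 := by
  simp [TS.K_mul, th_mul_th, hu]

theorem el_mul_θ : el τ P u w c * τ.K (P.th u u) 1 = 0 := by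
  simp [el, sub_mul, TS.K_mul, th_mul_th, hu, P.B_symm hw]

theorem θ_mul_el : τ.K (P.th u u) 1 * el τ P u w c = 0 := by
  simp [el, mul_sub, TS.K_mul, th_mul_th, hu, hw]

theorem er_mul_θ : er τ P u w c * τ.K (P.th u u) 1 = 0 := by
  simp [er, sub_mul, TS.K_mul, th_mul_th, hu, P.B_symm hw]

theorem θ_mul_er : τ.K (P.th u u) 1 * er τ P u w c = 0 := by
  simp [er, mul_sub, TS.K_mul, th_mul_th, hu, hw]

include hw'

theorem el_mul_el : el τ P u w c * el τ P u w' c' = (-(P.ε * P.B w' w)) • τ.K (P.th u u) 1 := by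
  simp [el, mul_sub, sub_mul, TS.K_mul, th_mul_th, hu, hw, hw', P.B_symm hw, smul_smul]

theorem er_mul_er : er τ P u w c * er τ P u w' c' = (-(P.ε * P.B w' w)) • τ.K (P.th u u) 1 := by
  simp [er, mul_sub, sub_mul, TS.K_mul, th_mul_th, hu, hw, hw', P.B_symm hw, smul_smul]

end

theorem θ_mul_mul (z : End F V) (u : U) :
    τ.K (P.th u u) 1 * z * τ.K (P.th u u) 1 = τ.K (P.th u u) (S τ P z u u) := by
  rw [K_th_mul_mul, one_mul, mul_one]

section Top

variable {M : Submodule F (End F V)} (hL : ∀ g ∈ P.E, InvL τ (M : Set (End F V)) g)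
include hL

/-- The top weight component, with two different transvections. -/
theorem top_lam {κ κ' : F} (hκ : P.Val 0 κ) (hκ' : P.Val 0 κ') (h0 : κ ≠ 0) (h0' : κ' ≠ 0)
    (hne : κ ≠ κ') {u : U} (hu : P.Val u 0) {z : End F V} (hz : z ∈ M) :
    τ.K (P.th u u) (S τ P z u u) ∈ M := by
  have key : ∀ κ, P.Val 0 κ → (P.ε * κ) • (τ.K (P.th u u) 1 * z - z * τ.K (P.th u u) 1) -
      (κ * κ) • τ.K (P.th u u) (S τ P z u u) ∈ M := fun κ hκ => by
    convert dd_mem hL hu (by simp) hκ hz using 1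
    rw [dd_eq, ← θ_mul_mul]
    simp only [el, er, th_zero_left, th_zero_right, smul_zero, sub_zero, map_zero,
      LinearMap.zero_apply, zero_sub, neg_zero, lam_σ hκ, neg_smul, neg_neg, smul_mul_assoc,
      mul_smul_comm, neg_mul, mul_neg, smul_neg]
    match_scalars
    · ring
    · ring
    · linear_combination (κ * κ) * P.ε_mul_ε
  have := M.sub_mem (M.smul_mem κ' (key κ hκ)) (M.smul_mem κ (key κ' hκ'))
  refine (M.smul_mem_iff (mul_ne_zero (mul_ne_zero h0 h0') (sub_ne_zero.2 hne.symm))).1 ?_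
  convert this using 1
  module

/-- The top weight component, with four Eichler transformations. -/
theorem top_four {u w₁ w₂ w₃ w₄ : U} (hu : P.Val u 0) (h1 : P.B w₁ u = 0) (h2 : P.B w₂ u = 0)
    (h3 : P.B w₃ u = 0) (h4 : P.B w₄ u = 0)
    (hne : P.B w₂ w₁ * P.B w₃ w₄ + P.B w₃ w₁ * P.B w₂ w₄ + P.B w₄ w₁ * P.B w₂ w₃ +
      P.B w₃ w₂ * P.B w₁ w₄ + P.B w₄ w₂ * P.B w₁ w₃ + P.B w₄ w₃ * P.B w₁ w₂ ≠ 0)
    {z : End F V} (hz : z ∈ M) : τ.K (P.th u u) (S τ P z u u) ∈ M := by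
  obtain ⟨c₁, k1⟩ := P.val_ex w₁
  obtain ⟨c₂, k2⟩ := P.val_ex w₂
  obtain ⟨c₃, k3⟩ := P.val_ex w₃
  obtain ⟨c₄, k4⟩ := P.val_ex w₄
  have hb := sing_B hu
  have := dd_mem hL hu h1 k1 (dd_mem hL hu h2 k2 (dd_mem hL hu h3 k3 (dd_mem hL hu h4 k4 hz)))
  rw [dd_four (el_mul_el c₁ c₂ hb h1 h2) (el_mul_el c₁ c₃ hb h1 h3) (el_mul_el c₁ c₄ hb h1 h4)
    (el_mul_el c₂ c₃ hb h2 h3) (el_mul_el c₂ c₄ hb h2 h4) (el_mul_el c₃ c₄ hb h3 h4)
    (er_mul_er c₂ c₁ hb h2 h1) (er_mul_er c₃ c₁ hb h3 h1) (er_mul_er c₄ c₁ hb h4 h1)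
    (er_mul_er c₃ c₂ hb h3 h2) (er_mul_er c₄ c₂ hb h4 h2) (er_mul_er c₄ c₃ hb h4 h3)
    (el_mul_θ c₁ hb h1) (el_mul_θ c₂ hb h2) (θ_mul_el c₃ hb h3) (θ_mul_el c₄ hb h4)
    (θ_mul_er c₁ hb h1) (θ_mul_er c₂ hb h2) (er_mul_θ c₃ hb h3) (er_mul_θ c₄ hb h4)
    (θ_mul_θ hb), θ_mul_mul] at this
  refine (M.smul_mem_iff ?_).1 this
  convert hne using 1
  linear_combination (P.B w₂ w₁ * P.B w₃ w₄ + P.B w₃ w₁ * P.B w₂ w₄ + P.B w₄ w₁ * P.B w₂ w₃ +
      P.B w₃ w₂ * P.B w₁ w₄ + P.B w₄ w₂ * P.B w₁ w₃ + P.B w₄ w₃ * P.B w₁ w₂) * P.ε_mul_ε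

/-- Two commuting transvections. -/
theorem two_lam {κ : F} (hκ : P.Val 0 κ) (h0 : κ ≠ 0) {x y : U} (hx : P.Val x 0)
    (hy : P.Val y 0) (hxy : P.B x y = 0) {z : End F V} (hz : z ∈ M) :
    τ.K (P.th y x) (S τ P z x y) + τ.K (P.th x y) (S τ P z y x) ∈ M := by
  have := dd_mem hL hy (by simp) hκ (dd_mem hL hx (by simp) hκ hz)
  rw [dd_dd] at this
  simp only [el, er, th_zero_left, th_zero_right, smul_zero, sub_zero, map_zero,
    LinearMap.zero_apply, zero_sub, neg_zero, lam_σ hκ, neg_smul, neg_neg, smul_mul_assoc,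
    mul_smul_comm, neg_mul, mul_neg, smul_neg, TS.K_mul, th_mul_th, hxy, P.B_symm hxy,
    zero_smul, zero_mul, mul_zero, add_zero, K_th_mul_mul, one_mul, mul_one] at this
  refine (M.smul_mem_iff (show -(P.ε * κ * (P.ε * κ)) ≠ 0 by simp [h0])).1 ?_
  convert this using 1
  module

end Top

variable [Finite F] [FiniteDimensional F U] [FiniteDimensional F W]

variable (P) in
/-- Any two singular points have a common opposite. -/
def Both : Prop :=
  ∀ u v : U, P.Val u 0 → P.Val v 0 → u ≠ 0 → v ≠ 0 → ∃ s, P.Val s 0 ∧ P.B u s ≠ 0 ∧ P.B v s ≠ 0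

theorem Both.exists_move (h : Both P) {u v : U} (hu : P.Val u 0) (hu0 : u ≠ 0) (hv : P.Val v 0)
    (hv0 : v ≠ 0) : ∃ g ∈ P.E, ∃ a : F, a ≠ 0 ∧ g u = a • v := by
  obtain ⟨y, hy, h3, h4⟩ := h u v hu hv hu0 hv0
  obtain ⟨g, hg, -, hgu⟩ := (fullA_E hy).exists_move hy hu
    (sing_smul hv (P.B u y / P.B v y)) (by simp [h4]) h3
  exact ⟨g, hg, _, div_ne_zero h3 h4, hgu⟩

theorem both_of_lam (hΛ : ∃ c, c ≠ 0 ∧ P.Val 0 c) : Both P := fun u v hu hv hu0 hv0 => by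
  by_cases h : P.B u v = 0
  · obtain ⟨y, h1, h2, h3⟩ := exists_sing_not_perp hu hu0 hv0 h
    exact ⟨y, h1, P.B_ne_symm h2, P.B_ne_symm h3⟩
  · obtain ⟨a, ha, ha'⟩ := exists_sing_add_of_lam hΛ hv hu h
    exact ⟨_, ha', by simp [sing_B hu, ha, h], by simp [sing_B hv, P.B_ne_symm h]⟩

theorem top_move {M : Submodule F (End F V)} (hL : ∀ g ∈ P.E, InvL τ (M : Set (End F V)) g)
    (hB : Both P) {y : U} (hy : P.Val y 0) (hy0 : y ≠ 0) {γ : End F W}
    (h : τ.K (P.th y y) γ ∈ M) {u : U} (hu : P.Val u 0) : τ.K (P.th u u) γ ∈ M := by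
  by_cases hu0 : u = 0
  · simp [hu0]
  obtain ⟨g, hg, a, ha, hga⟩ := hB.exists_move hy hy0 hu hu0
  have := (hL g hg).K_th_mem (E_le_Iso hg) h
  rw [hga, th_smul_left, th_smul_right, smul_smul, map_smul, LinearMap.smul_apply] at this
  exact (M.smul_mem_iff (by simp [ha])).1 this

theorem K_mem_of_th {M : Submodule F (End F V)} {d : End F W}
    (h : ∀ u v, τ.K (P.th u v) d ∈ M) (a : End F U) : τ.K a d ∈ M := by
  have : a = ∑ i, ((finBasis F U).coord i).smulRight (a (finBasis F U i)) := by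
    ext x
    conv_lhs => rw [← (finBasis F U).sum_repr x, map_sum]
    simp
  rw [this, map_sum, LinearMap.sum_apply]
  refine M.sum_mem fun i _ => ?_
  obtain ⟨y, hy⟩ := P.exists_B_eq ((finBasis F U).coord i)
  convert h (a (finBasis F U i)) y using 3
  exact LinearMap.ext fun x => by simp [hy]

variable {C : Subalgebra F (End F V)}

/-- The final step. -/
theorem fin (hL : ∀ g ∈ P.E, InvL τ (C : Set (End F V)) g) (hirr : Irr τ (C : Set (End F V)))
    (hB : Both P) {y : U} (hy : P.Val y 0) (hy0 : y ≠ 0) {γ : End F W} (hγ : γ ≠ 0)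
    (h : τ.K (P.th y y) γ ∈ C) : ∃ d, d ≠ 0 ∧ ∀ a, τ.K a d ∈ C := by
  have h1 : ∀ u, P.Val u 0 → τ.K (P.th u u) γ ∈ C := fun u hu =>
    top_move (M := Subalgebra.toSubmodule C) hL hB hy hy0 h hu
  obtain ⟨d₁, k1, k2⟩ := hirr.exists_conj hγ hγ
  obtain ⟨d₂, k3, k4⟩ := hirr.exists_conj k2 hγ
  refine ⟨_, k4, K_mem_of_th (P := P) (M := Subalgebra.toSubmodule C) ?_⟩
  set δ := γ * ((d₁ : End F W) * γ * (d₁.symm : End F W)) *
    ((d₂ : End F W) * γ * (d₂.symm : End F W))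
  have h2 : ∀ u v, P.Val u 0 → P.Val v 0 → τ.K (P.th u v) δ ∈ C := fun u v hu hv => by
    by_cases hu0 : u = 0
    · simp [hu0]
    by_cases hv0 : v = 0
    · simp [hv0]
    obtain ⟨s, hs, h3, h4⟩ := hB u v hu hv hu0 hv0
    have := C.mul_mem (C.mul_mem (h1 u hu) (k1.K_mem (h1 s hs))) (k3.K_mem (h1 v hv))
    simp only [TS.K_mul, th_mul_th, smul_mul_assoc, map_smul, LinearMap.smul_apply,
      smul_smul] at this
    exact ((Subalgebra.toSubmodule C).smul_mem_iff (mul_ne_zero (P.B_ne_symm h3) h4)).1 this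
  intro u v
  refine sing_induction_top hy hy0 (p := fun u => τ.K (P.th u v) δ ∈ C) (fun u hu => ?_)
    (fun a b ha hb => by simpa [th_add_left] using C.add_mem ha hb) u
  exact sing_induction_top hy hy0 (p := fun v => τ.K (P.th u v) δ ∈ C) (fun v hv => h2 u v hu hv)
    (fun a b ha hb => by simpa [th_add_right] using C.add_mem ha hb) v

/-- The product step in Witt index at least two. -/
theorem core_two (hirr : Irr τ (C : Set (End F V))) {x y : U} (hx : P.Val x 0) (hy : P.Val y 0)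
    (hxy : P.B x y = 0) {α β : End F W} (hα : α ≠ 0)
    (h : τ.K (P.th y x) α + τ.K (P.th x y) β ∈ C) {g : U ≃ₗ[F] U} (hg : g ∈ P.Iso)
    (hg' : InvL τ (C : Set (End F V)) g) {a : F} (ha : a ≠ 0) (hgx : g x = a • y)
    (hgy : P.B (g y) x ≠ 0) : ∃ γ, γ ≠ 0 ∧ τ.K (P.th y y) γ ∈ C := by
  obtain ⟨d, k1, k2⟩ := hirr.exists_conj hα hα
  refine ⟨_, k2, ?_⟩
  have h1 := k1 _ (hg' _ h)
  have h2 : P.B (g y) y = 0 := by
    have := Iso.B hg y x
    rw [hgx, B_smul_right, P.B_symm hxy] at this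
    simpa [ha] using this
  simp only [mul_add, add_mul, TS.K_mul, conj_th hg, one_mul, mul_one, hgx] at h1
  have h3 := C.mul_mem h h1
  simp only [mul_add, add_mul, TS.K_mul, th_mul_th, th_smul_left, th_smul_right, mul_smul_comm,
    h2, P.B_symm hxy, sing_B hy, zero_smul, smul_zero, map_zero, LinearMap.zero_apply,
    add_zero, map_smul, LinearMap.smul_apply, smul_smul] at h3
  exact ((Subalgebra.toSubmodule C).smul_mem_iff (by simp [ha, hgy])).1 h3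

theorem exists_S_ne {c : End F V} (hc : ¬ τ.flip.InA c) {p : U → U → Prop}
    (h : ∀ z : End F U, (∀ u v, p u v → P.B (z u) v = 0) → Scal z) :
    ∃ u v, p u v ∧ S τ P c u v ≠ 0 := by
  by_contra! hcon
  exact hc (τ.flip.inA_of_sl fun ψ x₀ => h _ fun u v huv => by
    rw [B_flip_sl, hcon u v huv]; simp)

theorem exists_S_ne_two (hw : P.W2) {c : End F V} (hc : ¬ τ.flip.InA c) :
    ∃ u v, P.Val u 0 ∧ P.Val v 0 ∧ P.B u v = 0 ∧ u ≠ 0 ∧ v ∉ F ∙ u ∧ S τ P c u v ≠ 0 := by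
  obtain ⟨u, v, ⟨hu, hv, huv⟩, h⟩ := exists_S_ne (P := P) hc
    (p := fun u v => P.Val u 0 ∧ P.Val v 0 ∧ P.B v u = 0)
    fun z hz => hw.scal_of_sing fun u v h1 h2 h3 => hz u v ⟨h1, h2, h3⟩
  have hu0 : u ≠ 0 := fun e => h (by ext x; simp [S_apply, e])
  by_cases hvu : v ∈ F ∙ u
  · obtain ⟨f, hf, hfu, hfu'⟩ := hw.exists_sing_perp hu hu0
    by_cases h1 : S τ P c u f = 0
    · obtain ⟨a, rfl⟩ := Submodule.mem_span_singleton.1 hvu
      refine ⟨u, a • u + f, hu, sing_add hv hf (by simp [P.B_symm hfu]),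
        by simp [sing_B hu, P.B_symm hfu], hu0, fun e => hfu' ?_, by rwa [S_add_right, h1, add_zero]⟩
      simpa using Submodule.sub_mem _ e hvu
    · exact ⟨u, f, hu, hf, P.B_symm hfu, hu0, hfu', h1⟩
  · exact ⟨u, v, hu, hv, P.B_symm huv, hu0, hvu, h⟩

/-- A singular vector of `y^⊥` opposite to two given vectors of `y^⊥`. -/
theorem exists_sing_perp_both {y u z : U} (hu : P.Val u 0) (huy : P.B u y = 0) (huz : P.B u z = 0)
    (hu' : u ∉ F ∙ y) (hz' : z ∉ F ∙ y) :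
    ∃ s, P.Val s 0 ∧ P.B s y = 0 ∧ P.B s u ≠ 0 ∧ P.B s z ≠ 0 := by
  obtain ⟨y1, h1, h2⟩ := exists_sep' (P := P) hu' 1
  obtain ⟨y2, h3, h4⟩ := exists_sep' (P := P) hz' 1
  rw [perp_span_singleton] at h1 h3
  obtain ⟨s, hs, h5, h6⟩ := exists_both_ne (P.pp y) (P.B.flip u).toAddMonoidHom
    (P.B.flip z).toAddMonoidHom h1 h3 (by simp [h2]) (by simp [h4])
  obtain ⟨a, ha⟩ := exists_val_add_sing hu (y := s) h5 0
  exact ⟨_, ha, by simpa [huy] using hs, by simpa [sing_B hu] using h5, by simpa [huz] using h6⟩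

omit [FiniteDimensional F W] in
theorem notMem_span_swap {x y : U} (hx : x ≠ 0) (h : y ∉ F ∙ x) : x ∉ F ∙ y := fun e => by
  obtain ⟨a, rfl⟩ := Submodule.mem_span_singleton.1 e
  have ha : a ≠ 0 := fun e => hx (by simp [e])
  exact h (Submodule.mem_span_singleton.2 ⟨a⁻¹, by simp [smul_smul, ha]⟩)

omit [FiniteDimensional F W] in
theorem exists_move_two (hB : Both P) {x y : U} (hx : P.Val x 0) (hy : P.Val y 0) (hx0 : x ≠ 0)
    (hxy : P.B x y = 0) (hyx : y ∉ F ∙ x)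
    (key : ∀ z, P.Val z 0 → P.B z y = 0 → P.B z x = 0 → z ∉ F ∙ y →
      ∃ g ∈ P.E, g y = y ∧ P.B (g z) x ≠ 0) :
    ∃ g ∈ P.E, ∃ a : F, a ≠ 0 ∧ g x = a • y ∧ P.B (g y) x ≠ 0 := by
  have hy0 : y ≠ 0 := fun e => hyx (by simp [e])
  obtain ⟨g, hg, a, ha, hga⟩ := hB.exists_move hx hx0 hy hy0
  by_cases h : P.B (g y) x = 0
  · obtain ⟨g', h1, h2, h3⟩ := key (g y) (Iso.val (E_le_Iso hg) hy) (by
      have := Iso.B (E_le_Iso hg) y x
      rw [hga, B_smul_right, P.B_symm hxy] at this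
      simpa [ha] using this) h (fun e => hyx (by
        obtain ⟨b, hb⟩ := Submodule.mem_span_singleton.1 e
        refine Submodule.mem_span_singleton.2 ⟨b / a, g.injective ?_⟩
        rw [map_smul, hga, ← hb, smul_smul, div_mul_cancel₀ _ ha]))
    exact ⟨g' * g, P.E.mul_mem h1 hg, a, ha, by simp [hga, h2], h3⟩
  · exact ⟨g, hg, a, ha, hga, h⟩

variable (hL : ∀ g ∈ P.E, InvL τ (C : Set (End F V)) g) (hirr : Irr τ (C : Set (End F V)))
  (hc : ∃ c ∈ C, ¬ τ.flip.InA c)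
include hL hirr hc

/-- Symplectic and unitary spaces of Witt index at least two. -/
theorem slot_lam_two (hΛ : ∃ c, c ≠ 0 ∧ P.Val 0 c) (hw : P.W2) :
    ∃ d, d ≠ 0 ∧ ∀ a, τ.K a d ∈ C := by
  obtain ⟨c, hcC, hc⟩ := hc
  obtain ⟨x, y, hx, hy, hxy, hx0, hyx, hS⟩ := exists_S_ne_two hw hc
  have hB := both_of_lam hΛ
  obtain ⟨κ, h0, hκ⟩ := hΛ
  obtain ⟨g, hg, a, ha, h1, h2⟩ := exists_move_two hB hx hy hx0 hxy hyx fun z hz h1 h2 h3 => by
    obtain ⟨s, k1, k2, k3, k4⟩ := exists_sing_perp_both hz h1 h2 h3 (notMem_span_swap hx0 hyx)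
    exact ⟨_, eichE_mem_E k1 (w := 0) (by simp) hκ, by simp [eich, P.B_symm k2],
      by simp [eich, h2, h0, k4, P.B_ne_symm k3]⟩
  obtain ⟨γ, h3, h4⟩ := core_two hirr hx hy hxy hS
    (two_lam (M := Subalgebra.toSubmodule C) hL hκ h0 hx hy hxy hcC) (E_le_Iso hg) (hL g hg) ha h1 h2
  exact fin hL hirr hB hy (fun e => hyx (by simp [e])) h3 h4

omit hc in
theorem slot_of_top (hB : Both P) {c : End F V} {u : U} (hu : P.Val u 0)
    (h0 : S τ P c u u ≠ 0) (h : τ.K (P.th u u) (S τ P c u u) ∈ C) :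
    ∃ d, d ≠ 0 ∧ ∀ a, τ.K a d ∈ C :=
  fin hL hirr hB hu (fun e => h0 (by ext x; simp [S_apply, e])) h0 h

end Cfsg.Agent.Tens.Slot
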